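import Cfsg.Agent.H4.PlA
import Cfsg.Agent.H5.GL1

/-! Orthogonal groups in dimensions three and four as images of `SL₂`. -/

set_option autoImplicit false

namespace H5
namespace CI

open H4 H4.Pl H4.Form Matrix Module Cfsg
open scoped MatrixGroups

variable {F : Type*} [Field F] {ι : Type} [Fintype ι] [DecidableEq ι] {f : Form (quadKind F) (ι → F)}

/-- a representation preserving the form -/
def toIsom {G : Type*} [Group G] (ρ : G →* Module.End F (ι → F)) (h : ∀ g v, f.Q (ρ g v) = f.Q v) : G →* f.Isom where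
  toFun g := ⟨LinearEquiv.ofLinear (ρ g) (ρ g⁻¹) (by rw [← Module.End.mul_eq_comp, ← map_mul]; simp [Module.End.one_eq_id])
    (by rw [← Module.End.mul_eq_comp, ← map_mul]; simp [Module.End.one_eq_id]), (quad_mem_Isom _).2 (h g)⟩
  map_one' := isom_ext fun x => by simp
  map_mul' p q := isom_ext fun x => by simp [isom_mul_apply]

theorem pomega_sl2 {K : Type*} [Field K] [Finite K] (Ψ : SL(2, K) →* f.Isom) (hk : Ψ.ker = Subgroup.center _)
    (hr : Ψ.range = commutator f.Isom) : Nonempty (POmega F f.Q ≃* ProjectiveSpecialLinearGroup (Fin 2) K) := by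
  have hs : Function.Surjective (Ψ.codRestrict (commutator f.Isom) fun x => hr ▸ ⟨x, rfl⟩) := fun y => by
    obtain ⟨x, hx⟩ : y.1 ∈ Ψ.range := by rw [hr]; exact y.2
    exact ⟨x, Subtype.ext hx⟩
  obtain ⟨e⟩ := equiv_of_ker (φ := (QuotientGroup.mk' (Subgroup.center _)).comp _) (ψ := QuotientGroup.mk' (Subgroup.center _))
    ((QuotientGroup.mk'_surjective _).comp hs) (QuotientGroup.mk'_surjective _) (Subgroup.ext fun g => by
      have z := Gen.StSys.center_eq_bot (Gen.adjPSL (n := 1) (F := K)).top (Gen.adjPSL (n := 1) (F := K)).inj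
      simp only [MonoidHom.mem_ker, MonoidHom.comp_apply, QuotientGroup.mk'_apply, QuotientGroup.eq_one_iff]
      refine ⟨fun h => (QuotientGroup.eq_one_iff g).1 (Subgroup.mem_bot.1 (z.le (Subgroup.mem_center_iff.2 ?_))),
        fun h => Subgroup.mem_center_iff.2 (hs.forall.2 fun c => by
          rw [← map_mul, ← map_mul, Subgroup.mem_center_iff.1 h])⟩
      rintro ⟨c⟩
      refine QuotientGroup.eq.2 (hk.le ?_)
      have := congrArg Subtype.val (Subgroup.mem_center_iff.1 h ⟨Ψ c, hr ▸ ⟨c, rfl⟩⟩)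
      rw [MonoidHom.mem_ker, map_mul, map_inv, map_mul, map_mul, inv_mul_eq_one]
      exact this)
  exact ⟨(pomegaEquiv _).trans e⟩

theorem range_odd {K : Type*} [Field K] [Finite K] [Finite F] [CharP K (ringChar F)] (hf : f.ND) (h2 : (2 : F) ≠ 0)
    (hn : 2 ≤ Fintype.card ι) (Ψ : SL(2, K) →* f.Isom) (hk : Ψ.ker = Subgroup.center _)
    (hc : Nat.card f.Isom = 2 * Nat.card SL(2, K)) : Ψ.range = commutator f.Isom := by
  have hpos : 0 < Nat.card SL(2, K) := Nat.card_pos
  have hr := Ψ.ker.card_mul_index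
  rw [Subgroup.index_ker] at hr
  have hi := (commutator f.Isom).card_mul_index
  haveI : Finite f.Isom := Nat.finite_of_card_ne_zero (by rw [hc]; positivity)
  have hix := index_commutator_odd hf h2 (by simpa)
  haveI := ringChar.charP F
  have p2 : ringChar F ≠ 2 := fun h => h2 (by
    have := CharP.cast_eq_zero F (ringChar F)
    rw [h] at this
    exact_mod_cast this)
  have hodd : Odd (ringChar F) := (CharP.char_is_prime F (ringChar F)).odd_of_ne_two p2
  have : Nat.card Ψ.ker ≤ 2 := by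
    rw [hk, show (Subgroup.center SL(2, K)) = Subgroup.zpowers (-1) from le_antisymm (fun z h => by
      rcases sl2_mem_center_iff.1 h with rfl | rfl; exacts [one_mem _, Subgroup.mem_zpowers _])
      (Subgroup.zpowers_le.2 (sl2_mem_center_iff.2 (Or.inr rfl))), Nat.card_zpowers]
    exact orderOf_le_of_pow_eq_one two_pos (by simp)
  refine Subgroup.eq_of_le_of_card_ge (MonoidHom.range_eq_map Ψ ▸ Subgroup.map_le_iff_le_comap.2
    (sl2_eq_top _ (fun t => mem_of_odd hix hodd ?_) fun t => mem_of_odd hix hodd ?_).ge) ?_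
  · rw [← map_pow, slUp_pow]; simp [slUp_zero]
  · rw [← map_pow, slLow_pow]; simp [slLow_zero]
  · rw [hix, hc] at hi
    nlinarith

theorem central {K : Type*} [Field K] {g : SL(2, K)} (h1 : g.1 * !![1, 0; 0, 0] = !![1, 0; 0, 0] * g.1)
    (h2 : g.1 * !![0, 1; 1, 0] = !![0, 1; 1, 0] * g.1) : g ∈ Subgroup.center SL(2, K) := by
  have a := congrFun (congrFun h1 0) 1
  have b := congrFun (congrFun h1 1) 0
  have c := congrFun (congrFun h2 0) 1
  simp [mul_apply, Fin.sum_univ_two] at a b c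
  refine Subgroup.mem_center_iff.2 fun x => Subtype.ext ?_
  ext i j
  fin_cases i <;> fin_cases j <;> simp [mul_apply, Fin.sum_univ_two, ← a, b, c, mul_comm]

/-- coordinates as a matrix of trace zero -/
def m3 : (Unit ⊕ (Fin 1 ⊕ Fin 1) → F) →ₗ[F] Matrix (Fin 2) (Fin 2) F where
  toFun v := !![v (.inl ()), v (.inr (.inl 0)); v (.inr (.inr 0)), -v (.inl ())]
  map_add' u v := by ext i j; fin_cases i <;> fin_cases j <;> simp [add_comm]
  map_smul' c v := by ext i j; fin_cases i <;> fin_cases j <;> simp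

/-- the coordinates of a matrix -/
def p3 : Matrix (Fin 2) (Fin 2) F →ₗ[F] (Unit ⊕ (Fin 1 ⊕ Fin 1) → F) where
  toFun X := Sum.elim (fun _ => X 0 0) (Sum.elim (fun _ => X 0 1) fun _ => X 1 0)
  map_add' u v := by ext (i | i | i) <;> simp
  map_smul' c v := by ext (i | i | i) <;> simp

theorem p3_m3 (v : Unit ⊕ (Fin 1 ⊕ Fin 1) → F) : p3 (m3 v) = v := by
  ext (i | i | i) <;> simp [p3, m3, Subsingleton.elim i 0]

theorem m3_p3 {X : Matrix (Fin 2) (Fin 2) F} (h : X.trace = 0) : m3 (p3 X) = X := by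
  rw [trace_fin_two] at h
  ext i j; fin_cases i <;> fin_cases j <;> simp [p3, m3]
  linear_combination -h

theorem m3_conj (g : SL(2, F)) (v : Unit ⊕ (Fin 1 ⊕ Fin 1) → F) :
    m3 (p3 (g.1 * m3 v * (g⁻¹).1)) = g.1 * m3 v * (g⁻¹).1 :=
  m3_p3 (by rw [trace_mul_cycle, ← cm, inv_mul_cancel, c1, one_mul]; simp [m3, trace_fin_two])

/-- the adjoint representation -/
def r3 : SL(2, F) →* Module.End F (Unit ⊕ (Fin 1 ⊕ Fin 1) → F) where
  toFun g := p3 ∘ₗ (lr g g).toLinearMap ∘ₗ m3
  map_one' := LinearMap.ext fun v => by simp [lr_apply, p3_m3]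
  map_mul' a b := LinearMap.ext fun v => by
    show p3 ((a * b).1 * m3 v * ((a * b)⁻¹).1) = p3 (a.1 * m3 (p3 (b.1 * m3 v * (b⁻¹).1)) * (a⁻¹).1)
    rw [m3_conj, _root_.mul_inv_rev, cm, cm]
    simp only [mul_assoc]

theorem Q3 (v : Unit ⊕ (Fin 1 ⊕ Fin 1) → F) : (oddForm F 1).Q v = -(m3 v).det := by
  simp [oddForm_Q, quadFormOdd, m3, det_fin_two]; ring

theorem sq1 (n : ℕ) : n ^ 2 - 1 = (n + 1) * (n - 1) := by simpa using Nat.sq_sub_sq n 1

theorem s298 [Finite F] (h2 : (2 : F) ≠ 0) :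
    Nonempty (POmega F (oddForm F 1).Q ≃* ProjectiveSpecialLinearGroup (Fin 2) F) := by
  let Ψ := toIsom (f := oddForm F 1) r3 fun g v => by
    rw [Q3, Q3, show m3 (r3 g v) = _ from m3_conj g v, det_mul, det_mul, g.2, (g⁻¹).2, one_mul, mul_one]
  have hk : Ψ.ker = Subgroup.center _ := by
    refine le_antisymm (fun g h => ?_) fun g h => isom_ext fun v => ?_
    · have key : ∀ v, g.1 * m3 v = m3 v * g.1 := fun v => by
        have : m3 (r3 g v) = m3 v := congrArg (fun e : (oddForm F 1).Isom => m3 (e.1 v)) h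
        rw [show m3 (r3 g v) = _ from m3_conj g v] at this
        rw [← congrArg (· * g.1) this, mul_assoc, ← cm, inv_mul_cancel, c1, mul_one]
      have k1 := key (p3 !![1, 0; 0, -1])
      have k2 := key (p3 !![0, 1; 1, 0])
      rw [m3_p3 (by simp [trace_fin_two])] at k1 k2
      refine central ?_ k2
      have e : (!![1, 0; 0, 0] : Matrix (Fin 2) (Fin 2) F) = (2 : F)⁻¹ • (!![1, 0; 0, -1] + 1) := by
        ext i j; fin_cases i <;> fin_cases j <;> simp [one_add_one_eq_two, h2]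
      rw [e, mul_smul_comm, smul_mul_assoc, mul_add, add_mul, k1, mul_one, one_mul]
    · show p3 (g.1 * m3 v * (g⁻¹).1) = v
      rcases sl2_mem_center_iff.1 h with rfl | rfl <;> simp [p3_m3]
  haveI := ringChar.charP F
  refine pomega_sl2 Ψ hk (range_odd (oddForm_ND F 1 h2) h2 (by simp) Ψ hk ?_)
  have h := card_GO_odd h2 1
  rw [← oddForm_Q, Nat.card_congr (isometryEquiv _).toEquiv] at h
  rw [h, card_sl2]
  simp [sq1]
  ring

end CI
end H5
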