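import Cfsg.Agent.H5.CI1

/-! The minus type orthogonal group in dimension four as an image of `SL₂(q²)`. -/

set_option autoImplicit false

namespace H5
namespace CI

open H4 H4.Pl H4.Form Matrix Module Cfsg QuadraticAlgebra
open scoped MatrixGroups

variable {F : Type*} [Field F] {ι : Type} [Fintype ι] [DecidableEq ι] {f : Form (quadKind F) (ι → F)}

theorem range_even {K : Type*} [Field K] [Finite K] (h2 : (2 : K) = 0) (hK : Nat.card K ≠ 2)
    (Ψ : SL(2, K) →* f.Isom) (hk : Ψ.ker = Subgroup.center _)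
    (hc : Nat.card f.Isom = 2 * Nat.card SL(2, K)) : Ψ.range = commutator f.Isom := by
  have hpos : 0 < Nat.card SL(2, K) := Nat.card_pos
  obtain ⟨α, h0, h1⟩ := exists_ne_zero_one hK
  have hα : α * α ≠ 1 := fun h => h1 (by
    have : (α - 1) * (α - 1) = 0 := by linear_combination h + (1 - α) * h2
    exact sub_eq_zero.1 (mul_self_eq_zero.1 this))
  have inj : Function.Injective Ψ := (injective_iff_map_eq_one _).2 fun g h => by
    rcases sl2_mem_center_iff.1 (hk.le h) with rfl | rfl
    · rfl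
    · have : (-1 : K) = 1 := by linear_combination -h2
      ext i j; fin_cases i <;> fin_cases j <;> simp [this]
  have hi := Ψ.range.card_mul_index
  rw [← Nat.card_congr (MonoidHom.ofInjective inj).toEquiv, hc, mul_comm] at hi
  have h := Nat.eq_of_mul_eq_mul_right hpos hi
  refine le_antisymm ?_ (Subgroup.commutator_le.2 fun a _ b _ => ?_)
  · rw [MonoidHom.range_eq_map, ← sl2_eq_top _ (fun t => (up_comm h0 hα t).1) fun t => (up_comm h0 hα t).2,
      commutator_def, Subgroup.map_commutator]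
    exact Subgroup.commutator_mono le_top le_top
  · simp only [commutatorElement_def, Subgroup.mul_mem_iff_of_index_two h, inv_mem_iff]
    tauto

variable {a b : F}

/-- coordinates as a hermitian matrix -/
def m4 (a b : F) : ((Fin 1 ⊕ Fin 1) ⊕ Fin 2 → F) →ₗ[F] Matrix (Fin 2) (Fin 2) (QuadraticAlgebra F (-b) a) where
  toFun v := !![⟨v (.inl (.inl 0)), 0⟩, ⟨v (.inr 0), v (.inr 1)⟩; star ⟨v (.inr 0), v (.inr 1)⟩, ⟨-v (.inl (.inr 0)), 0⟩]
  map_add' u v := by ext i j <;> fin_cases i <;> fin_cases j <;> simp <;> ring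
  map_smul' c v := by ext i j <;> fin_cases i <;> fin_cases j <;> simp <;> ring

/-- the coordinates of a matrix -/
def p4 (a b : F) : Matrix (Fin 2) (Fin 2) (QuadraticAlgebra F (-b) a) →ₗ[F] ((Fin 1 ⊕ Fin 1) ⊕ Fin 2 → F) where
  toFun X := Sum.elim (Sum.elim (fun _ => (X 0 0).re) fun _ => -(X 1 1).re) ![(X 0 1).re, (X 0 1).im]
  map_add' u v := by ext ((i | i) | i) <;> fin_cases i <;> simp [add_comm]
  map_smul' c v := by ext ((i | i) | i) <;> fin_cases i <;> simp

theorem p4_m4 (v : (Fin 1 ⊕ Fin 1) ⊕ Fin 2 → F) : p4 a b (m4 a b v) = v := by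
  ext ((i | i) | i) <;> fin_cases i <;> simp [p4, m4]

theorem m4_herm (v : (Fin 1 ⊕ Fin 1) ⊕ Fin 2 → F) : (m4 a b v)ᴴ = m4 a b v := by
  ext i j <;> fin_cases i <;> fin_cases j <;> simp [m4]

theorem Q4 (v : (Fin 1 ⊕ Fin 1) ⊕ Fin 2 → F) : (minusForm F 1 a b).Q v = -(m4 a b v).det.re := by
  simp [minusForm_Q, quadFormMinus, m4, det_fin_two]; ring

variable (hs : (2 : F) = 0 → a ≠ 0)
include hs

theorem m4_p4 {X : Matrix (Fin 2) (Fin 2) (QuadraticAlgebra F (-b) a)} (h : Xᴴ = X) : m4 a b (p4 a b X) = X := by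
  have k : ∀ i, (X i i).im = 0 := fun i => by
    have e : star (X i i) = X i i := congrFun (congrFun h i) i
    have e1 := congrArg re e
    have e2 := congrArg im e
    simp only [re_star, im_star] at e1 e2
    by_contra n
    exact hs (mul_right_cancel₀ n (by linear_combination -e2)) (mul_right_cancel₀ n (by linear_combination e1))
  have e : star (X 0 1) = X 1 0 := congrFun (congrFun h 1) 0
  ext i j <;> fin_cases i <;> fin_cases j <;> simp [p4, m4, k, ← e]

theorem m4_conj (g : SL(2, QuadraticAlgebra F (-b) a)) (v : (Fin 1 ⊕ Fin 1) ⊕ Fin 2 → F) :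
    m4 a b (p4 a b (g.1 * m4 a b v * g.1ᴴ)) = g.1 * m4 a b v * g.1ᴴ :=
  m4_p4 hs (by simp [conjTranspose_mul, m4_herm, mul_assoc])

/-- the action on hermitian matrices -/
def r4 : SL(2, QuadraticAlgebra F (-b) a) →* Module.End F ((Fin 1 ⊕ Fin 1) ⊕ Fin 2 → F) where
  toFun g := p4 a b ∘ₗ (LinearMap.mulRight F g.1ᴴ ∘ₗ LinearMap.mulLeft F g.1) ∘ₗ m4 a b
  map_one' := LinearMap.ext fun v => by simp [p4_m4]
  map_mul' g h := LinearMap.ext fun v => by
    simp only [LinearMap.comp_apply, LinearMap.mulRight_apply, LinearMap.mulLeft_apply, Module.End.mul_apply]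
    rw [m4_conj hs, show (g * h).1 = g.1 * h.1 from rfl, conjTranspose_mul]
    simp only [mul_assoc]

theorem r4_apply (g : SL(2, QuadraticAlgebra F (-b) a)) (v : (Fin 1 ⊕ Fin 1) ⊕ Fin 2 → F) :
    r4 hs g v = p4 a b (g.1 * m4 a b v * g.1ᴴ) := by
  simp only [r4, MonoidHom.coe_mk, OneHom.coe_mk, LinearMap.comp_apply, LinearMap.mulRight_apply, LinearMap.mulLeft_apply]

omit hs in
theorem s300 [Finite F] (hab : ∀ z₁ z₂ : F, z₁ ^ 2 + a * z₁ * z₂ + b * z₂ ^ 2 = 0 → z₁ = 0 ∧ z₂ = 0) {K : Type*} [Field K]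
    [Fintype K] (hK : Nat.card K = Nat.card F ^ 2) :
    Nonempty (POmega F (minusForm F 1 a b).Q ≃* ProjectiveSpecialLinearGroup (Fin 2) K) := by
  haveI : Fact (∀ r, r ^ 2 ≠ -b + a * r) := ⟨fun r h => by simpa using (hab r (-1) (by linear_combination h)).2⟩
  have hs : (2 : F) = 0 → a ≠ 0 := fun h2 ha => by
    obtain ⟨r, hr⟩ := exists_sq_of_two_eq_zero h2 b
    simpa using (hab r 1 (by rw [ha, ← hr]; linear_combination r ^ 2 * h2)).2
  have hc : Nat.card (QuadraticAlgebra F (-b) a) = Nat.card F ^ 2 := by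
    rw [Nat.card_congr (equivProd _ _), Nat.card_prod, sq]
  haveI : Finite (QuadraticAlgebra F (-b) a) := .of_equiv _ (equivProd _ _).symm
  haveI := Fintype.ofFinite (QuadraticAlgebra F (-b) a)
  let Ψ := toIsom (f := minusForm F 1 a b) (r4 (b := b) hs) fun g v => by
    rw [Q4, Q4, r4_apply, m4_conj hs, det_mul, det_mul, det_conjTranspose, g.2, star_one, one_mul,
      mul_one]
  have hk : Ψ.ker = Subgroup.center _ := by
    refine le_antisymm (fun g h => ?_) fun g h => isom_ext fun v => ?_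
    · have key : ∀ X, Xᴴ = X → g.1 * X * g.1ᴴ = X := fun X e => by
        have : m4 a b (r4 hs g (p4 a b X)) = m4 a b (p4 a b X) :=
          congrArg (fun e : (minusForm F 1 a b).Isom => m4 a b (e.1 _)) h
        rwa [r4_apply, m4_conj hs, m4_p4 hs e] at this
      have k1 := key 1 conjTranspose_one
      rw [mul_one, mul_eq_one_comm] at k1
      have k : ∀ X, Xᴴ = X → g.1 * X = X * g.1 := fun X e => by
        rw [← congrArg (· * g.1) (key X e), mul_assoc, k1, mul_one]
      exact central (k _ (by ext i j : 1; fin_cases i <;> fin_cases j <;> simp))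
        (k _ (by ext i j : 1; fin_cases i <;> fin_cases j <;> simp))
    · refine (r4_apply hs g v).trans ?_
      rcases sl2_mem_center_iff.1 h with rfl | rfl <;> simp [p4_m4]
  have h := card_GO_minus 1 hab
  rw [← minusForm_Q, Nat.card_congr (isometryEquiv _).toEquiv] at h
  have hG : Nat.card (minusForm F 1 a b).Isom = 2 * Nat.card SL(2, QuadraticAlgebra F (-b) a) := by
    rw [h, card_sl2, hc]; simp; ring
  haveI := ringChar.charP F
  haveI := charP_of_injective_algebraMap (algebraMap F (QuadraticAlgebra F (-b) a)).injective (ringChar F)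
  let e := FiniteField.ringEquivOfCardEq (K := QuadraticAlgebra F (-b) a) (K' := K) (by
    rw [← Nat.card_eq_fintype_card, ← Nat.card_eq_fintype_card, hc, hK])
  refine (pomega_sl2 Ψ hk ?_).map fun j => j.trans (centerQuotEquiv (MonoidHom.toMulEquiv (SpecialLinearGroup.map e.toRingHom)
    (SpecialLinearGroup.map e.symm.toRingHom) (by ext <;> simp) (by ext; simp)))
  by_cases h2 : (2 : F) = 0
  · refine range_even (by rw [← map_ofNat (algebraMap F _), h2, map_zero]) (fun e => ?_) Ψ hk hG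
    have := Finite.one_lt_card (α := F)
    rw [hc] at e
    nlinarith
  · exact range_odd (minusForm_ND 1 hab) h2 (by simp) Ψ hk hG

end CI
end H5
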