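import Cfsg.Agent.H5.GL6
import Cfsg.Agent.H5.GB1

/-! Comparison of systems of structure constants: `B₂`, `C₂`, `A₃`, `D₃`. -/

set_option autoImplicit false

namespace H5
namespace Gen

open Matrix Equiv Cfsg Cfsg.Lie H4

attribute [-simp] zsmul_eq_mul

variable {F : Type*} [Field F] {G : Type*} [Group G]

/-- the explicit list of commutator terms -/
def exCts {ι : Type} (P : (ι → ℤ) → Bool) (cf : (ι → ℤ) → (ι → ℤ) → ℕ → ℕ → ℤ) (r s : ι → ℤ) :
    List ((ι → ℤ) × ℤ × ℕ × ℕ) :=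
  ([(1, 1), (1, 2), (2, 1)].map fun p : ℕ × ℕ =>
    ((p.1 : ℤ) • r + (p.2 : ℤ) • s, cf r s p.1 p.2, p)).filter fun c => P c.1

theorem Amb.map_cts {A : Amb} {P : (A.ι → ℤ) → Bool} (hP : ∀ v, P v = true ↔ v ∈ A.Φ)
    (r s : Rt A.rs) : (cts r s).map (fun c => (c.1.1, c.2)) = exCts P A.cf r.1 s.1 := by
  have e : ∀ i j : ℕ, (ct1 vec (fun r s : Rt A.rs => A.cf r.1 s.1) r s i j).map (fun c => (c.1.1, c.2)) =
      [((i : ℤ) • r.1 + (j : ℤ) • s.1, A.cf r.1 s.1 i j, i, j)].filter fun c => P c.1 := fun i j => by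
    have h1 : A.emb ((i : ℤ) • vec r + (j : ℤ) • vec s) = (i : ℤ) • r.1 + (j : ℤ) • s.1 := by
      rw [map_add, map_smul, map_smul, Amb.emb_vec, Amb.emb_vec]
    rw [ct1]
    split_ifs with h
    · rw [List.filter_cons_of_pos (by exact (hP _).2 (h1 ▸ Amb.exists_vec_iff.1 h)), ← h1,
        ← Amb.vec_eq_iff.1 h.choose_spec]; rfl
    · rw [List.filter_cons_of_neg (by exact fun h2 => h (Amb.exists_vec_iff.2 (h1 ▸ (hP _).1 h2)))]; rfl
  change (mkCts vec (fun r s : Rt A.rs => A.cf r.1 s.1) r s).map _ = _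
  simp only [mkCts, List.map_append, e, ← List.filter_append]
  rfl

theorem Amb.prod_bridge {A : Amb} {P : (A.ι → ℤ) → Bool} (hP : ∀ v, P v = true ↔ v ∈ A.Φ)
    (x : Rt A.rs → F → G) {R : Type*} (ph : R → Rt A.rs) (ep : R → ℤ) (L : List (R × ℤ × ℕ × ℕ))
    {r s : R} (h : L.map (fun c => ((ph c.1).1, ep c.1 * c.2.1, c.2.2)) =
      (exCts P A.cf (ph r).1 (ph s).1).map fun c =>
        (c.1, c.2.1 * ep r ^ c.2.2.1 * ep s ^ c.2.2.2, c.2.2)) (t u : F) :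
    ((cword F (ph r) (ph s) (ep r * t) (ep s * u)).map fun p => x p.1 p.2).prod =
      ((L.map fun c => (c.1, (c.2.1 : F) * (-t) ^ c.2.2.1 * u ^ c.2.2.2)).map
        fun p => x (ph p.1) (ep p.1 * p.2)).prod := by
  classical
  let Y : (A.ι → ℤ) × ℤ × ℕ × ℕ → G := fun c =>
    if h : c.1 ∈ A.Φ then x ⟨c.1, h⟩ (c.2.1 * (-t) ^ c.2.2.1 * u ^ c.2.2.2) else 1
  have h1 := congrArg (List.map Y) h
  rw [← Amb.map_cts hP] at h1
  simp only [List.map_map, cword] at h1 ⊢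
  refine congrArg List.prod (Eq.trans (List.map_congr_left fun c _ => ?_) (h1.symm.trans
    (List.map_congr_left fun c _ => ?_)))
  · simp only [Function.comp_apply, Y, dif_pos c.1.2]
    congr 1
    push_cast
    rw [← mul_neg, mul_pow, mul_pow]; ring
  · simp only [Function.comp_apply, Y, dif_pos (ph c.1).2]
    congr 1
    push_cast
    ring

/-- a computable version of the Clifford structure constants -/
def clifC {m k : ℕ} (ω : Fin k → (Fin m → ℤ) →ₗ[ℤ] ℤ) (r s : Fin m → ℤ) (i j : ℕ) : ℤ :=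
  let sg : (Fin m → ℤ) → ℤ := fun v => if ∀ i, 0 ≤ ω i v then 1 else sg1 (bet v v)
  if j = 2 then -(sg r * sg (r + (2 : ℤ) • s) * sg1 (bet s s + bet s r + bet r s)) else
  if i = 2 then -(sg s * sg (s + (2 : ℤ) • r) * sg1 (bet r r + bet r s + bet s r)) else
    (if r ⬝ᵥ s = 0 then 2 else 1) * sg r * sg s * sg (r + s) * sg1 (bet r s)

theorem clif_eq {m k : ℕ} (ω : Fin k → (Fin m → ℤ) →ₗ[ℤ] ℤ) : clif ω = clifC ω := by
  have : ∀ v, sig ω v = if ∀ i, 0 ≤ ω i v then 1 else sg1 (bet v v) := fun v => by rw [sig]; congr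
  funext r s i j
  simp only [clif, clifC, c12, this]

def cfCC {m : ℕ} (r s : Fin m → ℤ) (i j : ℕ) : ℤ :=
  if j = 2 then cC r s else if i = 2 then cC s r else
    (if r ⬝ᵥ s = 0 then 2 else 1) * sgC r * sgC s * sgC (r + s) *
      ((if ∃ i, r i < 0 ∧ 0 < s i then 1 else 0) - if ∃ i, s i < 0 ∧ 0 < r i then 1 else 0)

theorem cfC_eq {m : ℕ} : (cfC : (Fin m → ℤ) → _) = cfCC := by
  have : ∀ r s : Fin m → ℤ, nC r s = if ∃ i, r i < 0 ∧ 0 < s i then 1 else 0 := fun r s => by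
    rw [nC]
  funext r s i j
  simp only [cfC, cfCC, this]

theorem rels_old {D : ChevalleyDatum} [Chev.Good D] {A : Amb} {P : (A.ι → ℤ) → Bool}
    (hP : ∀ v, P v = true ↔ v ∈ A.Φ) {x : Rt A.rs → F → G} (h : Rels x) {ph : ℕ → A.ι → ℤ} {ep : ℕ → ℤ}
    (h1 : ∀ r : Chev.Rt D, ph r ∈ A.Φ) (h2 : ∀ r s : Chev.Rt D, s ≠ r → s ≠ Chev.neg r →
      ph s ≠ ph r ∧ ph s ≠ - ph r ∧ (Chev.Fast.cterms (Chev.Good.T D).ce r s).map
        (fun c => (ph c.1, ep c.1 * c.2.1, c.2.2)) = (exCts P A.cf (ph r) (ph s)).map fun c =>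
          (c.1, c.2.1 * ep r ^ c.2.2.1 * ep s ^ c.2.2.2, c.2.2)) :
    Chev.Rels fun (r : Chev.Rt D) t => x ⟨ph r, h1 r⟩ (ep r * t) where
  add r t u := by rw [h.add, mul_add]
  comm r s h3 h4 t u := by
    obtain ⟨h5, h6, h7⟩ := h2 r s h3 h4
    rw [h.comm _ _ (fun e => h5 (congrArg Subtype.val e)) fun e => h6 (congrArg Subtype.val e)]
    congr 1
    rw [Chev.cterms_T, List.map_map] at h7
    exact Amb.prod_bridge hP x (fun r : Chev.Rt D => ⟨ph r, h1 r⟩) (fun r => ep r) _ h7 t u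

theorem exists_hom_old {D : ChevalleyDatum} [Chev.Good D] [Chev.Conn D] {A : Amb} [Rep A.rs F] [Conn A.rs]
    {S : StSys A.rs F G} (h : S.Adj) {ph : Chev.Rt D → Rt A.rs} {ep : Chev.Rt D → ℤ}
    (h1 : Chev.Rels fun r t => S.x (ph r) (ep r * t)) (h2 : Function.Surjective ph)
    (h3 : ∀ r, ep r * ep r = 1) : ∃ f : D.group F →* G, Function.Surjective f ∧
      ∀ r t, f ((Chev.grpSys D F).x r t) = S.x (ph r) (ep r * t) := by
  have hg : Subgroup.closure {g | ∃ r t, g = S.x (ph r) (ep r * t)} = ⊤ := by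
    rw [eq_top_iff, ← h.top, StSys.U_le_iff]
    intro r _ t
    obtain ⟨k, rfl⟩ := h2 r
    exact Subgroup.subset_closure ⟨k, ep k * t, by rw [← mul_assoc, ← Int.cast_mul, h3]; simp⟩
  obtain ⟨f, hf⟩ := Chev.StSys.exists_hom_of_rels' Chev.grpSys_top h1 hg
    (StSys.center_eq_bot h.top h.inj)
  refine ⟨f, ?_, hf⟩
  rw [← MonoidHom.range_eq_top, eq_top_iff, ← hg, Subgroup.closure_le]
  rintro _ ⟨r, t, rfl⟩
  exact ⟨_, hf r t⟩

theorem bijective_of_simple {G G' : Type*} [Group G] [Group G'] [IsSimpleGroup G] [Nontrivial G']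
    {f : G →* G'} (hs : Function.Surjective f) : Function.Bijective f := by
  refine ⟨(MonoidHom.ker_eq_bot_iff _).1
    ((MonoidHom.normal_ker f).eq_bot_or_eq_top.resolve_right fun h => ?_), hs⟩
  obtain ⟨y, hy⟩ := exists_ne (1 : G')
  obtain ⟨y, rfl⟩ := hs y
  exact hy (h.ge (Subgroup.mem_top y))

noncomputable def phB (r : ℕ) : Fin 2 → ℤ :=
  ![Chev.fastB2.rt r 1, Chev.fastB2.rt r 0 - Chev.fastB2.rt r 1]

noncomputable def phC (r : ℕ) : Fin 2 → ℤ :=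
  ![Chev.fastB2.rt r 0, 2 * Chev.fastB2.rt r 1 - Chev.fastB2.rt r 0]

theorem phB_mem : ∀ r : Fin 8, phB r ⬝ᵥ phB r = 1 ∨ phB r ⬝ᵥ phB r = 2 := by decide +kernel

theorem memC2 (v : Fin 2 → ℤ) : decide (v ⬝ᵥ v = 2 ∨ v ⬝ᵥ v = 4) = true ↔ v ∈ (ambC 2).Φ := by
  refine ⟨fun h => (of_decide_eq_true h).imp id fun h => ?_, fun h => decide_eq_true ((ambC 2).norm v h)⟩
  simp only [dotProduct, Fin.sum_univ_two] at h
  refine ⟨![v 0 / 2, v 1 / 2], ?_⟩
  have h1 : v 0 ≤ 2 ∧ -2 ≤ v 0 ∧ v 1 ≤ 2 ∧ -2 ≤ v 1 := by refine ⟨?_, ?_, ?_, ?_⟩ <;> nlinarith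
  simp only [dotProduct, Fin.sum_univ_two, funext_iff, Fin.forall_fin_two, Pi.smul_apply, smul_eq_mul,
    cons_val_zero, cons_val_one]
  obtain ⟨h1, h2, h3, h4⟩ := h1
  generalize v 0 = a at *
  generalize v 1 = b at *
  interval_cases a <;> interval_cases b <;> omega

theorem phC_mem (r : Fin 8) : phC r ∈ (ambC 2).Φ := (memC2 _).1 (by revert r; decide +kernel)

theorem exists_hom_B2 [Fact (∃ a : F, a ≠ 0 ∧ a ≠ 1)] :
    ∃ f : chevB2.group F →* POmega F (quadFormOdd 2 F), Function.Surjective f :=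
  (exists_hom_old (adjPOo le_rfl) (rels_old (D := chevB2) (A := ambB 2)
    (P := fun v => decide (v ⬝ᵥ v = 1 ∨ v ⬝ᵥ v = 2)) (fun _ => decide_eq_true_iff) (sysPOo F le_rfl).rels
    (ep := Chev.sgnBit 60) phB_mem (by
      change ∀ r s : Fin 8, s ≠ r → s ≠ r.rev → _
      simp only [clif_eq]
      decide +kernel)) (fun r => by
      obtain ⟨x, y, h1, h2, h3⟩ := exists_rtB r
      obtain ⟨k, hk⟩ : ∃ k : Fin 8, phB k = pm x + PB y := by clear h3; revert x y; decide +kernel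
      exact ⟨k, Subtype.ext (hk.trans h3.symm)⟩)
    fun r => by rcases Chev.sgnBit_cases 60 r with h | h <;> simp [h]).imp fun _ => And.left

theorem exists_hom_C2 : ∃ f : chevB2.group F →* PSp 2 F, Function.Surjective f :=
  (exists_hom_old (adjPSp le_rfl) (rels_old (D := chevB2) (A := ambC 2) memC2 (sysPSp F le_rfl).rels
    (ep := Chev.sgnBit 24) phC_mem (by
      change ∀ r s : Fin 8, s ≠ r → s ≠ r.rev → _
      simp only [cfC_eq]
      decide +kernel)) (fun r => by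
      obtain ⟨x, y, h1, h3⟩ := exists_rtC r
      obtain ⟨k, hk⟩ : ∃ k : Fin 8, phC k = pm x + pm y := by clear h3; revert x y; decide +kernel
      exact ⟨k, Subtype.ext (hk.trans h3.symm)⟩)
    fun r => by rcases Chev.sgnBit_cases 24 r with h | h <;> simp [h]).imp fun _ => And.left

theorem simple_B2 (h : ∃ a : F, a ≠ 0 ∧ a ≠ 1) : IsSimpleGroup (chevB2.group F) :=
  ((Chev.grpSys chevB2 F).isSimpleGroup Chev.grpSys_top Chev.grpSys_π_injective
    (Chev.perfect_of_mem (by simp) fun _ => h)).1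

theorem equiv_B2 (h : ∃ a : F, a ≠ 0 ∧ a ≠ 1) :
    Nonempty (chevB2.group F ≃* POmega F (quadFormOdd 2 F)) := by
  have := Fact.mk h
  have := simple_B2 h
  have : Nonempty (Rt (ambB 2).rs) := ⟨simple (0 : Fin 2)⟩
  have := (sysPOo F (m := 2) le_rfl).nontrivial
  obtain ⟨f, hf⟩ := exists_hom_B2 (F := F)
  exact ⟨.ofBijective f (bijective_of_simple hf)⟩

theorem equiv_C2 (h : ∃ a : F, a ≠ 0 ∧ a ≠ 1) : Nonempty (chevB2.group F ≃* PSp 2 F) := by
  have := simple_B2 h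
  have : Nonempty (Rt (ambC 2).rs) := ⟨simple (0 : Fin 2)⟩
  have := (sysPSp F (m := 2) le_rfl).nontrivial
  obtain ⟨f, hf⟩ := exists_hom_C2 (F := F)
  exact ⟨.ofBijective f (bijective_of_simple hf)⟩

theorem Rels.bridge {A A' : Amb} {P : (A.ι → ℤ) → Bool} {P' : (A'.ι → ℤ) → Bool}
    (hP : ∀ v, P v = true ↔ v ∈ A.Φ) (hP' : ∀ v, P' v = true ↔ v ∈ A'.Φ) {x : Rt A'.rs → F → G}
    (h : Rels x) {ph : (A.ι → ℤ) → A'.ι → ℤ} {ep : (A.ι → ℤ) → ℤ} (h1 : ∀ r ∈ A.Φ, ph r ∈ A'.Φ)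
    (h3 : ∀ r ∈ A.Φ, ph (-r) = - ph r ∧ ep (-r) = ep r)
    (h4 : ∀ r, ep r * ep r = 1) (h2 : ∀ r ∈ A.Φ, ∀ s ∈ A.Φ, s ≠ r → s ≠ -r →
      ph s ≠ ph r ∧ ph s ≠ - ph r ∧ (exCts P A.cf r s).map
        (fun c => (ph c.1, ep c.1 * c.2.1, c.2.2)) = (exCts P' A'.cf (ph r) (ph s)).map fun c =>
          (c.1, c.2.1 * ep r ^ c.2.2.1 * ep s ^ c.2.2.2, c.2.2)) :
    Rels fun (r : Rt A.rs) t => x ⟨ph r.1, h1 _ r.2⟩ (ep r.1 * t) where
  add r t u := by rw [h.add, mul_add]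
  comm r s h3 h4 t u := by
    obtain ⟨h5, h6, h7⟩ := h2 _ r.2 _ s.2 (fun e => h3 (Subtype.ext e)) fun e => h4 (Subtype.ext e)
    rw [h.comm _ _ (fun e => h5 (congrArg Subtype.val e)) fun e => h6 (congrArg Subtype.val e)]
    congr 1
    rw [← Amb.map_cts hP, List.map_map] at h7
    exact Amb.prod_bridge hP' x (fun r : Rt A.rs => ⟨ph r.1, h1 _ r.2⟩) (fun r => ep r.1) _ h7 t u
  nrel r t u ht := by
    have e : (ep r.1 : F) * ep r.1 = 1 := by rw [← Int.cast_mul, h4, Int.cast_one]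
    have e1 : (⟨ph (neg r).1, h1 _ (neg r).2⟩ : Rt A'.rs) = neg (D := A'.rs) ⟨ph r.1, h1 _ r.2⟩ :=
      Subtype.ext (h3 _ r.2).1
    have e2 : (ep r.1 * t)⁻¹ = ep r.1 * t⁻¹ := by rw [mul_inv, inv_eq_of_mul_eq_one_right e]
    have := h.nrel ⟨ph r.1, h1 _ r.2⟩ (ep r.1 * t) (ep r.1 * u)
      (mul_ne_zero (left_ne_zero_of_mul_eq_one e) ht)
    simp only [nn, e1, show ep (neg r).1 = ep r.1 from (h3 _ r.2).2, e2, mul_neg] at this ⊢
    rw [this, mul_pow, sq (ep r.1 : F), e, one_mul, mul_left_comm]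

def phA (v : Fin 4 → ℤ) : Fin 3 → ℤ := ![v 0 + v 1, v 0 + v 2, v 1 + v 2]

def epA (v : Fin 4 → ℤ) : ℤ := if v 0 ≠ 0 ∧ v 2 ≠ 0 then -1 else 1

theorem equiv_A3 : Nonempty (ProjectiveSpecialLinearGroup (Fin 4) F ≃* POmega F (quadFormPlus 3 F)) := by
  have e : ∀ {p : (Fin 4 → ℤ) → Prop}, (∀ i j : Fin 4, i ≠ j → p (uv i - uv j)) →
      ∀ r ∈ (ambA 3).Φ, p r := fun h r hr =>
    let ⟨i, j, h1, h2⟩ := exists_rtA (n := 3) ⟨r, hr⟩
    (show r = _ from congrArg Subtype.val h2) ▸ h i j h1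
  have h1 : ∀ r ∈ (ambA 3).Φ, phA r ⬝ᵥ phA r = 2 := e (by decide +kernel)
  have h2 : ∀ r, epA r * epA r = 1 := fun r => by rw [epA]; split_ifs <;> rfl
  have h := Rels.bridge (A := ambA 3) (A' := ambD 1) (P := fun v => decide (v ⬝ᵥ v = 2 ∧ ps 4 v = 0))
    (P' := fun v => decide (v ⬝ᵥ v = 2)) (fun _ => decide_eq_true_iff) (fun _ => decide_eq_true_iff)
    (sysPOp 1 F).rels h1 (e (by decide +kernel)) h2 (e fun i j h => e (by
      simp only [clif_eq]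
      revert i j
      decide +kernel))
  have : Nonempty (Rt (ambD 1).rs) := ⟨simple (0 : Fin 3)⟩
  have := (sysPOp 1 F).nontrivial
  refine (adjPSL.exists_equiv ?_ h ?_ (StSys.center_eq_bot adjPOp.top adjPOp.inj)).elim fun e _ => ⟨e⟩
  · rw [commutator_def, ← Subgroup.map_top_of_surjective _ (QuotientGroup.mk'_surjective _),
      ← Subgroup.map_commutator, ← commutator_def, sl_commutator_eq_top (by simp)]
  · rw [eq_top_iff, ← adjPOp.top, StSys.U_le_iff]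
    intro r _ t
    obtain ⟨x, y, h3, h4, h5⟩ := exists_rtD r
    obtain ⟨i, j, h6, h7⟩ : ∃ i j : Fin 4, i ≠ j ∧ phA (uv i - uv j) = pm x + pm y := by
      clear h5; revert x y; decide +kernel
    refine Subgroup.subset_closure ⟨rtA h6, epA (rtA h6).1 * t, ?_⟩
    rw [← mul_assoc, ← Int.cast_mul, h2, Int.cast_one, one_mul]
    exact congrArg (fun k => (sysPOp 1 F).x k t) (Subtype.ext (h5.trans h7.symm))

end Gen
end H5
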