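import Cfsg.Agent.H5.GL6
import Cfsg.Agent.H5.G12

/-! The groups of type `B_m` and `C_m` are not isomorphic in odd characteristic. -/

set_option autoImplicit false

namespace H5
namespace Gen

open Matrix Equiv Cfsg H4 H4.Form

attribute [-simp] zsmul_eq_mul

section PC
variable {G G' : Type*} [Group G] [Group G']

/-- `p`-central elements -/
def PCen (p : ℕ) (z : G) : Prop := (∃ k, z ^ p ^ k = 1) ∧
  ∀ Q : Subgroup G, IsPGroup p Q → ∃ g, ∀ y ∈ Q, Commute z (g * y * g⁻¹)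

theorem PCen.map {p : ℕ} {z : G} (h : PCen p z) (e : G ≃* G') : PCen p (e z) :=
  ⟨h.1.imp fun k hk => by rw [← map_pow, hk, map_one], fun Q hQ => by
    obtain ⟨g, hg⟩ := h.2 _ (hQ.map e.symm.toMonoidHom)
    exact ⟨e g, fun y hy => by simpa using (hg _ ⟨y, hy, rfl⟩).map e⟩⟩

theorem PCen.conj {p : ℕ} {z : G} (h : PCen p z) (g : G) : PCen p (g * z * g⁻¹) :=
  h.map (MulAut.conj g)

theorem pcen_of_sylow {p : ℕ} [Fact p.Prime] [Finite G] (P : Sylow p G) {z : G} (h1 : z ∈ P)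
    (h2 : ∀ y ∈ P, Commute z y) : PCen p z :=
  ⟨(P.2 ⟨z, h1⟩).imp fun k hk => congrArg Subtype.val hk, fun Q hQ => by
    obtain ⟨R, hR⟩ := hQ.exists_le_sylow
    obtain ⟨g, rfl⟩ := MulAction.exists_smul_eq G R P
    exact ⟨g, fun y hy => h2 _ (Subgroup.smul_mem_pointwise_smul y (MulAut.conj g) _ (hR hy))⟩⟩

theorem commute_of_mk (hZ : ∀ z ∈ Subgroup.center G, z ^ 2 = 1) {x y : G} {n : ℕ} (hn : Odd n)
    (hx : x ^ n = 1) (h : Commute (x : G ⧸ Subgroup.center G) y) : Commute x y := by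
  have h1 : y * x * y⁻¹ * x⁻¹ ∈ Subgroup.center G := by
    rw [← QuotientGroup.eq_one_iff]; simp [← h.eq]
  have h2 : (y * x * y⁻¹ * x⁻¹ * x) ^ n = 1 := by rw [inv_mul_cancel_right, conj_pow, hx]; simp
  obtain ⟨k, hk⟩ := hn
  rw [Commute.mul_pow (Subgroup.mem_center_iff.1 h1 x).symm, hx, mul_one, hk, pow_succ, pow_mul, hZ _ h1,
    one_pow, one_mul] at h2
  exact (commutatorElement_eq_one_iff_commute.1 h2).symm

end PC

variable {F : Type*} [Field F]

section Alt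
variable {V : Type*} [AddCommGroup V] [Module F V] {f : Form (altKind F) V}

theorem alt_app {g : f.Isom} {u v : V} {t : F} (h : f.IsEich g u v t) (y : V) :
    g.1 y = y + f.B u y • v + (f.B v y + t * f.B u y) • u := by
  rw [h.app, show (altKind F).ε = -1 from rfl, neg_one_mul, neg_smul, sub_neg_eq_add]

theorem alt_σ (c : F) : (altKind F).σ c = c := rfl

theorem alt_pow {g : f.Isom} {u v : V} {t : F} (h : f.IsEich g u v t) (k : ℕ) :
    f.IsEich (g ^ k) u ((k : F) • v) (k * t) := by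
  induction k with
  | zero => simpa using IsEich.one h.Qu
  | succ k ih => simpa [pow_succ, add_smul, add_mul, alt_B_self] using ih.mul h

theorem alt_eich_of_comm (hf : f.ND) (h2 : (2 : F) ≠ 0) {u : V} (hu : u ≠ 0) {z : f.Isom} {n : ℕ}
    (hn : Odd n) (hz : z ^ n = 1) (h : ∀ g v t, f.IsEich g u v t → Commute z g) :
    ∃ t, f.IsEich z u 0 t := by
  obtain ⟨y, hy⟩ := hf.exists_eq hu 1
  have e : ∀ v t, f.B u v = 0 → ∀ y, f.B (z.1 u) y • z.1 v + (f.B (z.1 v) y + t * f.B (z.1 u) y) • z.1 u =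
      f.B u y • v + (f.B v y + t * f.B u y) • u := fun v t hv y => by
    obtain ⟨g, hg⟩ := alt_exists_eich hv t
    have h1 := hg.conj z
    rw [(h g v t hg).mul_inv_cancel] at h1
    simpa only [add_assoc, add_right_inj] using (alt_app h1 y).symm.trans (alt_app hg y)
  have h1 := e 0 1 (by simp) y
  simp only [map_zero, smul_zero, LinearMap.zero_apply, zero_add, one_mul, hy, one_smul] at h1
  have h3 : f.B (z.1 u) y * f.B (z.1 u) y = 1 := by
    simpa [hy, alt_σ] using congrArg (fun x => f.B x y) h1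
  have h4 : z.1 u = f.B (z.1 u) y • u := by
    conv_rhs => rw [← h1]
    rw [h1, ← h1, smul_smul, h1, h3, one_smul]
  have h5 : ∀ k : ℕ, (z ^ k).1 u = f.B (z.1 u) y ^ k • u := fun k => by
    induction k with
    | zero => simp
    | succ k ih => rw [pow_succ', isom_mul_apply, ih, map_smul, pow_succ, mul_smul, ← h4]
  have h6 : z.1 u = u := by
    obtain ⟨k, rfl⟩ := hn
    have := h5 (2 * k + 1)
    rw [hz, pow_succ, pow_mul, sq, h3, one_pow, one_mul, ← h4] at this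
    exact this.symm
  have h7 : ∀ v, f.B u v = 0 → z.1 v = v := fun v hv => by
    have h8 := e v 0 hv y
    simp only [h6, hy, one_smul, zero_mul, add_zero] at h8
    have h9 := congrArg (fun x => f.B x y) h8
    simp only [map_add, map_smulₛₗ, LinearMap.add_apply, LinearMap.smul_apply, hy, alt_σ,
      RingHom.id_apply, smul_eq_mul, mul_one] at h9
    rwa [mul_left_cancel₀ h2 (show 2 * f.B (z.1 v) y = 2 * f.B v y by linear_combination h9),
      add_left_inj] at h8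
  have h8 : ∀ x, f.B u (x - f.B u x • y) = 0 := fun x => by simp [hy]
  have h9 : z.1 y - y = f.B (z.1 y - y) y • u := sub_eq_zero.1 (hf _ fun x => by
    have h0 := isom_B z y (x - f.B u x • y)
    rw [h7 _ (h8 x)] at h0
    simp only [map_sub, map_smulₛₗ, LinearMap.sub_apply, LinearMap.smul_apply, alt_σ, alt_B_self,
      RingHom.id_apply, smul_eq_mul] at h0 ⊢
    linear_combination h0)
  obtain ⟨g, hg⟩ := alt_exists_eich (f := f) (u := u) (v := 0) (by simp) (f.B (z.1 y - y) y)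
  refine ⟨_, (isom_ext fun x => ?_ : g = z) ▸ hg⟩
  have := h7 _ (h8 x)
  rw [map_sub, map_smul, sub_eq_iff_eq_add, sub_eq_iff_eq_add.1 h9] at this
  rw [alt_app hg, this]
  simp only [map_zero, LinearMap.zero_apply]
  module

theorem alt_commute {a b : f.Isom} {u v : V} {s t : F} (ha : f.IsEich a u 0 t) (hb : f.IsEich b v 0 s)
    (h : Commute a (b * a * b⁻¹)) : Commute a b := by
  have h1 := ha.conj b
  rw [map_zero] at h1
  by_cases h0 : t = 0
  · subst h0; rw [ha.eq_one]; exact Commute.one_left _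
  by_cases hu : u = 0
  · subst hu; rw [ha.of_zero]; exact Commute.one_left _
  have h2 := h1.conj a
  rw [h.mul_inv_cancel, map_zero] at h2
  have h3 := (alt_app h2 (b.1 u)).symm.trans (alt_app h1 _)
  have h4 : f.B (a.1 (b.1 u)) (b.1 u) = t * f.B u (b.1 u) * f.B u (b.1 u) := by
    rw [alt_app ha]; simp [alt_B_self, alt_σ]
  have h5 : f.B u (b.1 u) = s * f.B v u * f.B u v := by rw [alt_app hb]; simp [alt_B_self]
  simp only [h4, alt_B_self, h0, isom_ne_zero a (isom_ne_zero b hu), map_zero, smul_zero, add_zero,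
    LinearMap.zero_apply, zero_add, mul_zero, zero_smul, add_eq_left, smul_eq_zero, mul_eq_zero,
    false_or, or_false, or_self] at h3
  rw [h5, alt_symm f v u, mul_assoc, mul_neg, mul_neg, neg_eq_zero, mul_eq_zero, mul_self_eq_zero] at h3
  rw [show b.1 u = u by rw [alt_app hb]; rcases h3 with h | h <;> simp [h]] at h1
  exact (mul_inv_eq_iff_eq_mul.1 (h1.ext ha)).symm

theorem alt_pcen [Finite F] [FiniteDimensional F V] (hf : f.ND) (h0 : Module.finrank F V ≠ 0) {p : ℕ}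
    [hp : Fact p.Prime] [CharP F p] (h2 : (2 : F) ≠ 0) {a b : f.Isom ⧸ Subgroup.center f.Isom}
    (ha : PCen p a) (hb : PCen p b) (h : Commute a (b * a * b⁻¹)) : Commute a b := by
  have hodd : Odd p := hp.out.odd_of_ne_two (by rintro rfl; exact h2 (CharP.cast_eq_zero F 2))
  have hZ : ∀ z ∈ Subgroup.center f.Isom, z ^ 2 = 1 := fun z hz => by
    have := pow_card_eq_one' (x := (⟨z, hz⟩ : Subgroup.center f.Isom))
    have _ := Fintype.ofFinite F
    rw [alt_card_center hf h0, gcd_two_card, if_neg h2] at this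
    exact congrArg Subtype.val this
  have hp' : ∀ {g u v t}, f.IsEich g u v t → g ^ p = 1 := fun h => by
    have := alt_pow h p
    rw [CharP.cast_eq_zero, zero_smul, zero_mul] at this
    exact this.eq_one
  obtain ⟨u, w, huw⟩ := alt_exists_hyp hf h0
  have key : ∀ a : f.Isom ⧸ Subgroup.center f.Isom, PCen p a →
      ∃ (z : f.Isom) (u : V) (t : F), a = z ∧ f.IsEich z u 0 t := fun a ⟨⟨k, h1⟩, h3⟩ => by
    obtain ⟨z, rfl⟩ := QuotientGroup.mk_surjective a
    have h4 : z ^ p ^ k ∈ Subgroup.center f.Isom := (QuotientGroup.eq_one_iff _).1 h1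
    obtain ⟨g, hg⟩ := h3 ((f.U u huw.1).map (QuotientGroup.mk' _))
      (IsPGroup.map (H := f.U u huw.1) (fun ⟨x, v, t, hx⟩ => ⟨1, Subtype.ext (by simpa using hp' hx)⟩) _)
    obtain ⟨g, rfl⟩ := QuotientGroup.mk_surjective g
    have h5 : ((z * z ^ p ^ k : f.Isom) : f.Isom ⧸ Subgroup.center f.Isom) = z := by
      rw [QuotientGroup.mk_mul, (QuotientGroup.eq_one_iff _).2 h4, mul_one]
    obtain ⟨t, ht⟩ := alt_eich_of_comm hf h2 (isom_ne_zero g (show u ≠ 0 from fun h => by simpa [h] using huw.3))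
      (z := z * z ^ p ^ k) (hodd.pow (n := k)) (by
        obtain ⟨l, hl⟩ := hodd.pow (n := k)
        rw [((Commute.refl z).pow_right _).mul_pow, ← pow_succ', show p ^ k + 1 = 2 * (l + 1) by omega,
          pow_mul, hZ _ h4, one_pow]) fun x v t hx => by
      have h6 := hx.conj g⁻¹
      rw [isom_inv_apply] at h6
      refine (commute_of_mk hZ hodd (hp' hx) ?_).symm
      simpa [h5, mul_assoc] using (hg _ ⟨_, ⟨_, _, h6⟩, rfl⟩).symm
    exact ⟨_, _, t, h5.symm, ht⟩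
  obtain ⟨a, u, t, rfl, h3⟩ := key a ha
  obtain ⟨b, v, s, rfl, h4⟩ := key b hb
  exact (alt_commute h3 h4 (commute_of_mk hZ hodd (hp' h3) h)).map (QuotientGroup.mk' _)

end Alt

variable {m : ℕ}

section B
variable {G : Type*} [Group G] [Rep (ambB m).rs F] (S : StSys (ambB m).rs F G)

theorem commute_B {r s : Rt (ambB m).rs} (h1 : r.1 ⬝ᵥ r.1 = 2) (h2 : 0 ≤ r.1 ⬝ᵥ s.1) (t u : F) :
    Commute (S.x r t) (S.x s u) := by
  refine S.commute_of_not_btw (by rintro rfl; simp [h1] at h2) (fun k ⟨i, j, hi, hj, h⟩ => ?_) t u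
  have h3 := k.2
  have h4 := s.2
  rw [Amb.vec_eq_iff.1 h, map_add, map_smul, map_smul, Amb.emb_vec, Amb.emb_vec] at h3
  simp only [Set.mem_ofPred_eq, add_dotProduct, dotProduct_add, smul_dotProduct, dotProduct_smul, h1,
    dotProduct_comm s.1 r.1, smul_eq_mul] at h3 h4
  have : (1 : ℤ) ≤ i * i := by nlinarith
  have : (1 : ℤ) ≤ j * j := by nlinarith
  have : (0 : ℤ) ≤ i * j * (r.1 ⬝ᵥ s.1) := by positivity
  rcases h4 with h4 | h4 <;> rw [h4] at h3 <;> rcases h3 with h3 | h3 <;> nlinarith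

theorem exists_pcen_B [NeZero m] [Finite F] (h : S.Adj) (hm : 3 ≤ m) (p : ℕ) [Fact p.Prime] [CharP F p] :
    ∃ a b : G, PCen p a ∧ PCen p b ∧ Commute a (b * a * b⁻¹) ∧ ¬ Commute a b := by
  have := S.finite_of_top h.top h.inj
  obtain ⟨P, hP⟩ := S.exists_sylow p h.top h.inj
  have h0 : 0 < m := by omega
  have h1 : 1 < m := by omega
  have h2 : 2 < m := by omega
  have d : ∀ i j : ℕ, i < m → j < m → (uv i : Fin m → ℤ) ⬝ᵥ uv j = if i = j then 1 else 0 :=
    fun i j hi hj => by simp [uv_dot_uv, hi]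
  let θ : Rt (ambB m).rs := ⟨uv 0 + uv 1, Or.inr (by simp [d, h0, h1])⟩
  have hθ : PCen p (S.x θ 1) := pcen_of_sylow P (hP.ge (S.x_mem_U (A := {r | Pos r}) (Amb.pos_iff.2 fun i => by
      simp [θ, ps_uv, h0, h1]; positivity) _)) fun y hy => by
    refine (S.U_le_iff (K := Subgroup.centralizer {S.x θ 1})).2 (fun r hr t => ?_) (hP.le hy) _ rfl
    rintro _ rfl
    refine commute_B S (by simp [θ, d, h0, h1]) ?_ _ _
    have h3 := Amb.pos_iff.1 hr ⟨1, h1⟩
    have h4 := ps_succ ⟨1, h1⟩ r.1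
    have h5 := ps_succ ⟨0, h0⟩ r.1
    have h6 := uv_dot r.1 ⟨0, h0⟩
    have h7 := uv_dot r.1 ⟨1, h1⟩
    simp only [θ, add_dotProduct, LinearMap.smul_apply, smul_eq_mul, ps_zero, zero_add] at *
    omega
  have key : ∀ k r : Rt (ambB m).rs, r.1 = θ.1 - pair k θ • k.1 → ∃ t, t ≠ 0 ∧ PCen p (S.x r t) :=
    fun k r hr => by
      have h3 := hθ.conj (S.n k 1)
      rw [S.n_conj k θ one_ne_zero, show rrefl k θ = r from vec_injective ((vec_rrefl _ _).trans
        (Amb.vec_eq_iff.2 (by rw [map_sub, map_smul, Amb.emb_vec, Amb.emb_vec, hr])).symm)] at h3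
      exact ⟨_, by simp [sg_ne_zero], h3⟩
  let k₁ : Rt (ambB m).rs := ⟨uv 1, Or.inl (by simp [d, h1])⟩
  let k₂ : Rt (ambB m).rs := ⟨uv 0 - uv 2, Or.inr (by simp [d, h0, h2])⟩
  let r : Rt (ambB m).rs := ⟨uv 0 - uv 1, Or.inr (by simp [d, h0, h1])⟩
  let s : Rt (ambB m).rs := ⟨uv 2 + uv 1, Or.inr (by simp [d, h1, h2])⟩
  let k : Rt (ambB m).rs := ⟨uv 0 + uv 2, Or.inr (by simp [d, h0, h2])⟩
  have e1 := Amb.mul_pair k₁ θ
  have e2 := Amb.mul_pair k₂ θ
  have e3 := Amb.mul_pair r s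
  have e4 := Amb.mul_pair s r
  rw [show k₁.1 ⬝ᵥ k₁.1 = 1 by simp [k₁, d, h1], show k₁.1 ⬝ᵥ θ.1 = 1 by simp [k₁, θ, d, h0, h1]] at e1
  rw [show k₂.1 ⬝ᵥ k₂.1 = 2 by simp [k₂, d, h0, h2], show k₂.1 ⬝ᵥ θ.1 = 1 by simp [k₂, θ, d, h0, h1, h2]] at e2
  rw [show r.1 ⬝ᵥ r.1 = 2 by simp [r, d, h0, h1], show r.1 ⬝ᵥ s.1 = -1 by simp [r, s, d, h0, h1, h2]] at e3
  rw [show s.1 ⬝ᵥ s.1 = 2 by simp [s, d, h2, h1], show s.1 ⬝ᵥ r.1 = -1 by simp [r, s, d, h0, h1, h2]] at e4
  obtain ⟨t, ht, ha⟩ := key k₁ r (by rw [show pair k₁ θ = 2 by omega]; simp only [θ, k₁, r]; module)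
  obtain ⟨u, hu, hb⟩ := key k₂ s (by rw [show pair k₂ θ = 1 by omega]; simp only [θ, k₂, s]; module)
  have e5 : pair r s = -1 := by omega
  have e6 : pair s r = -1 := by omega
  have h3 := S.rels.comm r s (by rintro e; simp [e] at e5) (by rintro e; simp [e] at e5) t u
  rw [prod_cword, yv_of_pair (by omega), yv_of_pair' (by omega), mul_one, mul_one, yv_of (k := k)
    (Amb.vec_eq_iff.2 (by rw [map_add, Amb.emb_vec, Amb.emb_vec]; simp [r, s, k]))] at h3
  refine ⟨_, _, ha, hb, ?_, fun h4 => ?_⟩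
  · have h4 : k.1 ⬝ᵥ k.1 = 2 := by simp [k, d, h0, h2]
    rw [h3, mul_assoc (S.x r t), ← (commute_B S h4 (by simp [k, s, d, h0, h1, h2]) _ _).eq, mul_assoc,
      mul_inv_cancel_right]
    exact (Commute.refl _).mul_right (commute_B S h4 (by simp [k, r, d, h0, h1, h2]) _ _).symm
  · rw [h4.eq, left_eq_mul, S.x_eq_one_iff] at h3
    have h5 : (cf r s 1 1 : F) * cf r s 1 1 = 1 := by
      rw [← Int.cast_mul, show cf r s 1 1 = clif (ambB m).ω r.1 s.1 1 1 from rfl, clif, if_neg (by decide),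
        if_neg (by decide), if_neg (by simp [r, s, d, h0, h1, h2]), one_mul, mul_mul_mul_comm, sg1_sq,
        mul_mul_mul_comm, sig_sq, mul_mul_mul_comm, sig_sq, sig_sq]; simp
    simp [ht, hu, left_ne_zero_of_mul_eq_one h5] at h3

end B

theorem isEmpty_BC [Finite F] (h2 : (2 : F) ≠ 0) (hm : 3 ≤ m) :
    IsEmpty (PSp m F ≃* POmega F (quadFormOdd m F)) := ⟨fun e => by
  have : NeZero m := ⟨by omega⟩
  have : Fact (∃ a : F, a ≠ 0 ∧ a ≠ 1) := ⟨-1, by simp, fun h => h2 (by linear_combination -h)⟩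
  obtain ⟨p, hp⟩ := CharP.exists F
  have : Fact p.Prime := ⟨CharP.char_is_prime F p⟩
  obtain ⟨a, b, ha, hb, h3, h4⟩ := exists_pcen_B _ (adjPOo (F := F) (m := m) (by omega)) hm p
  let e' := e.symm.trans (centerQuotEquiv (spEquiv m F))
  exact h4 ((commute_map_iff e'.injective).1 (alt_pcen (spForm_ND m F) (by simp; omega) h2 (ha.map e')
    (hb.map e') (by simpa using h3.map e')))⟩

end Gen
end H5
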