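import Cfsg.Agent.H5.GM2
import Cfsg.Agent.H5.GM0
import Cfsg.Agent.H5.GC8

/-! Lifting the Steinberg relations for root systems with at most double bonds. -/

set_option autoImplicit false

namespace H5
namespace Gen

open Cfsg Equiv

attribute [-simp] zsmul_eq_mul

variable {D : RS}

theorem pos_of_dom {r : Rt D} (h : ∀ i, 0 ≤ wt r i) : Pos r := by
  by_contra h1
  obtain ⟨i, h2, -⟩ := exists_wt_pos (pos_neg_iff.2 h1)
  have := h i
  rw [wt_neg] at h2
  omega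

theorem pair_pos_of_dom [Conn D] {r s : Rt D} (hr : ∀ i, 0 ≤ wt r i) (hs : ∀ i, 0 ≤ wt s i) :
    0 < pair s r := by
  have h1 := pos_iff_vec.1 (pos_of_dom hs)
  have h2 : ∀ i, vec s i ≠ 0 := by
    by_contra! h2
    obtain ⟨i, hi, j, hj, h3⟩ := exists_conn (J := {i | vec s i = 0}) h2
      (Function.ne_iff.1 (vec_ne_zero s))
    have := hs i
    rw [wt_eq_sum] at this
    refine this.not_gt ((Finset.sum_lt_sum (g := fun _ => 0) (fun k _ => ?_)
      ⟨j, Finset.mem_univ _, ?_⟩).trans_eq (by simp))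
    · by_cases e : k = i
      · rw [e, show vec s i = 0 from hi, zero_mul]
      · exact mul_nonpos_of_nonneg_of_nonpos (h1 k) (wt_simple_nonpos e)
    · exact mul_neg_of_pos_of_neg ((h1 j).lt_of_ne' hj)
        ((wt_simple_nonpos (by rintro rfl; exact hj hi)).lt_of_ne h3)
  obtain ⟨i, h3, -⟩ := exists_wt_pos (pos_of_dom hr)
  have h4 := pos_iff_co.1 (pos_of_dom hs)
  exact Finset.sum_pos' (fun k _ => mul_nonneg (h4 k) (hr k)) ⟨i, Finset.mem_univ _,
    mul_pos ((h4 i).lt_of_ne' (mt (vec_eq_zero_iff s i).2 (h2 i))) h3⟩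

theorem pair_symm_of_ln {r s : Rt D} (h : ln r = ln s) : pair r s = pair s r :=
  mul_left_cancel₀ (ln_pos r).ne' ((ln_pair_symm r s).trans (by rw [h]))

theorem ln_eq_of_pair {r s : Rt D} (h : pair r s = pair s r) (h0 : pair r s ≠ 0) : ln r = ln s :=
  mul_right_cancel₀ h0 ((ln_pair_symm r s).trans (by rw [h]))

theorem ln_rrefl (r s : Rt D) : ln (rrefl r s) = ln s := wg_ln ⟨rp r, rp_mem r⟩ s

theorem pair_rrefl' (r a s : Rt D) : pair r (rrefl a s) = pair r s - pair a s * pair r a := by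
  rw [← pv_vec, vec_rrefl, map_sub, map_smul]; simp

theorem pair_rrefl_left (a r s : Rt D) : pair (rrefl a r) s = pair r s - pair a s * pair r a := by
  rw [← pair_rrefl', ← pair_rrefl a r, rrefl_rrefl]

variable [Dbl D]

instance domOfDbl [Conn D] : Dom D := ⟨fun r s hr hs h => by
  by_contra e
  have key : ∀ r s k : Rt D, (∀ i, 0 ≤ wt r i) → pair r s = 1 → vec k = vec s - vec r → ¬ Pos k :=
    fun r s k hr h1 h2 h3 => by
      have h4 : 0 ≤ pair k r :=
        Finset.sum_nonneg fun i _ => mul_nonneg (pos_iff_co.1 h3 i) (hr i)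
      have h5 : 0 < pair (neg r) k := by rw [← pv_vec, h2]; simp [h1]
      rw [pair_pos_comm, pair_neg_right] at h5
      omega
  have h1 := pair_pos_of_dom hs hr
  have h2 := pair_symm_of_ln h
  have h3 := pair_cases (Ne.symm e) (by rintro rfl; simp at h1)
  obtain ⟨k, hk⟩ := exists_sub_root h1 (Ne.symm e)
  exact key s r (neg k) hs (by omega) (by simp [hk]) (pos_neg_iff.2 (key r s k hr (by omega) hk))⟩

/-- the structure constants are as small as possible -/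
class Uni (D : RS) [Dbl D] : Prop where
  u11 : ∀ r s k : Rt D, vec k = vec r + vec s →
    ∃ ε : ℤ, ε * ε = 1 ∧ cf r s 1 1 = (if pair r s = 0 then 2 else 1) * ε
  u12 : ∀ r s k : Rt D, vec k = vec r + (2 : ℤ) • vec s → cf r s 1 2 * cf r s 1 2 = 1

theorem Min.uni (M : Min D) : Uni D where
  u11 := by
    have h1 : ∀ r s k a b c, vec k = vec r + vec s → M.q b = M.q a + vec s → M.q c = M.q b + vec r →
        ∃ ε : ℤ, ε * ε = 1 ∧ cf r s 1 1 = (if pair r s = 0 then 2 else 1) * ε := fun r s k a b c h h1 h2 =>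
      ⟨M.E r b * M.E s a * M.E k a, by
        rw [mul_mul_mul_comm, M.E_sq, mul_mul_mul_comm, M.E_sq, M.E_sq]; rfl, by
        linear_combination (-M.E k a) * M.S2 r s k a b c h h1 h2 - cf r s 1 1 * M.E_sq k a⟩
    have h2 : ∀ r s k : Rt D, vec k = vec r + vec s → (∃ ε : ℤ, ε * ε = 1 ∧
        cf s r 1 1 = (if pair s r = 0 then 2 else 1) * ε) →
        ∃ ε : ℤ, ε * ε = 1 ∧ cf r s 1 1 = (if pair r s = 0 then 2 else 1) * ε := fun r s k h ⟨ε, h1, h2⟩ =>
      ⟨-ε, by simpa, by rw [M.S2' s r k (h.trans (add_comm _ _)), h2, if_congr pair_eq_zero_comm rfl rfl]; ring⟩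
    have h3 : ∀ r s k : Rt D, vec k = vec r + vec s → 0 < pair k s →
        ∃ ε : ℤ, ε * ε = 1 ∧ cf r s 1 1 = (if pair r s = 0 then 2 else 1) * ε := fun r s k h h3 => by
      obtain ⟨a, ha⟩ := M.lead s
      obtain ⟨b, hb⟩ := Min.fwd ha
      have h4 := Min.w_add hb k
      by_cases e : M.w a k = -1
      · obtain ⟨c, hc⟩ := Min.fwd e
        exact h1 r s k a b c h hb (by rw [hc, hb, h]; abel)
      · have := M.w_mem a k
        have := M.w_mem b k
        obtain ⟨c, hc⟩ := Min.back (show M.w b k = 1 by omega)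
        exact h2 r s k h (h1 s r k c a b (h.trans (add_comm _ _))
          (add_right_cancel (hb.symm.trans (by rw [hc, h, add_assoc]))) hb)
    intro r s k h
    have h4 := pair_of_add h k
    rw [pair_self] at h4
    by_cases e : 0 < pair k s
    · exact h3 r s k h e
    · exact h2 r s k h (h3 s r k (h.trans (add_comm _ _)) (by omega))
  u12 r s k h := by
    obtain ⟨b, hb⟩ := M.lead r
    obtain ⟨c, hc⟩ := Min.fwd hb
    have h1 := Min.w_add hc s
    have := M.w_mem b s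
    have := M.w_mem c s
    obtain ⟨a, ha⟩ := Min.back (show M.w b s = 1 by have := pair_of_add_two h; omega)
    have h2 := congrArg (fun x => x * x) (M.S4 r s k a b c h ha hc)
    rwa [mul_mul_mul_comm, M.E_sq, mul_mul_mul_comm, M.E_sq, M.E_sq, mul_mul_mul_comm, M.E_sq,
      neg_mul_neg, mul_one, mul_one, mul_one, eq_comm] at h2

omit [Dbl D] in
theorem ct1_of {cf : Rt D → Rt D → ℕ → ℕ → ℤ} {r s k : Rt D} {i j : ℕ}
    (h : vec k = (i : ℤ) • vec r + (j : ℤ) • vec s) : ct1 vec cf r s i j = [(k, cf r s i j, i, j)] := by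
  have h1 : ∃ k, vec k = (i : ℤ) • vec r + (j : ℤ) • vec s := ⟨k, h⟩
  rw [ct1, dif_pos h1, vec_injective (h1.choose_spec.trans h.symm)]

theorem ct12 {r s : Rt D} (h : pair s r ≠ -2) : ct1 vec Dbl.cf r s 1 2 = [] :=
  dif_neg fun ⟨_, hk⟩ => h (pair_of_add_two (by simpa using hk))

theorem ct21 {r s : Rt D} (h : pair r s ≠ -2) : ct1 vec Dbl.cf r s 2 1 = [] :=
  dif_neg fun ⟨_, hk⟩ => h (pair_of_add_two (by simpa [add_comm] using hk))

theorem cts_add {r s k : Rt D} (h : vec k = vec r + vec s) (h1 : pair r s ≠ -2) (h2 : pair s r ≠ -2) :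
    cts r s = [(k, cf r s 1 1, 1, 1)] := by
  rw [Dbl.cts_eq, mkCts, ct12 h2, ct21 h1, ct1_of (k := k) (by simpa using h)]; rfl

theorem cts_B2 {a b : Rt D} (h1 : pair a b = -1) (h2 : pair b a = -2) :
    cts a b = [(rrefl a b, cf a b 1 1, 1, 1), (rrefl b a, cf a b 1 2, 1, 2)] := by
  rw [Dbl.cts_eq, mkCts, ct21 (by omega), ct1_of (k := rrefl a b) (by simp [vec_rrefl, h1, add_comm]),
    ct1_of (k := rrefl b a) (by simpa using vec_rrefl_of_two h2)]; rfl

theorem cts_nil {r s : Rt D} (h2 : s ≠ neg r) (h : ¬ ∃ k, vec k = vec r + vec s) : cts r s = [] := by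
  have h3 : 0 ≤ pair r s := by by_contra! h3; exact h (exists_add_root h3 h2)
  have h4 : 0 ≤ pair s r := by
    by_contra! h4; exact h (by simpa [add_comm] using exists_add_root h4 (by rintro rfl; simp at h2))
  rw [Dbl.cts_eq, mkCts, ct12 (by omega), ct21 (by omega), ct1, dif_neg (by simpa using h)]; rfl

variable {F : Type*} [Field F] [Rep D F] {G E : Type*} [Group G] [Group E] {S : StSys D F G}
  {ψ : E →* G}

theorem StSys.cm_not_add (S : StSys D F G) {r s : Rt D} (h2 : s ≠ neg r)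
    (h : ¬ ∃ k, vec k = vec r + vec s) (t u : F) : Commute (S.x r t) (S.x s u) :=
  S.commute_of_cts h2 (by simp [cts_nil h2 h]) t u

theorem StSys.cm_pos (S : StSys D F G) {r s : Rt D} (h : 0 < pair r s) (t u : F) :
    Commute (S.x r t) (S.x s u) :=
  S.cm_not_add (by rintro rfl; simp at h) (fun ⟨_, hk⟩ => (pair_nonpos_of_add hk).not_gt h) t u

/-- the root elements have lifts satisfying the Steinberg relations -/
def Lifts (S : StSys D F G) (ψ : E →* G) : Prop :=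
  ∃ y : Rt D → F → E, Rels y ∧ ∀ r t, ψ (y r t) = S.x r t

omit [Dbl D] in
theorem kill_of_H (hψ : CExt ψ) {r s : Rt D} {g : G} (hg : g ∈ S.H) {c : F} (h6 : c ≠ 1)
    (h5 : ∀ t, g * S.x r t * g⁻¹ = S.x r t) (h7 : ∀ t, g * S.x s t * g⁻¹ = S.x s (c * t)) :
    Kill S ψ r s := by
  intro M h1 h2 h3 h4 a b t u ha hb
  have ex : ∀ b u, ψ b = S.x s u → ∃ z, ψ z = 1 ∧ z * cm b a ∈ M := fun b u hb => by
    obtain ⟨m, h7, h8⟩ := h4 t u
    exact ⟨m * (cm b a)⁻¹, by simp [map_cm, h8, ha, hb], by simpa using h7⟩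
  obtain ⟨b₀, hb₀⟩ := hψ.surj (S.x s (u / (c - 1)))
  obtain ⟨e, rfl⟩ := hψ.surj g
  obtain ⟨z₀, h7', h8⟩ := ex b₀ _ hb₀
  have h11 := h3 e hg _ h8
  rw [← mul_assoc, ← (hψ.commute h7' e).eq, mul_assoc z₀, mul_assoc z₀, conj_cm,
    hψ.cm_congr (a' := b₀ * b) (b' := a) (by
      simp only [map_mul, map_inv, hb₀, hb, h7, S.add]
      congr 1
      field_simp [sub_ne_zero.2 h6]
      ring) (by simp [ha, h5]), cm_mul_left, ← mul_assoc, ← mul_assoc,
    ← mul_assoc, (hψ.commute h7' b⁻¹).eq, mul_assoc b⁻¹, M.mul_mem_cancel_left (h2 b u hb _ h8)] at h11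
  exact h11

omit [Dbl D] in
theorem kill_cube [Conn D] (hψ : CExt ψ) {r s : Rt D} (h : pair r s * pair s r = 1) {v : F} (h0 : v ≠ 0)
    (h3 : v ^ 3 ≠ 1) : Kill S ψ r s := by
  have h1 : v ^ (-2 * pair r s) ≠ 0 := zpow_ne_zero _ h0
  refine kill_of_H hψ (mul_mem (S.h_mem_H r h0) (S.h_mem_H s h1)) (c := v ^ (-3 * pair r s)) ?_
    (fun t => ?_) fun t => ?_
  · rcases Int.mul_eq_one_iff_eq_one_or_neg_one.1 h with ⟨e, -⟩ | ⟨e, -⟩ <;> rw [e]
    · rw [mul_one, zpow_neg, Ne, inv_eq_one]; exact_mod_cast h3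
    · rw [show (-3 : ℤ) * -1 = 3 by norm_num]; exact_mod_cast h3
  all_goals
    rw [show ∀ a b c : G, a * b * c * (a * b)⁻¹ = a * (b * c * b⁻¹) * a⁻¹ by intros; group,
      S.h_conj _ _ h1, S.h_conj _ _ h0, ← zpow_mul, ← mul_assoc, ← zpow_add₀ h0, pair_self]
  · rw [mul_assoc (-2), h]; simp
  · ring_nf

omit [Rep D F] [Dbl D] in
theorem sep_orth {r s : Rt D} (h : pair s r = 0) {v : F} (h0 : v ≠ 0) (hv : v ^ 2 ≠ 1) : Sep F r s :=
  ⟨s, v, h0, by simp [h], by rw [pair_self]; exact_mod_cast hv⟩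

omit [Rep D F] [Dbl D] in
theorem sep_one {r s γ : Rt D} (h : pair γ r = 0) (h1 : pair γ s = 1 ∨ pair γ s = -1) {v : F}
    (h0 : v ≠ 0) (hv : v ≠ 1) : Sep F r s :=
  ⟨γ, v, h0, by simp [h], by rcases h1 with e | e <;> simpa [e]⟩

omit [Rep D F] [Dbl D] in
theorem sep_B2 {r s : Rt D} (h : pair s r * pair r s = 2) (h1 : pair r s = 1 ∨ pair r s = -1) {v : F}
    (h0 : v ≠ 0) (hv : v ≠ 1) : Sep F r s :=
  sep_one (γ := rrefl s r) (by simp [pair_rrefl_left, h]) (by simp [pair_rrefl_left]; omega) h0 hv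

omit [Rep D F] [Dbl D] in
theorem sep_of_odd (h2 : (2 : F) ≠ 0) {r s γ : Rt D} (h : Odd (pair γ r + pair γ s)) :
    Sep F r s ∨ Sep F s r := by
  have h3 : (-1 : F) ≠ 1 := fun e => h2 (by linear_combination -e)
  rcases Int.even_or_odd (pair γ r) with e | e
  · exact Or.inl ⟨γ, -1, by simp, e.neg_one_zpow, by
      rwa [((Int.odd_add'.1 h).2 e).neg_one_zpow]⟩
  · exact Or.inr ⟨γ, -1, by simp, ((Int.odd_add.1 h).1 e).neg_one_zpow, by rwa [e.neg_one_zpow]⟩

omit [Dbl D] in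
theorem vec_of_one {a s : Rt D} (h : pair a s = 1) : vec s = vec a + vec (rrefl a s) := by
  simp [vec_rrefl, h]

theorem StSys.cm_B2 (S : StSys D F G) {a b : Rt D} (h1 : pair a b = -1) (h2 : pair b a = -2) (t u : F) :
    Commute (S.x (rrefl b a) t) (S.x a u) := by
  have h3 : pair a (rrefl b a) = 0 := by simp [pair_rrefl', h1, h2]
  refine S.cm_not_add (fun e => by
    have := congrArg (pair · (rrefl b a)) e
    simp only [h3, pair_neg_left, pair_self] at this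
    omega) (fun ⟨k, hk⟩ => ?_) t u
  have h4 : vec k = ((2 : ℕ) : ℤ) • vec (rrefl a b) := by simp only [hk, vec_rrefl, h1, h2]; module
  have h5 := eq_of_smul_vec h4
  rw [h5] at h4
  exact vec_ne_zero _ (by simpa [two_smul] using h4 : vec (rrefl a b) = 0)

variable [Uni D]

omit [Rep D F] in
theorem cf_ne {r s k : Rt D} (h : vec k = vec r + vec s) (h1 : pair r s ≠ 0 ∨ (2 : F) ≠ 0) :
    (cf r s 1 1 : F) ≠ 0 := by
  obtain ⟨ε, h2, h3⟩ := Uni.u11 r s k h
  have : (ε : F) ≠ 0 := left_ne_zero_of_mul_eq_one (b := ε) (by rw [← Int.cast_mul, h2, Int.cast_one])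
  rw [h3]
  split_ifs with e <;> simp_all

omit [Rep D F] in
theorem cf12_ne {a b : Rt D} (h2 : pair b a = -2) : (cf a b 1 2 : F) ≠ 0 :=
  left_ne_zero_of_mul_eq_one (b := cf a b 1 2) (by
    rw [← Int.cast_mul, Uni.u12 a b _ (vec_rrefl_of_two h2), Int.cast_one])

theorem StSys.cm_two (S : StSys D F G) (h2 : (2 : F) = 0) {r s : Rt D} (h : 0 ≤ pair r s) (t u : F) :
    Commute (S.x r t) (S.x s u) := by
  have h3 : s ≠ neg r := by rintro rfl; simp at h
  by_cases e : ∃ k, vec k = vec r + vec s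
  · obtain ⟨k, hk⟩ := e
    have h4 : pair r s = 0 := h.antisymm' (pair_nonpos_of_add hk)
    obtain ⟨ε, -, h5⟩ := Uni.u11 r s k hk
    refine S.commute_of_cts h3 ?_ t u
    simp [cts_add hk (by omega) (by rw [pair_eq_zero_comm.1 h4]; omega), h5, h4, h2]
  · exact S.cm_not_add h3 e t u

omit [Uni D] in
theorem cts_A2 {a s : Rt D} (h1 : pair a s = 1) (h2 : pair s a = 1) :
    cts a (rrefl a s) = [(s, cf a (rrefl a s) 1 1, 1, 1)] :=
  cts_add (vec_of_one h1) (by simp [h1]) (by simp [pair_rrefl_left, h2])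

theorem lcA (hψ : CExt ψ) {r s a : Rt D} (h1 : pair a s = 1) (h2 : pair s a = 1)
    (ha : ∀ t u, Commute (S.x r t) (S.x a u)) (hb : ∀ t u, Commute (S.x r t) (S.x (rrefl a s) u)) :
    LC S ψ r s := by
  have := pair_rrefl_self a s
  exact lc_of_cts hψ (l₁ := []) (l₂ := []) (fun e => by simp [e, h1] at this)
    (fun e => by simp [e, h1] at this) (cts_A2 h1 h2) (cf_ne (vec_of_one h1) (by simp [h1])) ha hb
    (by simp) (by simp)

theorem lcB1 (hψ : CExt ψ) {r a b : Rt D} (h1 : pair a b = -1) (h2 : pair b a = -2)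
    (ha : ∀ t u, Commute (S.x r t) (S.x a u)) (hb : ∀ t u, Commute (S.x r t) (S.x b u))
    (h : LC S ψ r (rrefl b a)) : LC S ψ r (rrefl a b) :=
  lc_of_cts hψ (l₁ := []) (fun e => by simp [e] at h1) (fun e => by simp [e] at h1) (cts_B2 h1 h2)
    (cf_ne (k := rrefl a b) (by simp [vec_rrefl, h1, add_comm]) (by simp [h1])) ha hb (by simp)
    (by simpa using h)

theorem lcB2 (hψ : CExt ψ) {r a b : Rt D} (h1 : pair a b = -1) (h2 : pair b a = -2)
    (ha : ∀ t u, Commute (S.x r t) (S.x a u)) (hb : ∀ t u, Commute (S.x r t) (S.x b u))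
    (h : LC S ψ r (rrefl a b)) : LC S ψ r (rrefl b a) :=
  lc_of_cts hψ (l₁ := [_]) (l₂ := []) (fun e => by simp [e] at h1) (fun e => by simp [e] at h1)
    (cts_B2 h1 h2) (cf12_ne h2) ha hb (by simpa using h) (by simp)

variable [Conn D]

omit [Rep D F] [Dbl D] [Uni D] [Conn D] in
theorem exists_cyclo {v : F} (h0 : v ≠ 0) (hv : v ^ 2 ≠ 1) (h2 : (2 : F) ≠ 0) :
    ∃ w : F, w ≠ 0 ∧ w ≠ 1 ∧ 1 - w + w ^ 2 ≠ 0 := by
  by_cases h : 1 - v + v ^ 2 = 0
  · exact ⟨-v, neg_ne_zero.2 h0, fun e => hv (by rw [← neg_sq, e, one_pow]), fun e =>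
      mul_ne_zero h2 h0 (by linear_combination e - h)⟩
  · exact ⟨v, h0, fun e => hv (by simp [e]), h⟩

theorem lc_self (hψ : CExt ψ) {v : F} (h0 : v ≠ 0) (hv : v ^ 2 ≠ 1) {r s : Rt D} (h1 : s ≠ r)
    (h2 : 0 < pair r s) : LC S ψ r r := by
  have hv' : v ≠ 1 := fun e => hv (by simp [e])
  have lc : ∀ {l k : Rt D}, pair l k = 1 → pair k l = 2 → LC S ψ l k := fun h3 h4 =>
    ((sep_B2 (by simp [h3, h4]) (Or.inl h3) h0 hv').kill hψ).lc (S.cm_pos (by omega))
  rcases pair_cases h1 (by rintro rfl; simp at h2) with h | ⟨h3, h4⟩ | ⟨h3, h4⟩ | ⟨h3, h4⟩ | h | h | h <;>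
    try omega
  · exact lcA hψ h4 h3 (S.cm_pos h2) (S.cm_pos (by simp [pair_rrefl', h3, h4]))
  · have h5 : pair (rrefl s r) s = -1 := by simp [pair_rrefl_left, h3]
    have h6 : pair s (rrefl s r) = -2 := by simp [h4]
    have h7 := lcB2 hψ h5 h6 (S.cm_B2 h5 h6) (r := rrefl s (rrefl s r)) (S.cm_pos (by simpa))
    rw [rrefl_rrefl] at h7
    exact h7 (lc (by simp [pair_rrefl', h3, h4, h5]) (by simp [pair_rrefl_left, h3, h4, h6]))
  · by_cases e : (2 : F) = 0
    · have h5 : pair s (rrefl s r) = -1 := by simp [h4]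
      have h6 : pair (rrefl s r) s = -2 := by simp [pair_rrefl_left, h3]
      have h7 := lcB1 hψ h5 h6 (S.cm_pos h2) (S.cm_two e (by simp [pair_rrefl', h3, h4]))
      rw [rrefl_rrefl] at h7
      exact h7 (lc (by simp [pair_rrefl_left, h3, h4, h5]) (by simp [pair_rrefl', h3, h4, h6])).symm
    · obtain ⟨w, h5, h6, h7⟩ := exists_cyclo h0 hv e
      exact lc_self_of_pair hψ h4 h5 h6 h7

omit [Uni D] in
theorem lifts_K (hψ : CExt ψ) (h1 : ∀ r, ∃ Y, Base S ψ r Y)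
    (h2 : ∀ r s, s ≠ r → s ≠ neg r → Kill S ψ r s ∨ Kill S ψ s r ∨ LC S ψ r s) : Lifts S ψ := by
  choose Y hY using h1
  obtain ⟨L, -⟩ := exists_lift hψ Y fun r _ => hY r
  exact ⟨L.y, L.rels' hψ fun r s a b => (h2 r s a b).imp_right (.imp_right Lift.P_of_lc), L.ψ_y⟩

omit [Uni D] in
theorem kill_cases (hψ : CExt ψ) {v : F} (h0 : v ≠ 0) (hv : v ≠ 1) {r s : Rt D} (a : s ≠ r)
    (b : s ≠ neg r) (h2 : (2 : F) = 0 → pair r s * pair s r = 1 → Kill S ψ r s) :
    pair r s = 0 ∨ Kill S ψ r s ∨ Kill S ψ s r := by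
  have h3 : pair r s * pair s r = 1 → pair r s = 0 ∨ Kill S ψ r s ∨ Kill S ψ s r := fun h => by
    by_cases e : (2 : F) = 0
    · exact Or.inr (Or.inl (h2 e h))
    · refine Or.inr ((sep_of_odd e (γ := r) ?_).imp (·.kill hψ) (·.kill hψ))
      rcases Int.mul_eq_one_iff_eq_one_or_neg_one.1 h with ⟨e, -⟩ | ⟨e, -⟩ <;> rw [e, pair_self] <;> decide
  rcases pair_cases a b with h | h | h | h | h | h | h
  · exact Or.inl h.1
  · exact h3 (by simp [h])
  · exact Or.inr (Or.inl ((sep_B2 (by simp [h]) (by simp [h]) h0 hv).kill hψ))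
  · exact Or.inr (Or.inr ((sep_B2 (by simp [h]) (by simp [h]) h0 hv).kill hψ))
  · exact h3 (by simp [h])
  · exact Or.inr (Or.inl ((sep_B2 (by simp [h]) (by simp [h]) h0 hv).kill hψ))
  · exact Or.inr (Or.inr ((sep_B2 (by simp [h]) (by simp [h]) h0 hv).kill hψ))

omit [Uni D] in
theorem lifts_four' (hψ : CExt ψ) (hS : S.HMul) {v : F} (h0 : v ≠ 0) (hv : v ^ 2 ≠ 1)
    (h1 : ∀ r : Rt D, LC S ψ r r)
    (h2 : (2 : F) = 0 → ∀ r s, pair r s * pair s r = 1 → Kill S ψ r s) : Lifts S ψ :=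
  lifts_K hψ (fun r => base_of_H hψ hS (h1 r) (γ := r) h0 (by rw [pair_self]; exact_mod_cast hv))
    fun r s a b => (kill_cases hψ h0 (fun e => hv (by simp [e])) a b fun e => h2 e r s).elim
      (fun h => Or.inl ((sep_orth (pair_eq_zero_comm.1 h) h0 hv).kill hψ)) (.imp_right Or.inl)

theorem lifts_four (hψ : CExt ψ) (hS : S.HMul) {v : F} (h0 : v ≠ 0) (hv : v ^ 2 ≠ 1)
    (h1 : ∀ r : Rt D, ∃ s, s ≠ r ∧ 0 < pair r s)
    (h2 : (2 : F) = 0 → ∀ r s, pair r s * pair s r = 1 → Kill S ψ r s) : Lifts S ψ :=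
  lifts_four' hψ hS h0 hv (fun r => let ⟨_, a, b⟩ := h1 r; lc_self hψ h0 hv a b) h2

end Gen
end H5
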