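import Cfsg.Agent.H5.GM3

/-! Lifting the Steinberg relations over the fields with two and three elements. -/

set_option autoImplicit false

namespace H5
namespace Gen

open Cfsg Equiv

attribute [-simp] zsmul_eq_mul

variable {D : RS}

/-- `a` and `r` span a system of type A₂ -/
def PrA (a r : Rt D) : Prop := pair a r = 1 ∧ pair r a = 1
/-- `b` is short, `k` is long and they span a system of type B₂ -/
def PrB (b k : Rt D) : Prop := pair k b = 1 ∧ pair b k = 2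

theorem PrA.ln_eq {a r : Rt D} (h : PrA a r) : ln a = ln r :=
  ln_eq_of_pair (h.1.trans h.2.symm) (by simp [h.1])

theorem PrA.flip {a r : Rt D} (h : PrA a r) : PrA (rrefl a r) r :=
  ⟨by simp [pair_rrefl_left, h.1, h.2], by simp [pair_rrefl', h.1, h.2]⟩

theorem PrA.flip_flip {a r : Rt D} (h : PrA a r) : rrefl (rrefl a r) r = a :=
  vec_injective (by rw [vec_rrefl, h.flip.1, vec_rrefl, h.1]; simp)

theorem PrA.wg {a r : Rt D} (h : PrA a r) (w : Wg D) : PrA (w a) (w r) := by simpa [PrA] using h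

theorem PrB.wg {a r : Rt D} (h : PrB a r) (w : Wg D) : PrB (w a) (w r) := by simpa [PrB] using h

theorem PrA.move {a a' : Rt D} (h : PrA a a') : rrefl (rrefl a a') a = a' :=
  vec_injective (by rw [vec_rrefl, pair_rrefl_left, h.2, vec_rrefl, h.1]; simp)

theorem PrA.orth {a a' r : Rt D} (h : PrA a a') (h1 : pair r a = pair r a') : pair (rrefl a a') r = 0 :=
  pair_eq_zero_comm.1 (by rw [pair_rrefl', h.1, h1]; simp)

theorem PrB.ln_eq {b k : Rt D} (h : PrB b k) : ln k = 2 * ln b := by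
  have := ln_pair_symm k b
  rw [h.1, h.2] at this
  omega

theorem PrB.pa {b k : Rt D} (h : PrB b k) : pair (rrefl b k) b = -1 := by
  simp [pair_rrefl_left, h.1]

theorem PrB.pb {b k : Rt D} (h : PrB b k) : pair b (rrefl b k) = -2 := by simp [h.2]

theorem PrB.orth {b k : Rt D} (h : PrB b k) : pair (rrefl b k) k = 0 := by
  simp [pair_rrefl_left, h.1, h.2]

theorem PrB.vec_eq {b k : Rt D} (h : PrB b k) : vec k = vec (rrefl (rrefl b k) b) + vec b := by
  rw [vec_rrefl, h.pa, vec_rrefl, h.2]; module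

theorem PrB.flip {b k : Rt D} (h : PrB b k) : PrB (rrefl (rrefl b k) b) k :=
  ⟨by rw [pair_rrefl', pair_eq_zero_comm.1 h.orth, h.1]; simp,
    by rw [pair_rrefl_left, h.orth, h.2]; simp⟩

variable [Dbl D]

theorem pair_same {a b : Rt D} (h : ln a = ln b) :
    b = a ∨ b = neg a ∨ PrA a b ∨ pair a b = 0 ∨ pair a b = -1 := by
  by_cases e : b = a
  · exact Or.inl e
  by_cases e' : b = neg a
  · exact Or.inr (Or.inl e')
  have := pair_symm_of_ln h
  have := pair_cases e e'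
  unfold PrA
  omega

theorem orbit_A {a a' r : Rt D} (h : PrA a r) (h' : PrA a' r) : a' = a ∨ a' = rrefl a r ∨
    ∃ γ, pair γ r = 0 ∧ (rrefl γ a = a' ∨ rrefl γ (rrefl a r) = a') := by
  have h1 := pair_of_add (vec_of_one h.1) a'
  have h2 := h.flip
  rcases pair_same (h'.ln_eq.trans h.ln_eq.symm) with e | e | e | e
  · exact Or.inl e.symm
  · have := h.1; rw [e, pair_neg_left, h'.1] at this; omega
  · exact Or.inr (Or.inr ⟨_, PrA.orth ⟨e.2, e.1⟩ (h.2.trans h'.2.symm), Or.inl (PrA.move ⟨e.2, e.1⟩)⟩)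
  rcases pair_same (h'.ln_eq.trans h2.ln_eq.symm) with e' | e' | e' | e'
  · exact Or.inr (Or.inl e'.symm)
  · have := h2.1; rw [e', pair_neg_left, h'.1] at this; omega
  · exact Or.inr (Or.inr ⟨_, PrA.orth ⟨e'.2, e'.1⟩ (h2.2.trans h'.2.symm), Or.inr (PrA.move ⟨e'.2, e'.1⟩)⟩)
  · have := h'.1; omega

theorem orbit_B {b b' k : Rt D} (h : PrB b k) (h' : PrB b' k) :
    b' = b ∨ ∃ γ, pair γ k = 0 ∧ rrefl γ b = b' := by
  have h1 := pair_of_add h.vec_eq b'
  have h2 := h.flip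
  have l1 := h.ln_eq
  have l2 := h'.ln_eq
  have l3 := h2.ln_eq
  rcases pair_same (show ln b' = ln b by omega) with e | e | e | e
  · exact Or.inl e.symm
  · have := h.1; rw [e, pair_neg_right, h'.1] at this; omega
  · exact Or.inr ⟨_, PrA.orth ⟨e.2, e.1⟩ (h.1.trans h'.1.symm), PrA.move ⟨e.2, e.1⟩⟩
  rcases pair_same (show ln b' = ln (rrefl (rrefl b k) b) by omega) with e' | e' | e' | e'
  · exact Or.inr ⟨_, h.orth, e'⟩
  · have := h2.1; rw [e', pair_neg_right, h'.1] at this; omega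
  · have := h'.2; have := e'.1; omega
  · have := h'.2; omega

variable {F : Type*} [Field F] [Rep D F] {G E : Type*} [Group G] [Group E] {S : StSys D F G}
  {ψ : E →* G}

omit [Dbl D] in
theorem exists_lift_n (hψ : CExt ψ) (γ : Rt D) : ∃ e, ψ e = S.n γ 1 ∧ ∀ r, LC S ψ r γ →
    LC S ψ r (neg γ) → ∀ g t, ψ g = S.x r t → Commute g e := by
  obtain ⟨a, ha⟩ := hψ.surj (S.x γ 1)
  obtain ⟨b, hb⟩ := hψ.surj (S.x (neg γ) (-1⁻¹))
  exact ⟨a * b * a, by simp [StSys.n, ha, hb], fun r h1 h2 g t hg =>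
    ((h1 _ _ _ _ hg ha).mul_right (h2 _ _ _ _ hg hb)).mul_right (h1 _ _ _ _ hg ha)⟩

variable [Uni D] [Conn D]

/-- the commutator of lifts of two root elements -/
def cc (S : StSys D F G) (l : G → E) (a b : Rt D) : E := cm (l (S.x b 1)) (l (S.x a 1))

section Two
variable (hψ : CExt ψ) (hF : ∀ t : F, t = 0 ∨ t = 1) {l : G → E} (hl : ∀ g, ψ (l g) = g)

omit [Dbl D] [Rep D F] [Uni D] [Conn D] in
theorem two_of (hF : ∀ t : F, t = 0 ∨ t = 1) : (2 : F) = 0 :=
  (hF 2).resolve_right fun e => one_ne_zero (α := F) (by linear_combination e)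

omit [Dbl D] [Rep D F] [Uni D] [Conn D] in
theorem prime_of (hF : ∀ t : F, t = 0 ∨ t = 1) (t : F) : ∃ k : ℕ, t = k :=
  (hF t).elim (⟨0, by simp [·]⟩) (⟨1, by simp [·]⟩)

include hψ hF hl

omit [Dbl D] [Uni D] in
theorem cc_conj {e : E} (he : ψ e ∈ S.N) (a b : Rt D) :
    e * cc S l a b * e⁻¹ = cc S l (S.φ ⟨_, he⟩ a) (S.φ ⟨_, he⟩ b) := by
  obtain ⟨γ, h4, -, h5⟩ := S.acts_φ ⟨_, he⟩
  have h6 : ∀ s, γ s = 1 := fun s => (hF _).resolve_left (h4 s)
  rw [cc, conj_cm]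
  exact hψ.cm_congr (by simp [hl, h5, h6]) (by simp [hl, h5, h6])

omit hψ [Conn D] in
theorem cc_A {a r : Rt D} (h : PrA a r) : ψ (cc S l a (rrefl a r)) = S.x r 1 := by
  have := pair_rrefl_self a r
  rw [cc, map_cm, hl, hl, S.cm_of_cts (fun e => by simp [e, h.1] at this)
    (fun e => by simp [e, h.1] at this) (cts_A2 h.1 h.2)]
  exact congrArg _ ((hF _).resolve_left (by
    simpa using cf_ne (F := F) (vec_of_one h.1) (by simp [h.1])))

omit [Dbl D] [Uni D] [Conn D] in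
theorem cc_sq {a b : Rt D} (h : Commute (cc S l a b) (l (S.x b 1))) : (cc S l a b)⁻¹ = cc S l a b := by
  rw [inv_eq_iff_mul_eq_one, ← pow_two, cc, ← cm_pow_left h]
  exact cm_eq_one.2 (hψ.commute (by simp [hl, S.x_pow, two_of hF]) _)

omit [Conn D] in
theorem cc_flip {a r : Rt D} (h : PrA a r) (h1 : LC S ψ r (rrefl a r)) :
    cc S l (rrefl a r) (rrefl (rrefl a r) r) = cc S l a (rrefl a r) := by
  rw [h.flip_flip, ← cc_sq hψ hF hl (h1 _ _ _ _ (cc_A hF hl h) (hl _)), cc, cc, cm_inv]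

omit [Dbl D] [Uni D] in
theorem cc_conj_n {e : E} {γ : Rt D} (he : ψ e = S.n γ 1) (a b : Rt D) :
    e * cc S l a b * e⁻¹ = cc S l (rrefl γ a) (rrefl γ b) := by
  have h1 : ψ e ∈ S.N := he ▸ S.n_mem_N γ one_ne_zero
  rw [cc_conj hψ hF hl h1, show (⟨_, h1⟩ : S.N) = ⟨_, S.n_mem_N γ one_ne_zero⟩ from Subtype.ext he,
    S.φ_n γ one_ne_zero]
  rfl

omit hψ hF hl [Dbl D] [Uni D] [Conn D] in
theorem rrefl_comm {γ r : Rt D} (h : pair γ r = 0) (a : Rt D) :
    rrefl γ (rrefl a r) = rrefl (rrefl γ a) r := by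
  conv_rhs => rw [← rrefl_of_pair_eq_zero h]
  exact (isAut_rp γ).map_rrefl a r

theorem cc_move {a r γ : Rt D} (h : PrA a r) (h0 : pair γ r = 0) (h1 : LC S ψ r γ)
    (h2 : LC S ψ r (neg γ)) :
    cc S l (rrefl γ a) (rrefl (rrefl γ a) r) = cc S l a (rrefl a r) := by
  obtain ⟨e, he, h3⟩ := exists_lift_n (S := S) hψ γ
  rw [← rrefl_comm h0, ← cc_conj_n hψ hF hl he, ← (h3 r h1 h2 _ _ (cc_A hF hl h)).eq,
    mul_inv_cancel_right]

theorem lc_of_move {a r γ : Rt D} (h : PrA a r) (h0 : pair γ r = 0)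
    (h1 : cc S l (rrefl γ a) (rrefl (rrefl γ a) r) = cc S l a (rrefl a r)) : LC S ψ r (neg γ) := by
  have h2 := two_of hF
  have hT := cc_A (S := S) hF hl h
  have he : ψ (l (S.x γ 1) * l (S.x (neg γ) 1) * l (S.x γ 1)) = S.n γ 1 := by
    simp [StSys.n, hl, show (-1 : F) = 1 by linear_combination -h2]
  rw [← rrefl_comm h0, ← cc_conj_n hψ hF hl he] at h1
  refine lc_of_prime hψ (prime_of hF) hT (hl _) ?_
  have hX := hl (S.x γ 1)
  generalize cc S l a (rrefl a r) = T at *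
  generalize l (S.x γ 1) = X at *
  have c1 : Commute X (cm T X) := (hψ.commute (by
    rw [map_cm, hT, hX]; exact cm_eq_one.2 (S.cm_two h2 (pair_eq_zero_comm.1 h0).ge _ _)) X).symm
  have c2 := hψ.commute (z := X * X) (by simp [hX, S.add, one_add_one_eq_two, h2]) T
  have c3 := hψ.commute (z := cm T X) (by
    rw [map_cm, hT, hX]; exact cm_eq_one.2 (S.cm_two h2 (pair_eq_zero_comm.1 h0).ge _ _))
  generalize l (S.x (neg γ) 1) = Y at *
  have k1 : X⁻¹ * T * X = T * cm T X := by simp [cm, mul_assoc]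
  have k2 : X * T * X⁻¹ = T * cm T X := by
    rw [← k1, show X * T * X⁻¹ = X⁻¹ * (X * X * T) * X⁻¹ by group, c2.eq]; group
  have k3 : Y * (X * T * X⁻¹) * Y⁻¹ = X⁻¹ * T * X := by
    conv_rhs => rw [← h1]
    group
  rw [k1, k2, ← mul_assoc, mul_assoc, (c3 Y⁻¹).eq, ← mul_assoc, mul_left_inj] at k3
  exact (mul_inv_eq_iff_eq_mul.1 k3).symm

omit hl in
theorem lc_two_step {a r γ γ₁ γ₂ : Rt D} (h : PrA a r) (h0 : pair γ r = 0) (h1 : pair γ₁ r = 0)
    (h2 : pair γ₂ r = 0) (c0 : LC S ψ r (rrefl a r)) (c1 : LC S ψ r γ₁) (c1' : LC S ψ r (neg γ₁))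
    (c2 : LC S ψ r γ₂) (c2' : LC S ψ r (neg γ₂)) (e : rrefl γ a = rrefl γ₂ (rrefl γ₁ (rrefl a r))) :
    LC S ψ r (neg γ) := by
  choose l hl using hψ.surj
  have p1 : PrA (rrefl γ₁ (rrefl a r)) r := by
    simpa [rrefl_of_pair_eq_zero h1] using h.flip.wg ⟨rp γ₁, rp_mem γ₁⟩
  exact lc_of_move hψ hF hl h h0 (by
    rw [e, cc_move hψ hF hl p1 h2 c2 c2', cc_move hψ hF hl h.flip h1 c1 c1', cc_flip hψ hF hl h c0])

omit hl in
theorem lifts_two (lc : ∀ r s, 0 ≤ pair r s → LC S ψ r s)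
    (hex : ∀ r : Rt D, (∃ a, PrA a r) ∨ ∃ b, PrB b r)
    (hB : ∀ b k : Rt D, PrB b k → (∃ a, PrA a b) ∧ ¬ ∃ a, PrA a k) : Lifts S ψ := by
  classical
  choose l hl using hψ.surj
  have h2 := two_of hF
  have lc0 : ∀ {r γ}, pair γ r = 0 → LC S ψ r γ := fun h => lc _ _ (pair_eq_zero_comm.1 h).ge
  have lc0' : ∀ {r γ}, pair γ r = 0 → LC S ψ r (neg γ) := fun h => lc0 (by simpa)
  have iA : ∀ {r a a'}, PrA a r → PrA a' r → cc S l a' (rrefl a' r) = cc S l a (rrefl a r) := by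
    intro r a a' h h'
    have h3 := cc_flip hψ hF hl h (lc _ _ (by simp [h.flip.2]))
    rcases orbit_A h h' with rfl | rfl | ⟨γ, h4, rfl | rfl⟩
    exacts [rfl, h3, cc_move hψ hF hl h h4 (lc0 h4) (lc0' h4),
      (cc_move hψ hF hl h.flip h4 (lc0 h4) (lc0' h4)).trans h3]
  let cA (r : Rt D) : E := if h : ∃ a, PrA a r then cc S l h.choose (rrefl h.choose r) else 1
  have eA : ∀ {r a}, PrA a r → cA r = cc S l a (rrefl a r) := fun {r a} h => by
    have h' : ∃ a, PrA a r := ⟨a, h⟩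
    simp only [cA, dif_pos h']
    exact iA h h'.choose_spec
  have jA : ∀ {e} (he : ψ e ∈ S.N) {r a}, PrA a r → e * cA r * e⁻¹ = cA (S.φ ⟨_, he⟩ r) := by
    intro e he r a h
    rw [eA h, eA (h.wg _), cc_conj hψ hF hl he, (wg_aut _).map_rrefl]
  let dB (k b : Rt D) : E := (cA (rrefl (rrefl b k) b))⁻¹ * cc S l (rrefl b k) b
  have jB : ∀ {e} (he : ψ e ∈ S.N) {k b}, PrB b k →
      e * dB k b * e⁻¹ = dB (S.φ ⟨_, he⟩ k) (S.φ ⟨_, he⟩ b) := by
    intro e he k b h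
    obtain ⟨a, ha⟩ := (hB _ _ h.flip).1
    simp only [dB]
    rw [← (wg_aut _).map_rrefl, ← (wg_aut _).map_rrefl, ← jA he ha, ← cc_conj hψ hF hl he]
    group
  have cB : ∀ {k b}, PrB b k → ψ (cc S l (rrefl b k) b) = S.x (rrefl (rrefl b k) b) 1 * S.x k 1 := by
    intro k b h
    have h3 : b ≠ rrefl b k := fun e => by have := h.pb; rw [← e, pair_self] at this; omega
    have h4 : b ≠ neg (rrefl b k) := fun e => by
      have := congrArg (pair · b) e; simp [h.pa] at this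
    have h5 := (hF _).resolve_left (cf_ne (F := F) (r := rrefl b k) (s := b) (k := rrefl (rrefl b k) b)
      (by simp [vec_rrefl _ b, h.pa, add_comm]) (by simp [h.pa]))
    have h6 := (hF _).resolve_left (cf12_ne (F := F) h.pb)
    rw [cc, map_cm, hl, hl, cm, S.comm' h3 h4]
    simp [cword, cts_B2 h.pa h.pb, h5, h6, show (-1 : F) = 1 by linear_combination -h2]
  have pB : ∀ {k b}, PrB b k → ψ (dB k b) = S.x k 1 := by
    intro k b h
    obtain ⟨a, ha⟩ := (hB _ _ h.flip).1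
    simp [dB, eA ha, cc_A hF hl ha, cB h]
  have iB : ∀ {k b b'}, PrB b k → PrB b' k → dB k b' = dB k b := by
    intro k b b' h h'
    rcases orbit_B h h' with rfl | ⟨γ, h3, rfl⟩
    · rfl
    obtain ⟨e, he, h4⟩ := exists_lift_n (S := S) hψ γ
    have h1 : ψ e ∈ S.N := he ▸ S.n_mem_N γ one_ne_zero
    have h5 := jB h1 h
    rw [show (⟨_, h1⟩ : S.N) = ⟨_, S.n_mem_N γ one_ne_zero⟩ from Subtype.ext he,
      S.φ_n γ one_ne_zero, ← (h4 k (lc0 h3) (lc0' h3) _ _ (pB h)).eq, mul_inv_cancel_right] at h5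
    simpa [rrefl_of_pair_eq_zero h3] using h5.symm
  let c (r : Rt D) : E := if h : ∃ b, PrB b r then dB r h.choose else cA r
  have eB : ∀ {r b}, PrB b r → c r = dB r b := fun {r b} h => by
    have h' : ∃ b, PrB b r := ⟨b, h⟩
    simp only [c, dif_pos h']
    exact iB h h'.choose_spec
  have eA' : ∀ {r a}, PrA a r → c r = cA r := fun {r a} h =>
    dif_neg fun ⟨b, hb⟩ => (hB b r hb).2 ⟨a, h⟩
  have pc : ∀ r, ψ (c r) = S.x r 1 := fun r => by
    rcases hex r with ⟨a, h⟩ | ⟨b, h⟩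
    · rw [eA' h, eA h, cc_A hF hl h]
    · rw [eB h, pB h]
  have jc : ∀ {e} (he : ψ e ∈ S.N) r, e * c r * e⁻¹ = c (S.φ ⟨_, he⟩ r) := fun he r => by
    rcases hex r with ⟨a, h⟩ | ⟨b, h⟩
    · rw [eA' h, eA' (h.wg _), jA he h]
    · rw [eB h, eB (h.wg _), jB he h]
  have sA : ∀ {r a}, PrA a r → cA r * cA r = 1 := fun h => by
    rw [eA h, ← inv_eq_iff_mul_eq_one]
    exact cc_sq hψ hF hl (lc _ _ (by simp [h.flip.2]) _ _ _ _ (cc_A hF hl h) (hl _))
  have sc : ∀ r, c r * c r = 1 := fun r => by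
    rcases hex r with ⟨a, h⟩ | ⟨b, h⟩
    · rw [eA' h, sA h]
    obtain ⟨a, ha⟩ := (hB _ _ h.flip).1
    have h3 := (pc _).symm.trans (congrArg ψ (eA' ha)) |>.symm
    have h4 : cc S l (rrefl b r) b = cA (rrefl (rrefl b r) b) * c r := by simp [eB h, dB]
    have h5 := cc_sq hψ hF hl (a := rrefl b r) (b := b) (h4 ▸ (lc _ b (by
      rw [pair_rrefl_left, h.pa, h.pb]; simp) _ _ _ _ h3 (hl _)).mul_left
      (lc r b (by simp [h.1]) _ _ _ _ (pc r) (hl _)))
    rwa [inv_eq_iff_mul_eq_one, h4, (lc _ r (by simp [h.flip.2]) _ _ _ _ h3 (pc r)).symm.mul_mul_mul_comm,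
      sA ha, one_mul] at h5
  let L : Lift S ψ :=
    { y := fun r t => if t = 0 then 1 else c r
      ψ_y := fun r t => by rcases hF t with rfl | rfl <;> simp [pc]
      add := fun r t u => by
        rcases hF t with rfl | rfl <;> rcases hF u with rfl | rfl <;> simp [sc, one_add_one_eq_two, h2]
      conj := fun e he r t s u h => by
        obtain ⟨γ, h4, -, h5⟩ := S.acts_φ ⟨_, he⟩
        rcases hF t with rfl | rfl
        · simp [S.x_eq_one_iff.1 (h.symm.trans (by simp))]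
        · rw [h5, (hF _).resolve_left (h4 r), one_mul] at h
          obtain ⟨rfl, rfl⟩ := S.x_eq_x one_ne_zero h
          simp [jc he] }
  have y1 : ∀ r, L.y r 1 = c r := fun r => if_neg one_ne_zero
  have hP : ∀ r s, cc S l r s ∈ L.U {k | Btw r s k} → L.P r s := fun r s h t u => by
    rcases hF t with rfl | rfl
    · simp [cm]
    rcases hF u with rfl | rfl
    · simp [cm]
    rwa [hψ.cm_congr (a' := l (S.x s 1)) (b' := l (S.x r 1)) (by rw [L.ψ_y, hl]) (by rw [L.ψ_y, hl])]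
  have hP2 : ∀ r s, pair r s = -1 → pair s r = -2 → L.P r s := fun r s h3 h4 => hP r s (by
    have h5 : PrB s (rrefl s r) := ⟨by simp [pair_rrefl_left, h3], by simp [h4]⟩
    obtain ⟨a, ha⟩ := (hB _ _ h5.flip).1
    have h6 := eB h5
    simp only [dB, rrefl_rrefl] at h6 ha
    rw [eq_inv_mul_iff_mul_eq, ← eA' ha, ← y1, ← y1] at h6
    exact h6 ▸ mul_mem (L.y_mem (A := {k | Btw r s k}) ⟨1, 1, one_pos, one_pos, by simp [vec_rrefl, h3, add_comm]⟩ _)
      (L.y_mem (A := {k | Btw r s k}) ⟨1, 2, one_pos, two_pos, by simpa using vec_rrefl_of_two h4⟩ _))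
  refine ⟨L.y, L.rels' hψ fun r s h3 h4 => Or.inr (Or.inr ?_), L.ψ_y⟩
  rcases pair_cases h3 h4 with h | h | h | h | h | h | h
  iterate 4 exact Lift.P_of_lc (lc _ _ (by omega))
  · have h5 : PrA r (rrefl r s) := ⟨by simp [h], by simp [pair_rrefl_left, h]⟩
    have h6 := (eA' h5).trans (eA h5)
    rw [rrefl_rrefl, ← y1] at h6
    exact hP r s (h6 ▸ L.y_mem (A := {k | Btw r s k})
      ⟨1, 1, one_pos, one_pos, by simp [vec_rrefl, h, add_comm]⟩ _)
  · exact hP2 r s h.1 h.2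
  · exact (hP2 s r h.2 h.1).symm

end Two

section Three
variable (hψ : CExt ψ) (hF : ∀ t : F, ∃ k : ℕ, t = k) (h3 : (3 : F) = 0)
include hψ hF h3

omit [Dbl D] [Uni D] [Conn D] in
theorem lc_of_swap' {r s : Rt D} (h : Commute (S.x r 1) (S.x s 1)) {g : G} {ε ε' : F} (hε : ε * ε = 1)
    (hr : ∀ t, g * S.x r t * g⁻¹ = S.x s (ε * t)) (hs : ∀ t, g * S.x s t * g⁻¹ = S.x r (ε' * t))
    (hg : g * g * S.x r 1 * (g * g)⁻¹ = S.x r 1) : LC S ψ r s := by
  obtain rfl : ε' = ε := by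
    rw [show g * g * S.x r 1 * (g * g)⁻¹ = g * (g * S.x r 1 * g⁻¹) * g⁻¹ by group, hr, hs] at hg
    linear_combination ε * S.x_injective r hg - ε' * hε
  obtain ⟨a, ha⟩ := hψ.surj (S.x r 1)
  obtain ⟨b, hb⟩ := hψ.surj (S.x s 1)
  obtain ⟨e, he⟩ := hψ.surj g
  have c := hψ.commute (z := cm a b) (by rw [map_cm, ha, hb]; exact cm_eq_one.2 h)
  have h4 : cm a b = (cm a b)⁻¹ := by
    rcases mul_self_eq_one_iff.1 hε with rfl | rfl
    · rw [cm_inv, ← mul_inv_eq_iff_eq_mul.2 (c e).eq.symm, conj_cm]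
      exact hψ.cm_congr (by simp [he, ha, hb, hr]) (by simp [he, ha, hb, hs])
    · rw [← mul_inv_eq_iff_eq_mul.2 (c (a * b)).inv_left.eq.symm, cm_inv,
        show a * b * cm b a * (a * b)⁻¹ = cm b⁻¹ a⁻¹ by simp [cm, mul_assoc],
        ← mul_inv_eq_iff_eq_mul.2 (c e).eq.symm, conj_cm]
      exact hψ.cm_congr (by simp [he, ha, hb, hr, S.x_inv]) (by simp [he, ha, hb, hs, S.x_inv])
  have h5 : cm a b ^ 3 = 1 := by
    rw [← cm_pow_left (c a)]
    exact cm_eq_one.2 (hψ.commute (by simp [ha, S.x_pow, h3]) _)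
  rw [pow_succ, sq, eq_inv_iff_mul_eq_one.1 h4, one_mul] at h5
  exact lc_of_prime hψ hF ha hb (cm_eq_one.1 h5)

omit hψ hF h3 [Dbl D] [Uni D] in
theorem StSys.n_conj' (S : StSys D F G) (r s : Rt D) : ∃ ε : F, ε * ε = 1 ∧
    ∀ u, S.n r (-1) * S.x s u * (S.n r (-1))⁻¹ = S.x (rrefl r s) (ε * u) :=
  ⟨_, by rw [mul_mul_mul_comm, sg_mul_self, ← mul_zpow]; simp, S.n_conj r s (by simp)⟩

omit [Dbl D] [Uni D] in
theorem lc_swap_one {r k : Rt D} (h : Commute (S.x r 1) (S.x (rrefl k r) 1)) (h1 : Even (pair k r)) :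
    LC S ψ r (rrefl k r) := by
  obtain ⟨ε, a, b⟩ := S.n_conj' k r
  obtain ⟨ε', -, c⟩ := S.n_conj' k (rrefl k r)
  rw [rrefl_rrefl] at c
  exact lc_of_swap' hψ hF h3 h a b c ((S.h_conj k r (by simp) 1).trans (by rw [h1.neg_one_zpow, one_mul]))

omit [Uni D] in
theorem lc_swap_two {r s a : Rt D} (h0 : pair r s = 0) (h : ¬ ∃ k, vec k = vec r + vec s) (h1 : PrA a r)
    (h2 : PrA (neg a) s) : LC S ψ r s := by
  have p1 : pair a s = -1 := by have := h2.1; rw [pair_neg_left] at this; omega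
  have p2 : pair s a = -1 := by have := h2.2; rw [pair_neg_right] at this; omega
  have p3 := pair_eq_zero_comm.1 h0
  obtain ⟨b, hb⟩ : ∃ b, b = rrefl s (rrefl a r) := ⟨_, rfl⟩
  have v : vec b = vec r - vec a - vec s := by
    simp [hb, vec_rrefl s, pair_rrefl', p2, p3, h1.1, vec_rrefl a]
  have l : ln b = ln r := by rw [hb, ln_rrefl, ln_rrefl]
  have q : ∀ x, pair x b = pair x r - pair x a - pair x s := fun x => by rw [← pv_vec, v]; simp
  have q1 : pair a b = 0 := by simp [q, h1.1, p1]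
  have q2 : pair b r = 1 := by rw [pair_symm_of_ln l, q]; simp [h0, h1.2]
  have q3 : pair b s = -1 := by
    rw [pair_symm_of_ln (l.trans (h1.ln_eq.symm.trans ((ln_neg a).symm.trans h2.ln_eq))), q]
    simp [p2, p3]
  have nb : ∀ a' b' : Rt D, (a' = a ∨ a' = neg a) → (b' = b ∨ b' = neg b) → ∀ t u,
      Commute (S.x a' t) (S.x b' u) := fun a' b' ha' hb' => by
    have q4 : pair a' b' = 0 := by rcases ha' with rfl | rfl <;> rcases hb' with rfl | rfl <;> simp [q1]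
    refine S.cm_not_add (by rintro rfl; simp at q4) fun ⟨k, hk⟩ => h ?_
    have key : ∀ k, vec k = vec a + vec b → ∃ k, vec k = vec r + vec s := fun k hk =>
      ⟨rrefl s k, by rw [vec_rrefl, pair_of_add hk, hk, q, p2, p3, v, pair_self]; module⟩
    have q5 := pair_eq_zero_comm.1 q1
    rcases ha' with rfl | rfl <;> rcases hb' with rfl | rfl
    · exact key k hk
    · exact key (rrefl b k) (by rw [vec_rrefl, pair_of_add hk, hk]; simp [q5]; module)
    · exact key (rrefl a k) (by rw [vec_rrefl, pair_of_add hk, hk]; simp [q1]; module)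
    · exact key (neg k) (by simp [hk, add_comm])
  have nc : Commute (S.n a (-1)) (S.n b (-1)) := by
    have : ∀ a', (a' = a ∨ a' = neg a) → ∀ t, Commute (S.x a' t) (S.n b (-1)) := fun a' ha' t =>
      ((nb a' b ha' (Or.inl rfl) _ _).mul_right (nb a' _ ha' (Or.inr rfl) _ _)).mul_right
        (nb a' b ha' (Or.inl rfl) _ _)
    exact ((this a (Or.inl rfl) _).mul_left (this _ (Or.inr rfl) _)).mul_left (this a (Or.inl rfl) _)
  have cj : ∀ x y z : G, x * y * z * (x * y)⁻¹ = x * (y * z * y⁻¹) * x⁻¹ := by intros; group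
  obtain ⟨ε₁, a1, b1⟩ := S.n_conj' b r
  obtain ⟨ε₂, a2, b2⟩ := S.n_conj' a (rrefl b r)
  obtain ⟨ε₃, -, b3⟩ := S.n_conj' b s
  obtain ⟨ε₄, -, b4⟩ := S.n_conj' a (rrefl b s)
  have e1 : rrefl a (rrefl b r) = s := vec_injective (by
    simp only [vec_rrefl, pair_rrefl', q1, q2, h1.1, v]; module)
  have e2 : rrefl a (rrefl b s) = r := vec_injective (by
    simp only [vec_rrefl, pair_rrefl', q1, q3, p1, v]; module)
  refine lc_of_swap' hψ hF h3 (S.cm_not_add (by rintro rfl; simp at h0) h _ _)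
    (g := S.n a (-1) * S.n b (-1)) (ε := ε₂ * ε₁) (ε' := ε₄ * ε₃) (by rw [mul_mul_mul_comm, a1, a2, one_mul])
    (fun t => by rw [cj, b1, b2, e1, mul_assoc]) (fun t => by rw [cj, b3, b4, e2, mul_assoc]) ?_
  rw [nc.symm.mul_mul_mul_comm, cj]
  change S.h a (-1) * (S.h b (-1) * _ * (S.h b (-1))⁻¹) * (S.h a (-1))⁻¹ = _
  rw [S.h_conj _ _ (by simp), S.h_conj _ _ (by simp), q2, h1.1]; simp

theorem lifts_three (hS : S.HMul) (h1 : ∀ r : Rt D, (∃ γ, Odd (pair γ r)) ∨ ∃ b, PrB b r)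
    (h2 : ∀ r s : Rt D, pair r s = 0 → (∃ γ, Odd (pair γ r + pair γ s)) ∨ (∃ k, vec k = vec r + vec s) ∨
      (∃ k, rrefl k r = s ∧ Even (pair k r)) ∨ (ln r = ln s ∧ ∃ a, PrA a r)) : Lifts S ψ := by
  classical
  have t2 : (2 : F) ≠ 0 := fun e => one_ne_zero (α := F) (by linear_combination h3 - e)
  have tm : (-1 : F) ≠ 1 := fun e => t2 (by linear_combination -e)
  have t0 : (-1 : F) ≠ 0 := by simp
  have lc0 : ∀ r s, pair r s = 0 → (¬ ∃ k, vec k = vec r + vec s) → LC S ψ r s := by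
    intro r s h0 h
    have c := S.cm_not_add (by rintro rfl; simp at h0) h
    by_cases ho : ∃ γ, Odd (pair γ r + pair γ s)
    · obtain ⟨γ, ho⟩ := ho
      exact (sep_of_odd t2 ho).elim (fun e => (e.kill hψ).lc c)
        fun e => ((e.kill hψ).lc fun t u => (c u t).symm).symm
    rcases h2 r s h0 with e | e | ⟨k, rfl, e⟩ | ⟨e, a, ha⟩
    · exact absurd e ho
    · exact absurd e h
    · exact lc_swap_one hψ hF h3 (c _ _) e
    have p3 := pair_eq_zero_comm.1 h0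
    have l := ha.ln_eq.trans e
    have h4 : pair a s ≠ 0 := fun e => ho ⟨a, by simp [e, ha.1]⟩
    have h5 := pair_symm_of_ln l
    rcases pair_same l with rfl | rfl | e' | e' | e'
    · simp [ha.2] at h0
    · simp [ha.2] at h0
    · exact lc_swap_two hψ hF h3 h0 h (a := rrefl s a)
        ⟨by simp [pair_rrefl_left, p3, ha.1], by simp [pair_rrefl', h0, ha.2]⟩
        ⟨by simp [pair_rrefl_left, e'.1], by simp [e'.2]⟩
    · exact absurd e' h4
    · exact lc_swap_two hψ hF h3 h0 h ha ⟨by simp [e'], by simp [← h5, e']⟩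
  have lcB : ∀ {b k}, PrB b k → LC S ψ k b := fun h =>
    ((sep_B2 (by simp [h.1, h.2]) (Or.inl h.1) t0 tm).kill hψ).lc (S.cm_pos (by simp [h.1]))
  choose l hl using hψ.surj
  have pc : ∀ {b k}, PrB b k → ∀ {A B t u}, ψ A = S.x (rrefl (rrefl b k) b) t → ψ B = S.x b u →
      ψ (cm B A) = S.x k (-(cf (rrefl (rrefl b k) b) b 1 1 * t * u)) := fun {b k} h A B t u hA hB => by
    have h4 : pair (rrefl (rrefl b k) b) b = 0 := by rw [pair_rrefl_left, h.pa, h.pb]; simp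
    rw [map_cm, hA, hB, S.cm_of_cts (fun e => by rw [← e] at h4; simp at h4) (fun e => by
      have := congrArg (pair · b) e; simp [h4] at this)
      (cts_add h.vec_eq (by omega) (by rw [pair_eq_zero_comm.1 h4]; omega))]
  let Z (b k : Rt D) := Subgroup.zpowers (cc S l (rrefl (rrefl b k) b) b)
  have mZ : ∀ {b b' k}, PrB b k → PrB b' k → (¬ ∃ γ, Odd (pair γ k)) → ∀ {A B t u},
      ψ A = S.x (rrefl (rrefl b' k) b') t → ψ B = S.x b' u → cm B A ∈ Z b k := by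
    intro b b' k h h' ho
    have m0 := @cm_mem_zpowers _ _ _ _ _ _ _ _ S _ hψ hF _ _ _ _ _ (hl _) (hl _) _
      (pc h (hl _) (hl _)) (lcB h.flip) (lcB h)
    rcases orbit_B h h' with rfl | ⟨γ, h4, rfl⟩
    · intro A B t u hA hB; exact m0 hA hB
    intro A B t u hA hB
    have lk : ∀ γ, pair γ k = 0 → LC S ψ k γ := fun γ h4 =>
      lc0 _ _ (pair_eq_zero_comm.1 h4) fun ⟨m, hm⟩ => ho ⟨m, by
        have h5 := pair_of_add hm k
        rw [pair_self, pair_eq_zero_comm.1 h4] at h5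
        have := pair_cases (r := k) (s := m) (by rintro rfl; exact vec_ne_zero γ (by simpa using hm))
          (by rintro rfl; simp at h5)
        rw [show pair m k = 1 by omega]; decide⟩
    obtain ⟨e, he, h5⟩ := exists_lift_n (S := S) hψ γ
    rw [← mul_inv_cancel_right (cm B A) e, (h5 k (lk γ h4) (lk _ (by simpa)) _ _ (pc h' hA hB)).eq,
      conj_cm]
    refine m0 (t := ?_) (u := ?_) ?_ ?_
    rotate_left 2
    · rw [map_mul, map_mul, map_inv, he, hA, S.n_conj _ _ one_ne_zero, ← rrefl_comm h4,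
        show ∀ a b, rrefl (rrefl γ a) (rrefl γ b) = rrefl γ (rrefl a b) from fun a b =>
          ((isAut_rp γ).map_rrefl a b).symm, rrefl_rrefl]
    · rw [map_mul, map_mul, map_inv, he, hB, S.n_conj _ _ one_ne_zero, rrefl_rrefl]
  have hY : ∀ r, ∃ Y, Base S ψ r Y ∧ ((¬ ∃ γ, Odd (pair γ r)) → ∃ b, PrB b r ∧ Y = Z b r) := fun r => by
    by_cases ho : ∃ γ, Odd (pair γ r)
    · obtain ⟨γ, h4⟩ := ho
      obtain ⟨Y, hY⟩ := base_of_H hψ hS (lc_self_of_prime hψ hF r) (γ := γ) t0 (by rwa [h4.neg_one_zpow])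
      exact ⟨Y, hY, fun h => absurd ⟨γ, h4⟩ h⟩
    obtain ⟨b, hb⟩ := (h1 r).resolve_left ho
    refine ⟨Z b r, base_of_cm hψ hF (hl _) (pc hb (hl _) (hl _)) (by
      simpa using cf_ne hb.vec_eq (Or.inr t2)) (lcB hb) fun e he h4 => ?_, fun _ => ⟨b, hb, rfl⟩⟩
    obtain ⟨γ, -, -, h6⟩ := S.acts_φ ⟨_, he⟩
    rw [conj_cm]
    refine mZ hb (h4 ▸ hb.wg (S.φ ⟨_, he⟩)) ho (t := ?_) (u := ?_) ?_ ?_
    rotate_left 2
    · rw [map_mul, map_mul, map_inv, hl, h6, (wg_aut _).map_rrefl, (wg_aut _).map_rrefl, h4]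
    · rw [map_mul, map_mul, map_inv, hl, h6]
  choose Y hY hZ using hY
  obtain ⟨L, hL⟩ := exists_lift hψ Y fun r _ => hY r
  refine ⟨L.y, L.rels' hψ fun r s a b => ?_, L.ψ_y⟩
  rcases kill_cases (S := S) hψ t0 tm a b (fun e => absurd e t2) with h0 | h
  swap
  · exact h.imp_right Or.inl
  by_cases h : ∃ k, vec k = vec r + vec s
  swap
  · exact Or.inr (Or.inr (Lift.P_of_lc (lc0 r s h0 h)))
  obtain ⟨k, hk⟩ := h
  by_cases ho : ∃ γ, Odd (pair γ k)
  · obtain ⟨γ, ho⟩ := ho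
    rw [pair_of_add hk] at ho
    exact ((sep_of_odd t2 ho).imp (·.kill hψ) (·.kill hψ)).imp_right Or.inl
  have h4 : PrB s k := by
    have h5 := pair_of_add hk s
    rw [pair_self, pair_eq_zero_comm.1 h0] at h5
    have := pair_cases (r := s) (s := k) (by rintro rfl; exact vec_ne_zero r (by simpa using hk))
      (by rintro rfl; simp at h5)
    unfold PrB
    omega
  obtain rfl : r = rrefl (rrefl s k) s := vec_injective (add_right_cancel (hk.symm.trans h4.vec_eq))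
  obtain ⟨w, hw⟩ := exists_dominant k
  have ho' : ¬ ∃ γ, Odd (pair γ (w k)) := fun ⟨γ, h⟩ => ho ⟨w⁻¹ γ, by rw [← wg_pair w]; simpa using h⟩
  obtain ⟨b, hb, hb'⟩ := hZ _ ho'
  suffices L.P (w (rrefl (rrefl s k) s)) (w s) by simpa using Or.inr (Or.inr (this.wg hψ w⁻¹))
  intro t u
  refine L.U_mono ?_ (hL _ hw (hb' ▸ mZ hb (h4.wg w) ho' (t := t) (u := u) ?_ (L.ψ_y _ _)))
  · rintro _ rfl
    exact (wg_aut w).btw ⟨1, 1, one_pos, one_pos, by simpa using hk⟩
  · rw [L.ψ_y, (wg_aut _).map_rrefl, (wg_aut _).map_rrefl]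

end Three

end Gen
end H5
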