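import Cfsg.Agent.H5.GM4
import Cfsg.Prelude.Def_KGroupFacts

/-! Schur multipliers from the lifting of the Steinberg relations. -/

set_option autoImplicit false

universe u v

namespace H5
namespace Gen

open Cfsg Equiv

attribute [-simp] zsmul_eq_mul

theorem surj_of_stem {Γ G Δ : Type*} [Group Γ] [Group G] [Group Δ] {σ : Γ →* G}
    (h : Cfsg.IsStemExtension σ) {τ : Δ →* Γ} (h1 : Function.Surjective (σ.comp τ)) :
    Function.Surjective τ := by
  have hψ : CExt σ := ⟨h.1, h.2.1⟩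
  have h2 : commutator Γ ≤ τ.range := by
    rw [commutator_eq_closure, Subgroup.closure_le]
    rintro _ ⟨a, b, rfl⟩
    obtain ⟨a', ha⟩ := h1 (σ a⁻¹)
    obtain ⟨b', hb⟩ := h1 (σ b⁻¹)
    exact ⟨cm a' b', by rw [map_cm, hψ.cm_congr ha hb]; simp [cm, commutatorElement_def]⟩
  intro g
  obtain ⟨a, ha⟩ := h1 (σ g)
  obtain ⟨b, hb⟩ := h2 (h.2.2 (show (τ a)⁻¹ * g ∈ σ.ker by simp [← ha]))
  exact ⟨a * b, by simp [hb]⟩

theorem cm_mem_commutator {G : Type*} [Group G] (a b : G) : cm a b ∈ commutator G := by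
  simpa [cm, commutatorElement_def, commutator_def] using
    Subgroup.commutator_mem_commutator (Subgroup.mem_top a⁻¹) (Subgroup.mem_top b⁻¹)

variable {D : RS} {F : Type u} [Field F] [Rep D F]

section Perfect
variable {G : Type*} [Group G] (S : StSys D F G)

theorem StSys.x_mem_comm_H [Conn D] {r γ : Rt D} {v : F} (h0 : v ≠ 0) (h : v ^ pair γ r ≠ 1) (t : F) :
    S.x r t ∈ commutator G := by
  have := cm_mem_commutator (S.h γ v)⁻¹ (S.x r (t / (v ^ pair γ r - 1)))⁻¹
  rw [cm, inv_inv, inv_inv, S.h_conj _ _ h0, S.x_inv, S.add] at this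
  convert this using 2
  field_simp [sub_ne_zero.2 h]; ring

variable [Dbl D] [Uni D]

theorem StSys.x_mem_comm_A {r a : Rt D} (h : PrA a r) (t : F) : S.x r t ∈ commutator G := by
  have h1 := pair_rrefl_self a r
  have h2 := cf_ne (F := F) (vec_of_one h.1) (by simp [h.1])
  have := cm_mem_commutator (S.x (rrefl a r) 1) (S.x a (-t / cf a (rrefl a r) 1 1))
  rw [S.cm_of_cts (fun e => by simp [e, h.1] at h1) (fun e => by simp [e, h.1] at h1)
    (cts_A2 h.1 h.2)] at this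
  convert this using 2
  field_simp

theorem StSys.x_mem_comm_B {k b : Rt D} (h : PrB b k)
    (h1 : ∀ t, S.x (rrefl (rrefl b k) b) t ∈ commutator G) (t : F) : S.x k t ∈ commutator G := by
  have h3 : b ≠ rrefl b k := fun e => by have := h.pb; rw [← e, pair_self] at this; omega
  have h4 : b ≠ neg (rrefl b k) := fun e => by
    have := congrArg (pair · b) e; simp [h.pa] at this
  have h6 := cf12_ne (F := F) h.pb
  have := cm_mem_commutator (S.x b 1) (S.x (rrefl b k) (-t / cf (rrefl b k) b 1 2))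
  rw [cm, S.comm' h3 h4] at this
  simp only [StSys.wd, cword, cts_B2 h.pa h.pb, List.map_cons, List.map_nil, List.prod_cons, List.prod_nil,
    rrefl_rrefl, mul_one] at this
  rw [Subgroup.mul_mem_cancel_left _ (h1 _)] at this
  convert this using 2
  field_simp

omit [Dbl D] [Uni D] in
theorem StSys.perfect_of (hS : S.U Set.univ = ⊤) (h : ∀ r t, S.x r t ∈ commutator G) :
    commutator G = ⊤ :=
  eq_top_iff.2 (hS ▸ (Subgroup.closure_le _).2 (by rintro _ ⟨r, -, t, rfl⟩; exact h r t))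

end Perfect

variable [Conn D] {G : Type u} [Group G] {S : StSys D F G}

theorem StSys.Adj.exists_theta {G : Type*} [Group G] {S : StSys D F G} (h : S.Adj) :
    ∃ θ : D.SteinbergCover F →* G, CExt θ ∧ ∀ r t, θ ((scSys D F).x r t) = S.x r t :=
  let ⟨f, hf⟩ := exists_lift_sc S.rels
  ⟨f, ⟨StSys.surjective_of_map (S := scSys D F) h.top hf,
    StSys.ker_le_center (S := scSys D F) scSys_top hf⟩, hf⟩

omit [Conn D] in
theorem Lifts.exists_hom {G E : Type*} [Group G] [Group E] {S : StSys D F G} {ψ : E →* G}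
    (h : Lifts S ψ) {θ : D.SteinbergCover F →* G} (hθ : ∀ r t, θ ((scSys D F).x r t) = S.x r t) :
    ∃ τ : D.SteinbergCover F →* E, ψ.comp τ = θ := by
  obtain ⟨y, h1, h2⟩ := h
  obtain ⟨τ, hτ⟩ := exists_lift_sc h1
  exact ⟨τ, StSys.hom_ext scSys_top fun r t => (congrArg ψ (hτ r t)).trans ((h2 r t).trans (hθ r t).symm)⟩

variable [Finite F]

theorem StSys.Adj.hasMult [Finite G] (h : S.Adj) (hp : commutator (D.SteinbergCover F) = ⊤)
    (hL : ∀ (E : Type u) [Group E] (ψ : E →* G), CExt ψ → Lifts S ψ)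
    (hi : Function.Injective (scSys D F).hmul_of_finite.hp)
    {A : Type*} [CommGroup A] (e : (chiHom D F).ker ≃* A) : HasSchurMultiplier G A := by
  obtain ⟨θ, h1, h2⟩ := h.exists_theta
  have hk := (StSys.ker_eq_center scSys_top h.inj h2).trans
    ((scSys D F).hmul_of_finite.center_eq scSys_top)
  have e' : θ.ker ≃* A := ((MulEquiv.subgroupCongr hk).trans (Subgroup.equivMapOfInjective _ _ hi).symm).trans e
  refine ⟨⟨_, _, ?_, θ, ⟨h1.surj, h1.cen, hp ▸ le_top⟩, ⟨e'⟩⟩, fun Γ _ _ σ hσ => ?_⟩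
  · rw [MonoidHom.finite_iff_finite_ker_range θ, hk]
    exact ⟨Set.Finite.image _ (Set.toFinite _), inferInstance⟩
  obtain ⟨τ, hτ⟩ := (hL Γ σ ⟨hσ.1, hσ.2.1⟩).exists_hom h2
  have h3 := surj_of_stem hσ (hτ ▸ h1.surj)
  refine ⟨((τ.comp θ.ker.subtype).codRestrict σ.ker fun g => (DFunLike.congr_fun hτ _).trans g.2).comp
    e'.symm.toMonoidHom, fun ⟨g, hg⟩ => ?_⟩
  obtain ⟨a, rfl⟩ := h3 g
  exact ⟨e' ⟨a, (DFunLike.congr_fun hτ _).symm.trans hg⟩, Subtype.ext (by simp; rfl)⟩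

theorem StSys.Adj.hasCyc [Finite G] (h : S.Adj) (hp : commutator (D.SteinbergCover F) = ⊤)
    (hL : ∀ (E : Type u) [Group E] (ψ : E →* G), CExt ψ → Lifts S ψ)
    (hi : Function.Injective (scSys D F).hmul_of_finite.hp) {n : ℕ} (h1 : IsCyclic (chiHom D F).ker)
    (h2 : Nat.card (chiHom D F).ker = n) : HasCyclicSchurMultiplier G n :=
  h.hasMult hp hL hi (mulEquivOfCyclicCardEq
    (h2.trans ((Nat.card_zmod n).symm.trans (Nat.card_congr Multiplicative.ofAdd))))

omit [Finite F] [Conn D] [Rep D F] in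
theorem Amb.Wts.mem_Y {A : Amb} [Rep A.rs F] [Conn A.rs] {G : Type*} [Group G] {S : StSys A.rs F G}
    (hS : S.HMul) (W : A.Wts) (M : Min A.rs) {f : G →* GL M.J F} (hf : ∀ r t, f (S.x r t) = M.X F r t)
    {a : M.J} {b : W.J} (h1 : ∀ i, M.lam (simple i) + pv (simple i) (M.q a) =
      W.lam (simple (D := A.rs) i) + pv (simple (D := A.rs) i) (W.q b))
    {c : A.Ix → Fˣ} (hc : f (hS.hp c) = 1) : (2 : ℤ) • W.P b + W.μ ∈ A.Y c := by
  have := congrFun (congrFun ((M.wrep F).map_hp hS hf c) a) a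
  rw [hc, Units.val_one, Matrix.one_apply_eq, Matrix.diagonal_apply_eq] at this
  refine ⟨W.mem_Wl b, Units.ext (Eq.trans ?_ this.symm)⟩
  exact congrArg (fun l => (cw l c : F)) (funext fun i => ((h1 i).trans (W.w_eq b i)).symm)

omit [Finite F] in
theorem StSys.HMul.hp_inj_of {G : Type*} [Group G] {S : StSys D F G} (hS : S.HMul)
    (h : ∀ c ∈ (chiHom D F).ker, hS.hp c = 1 → c = 1) : Function.Injective hS.hp :=
  (injective_iff_map_eq_one _).2 fun c hc => h c (hS.π_hp_eq_one.1 (by rw [hc, map_one])) hc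

theorem sc_mem_Y {A : Amb} [Rep A.rs F] [Conn A.rs] (W : A.Wts) (M : Min A.rs)
    {a : M.J} {b : W.J} (h1 : ∀ i, M.lam (simple i) + pv (simple i) (M.q a) =
      W.lam (simple (D := A.rs) i) + pv (simple (D := A.rs) i) (W.q b))
    {c : A.Ix → Fˣ} (hc : (scSys A.rs F).hmul_of_finite.hp c = 1) : (2 : ℤ) • W.P b + W.μ ∈ A.Y c :=
  let ⟨f, hf⟩ := exists_lift_sc (M.rels (F := F))
  W.mem_Y _ M (f := f) hf h1 (by rw [hc, map_one])

omit [Rep D F] [Conn D]

theorem hp_inj_A {n : ℕ} [NeZero n] [Rep (ambA n).rs F] :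
    Function.Injective (scSys (ambA n).rs F).hmul_of_finite.hp :=
  StSys.HMul.hp_inj_of _ fun c h1 h2 => eq_one_A h1 (k := 0) (by
    simpa using sc_mem_Y (natA n) (minA n) (a := 0) (b := 0) (fun _ => rfl) h2)

theorem hp_inj_C {m : ℕ} [NeZero m] [Rep (ambC m).rs F] :
    Function.Injective (scSys (ambC m).rs F).hmul_of_finite.hp :=
  StSys.HMul.hp_inj_of _ fun c h1 h2 => eq_one_C h1 (k := 0) (by
    simpa using sc_mem_Y (natC m) (minC m) (a := .inl 0) (b := .inl 0) (fun _ => rfl) h2)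

theorem hp_inj_B {m : ℕ} [NeZero m] [Rep (ambB m).rs F] :
    Function.Injective (scSys (ambB m).rs F).hmul_of_finite.hp :=
  StSys.HMul.hp_inj_of _ fun c h1 h2 => eq_one_B h1 (by
    convert sc_mem_Y (spinB m) (minB m) (a := ⟨1, fun _ => Or.inr rfl, trivial⟩) (b := ⟨1, fun _ => Or.inr rfl, trivial⟩) (fun _ => rfl) h2 using 1
    ext j; simp [cum])

theorem hp_inj_D {n : ℕ} [NeZero n] [Rep (ambD n).rs F] :
    Function.Injective (scSys (ambD n).rs F).hmul_of_finite.hp :=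
  StSys.HMul.hp_inj_of _ fun c h1 h2 => eq_one_D h1 (k := 0) (by
    simpa using sc_mem_Y (natD n) (minD n) (a := .inl 0) (b := .inl 0) (fun _ => rfl) h2) (by
    convert neg_mem (sc_mem_Y (spinD n) (minDs n) (a := (spinD n).a₀) (b := (spinD n).a₀)
      (fun _ => rfl) h2) using 1
    ext j; simp [cum])

end Gen
end H5
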