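import Cfsg.Agent.H5.GM5

/-! Lifting the Steinberg relations for the classical root systems: coordinates. -/

set_option autoImplicit false

namespace H5
namespace Gen

open Cfsg Equiv Matrix

attribute [-simp] zsmul_eq_mul

section Vec
variable {m : ℕ}

/-- the coordinate of a signed unit vector -/
def ix : Fin m ⊕ Fin m → Fin m := Sum.elim id id

@[simp] theorem ix_inl (i : Fin m) : ix (.inl i) = i := rfl
@[simp] theorem ix_inr (i : Fin m) : ix (.inr i) = i := rfl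
@[simp] theorem ix_swap (a : Fin m ⊕ Fin m) : ix a.swap = ix a := by cases a <;> rfl

theorem eq_or_swap {a b : Fin m ⊕ Fin m} (h : ix a = ix b) : a = b ∨ a = b.swap := by
  cases a <;> cases b <;> simp_all

theorem pm_dot_ne {a b : Fin m ⊕ Fin m} (h : ix a ≠ ix b) : pm a ⬝ᵥ pm b = 0 := by
  rw [pm_dot_pm, if_neg (by rintro rfl; simp at h), if_neg (by rintro rfl; simp at h)]

theorem ex2 {v : Fin m → ℤ} (h : v ⬝ᵥ v = 2) : ∃ x y, ix x ≠ ix y ∧ v = pm x + pm y := by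
  obtain ⟨i, j, ε, ε', h1, h2, h3, rfl⟩ := norm_two h
  have : i ≠ j := fun e => by simp [e] at h1
  rcases h2 with rfl | rfl <;> rcases h3 with rfl | rfl
  exacts [⟨.inl i, .inl j, this, by simp⟩, ⟨.inl i, .inr j, this, by simp⟩,
    ⟨.inr i, .inl j, this, by simp⟩, ⟨.inr i, .inr j, this, by simp⟩]

theorem fresh4 (h : 5 ≤ m) (a b c d : Fin m) : ∃ k, k ≠ a ∧ k ≠ b ∧ k ≠ c ∧ k ≠ d := by
  obtain ⟨k, hk⟩ := Finset.exists_mem_notMem_of_card_lt_card (s := {a, b, c, d}) (t := Finset.univ)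
    (Finset.card_le_four.trans_lt (by simp; omega))
  exact ⟨k, by simpa using hk.2⟩

theorem fresh3 (h : 4 ≤ m) (a b c : Fin m) : ∃ k, k ≠ a ∧ k ≠ b ∧ k ≠ c := by
  obtain ⟨k, hk⟩ := Finset.exists_mem_notMem_of_card_lt_card (s := {a, b, c}) (t := Finset.univ)
    (Finset.card_le_three.trans_lt (by simp; omega))
  exact ⟨k, by simpa using hk.2⟩

theorem fresh2 (h : 3 ≤ m) (a b : Fin m) : ∃ k, k ≠ a ∧ k ≠ b := by
  obtain ⟨k, hk⟩ := Finset.exists_mem_notMem_of_card_lt_card (s := {a, b}) (t := Finset.univ)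
    (Finset.card_le_two.trans_lt (by simp; omega))
  exact ⟨k, by simpa using hk.2⟩

theorem fresh1 (h : 2 ≤ m) (a : Fin m) : ∃ k, k ≠ a :=
  haveI : Nontrivial (Fin m) := Fin.nontrivial_iff_two_le.2 h
  exists_ne a

theorem dot_add_two {x y : Fin m ⊕ Fin m} (h : ix x ≠ ix y) :
    (pm x + pm y) ⬝ᵥ (pm x + pm y) = 2 := by simp [pm_dot, pm_dot_ne h, pm_dot_ne h.symm]

/-- the relative position of two vectors of norm two -/
theorem pos_cases {V : Type*} [AddCommGroup V] (pm : Fin m ⊕ Fin m → V) {x y z w : Fin m ⊕ Fin m} (h1 : ix x ≠ ix y) (h2 : ix z ≠ ix w) :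
    (ix x ≠ ix z ∧ ix x ≠ ix w ∧ ix y ≠ ix z ∧ ix y ≠ ix w) ∨
    ∃ x' y' w', ix x' ≠ ix y' ∧ ix x' ≠ ix w' ∧ pm x + pm y = pm x' + pm y' ∧
      (pm z + pm w = pm x' + pm w' ∨ pm z + pm w = pm x'.swap + pm w') := by
  by_cases a : ix z = ix x
  · exact Or.inr ⟨x, y, w, h1, a ▸ h2, rfl, (eq_or_swap a).imp (by rw [·]) (by rw [·])⟩
  by_cases b : ix w = ix x
  · exact Or.inr ⟨x, y, z, h1, b ▸ h2.symm, rfl,
      (eq_or_swap b).imp (by rw [·, add_comm]) (by rw [·, add_comm])⟩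
  by_cases c : ix z = ix y
  · exact Or.inr ⟨y, x, w, h1.symm, c ▸ h2, add_comm _ _, (eq_or_swap c).imp (by rw [·]) (by rw [·])⟩
  by_cases d : ix w = ix y
  · exact Or.inr ⟨y, x, z, h1.symm, d ▸ h2.symm, add_comm _ _,
      (eq_or_swap d).imp (by rw [·, add_comm]) (by rw [·, add_comm])⟩
  exact Or.inl ⟨Ne.symm a, Ne.symm b, Ne.symm c, Ne.symm d⟩

end Vec

namespace Amb
variable {A : Amb}

theorem pair_two {r : Rt A.rs} (h : r.1 ⬝ᵥ r.1 = 2) (s : Rt A.rs) : pair r s = r.1 ⬝ᵥ s.1 := by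
  have := mul_pair r s; rw [h] at this; omega

theorem pair_one {r : Rt A.rs} (h : r.1 ⬝ᵥ r.1 = 1) (s : Rt A.rs) : pair r s = 2 * (r.1 ⬝ᵥ s.1) := by
  have := mul_pair r s; rw [h] at this; omega

theorem pair_dbl {r : Rt A.rs} {u : A.ι → ℤ} (h : r.1 = (2 : ℤ) • u) (h1 : u ⬝ᵥ u = 1) (s : Rt A.rs) :
    pair r s = u ⬝ᵥ s.1 := by
  have := mul_pair r s
  simp only [h, dotProduct_smul, smul_dotProduct, h1, smul_eq_mul] at this; omega

theorem pair_nonneg {r s : Rt A.rs} : 0 ≤ pair r s ↔ 0 ≤ r.1 ⬝ᵥ s.1 := by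
  rw [← mul_nonneg_iff_of_pos_left (norm_pos r.2), mul_pair]; omega

theorem val_rrefl (r s : Rt A.rs) : (rrefl r s).1 = s.1 - pair r s • r.1 := by
  rw [← emb_vec, vec_rrefl, map_sub, map_smul, emb_vec, emb_vec]

theorem prA {a r : Rt A.rs} (ha : a.1 ⬝ᵥ a.1 = 2) (hr : r.1 ⬝ᵥ r.1 = 2) (h : a.1 ⬝ᵥ r.1 = 1) :
    PrA a r := ⟨by rw [pair_two ha, h], by rw [pair_two hr, dotProduct_comm, h]⟩

theorem ex_add {r s : Rt A.rs} (h : r.1 + s.1 ∈ A.Φ) : ∃ k, vec k = vec r + vec s :=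
  exists_vec_iff.2 (by rwa [map_add, emb_vec, emb_vec])

variable {F : Type*} [Field F] [Rep A.rs F] {G E : Type*} [Group G] [Group E] {S : StSys A.rs F G}
  {ψ : E →* G} [Uni A.rs] (hψ : CExt ψ)
include hψ

theorem lc_fresh (h2 : (2 : F) = 0) {r s : Rt A.rs} {a : A.ι → ℤ} (h : a ∈ A.Φ) (ha : a ⬝ᵥ a = 2)
    (hs : s.1 ⬝ᵥ s.1 = 2) (h1 : a ⬝ᵥ s.1 = 1) (h3 : 0 ≤ r.1 ⬝ᵥ a) (h4 : r.1 ⬝ᵥ a ≤ r.1 ⬝ᵥ s.1) :
    LC S ψ r s := by
  have h5 := prA (a := ⟨a, h⟩) ha hs h1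
  exact lcA hψ h5.1 h5.2 (S.cm_two h2 (pair_nonneg.2 h3)) (S.cm_two h2 (pair_nonneg.2 (by
    rw [val_rrefl, h5.1]; simpa using h4)))

end Amb

/-- systems containing the roots of type `D` -/
structure Sh (A : Amb) (m : ℕ) where
  p : Fin m ⊕ Fin m → A.ι → ℤ
  self : ∀ a, p a ⬝ᵥ p a = 1
  ne : ∀ {a b}, ix a ≠ ix b → p a ⬝ᵥ p b = 0
  swap : ∀ a, p a.swap = - p a
  mem : ∀ {a b}, ix a ≠ ix b → p a + p b ∈ A.Φ

namespace Sh
variable {A : Amb} {m : ℕ} (P : Sh A m)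

theorem two {x y : Fin m ⊕ Fin m} (h : ix x ≠ ix y) : (P.p x + P.p y) ⬝ᵥ (P.p x + P.p y) = 2 := by
  simp [P.self, P.ne h, P.ne h.symm]

/-- the root `p x + p y` -/
def rt {x y : Fin m ⊕ Fin m} (h : ix x ≠ ix y) : Rt A.rs := ⟨_, P.mem h⟩

theorem rt_val {x y : Fin m ⊕ Fin m} (h : ix x ≠ ix y) : (P.rt h).1 = P.p x + P.p y := rfl

theorem pair_rt {x y : Fin m ⊕ Fin m} (h : ix x ≠ ix y) (s : Rt A.rs) :
    pair (P.rt h) s = (P.p x + P.p y) ⬝ᵥ s.1 := Amb.pair_two (P.two h) s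

theorem prA (hm : 3 ≤ m) {r : Rt A.rs} {x y : Fin m ⊕ Fin m} (h : ix x ≠ ix y)
    (hr : r.1 = P.p x + P.p y) : ∃ a, PrA a r := by
  obtain ⟨k, h1, h2⟩ := fresh2 hm (ix x) (ix y)
  have h3 : ix x ≠ ix (.inl k) := h1.symm
  exact ⟨⟨_, P.mem h3⟩, Amb.prA (P.two h3) (hr ▸ P.two h) (by
    simp [hr, P.self, P.ne h, P.ne (a := .inl k) h1, P.ne (a := .inl k) h2])⟩

theorem sep (hm : 4 ≤ m) {r s : Rt A.rs} {x y w : Fin m ⊕ Fin m} (h1 : ix x ≠ ix w) (h2 : ix y ≠ ix w)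
    (hr : r.1 = P.p x + P.p y) (hs : s.1 = P.p x + P.p w ∨ s.1 = P.p x.swap + P.p w) :
    ∃ γ, pair γ r = 0 ∧ pair γ s = 1 := by
  obtain ⟨k, a, b, c⟩ := fresh3 hm (ix x) (ix y) (ix w)
  have h3 : ix w ≠ ix (.inl k) := c.symm
  refine ⟨⟨_, P.mem h3⟩, ?_⟩
  rw [Amb.pair_two (P.two h3), Amb.pair_two (P.two h3)]
  rcases hs with hs | hs <;>
  simp [hr, hs, P.self, P.swap, P.ne h1.symm, P.ne h2.symm, P.ne (a := .inl k) a, P.ne (a := .inl k) b,
    P.ne (a := .inl k) c]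

variable {F : Type*} [Field F] [Rep A.rs F] {G E : Type*} [Group G] [Group E] {S : StSys A.rs F G}
  {ψ : E →* G} [Uni A.rs] (hψ : CExt ψ)
include hψ

theorem lc_fresh (h2 : (2 : F) = 0) {r s : Rt A.rs} {x y z : Fin m ⊕ Fin m} (h : ix x ≠ ix y)
    (hs : s.1 = P.p x + P.p y) (h3 : ix z ≠ ix x) (h4 : ix z ≠ ix y) (h5 : r.1 ⬝ᵥ P.p z = 0)
    (h6 : 0 ≤ r.1 ⬝ᵥ P.p x) (h7 : 0 ≤ r.1 ⬝ᵥ P.p y) : LC S ψ r s :=
  Amb.lc_fresh hψ h2 (P.mem h3.symm) (P.two h3.symm) (hs ▸ P.two h)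
    (by simp [hs, P.self, P.ne h, P.ne h3, P.ne h4]) (by simp [h5, h6]) (by simp [hs, h5, h7])

theorem lc_short [Conn A.rs] (hF : ∀ t : F, t = 0 ∨ t = 1) (hm : 4 ≤ m)
    (hd : ∀ (r s : Rt A.rs) x y z w, ix x ≠ ix y → ix z ≠ ix w → ix x ≠ ix z → ix x ≠ ix w →
      ix y ≠ ix z → ix y ≠ ix w → r.1 = P.p x + P.p y → s.1 = P.p z + P.p w → LC S ψ r s)
    {r s : Rt A.rs} {x y w : Fin m ⊕ Fin m} (h1 : ix x ≠ ix y) (h2 : ix x ≠ ix w)
    (hr : r.1 = P.p x + P.p y) (hs : s.1 = P.p x + P.p w) : LC S ψ r s := by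
  have t2 := two_of hF
  have key : ∀ {r s : Rt A.rs} {x y w : Fin m ⊕ Fin m}, ix x ≠ ix y → ix x ≠ ix w → w ≠ y.swap →
      r.1 = P.p x + P.p y → s.1 = P.p x + P.p w → LC S ψ r s := by
    intro r s x y w h1 h2 h3 hr hs
    obtain ⟨k, a, b, c⟩ := fresh3 hm (ix x) (ix y) (ix w)
    refine P.lc_fresh hψ t2 (z := .inl k) h2 hs a c (by
      simp [hr, P.ne (b := .inl k) a.symm, P.ne (b := .inl k) b.symm])
      (by simp [hr, P.self, P.ne h1.symm]) ?_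
    by_cases e : ix w = ix y
    · simp [hr, (eq_or_swap e).resolve_right h3, P.self, P.ne h1]
    · simp [hr, P.ne h2, P.ne (Ne.symm e)]
  by_cases e : w = y.swap
  swap
  · exact key h1 h2 e hr hs
  subst e
  obtain ⟨k, a, b, -⟩ := fresh3 hm (ix x) (ix y) (ix y)
  obtain ⟨l, c, d, e⟩ := fresh3 hm (ix x) (ix y) k
  have xk : ix x ≠ ix (.inl k) := a.symm
  have yk : ix y ≠ ix (.inl k) := b.symm
  have xl : ix x ≠ ix (.inl l) := c.symm
  have yl : ix y ≠ ix (.inl l) := d.symm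
  have kl : ix (.inl k) ≠ ix (.inl l) := e.symm
  have kl' : ix (.inl k) ≠ ix (Sum.inl l).swap := e.symm
  have r2 := hr ▸ P.two h1
  have s2 := hs ▸ P.two h2
  have q := Amb.prA (a := P.rt xk) (r := r) (P.two xk) r2 (by
    simp [hr, rt_val, P.self, P.ne h1, P.ne xk.symm, P.ne yk.symm])
  have v : (rrefl (P.rt xk) r).1 = P.p y + P.p (Sum.inl k).swap := by
    rw [Amb.val_rrefl, q.1, hr, P.swap, rt_val, one_smul]; abel
  have := lc_two_step (S := S) hψ hF (γ := neg s) (γ₁ := P.rt kl) (γ₂ := P.rt kl') q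
    (by simp [Amb.pair_two s2, hr, hs, P.swap, P.self, P.ne h1, P.ne h1.symm])
    (by simp [pair_rt, hr, P.ne xk.symm, P.ne yk.symm, P.ne xl.symm, P.ne yl.symm])
    (by simp only [pair_rt, P.swap]
        simp [hr, P.ne xk.symm, P.ne yk.symm, P.ne xl.symm, P.ne yl.symm])
    (key h1.symm (w := (Sum.inl k).swap) yk (fun e => xk (by simpa using congrArg ix e.symm))
      (hr.trans (add_comm _ _)) v)
    (hd _ _ _ _ _ _ h1 kl xk xl yk yl hr rfl)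
    (hd _ _ _ _ (Sum.inl k).swap (Sum.inl l).swap h1 kl xk xl yk yl hr (by
      simp only [P.swap, Amb.val_neg, rt_val]; simp [add_comm]))
    (hd _ _ _ _ _ _ h1 kl' xk xl yk yl hr rfl)
    (hd _ _ _ _ (Sum.inl k).swap (Sum.inl l) h1 kl xk xl yk yl hr (by
      simp only [P.swap, Amb.val_neg, rt_val]; simp [add_comm]))
    (Subtype.ext (by
      simp only [rrefl_neg_left, Amb.val_rrefl (P.rt kl), Amb.val_rrefl (P.rt kl'), Amb.val_rrefl s, v,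
        Amb.pair_two s2, pair_rt, hs, P.swap, rt_val]
      simp [P.self, P.ne xk, P.ne yk, P.ne h1.symm, P.ne yk.symm, P.ne yl.symm, P.ne kl, P.ne kl.symm]
      abel))
  simpa using this

theorem lc_short' [Conn A.rs] (hF : ∀ t : F, t = 0 ∨ t = 1) (hm : 4 ≤ m)
    (hd : ∀ (r s : Rt A.rs) x y z w, ix x ≠ ix y → ix z ≠ ix w → ix x ≠ ix z → ix x ≠ ix w →
      ix y ≠ ix z → ix y ≠ ix w → r.1 = P.p x + P.p y → s.1 = P.p z + P.p w → LC S ψ r s)
    {r s : Rt A.rs} {x y z w : Fin m ⊕ Fin m} (h1 : ix x ≠ ix y) (h2 : ix z ≠ ix w)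
    (hr : r.1 = P.p x + P.p y) (hs : s.1 = P.p z + P.p w) (h : 0 ≤ pair r s) : LC S ψ r s := by
  rcases pos_cases P.p h1 h2 with ⟨a, b, c, d⟩ | ⟨x, y, w, a, b, c, d | d⟩
  · exact hd _ _ _ _ _ _ h1 h2 a b c d hr hs
  · exact P.lc_short hψ hF hm hd a b (hr.trans c) (hs.trans d)
  rw [Amb.pair_nonneg, hr, hs, c, d, P.swap] at h
  obtain rfl : w = y := by
    by_contra e
    by_cases e' : ix w = ix y
    · simp [(eq_or_swap e').resolve_left e, P.swap, P.self, P.ne a, P.ne a.symm] at h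
    · simp [P.self, P.ne a.symm, P.ne b, P.ne (Ne.symm e')] at h
  exact P.lc_short hψ hF hm hd a.symm (w := x.swap) (by simpa using a.symm) (hr.trans (c.trans (add_comm _ _)))
    (hs.trans (d.trans (add_comm _ _)))

omit [Uni A.rs] in
theorem kill [Conn A.rs] (hm : 4 ≤ m) {v : F} (h0 : v ≠ 0) (hv : v ≠ 1) {r s : Rt A.rs}
    {x y z w : Fin m ⊕ Fin m} (h1 : ix x ≠ ix y) (h2 : ix z ≠ ix w) (hr : r.1 = P.p x + P.p y)
    (hs : s.1 = P.p z + P.p w) (h : pair r s * pair s r = 1) : Kill S ψ r s := by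
  have h3 := (Int.mul_eq_one_iff_eq_one_or_neg_one.1 h).imp (·.1) (·.1)
  rw [Amb.pair_two (hr ▸ P.two h1), hr, hs] at h3
  rcases pos_cases P.p h1 h2 with ⟨a, b, c, d⟩ | ⟨x, y, w, a, b, c, d⟩
  · simp [P.ne a, P.ne b, P.ne c, P.ne d] at h3
  have e : ix y ≠ ix w := fun e => by
    rcases eq_or_swap e.symm with rfl | rfl <;> rcases d with d | d <;>
      simp [c, d, P.swap, P.self, P.ne a, P.ne a.symm] at h3
  obtain ⟨γ, h4, h5⟩ := P.sep hm b e (hr.trans c) (d.imp hs.trans hs.trans)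
  exact (sep_one h4 (Or.inl h5) h0 hv).kill hψ

end Sh

theorem field_cases (F : Type*) [Field F] : (∃ v : F, v ≠ 0 ∧ v ^ 2 ≠ 1) ∨
    ((∀ t : F, ∃ k : ℕ, t = k) ∧ (3 : F) = 0) ∨ ∀ t : F, t = 0 ∨ t = 1 := by
  by_cases h : ∃ v : F, v ≠ 0 ∧ v ^ 2 ≠ 1
  · exact Or.inl h
  have h1 : ∀ t : F, t = 0 ∨ t = 1 ∨ t = -1 := fun t => by
    by_contra h1
    push Not at h1
    exact h ⟨t, h1.1, fun e => by rcases sq_eq_one_iff.1 e with e | e <;> simp_all⟩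
  by_cases h2 : (2 : F) = 0
  · refine Or.inr (Or.inr fun t => ?_)
    rcases h1 t with e | e | e
    exacts [Or.inl e, Or.inr e, Or.inr (by linear_combination e - h2)]
  have h3 : (3 : F) = 0 := by
    rcases h1 2 with e | e | e
    exacts [absurd e h2, absurd (by linear_combination e) one_ne_zero, by linear_combination e]
  refine Or.inr (Or.inl ⟨fun t => ?_, h3⟩)
  rcases h1 t with e | e | e
  exacts [⟨0, by simp [e]⟩, ⟨1, by simp [e]⟩, ⟨2, by push_cast; linear_combination e - h3⟩]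

variable {F : Type*} [Field F] {G E : Type*} [Group G] [Group E] {ψ : E →* G}

theorem PrA.ne {D : RS} {a r : Rt D} (h : PrA a r) : a ≠ r := fun e => by
  have := h.1; simp [e] at this

theorem PrB.ne {D : RS} {a r : Rt D} (h : PrB a r) : a ≠ r := fun e => by
  have := h.1; simp [e] at this

theorem lifts_SL {D : RS} [Dbl D] [Uni D] [Conn D] [Rep D F] {S : StSys D F G} (hψ : CExt ψ)
    (hS : S.HMul) (hl : ∀ r s : Rt D, ln r = ln s) (hA : ∀ r : Rt D, ∃ a, PrA a r)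
    (h4 : (2 : F) = 0 → ∀ v : F, v ≠ 0 → v ≠ 1 → ∀ r s, pair r s * pair s r = 1 → Kill S ψ r s)
    (h2 : (∀ t : F, t = 0 ∨ t = 1) → ∀ r s, 0 ≤ pair r s → LC S ψ r s) : Lifts S ψ := by
  rcases field_cases F with ⟨v, h0, hv⟩ | ⟨a, b⟩ | h
  · exact lifts_four hψ hS h0 hv (fun r => let ⟨a, h⟩ := hA r; ⟨a, h.ne, by simp [h.2]⟩)
      fun e => h4 e v h0 fun e => hv (by simp [e])
  · exact lifts_three hψ a b hS (fun r => let ⟨a, h⟩ := hA r; Or.inl ⟨a, by simp [h.1]⟩)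
      fun r s _ => Or.inr (Or.inr (Or.inr ⟨hl r s, hA r⟩))
  · exact lifts_two hψ h (h2 h) (fun r => Or.inl (hA r)) fun b k h => by
      have := h.ln_eq; have := hl b k; have := ln_pos b; omega

instance uniA (n : ℕ) : Uni (ambA n).rs := (minA n).uni
instance uniB (n : ℕ) : Uni (ambB n).rs := (minB n).uni
instance uniC (n : ℕ) [NeZero n] : Uni (ambC n).rs := (minC n).uni
instance uniD (n : ℕ) : Uni (ambD n).rs := (minD n).uni

/-- coordinates in type `B` -/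
def crB (m : ℕ) : Sh (ambB m) m := ⟨pm, pm_dot, pm_dot_ne, pm_swap, fun h => Or.inr (dot_add_two h)⟩
/-- coordinates in type `C` -/
def crC (m : ℕ) : Sh (ambC m) m := ⟨pm, pm_dot, pm_dot_ne, pm_swap, fun h => Or.inl (dot_add_two h)⟩
/-- coordinates in type `D` -/
def crD (n : ℕ) : Sh (ambD n) (n + 2) := ⟨pm, pm_dot, pm_dot_ne, pm_swap, dot_add_two⟩

theorem prA_D {n : ℕ} (hn : 1 ≤ n) (r : Rt (ambD n).rs) : ∃ a, PrA a r :=
  let ⟨_, _, h1, h2⟩ := ex2 r.2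
  (crD n).prA (by omega) h1 h2

theorem lifts_D {n : ℕ} [NeZero n] [Rep (ambD n).rs F] {S : StSys (ambD n).rs F G} (hψ : CExt ψ)
    (hS : S.HMul) (hn : 2 ≤ n) (h2 : (∀ t : F, t = 0 ∨ t = 1) → 3 ≤ n) : Lifts S ψ := by
  refine lifts_SL hψ hS (fun r s => r.2.trans s.2.symm) (prA_D (by omega)) (fun _ v h0 hv r s h => ?_)
    fun hF r s h => ?_
  all_goals
    obtain ⟨x, y, h3, h4⟩ := ex2 r.2
    obtain ⟨z, w, h5, h6⟩ := ex2 s.2
  · exact (crD n).kill hψ (by omega) h0 hv h3 h5 h4 h6 h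
  refine (crD n).lc_short' hψ hF (by omega) (fun r s x y z w a b c d e f hr hs => ?_) h3 h5 h4 h6 h
  obtain ⟨k, k1, k2, k3, k4⟩ := fresh4 (show 5 ≤ n + 2 by have := h2 hF; omega) (ix x) (ix y) (ix z) (ix w)
  exact (crD n).lc_fresh hψ (two_of hF) b hs (z := .inl k) k3 k4
    (by simp [hr, (crD n).ne (b := .inl k) k1.symm, (crD n).ne (b := .inl k) k2.symm])
    (by simp [hr, (crD n).ne c, (crD n).ne e]) (by simp [hr, (crD n).ne d, (crD n).ne f])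

section B
variable {m : ℕ}

theorem exB (hm : 3 ≤ m) (r : Rt (ambB m).rs) : (∃ a, PrA a r) ∨ ∃ k, PrB r k := by
  rcases r.2 with h | h
  · obtain ⟨x, hx⟩ := exists_pm h
    obtain ⟨k, hk⟩ := fresh1 (by omega) (ix x)
    have h1 : ix x ≠ ix (.inl k) := hk.symm
    refine Or.inr ⟨(crB m).rt h1, ?_, ?_⟩
    · simp only [Sh.pair_rt, ← hx, crB, add_dotProduct, pm_dot, pm_dot_ne h1.symm, add_zero]
    · simp only [Amb.pair_one h, Sh.rt_val, ← hx, crB, dotProduct_add, pm_dot, pm_dot_ne h1]; rfl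
  · obtain ⟨x, y, h1, h2⟩ := ex2 h
    exact Or.inl ((crB m).prA hm h1 h2)

theorem one_B (hm : 3 ≤ m) (r : Rt (ambB m).rs) : ∃ γ, γ ≠ r ∧ pair γ r = 1 :=
  (exB hm r).elim (fun ⟨a, h⟩ => ⟨a, h.ne, h.1⟩) fun ⟨a, h⟩ => ⟨a, h.ne.symm, h.1⟩

theorem lifts_B [NeZero m] [Rep (ambB m).rs F] {S : StSys (ambB m).rs F G} (hψ : CExt ψ)
    (hS : S.HMul) (hm : 3 ≤ m) (h2 : (2 : F) ≠ 0) (h3 : (∀ t : F, ∃ k : ℕ, t = k) → (3 : F) = 0 → 4 ≤ m) :
    Lifts S ψ := by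
  rcases field_cases F with ⟨v, h0, hv⟩ | ⟨a, b⟩ | h
  · exact lifts_four hψ hS h0 hv (fun r => let ⟨a, h, h'⟩ := one_B hm r
      ⟨a, h, pair_pos_comm.1 (by omega)⟩) fun e => absurd e h2
  swap
  · exact absurd (two_of h) h2
  have key : ∀ r s : Rt (ambB m).rs, r.1 ⬝ᵥ r.1 = 2 → s.1 ⬝ᵥ s.1 = 1 → r.1 ⬝ᵥ s.1 = 0 →
      ∃ γ, Odd (pair γ r + pair γ s) := fun r s hr hs h => by
    obtain ⟨x, y, h1, h4⟩ := ex2 hr
    obtain ⟨z, hz⟩ := exists_pm hs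
    obtain ⟨k, k1, k2, k3⟩ := fresh3 (h3 a b) (ix x) (ix y) (ix z)
    have h5 : ix z ≠ ix (.inl k) := k3.symm
    refine ⟨(crB m).rt h5, ?_⟩
    rw [Sh.pair_rt, Sh.pair_rt, add_dotProduct _ _ r.1, show (crB m).p z ⬝ᵥ r.1 = 0 from
      (dotProduct_comm _ _).trans (by rwa [← hz] at h)]
    simp only [crB, h4, ← hz, add_dotProduct, dotProduct_add, pm_dot, pm_dot_ne h5.symm,
      pm_dot_ne (a := .inl k) k1, pm_dot_ne (a := .inl k) k2]
    decide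
  refine lifts_three hψ a b hS (fun r => let ⟨a, _, h⟩ := one_B hm r; Or.inl ⟨a, by simp [h]⟩)
    fun r s h => ?_
  rw [Amb.pair_eq_zero_iff] at h
  rcases r.2 with hr | hr <;> rcases s.2 with hs | hs
  · exact Or.inr (Or.inl (Amb.ex_add (Or.inr (by simp [hr, hs, h, dotProduct_comm s.1 r.1]))))
  · exact Or.inl ((key s r hs hr ((dotProduct_comm _ _).trans h)).imp fun _ h => add_comm (G := ℤ) _ _ ▸ h)
  · exact Or.inl (key r s hr hs h)
  · obtain ⟨x, y, h1, h2⟩ := ex2 hr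
    exact Or.inr (Or.inr (Or.inr ⟨hr.trans hs.symm, (crB m).prA hm h1 h2⟩))

end B

section C
variable {m : ℕ}

/-- the long roots of type `C` -/
def lgC (x : Fin m ⊕ Fin m) : Rt (ambC m).rs := ⟨(2 : ℤ) • pm x, Or.inr ⟨_, pm_dot x, rfl⟩⟩

theorem lgC_val (x : Fin m ⊕ Fin m) : (lgC x).1 = (2 : ℤ) • pm x := rfl

theorem pair_lgC (x : Fin m ⊕ Fin m) (s : Rt (ambC m).rs) : pair (lgC x) s = pm x ⬝ᵥ s.1 :=
  Amb.pair_dbl rfl (pm_dot x) s

theorem exC' (r : Rt (ambC m).rs) :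
    (∃ x y, ix x ≠ ix y ∧ r.1 = pm x + pm y) ∨ ∃ x, r = lgC x := by
  rcases r.2 with h | ⟨w, h, h1⟩
  · exact Or.inl (ex2 h)
  · obtain ⟨x, rfl⟩ := exists_pm h
    exact Or.inr ⟨x, Subtype.ext h1⟩

theorem prB_C {r : Rt (ambC m).rs} {x y : Fin m ⊕ Fin m} (h : ix x ≠ ix y) (hr : r.1 = pm x + pm y) :
    PrB r (lgC x) :=
  ⟨by simp [pair_lgC, hr, pm_dot, pm_dot_ne h], by
    simp [Amb.pair_two (hr ▸ dot_add_two h), hr, lgC_val, pm_dot, pm_dot_ne h.symm]⟩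

theorem ex_prB_C (hm : 2 ≤ m) (x : Fin m ⊕ Fin m) : ∃ b, PrB b (lgC x) :=
  let ⟨k, hk⟩ := fresh1 hm (ix x)
  ⟨(crC m).rt (x := x) (y := .inl k) hk.symm, prB_C (y := .inl k) hk.symm rfl⟩

theorem even_lgC (r : Rt (ambC m).rs) (x : Fin m ⊕ Fin m) : Even (pair r (lgC x)) := by
  rcases exC' r with ⟨y, z, h, hr⟩ | ⟨y, rfl⟩
  · simp [Amb.pair_two (hr ▸ dot_add_two h), lgC_val]
  · simp [pair_lgC, lgC_val]

theorem short_of_prB {b k : Rt (ambC m).rs} (h : PrB b k) :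
    (∃ x y, ix x ≠ ix y ∧ b.1 = pm x + pm y) ∧ ∃ x, k = lgC x := by
  refine ⟨(exC' b).resolve_right ?_, (exC' k).resolve_left ?_⟩
  · rintro ⟨x, rfl⟩
    have := even_lgC k x
    rw [h.1] at this; simp at this
  · rintro ⟨x, y, h1, h2⟩
    have h3 := h.ln_eq
    rw [Amb.ln_eq, Amb.ln_eq, h2, dot_add_two h1] at h3
    have := (ambC m).norm _ b.2
    dsimp only at this
    omega

theorem lc_C [NeZero m] [Rep (ambC m).rs F] {S : StSys (ambC m).rs F G} (hψ : CExt ψ)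
    (hF : ∀ t : F, t = 0 ∨ t = 1) (hm : 4 ≤ m) (r s : Rt (ambC m).rs) (h : 0 ≤ pair r s) :
    LC S ψ r s := by
  have t2 := two_of hF
  have k1 : ∀ x (s : Rt (ambC m).rs) z w, ix z ≠ ix w → s.1 = pm z + pm w → 0 ≤ pm x ⬝ᵥ pm z + pm x ⬝ᵥ pm w →
      LC S ψ (lgC x) s := fun x s z w h1 hs h => by
    obtain ⟨k, a, b, c⟩ := fresh3 hm (ix x) (ix z) (ix w)
    have : 0 ≤ pm x ⬝ᵥ pm z ∧ 0 ≤ pm x ⬝ᵥ pm w := by
      by_cases e : ix x = ix z
      · rw [pm_dot_ne (e ▸ h1 : ix x ≠ ix w)] at h ⊢; omega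
      · rw [pm_dot_ne e] at h ⊢; omega
    exact (crC m).lc_fresh hψ t2 h1 hs (z := .inl k) b c
      (by simp only [lgC_val, crC, smul_dotProduct, pm_dot_ne (b := .inl k) a.symm, smul_zero])
      (by simpa [lgC_val, crC] using this.1) (by simpa [lgC_val, crC] using this.2)
  have b2 : ∀ {z w : Fin m ⊕ Fin m} (h : ix z ≠ ix w.swap), pair (lgC w) ((crC m).rt h) = -1 ∧
      pair ((crC m).rt h) (lgC w) = -2 ∧ (rrefl (lgC w) ((crC m).rt h)).1 = pm z + pm w ∧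
      rrefl ((crC m).rt h) (lgC w) = lgC z := fun {z w} h => by
    have h' : ix z ≠ ix w := by simpa using h
    have e1 : pair (lgC w) ((crC m).rt h) = -1 := by
      simp [pair_lgC, Sh.rt_val, crC, pm_swap, pm_dot, pm_dot_ne h'.symm]
    have e2 : pair ((crC m).rt h) (lgC w) = -2 := by
      simp [Sh.pair_rt, lgC_val, crC, pm_swap, pm_dot, pm_dot_ne h']
    refine ⟨e1, e2, ?_, Subtype.ext ?_⟩
    · rw [Amb.val_rrefl, e1]; simp only [Sh.rt_val, lgC_val, crC, pm_swap]; module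
    · rw [Amb.val_rrefl, e2]; simp only [Sh.rt_val, lgC_val, crC, pm_swap]; module
  rcases exC' r with ⟨x, y, h1, hr⟩ | ⟨x, rfl⟩ <;> rcases exC' s with ⟨z, w, h2, hs⟩ | ⟨z, rfl⟩
  · refine (crC m).lc_short' hψ hF hm (fun r s x y z w a b c d e f hr hs => ?_) h1 h2 hr hs h
    obtain ⟨e1, e2, e3, e4⟩ := b2 (z := z) (w := w) (by simpa using b)
    dsimp only [crC] at hr hs
    have := lcB1 (S := S) hψ e1 e2 (r := r) (S.cm_two t2 (Amb.pair_nonneg.2 (by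
      simp [hr, lgC_val, pm_dot_ne d, pm_dot_ne f]))) (S.cm_two t2 (Amb.pair_nonneg.2 (by
      simp [hr, Sh.rt_val, crC, pm_swap, pm_dot_ne c, pm_dot_ne d, pm_dot_ne e, pm_dot_ne f])))
      (e4 ▸ (k1 z r x y a hr (by simp [pm_dot_ne c.symm, pm_dot_ne e.symm])).symm)
    rwa [show rrefl _ _ = s from Subtype.ext (e3.trans hs.symm)] at this
  · refine (k1 z r x y h1 hr ?_).symm
    rw [Amb.pair_nonneg, dotProduct_comm] at h
    simp [hr, lgC_val] at h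
    omega
  · exact k1 x s z w h2 hs (by simpa [pair_lgC, hs] using h)
  · obtain ⟨k, a, b⟩ := fresh2 (by omega) (ix x) (ix z)
    have h1 : 0 ≤ pm x ⬝ᵥ pm z := by simpa [pair_lgC, lgC_val] using h
    have h2 := pm_dot_ne (a := x) (b := .inl k) a.symm
    obtain ⟨e1, e2, e3, e4⟩ := b2 (z := z) (w := .inl k) b.symm
    exact e4 ▸ lcB2 (S := S) hψ e1 e2 (S.cm_two t2 (by
      simp only [pair_lgC, lgC_val, dotProduct_smul, h2, smul_zero, le_rfl])) (S.cm_two t2 (by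
      rw [pair_lgC]
      change 0 ≤ pm x ⬝ᵥ (pm z + pm (Sum.inl k).swap)
      simpa only [pm_swap, dotProduct_add, dotProduct_neg, h2, neg_zero, add_zero])) (k1 x _ z (.inl k) b.symm e3 (by rwa [h2, add_zero]))

theorem lifts_C [NeZero m] [Rep (ambC m).rs F] {S : StSys (ambC m).rs F G} (hψ : CExt ψ)
    (hS : S.HMul) (hm : 2 ≤ m) (h2 : (∀ t : F, t = 0 ∨ t = 1) → 4 ≤ m) : Lifts S ψ := by
  rcases field_cases F with ⟨v, h0, hv⟩ | ⟨a, b⟩ | h
  · refine lifts_four hψ hS h0 hv (fun r => ?_) fun _ r s h => ?_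
    · rcases exC' r with ⟨x, y, h1, hr⟩ | ⟨x, rfl⟩
      · exact ⟨_, (prB_C h1 hr).ne.symm, by simp [(prB_C h1 hr).2]⟩
      · obtain ⟨b, hb⟩ := ex_prB_C hm x
        exact ⟨_, hb.ne, by simp [hb.1]⟩
    have hv' : v ≠ 1 := fun e => hv (by simp [e])
    have ho : Odd (pair r s * pair s r) := h ▸ odd_one
    rw [Int.odd_mul, ← Int.not_even_iff_odd, ← Int.not_even_iff_odd] at ho
    obtain ⟨x, y, h1, hr⟩ := (exC' r).resolve_right fun ⟨x, e⟩ => ho.2 (e ▸ even_lgC _ _)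
    obtain ⟨z, w, h2, hs⟩ := (exC' s).resolve_right fun ⟨x, e⟩ => ho.1 (e ▸ even_lgC _ _)
    have h3 := (Int.mul_eq_one_iff_eq_one_or_neg_one.1 h).imp (·.1) (·.1)
    have h4 : r.1 ⬝ᵥ r.1 = 2 := hr ▸ dot_add_two h1
    rw [Amb.pair_two h4, hs, dotProduct_add] at h3
    have := dot_pm_mem (v := r.1) (by omega) z
    have := dot_pm_mem (v := r.1) (by omega) w
    by_cases e : r.1 ⬝ᵥ pm z = 0
    · exact (sep_one (γ := lgC z) (by rwa [pair_lgC, dotProduct_comm]) (Or.inl (prB_C h2 hs).1) h0 hv').kill hψ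
    · exact (sep_one (γ := lgC w) (by rw [pair_lgC, dotProduct_comm]; omega)
        (Or.inl (prB_C h2.symm (hs.trans (add_comm _ _))).1) h0 hv').kill hψ
  · refine lifts_three hψ a b hS (fun r => ?_) fun r s h => ?_
    · rcases exC' r with ⟨x, y, h1, hr⟩ | ⟨x, rfl⟩
      · exact Or.inl ⟨lgC x, by simp [(prB_C h1 hr).1]⟩
      · exact Or.inr (ex_prB_C hm x)
    rcases exC' r with ⟨x, y, h1, hr⟩ | ⟨x, rfl⟩ <;> rcases exC' s with ⟨z, w, h2, hs⟩ | ⟨z, rfl⟩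
    · have h4 : r.1 ⬝ᵥ r.1 = 2 := hr ▸ dot_add_two h1
      rw [Amb.pair_two h4] at h
      rcases pos_cases pm h1 h2 with ⟨a, b, c, d⟩ | ⟨x, y, w, a, b, c, d⟩
      · exact Or.inl ⟨lgC z, by simp [pair_lgC, hr, hs, pm_dot, pm_dot_ne a.symm, pm_dot_ne c.symm,
          pm_dot_ne h2]⟩
      refine Or.inr (Or.inl (Amb.ex_add ?_))
      rw [hr, hs, c] at h ⊢
      have e : ix w = ix y := by
        by_contra e
        rcases d with d | d <;>
          simp [d, pm_swap, pm_dot, pm_dot_ne a.symm, pm_dot_ne b, pm_dot_ne (Ne.symm e)] at h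
      rcases eq_or_swap e with rfl | rfl <;> rcases d with d | d <;> rw [d] at h ⊢
      · simp [pm_dot, pm_dot_ne a.symm, pm_dot_ne a] at h
      · exact Or.inr ⟨_, pm_dot w, by rw [pm_swap]; module⟩
      · exact Or.inr ⟨_, pm_dot x, by rw [pm_swap]; module⟩
      · simp [pm_swap, pm_dot, pm_dot_ne a.symm, pm_dot_ne a] at h
    · exact Or.inl ⟨lgC x, by rw [(prB_C h1 hr).1]; exact odd_one.add_even (even_lgC _ _)⟩
    · exact Or.inl ⟨lgC z, by rw [(prB_C h2 hs).1]; exact (even_lgC _ _).add_odd odd_one⟩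
    · have h1 : ix x ≠ ix z.swap := fun e => by
        rcases eq_or_swap e with rfl | rfl <;> simp [pair_lgC, lgC_val, pm_swap, pm_dot] at h
      refine Or.inr (Or.inr (Or.inl ⟨(crC m).rt h1, Subtype.ext ?_, even_lgC _ _⟩))
      rw [Amb.val_rrefl, (prB_C h1 rfl).2]; simp only [Sh.rt_val, lgC_val, crC, pm_swap]; module
  · refine lifts_two hψ h (lc_C hψ h (h2 h)) (fun r => ?_) fun b k hb => ?_
    · rcases exC' r with ⟨x, y, h1, hr⟩ | ⟨x, rfl⟩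
      · exact Or.inl ((crC m).prA (by have := h2 h; omega) h1 hr)
      · exact Or.inr (ex_prB_C hm x)
    obtain ⟨⟨x, y, h3, h4⟩, z, rfl⟩ := short_of_prB hb
    refine ⟨(crC m).prA (by have := h2 h; omega) h3 h4, fun ⟨a, ha⟩ => ?_⟩
    have := even_lgC a z
    rw [ha.1] at this; simp at this

end C

section A
variable {n : ℕ}

theorem exA (r : Rt (ambA n).rs) : ∃ i j : Fin (n + 1), i ≠ j ∧ r.1 = pm (.inl i) + pm (.inr j) := by
  obtain ⟨a, b, h⟩ := (natA n).lead r.1 r.2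
  refine ⟨b, a, ?_, (eq_sub_of_add_eq' h.symm).trans (sub_eq_add_neg _ _)⟩
  rintro rfl
  simpa [left_eq_add.1 h] using Amb.norm_pos r.2

/-- the root `e_i - e_j` -/
def rA {i j : Fin (n + 1)} (h : i ≠ j) : Rt (ambA n).rs :=
  ⟨pm (.inl i) + pm (.inr j), dot_add_two h, by simp [ps_uv, i.2, j.2]⟩

theorem pair_A {r s : Rt (ambA n).rs} {i j k l : Fin (n + 1)} (hr : r.1 = pm (.inl i) + pm (.inr j))
    (hs : s.1 = pm (.inl k) + pm (.inr l)) : pair r s = (if i = k then 1 else 0) -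
      (if i = l then 1 else 0) - (if j = k then 1 else 0) + if j = l then 1 else 0 := by
  rw [Amb.pair_two r.2.1, hr, hs]
  simp only [add_dotProduct, dotProduct_add, pm_dot_pm]
  simp
  split_ifs <;> rfl

theorem prA_A (hn : 2 ≤ n) (r : Rt (ambA n).rs) : ∃ a, PrA a r := by
  obtain ⟨i, j, h, hr⟩ := exA r
  obtain ⟨k, a, b⟩ := fresh2 (by omega) i j
  exact ⟨rA a.symm, by simp [pair_A (r := rA a.symm) rfl hr, h, a, b],
    by simp [pair_A (s := rA a.symm) hr rfl, a.symm, b.symm, h.symm]⟩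

theorem lifts_A [NeZero n] [Rep (ambA n).rs F] {S : StSys (ambA n).rs F G} (hψ : CExt ψ)
    (hS : S.HMul) (hn : 2 ≤ n) (h2 : (∀ t : F, t = 0 ∨ t = 1) → 4 ≤ n)
    (h4 : n = 2 → (2 : F) = 0 → ∃ v : F, v ≠ 0 ∧ v ^ 3 ≠ 1) : Lifts S ψ := by
  refine lifts_SL hψ hS (fun r s => r.2.1.trans s.2.1.symm) (prA_A hn) (fun e v h0 hv r s h => ?_)
    fun hF r s h => ?_
  · by_cases e' : n = 2
    · obtain ⟨w, h5, h6⟩ := h4 e' e
      exact kill_cube hψ h h5 h6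
    obtain ⟨i, j, h5, hr⟩ := exA r
    obtain ⟨k, l, h6, hs⟩ := exA s
    have h3 := (Int.mul_eq_one_iff_eq_one_or_neg_one.1 h).imp (·.1) (·.1)
    rw [pair_A hr hs] at h3
    by_cases e1 : i ≠ k ∧ j ≠ k
    · obtain ⟨z, a, b, c⟩ := fresh3 (by omega) i j k
      have : z ≠ l := by rintro rfl; simp [e1, a.symm, b.symm] at h3
      exact (sep_one (γ := rA c.symm) (by simp [pair_A (r := rA c.symm) rfl hr, a, b, e1.1.symm, e1.2.symm])
        (Or.inl (by simp [pair_A (r := rA c.symm) rfl hs, c, this, h6])) h0 hv).kill hψ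
    · have e2 : i ≠ l ∧ j ≠ l := by
        constructor <;> rintro rfl <;> simp_all <;> split_ifs at h3 <;> simp_all
      obtain ⟨z, a, b, c⟩ := fresh3 (by omega) i j l
      have : z ≠ k := by rintro rfl; simp [a.symm, b.symm] at e1
      exact (sep_one (γ := rA c) (by simp [pair_A (r := rA c) rfl hr, a, b, e2.1.symm, e2.2.symm])
        (Or.inl (by simp [pair_A (r := rA c) rfl hs, c, this, h6.symm])) h0 hv).kill hψ
  · obtain ⟨i, j, h5, hr⟩ := exA r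
    obtain ⟨k, l, h6, hs⟩ := exA s
    obtain ⟨z, a, b, c, d⟩ := fresh4 (by have := h2 hF; omega) i j k l
    have h7 := pair_A (r := rA c.symm) rfl hs
    have h8 := pair_A (s := rA c.symm) hr rfl
    have h9 := pair_A hr hs
    have p1 : pair (rA c.symm) s = 1 := by simp [h7, h6, c, d]
    simp only [a.symm, b.symm, if_false] at h8
    refine lcA hψ p1 (by rw [← pair_symm_of_ln (r := rA c.symm) ((rA c.symm).2.1.trans s.2.1.symm), p1])
      (S.cm_two (two_of hF) ?_) (S.cm_two (two_of hF) ?_)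
    · split_ifs at * <;> omega
    · rw [pair_rrefl', p1]
      split_ifs at * <;> omega

end A

end Gen
end H5
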