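import Cfsg.Agent.H5.GM6

/-! Rank one, perfectness of the Steinberg covers and counting in finite fields. -/

set_option autoImplicit false

namespace H5
namespace Gen

open Cfsg Equiv Matrix Polynomial

attribute [-simp] zsmul_eq_mul

variable {F : Type*} [Field F] {G E : Type*} [Group G] [Group E] {ψ : E →* G}

theorem exists_not_root [Fintype F] {p : F[X]} (h0 : p ≠ 0) (h : p.natDegree < Fintype.card F) :
    ∃ v, p.eval v ≠ 0 := by
  by_contra! h1
  exact h0 (eq_zero_of_natDegree_lt_card_of_eval_eq_zero p Function.injective_id h1 h)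

theorem lc_self_sq {D : RS} [Rep D F] [Conn D] {S : StSys D F G} (hψ : CExt ψ) (r : Rt D)
    {a b c d : F} (ha : a ≠ 0) (hb : b ≠ 0) (hc : c ≠ 0) {k : ℕ}
    (h1 : (a ^ 2)⁻¹ + (b ^ 2)⁻¹ = k * ((c ^ 2)⁻¹ + d)) (hd : d = 0 ∨ d = 1)
    (h2 : a ^ 2 + b ^ 2 ≠ k * (c ^ 2 + d)) : LC S ψ r r := by
  choose l hl using hψ.surj
  let f : F → F → E := fun t u => cm (l (S.x r t)) (l (S.x r u))
  have c0 : ∀ t u g, Commute (f t u) g := fun t u =>
    hψ.commute (by rw [map_cm, hl, hl]; exact cm_eq_one.2 (S.commute_x _ _ _))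
  have a1 : ∀ t t' u, f (t + t') u = f t u * f t' u := fun t t' u => by
    simp only [f]
    rw [hψ.cm_left (a' := l (S.x r t) * l (S.x r t')) (by simp [hl, S.add]), cm_mul_left, mul_assoc _⁻¹,
      (c0 t u _).eq, inv_mul_cancel_left]
  have a2 : ∀ t u u', f t (u + u') = f t u * f t u' := fun t u u' => by
    have := congrArg (·⁻¹) (a1 u u' t)
    simp only [f, _root_.mul_inv_rev, cm_inv] at this
    exact this.trans (c0 _ _ _).eq
  have a3 : ∀ w t u, w ≠ 0 → f (w ^ 2 * t) u = f t ((w ^ 2)⁻¹ * u) := fun w t u hw => by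
    have := (c0 t ((w ^ 2)⁻¹ * u) (l (S.h r w))).eq
    rw [← mul_inv_eq_iff_eq_mul.2 this.symm, conj_cm]
    exact hψ.cm_congr (by simp [hl, S.h_conj _ _ hw, zpow_ofNat])
      (by simp [hl, S.h_conj _ _ hw, zpow_ofNat, hw])
  have z1 : ∀ u, f 0 u = 1 := fun u => (left_eq_mul (a := f 0 u)).1 (by rw [← a1, add_zero])
  have z2 : ∀ u, f u 0 = 1 := fun u => (left_eq_mul (a := f u 0)).1 (by rw [← a2, add_zero])
  have a4 : ∀ (k : ℕ) t u, f (k * t) u = f t (k * u) := fun k t u => by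
    induction k with
    | zero => simp [z1, z2]
    | succ k ih => rw [Nat.cast_succ, add_mul, add_mul, a1, a2, ih, one_mul, one_mul]
  have a5 : ∀ t u, f (d * t) u = f t (d * u) := fun t u => by rcases hd with rfl | rfl <;> simp [z1, z2]
  intro A B t u hA hB
  obtain ⟨t, rfl⟩ : ∃ t', t = (a ^ 2 + b ^ 2 - k * (c ^ 2 + d)) * t' :=
    ⟨_, (mul_div_cancel₀ t (sub_ne_zero.2 h2)).symm⟩
  have h3 : f ((a ^ 2 + b ^ 2) * t) u = f (k * (c ^ 2 + d) * t) u := by
    rw [add_mul, a1, a3 _ _ _ ha, a3 _ _ _ hb, ← a2, ← add_mul, h1, mul_assoc, mul_assoc, a4, add_mul (c ^ 2), a1,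
      a3 _ _ _ hc, a5, ← a2]
    congr 1; ring
  rw [show (a ^ 2 + b ^ 2) * t = k * (c ^ 2 + d) * t + (a ^ 2 + b ^ 2 - k * (c ^ 2 + d)) * t by ring, a1,
    mul_eq_left] at h3
  exact cm_eq_one.1 ((hψ.cm_congr (by rw [hA, hl]) (by rw [hB, hl])).trans h3)

theorem lc_self_card [Fintype F] {D : RS} [Rep D F] [Conn D] {S : StSys D F G} (hψ : CExt ψ)
    (h4 : Fintype.card F ≠ 4) (h9 : Fintype.card F ≠ 9) (r : Rt D) : LC S ψ r r := by
  obtain ⟨p, hp, ⟨n, h0⟩, h1, h2⟩ := FiniteField.card' F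
  by_cases e : n = 1
  · subst e
    have : Fact p.Prime := ⟨h1⟩
    refine lc_self_of_prime hψ (fun t => ?_) r
    obtain ⟨x, rfl⟩ := (ZMod.castHom_bijective F (n := p) (by simpa using h2)).2 t
    exact ⟨x.val, by simp⟩
  have h3 : p ^ 2 ≤ p ^ n := Nat.pow_le_pow_right h1.pos (by omega)
  have h5 : p ^ n = p ^ 2 ∨ p ^ 3 ≤ p ^ n := by
    by_cases e : n = 2
    · exact Or.inl (e ▸ rfl)
    · exact Or.inr (Nat.pow_le_pow_right h1.pos (by omega))
  simp only [PNat.mk_coe] at h2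
  by_cases e2 : p = 2
  · subst e2
    have t2 : (2 : F) = 0 := CharP.cast_eq_zero F 2
    obtain ⟨v, hv⟩ := exists_not_root (F := F) (p := X * (X + 1) * (X ^ 2 + X + 1))
      (by refine Monic.ne_zero ?_; monicity!) (lt_of_le_of_lt (b := 4) (by compute_degree) (by omega))
    simp only [eval_mul, eval_add, eval_pow, eval_X, eval_one, mul_ne_zero_iff] at hv
    refine lc_self_sq hψ r (inv_ne_zero hv.1.1) (inv_ne_zero hv.1.2) one_ne_zero (k := 1) (d := 0)
      (by simp; linear_combination (v ^ 2 + v) * t2) (Or.inl rfl) fun e => hv.2 (pow_eq_zero_iff two_ne_zero |>.1 ?_)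
    have := hv.1.1
    have := hv.1.2
    field_simp at e
    push_cast at e
    linear_combination -e + (2 * v ^ 2 + 2 * v + 1) * t2
  have t2 : (2 : F) ≠ 0 := fun e => e2 ((Nat.prime_dvd_prime_iff_eq h1 Nat.prime_two).1
    ((CharP.cast_eq_zero_iff F p 2).1 e))
  have h6 : 9 < Fintype.card F := by
    have := h1.two_le
    by_cases e3 : p = 3
    · subst e3; omega
    · have : p ≠ 4 := by rintro rfl; norm_num at h1
      have : 5 ^ 2 ≤ p ^ 2 := Nat.pow_le_pow_left (by omega) _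
      omega
  obtain ⟨v, hv⟩ := exists_not_root (F := F)
    (p := X * (X + 1) * (X - 1) * ((X ^ 2 + 1) * (X ^ 2 - X - 1) * (X ^ 2 + X - 1)))
    (by refine Monic.ne_zero ?_; monicity!) (lt_of_le_of_lt (b := 9) (by compute_degree) h6)
  simp only [eval_mul, eval_add, eval_sub, eval_pow, eval_X, eval_one] at hv
  obtain ⟨h7, h8⟩ := mul_ne_zero_iff.1 hv
  simp only [mul_ne_zero_iff] at h7
  obtain ⟨⟨a, b⟩, c⟩ := h7
  refine lc_self_sq hψ r (inv_ne_zero b) (inv_ne_zero c) (inv_ne_zero a) (k := 2) (d := 1)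
    (by simp; ring) (Or.inr rfl) fun e => mul_ne_zero t2 h8 ?_
  push_cast at e
  field_simp at e
  linear_combination -e

theorem lifts_A1 [Fintype F] [Rep (ambA 1).rs F] {S : StSys (ambA 1).rs F G} (hψ : CExt ψ)
    (hS : S.HMul) {v : F} (h0 : v ≠ 0) (hv : v ^ 2 ≠ 1) (h4 : Fintype.card F ≠ 4)
    (h9 : Fintype.card F ≠ 9) : Lifts S ψ :=
  lifts_four' hψ hS h0 hv (lc_self_card hψ h4 h9) fun _ r s h => by
    obtain ⟨i, j, h5, hr⟩ := exA r
    obtain ⟨k, l, h6, hs⟩ := exA s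
    have h3 := (Int.mul_eq_one_iff_eq_one_or_neg_one.1 h).imp (·.1) (·.1)
    rw [pair_A hr hs] at h3
    exfalso
    clear hr hs
    revert i j k l
    decide

theorem exists_sq_ne [Fintype F] (h : 3 < Fintype.card F) : ∃ v : F, v ≠ 0 ∧ v ^ 2 ≠ 1 := by
  obtain ⟨v, hv⟩ := exists_not_root (F := F) (p := X * (X ^ 2 - 1))
    (by refine Monic.ne_zero ?_; monicity!) (lt_of_le_of_lt (b := 3) (by compute_degree) h)
  exact ⟨v, by simpa [sub_eq_zero, not_or] using hv⟩

theorem exists_cube_ne [Fintype F] (h : 4 < Fintype.card F) : ∃ v : F, v ≠ 0 ∧ v ^ 3 ≠ 1 := by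
  obtain ⟨v, hv⟩ := exists_not_root (F := F) (p := X * (X ^ 3 - 1))
    (by refine Monic.ne_zero ?_; monicity!) (lt_of_le_of_lt (b := 4) (by compute_degree) h)
  exact ⟨v, by simpa [sub_eq_zero, not_or] using hv⟩

theorem card_of_two [Fintype F] (h : ∀ t : F, t = 0 ∨ t = 1) : Fintype.card F = 2 := by
  classical
  refine le_antisymm ?_ Fintype.one_lt_card
  exact (Finset.card_le_card (t := {0, 1}) fun t _ => by simpa using h t).trans Finset.card_le_two

theorem card_of_three [Fintype F] (h : ∀ t : F, ∃ k : ℕ, t = k) (h3 : (3 : F) = 0) :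
    Fintype.card F ≤ 3 := by
  classical
  refine (Finset.card_le_card (t := {0, 1, 2}) fun t _ => ?_).trans Finset.card_le_three
  obtain ⟨k, rfl⟩ := h t
  rw [← Nat.div_add_mod k 3]
  have := Nat.mod_lt k three_pos
  interval_cases k % 3 <;> simp [h3]

theorem perfect_C {m : ℕ} [NeZero m] [Rep (ambC m).rs F] {S : StSys (ambC m).rs F G}
    (hS : S.U Set.univ = ⊤) (hm : 2 ≤ m) (h2 : (∀ t : F, t = 0 ∨ t = 1) → 3 ≤ m) : commutator G = ⊤ := by
  have key : ∀ (r : Rt (ambC m).rs) x y, ix x ≠ ix y → r.1 = pm x + pm y → ∀ t, S.x r t ∈ commutator G :=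
    fun r x y h1 hr => by
      by_cases h : ∀ t : F, t = 0 ∨ t = 1
      · obtain ⟨a, ha⟩ := (crC m).prA (h2 h) h1 hr
        exact S.x_mem_comm_A ha
      · push Not at h
        obtain ⟨v, h0, hv⟩ := h
        exact S.x_mem_comm_H (γ := lgC x) h0 (by simpa [(prB_C h1 hr).1] using hv)
  refine S.perfect_of hS fun r => ?_
  rcases exC' r with ⟨x, y, h1, hr⟩ | ⟨x, rfl⟩
  · exact key r x y h1 hr
  · obtain ⟨b, hb⟩ := ex_prB_C hm x
    obtain ⟨⟨y, z, h1, h3⟩, -⟩ := short_of_prB hb.flip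
    exact S.x_mem_comm_B hb (key _ y z h1 h3)

end Gen
end H5
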