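import Cfsg.Agent.H5.GM7
import Cfsg.Agent.H5.GL1

/-! The Steinberg presentation of the special linear groups. -/

set_option autoImplicit false

namespace H5
namespace Gen

open Cfsg Equiv Matrix

attribute [-simp] zsmul_eq_mul

variable {F : Type*} [Field F] {G : Type*} [Group G] {n : ℕ} [NeZero n]

theorem sl_injective [Finite F] {S : StSys (ambA n).rs F G} (hS : S.U Set.univ = ⊤)
    {f : G →* SpecialLinearGroup (Fin (n + 1)) F} (hf : ∀ r t, f (S.x r t) = slX r t) :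
    Function.Injective f := by
  refine (injective_iff_map_eq_one _).2 fun g hg => ?_
  obtain ⟨c, h1, rfl⟩ := (S.hmul_of_finite.center_eq hS).le
    (StSys.ker_le_center hS (S' := sysSL n F) hf hg)
  rw [eq_one_A h1 (k := 0) (by
    simpa using (natA n).mem_Y S.hmul_of_finite (minA n) (f := SpecialLinearGroup.toGL.comp f)
      (fun r t => by rw [MonoidHom.comp_apply, hf]; exact Units.ext rfl) (a := 0) (b := 0) (fun _ => rfl)
      (by rw [MonoidHom.comp_apply, show f _ = 1 from hg, map_one])), map_one]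

theorem exists_equiv_sl [Finite F] {y : Rt (ambA n).rs → F → G} (hy : Rels y)
    (hg : Subgroup.closure {g | ∃ r t, g = y r t} = ⊤)
    {f : G →* SpecialLinearGroup (Fin (n + 1)) F} (hf : ∀ r t, f (y r t) = slX r t) :
    Function.Bijective f := by
  let S : StSys (ambA n).rs F G := ⟨y, hy.add, hy.comm, hy.nrel, (sysSL n F).π.comp f, fun r t => by
    rw [MonoidHom.comp_apply, hf]; exact (sysSL n F).π_x r t⟩
  have hS : S.U Set.univ = ⊤ := eq_top_iff.2 (hg ▸ (Subgroup.closure_le _).2 (by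
    rintro _ ⟨r, t, rfl⟩; exact S.x_mem_U (Set.mem_univ r) t))
  exact ⟨sl_injective hS hf, StSys.surjective_of_map (S := S) sysSL_top hf⟩

omit [NeZero n] in
theorem rtA_inj {i j k l : Fin (n + 1)} {h : i ≠ j} {h' : k ≠ l} (e : rtA h = rtA h') : i = k ∧ j = l := by
  have h1 := congrFun (congrArg Subtype.val e) i
  have h2 := congrFun (congrArg Subtype.val e) j
  simp only [rtA, uv, Pi.sub_apply, Fin.val_inj, h, h.symm, if_true, if_false] at h1 h2
  constructor <;> split_ifs at * <;> simp_all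

/-- the pair of indices of a root of type `A` -/
noncomputable def ijA (r : Rt (ambA n).rs) : {ij : Fin (n + 1) × Fin (n + 1) // ij.1 ≠ ij.2} :=
  ⟨((exists_rtA r).choose, (exists_rtA r).choose_spec.choose), (exists_rtA r).choose_spec.choose_spec.choose⟩

omit [NeZero n] in
theorem ijA_rtA {i j : Fin (n + 1)} (h : i ≠ j) : ijA (rtA h) = ⟨(i, j), h⟩ :=
  have := rtA_inj (exists_rtA (rtA h)).choose_spec.choose_spec.choose_spec
  Subtype.ext (Prod.ext this.1.symm this.2.symm)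

omit [NeZero n] in
theorem pair_rtA {i j k l : Fin (n + 1)} (h : i ≠ j) (h' : k ≠ l) : pair (rtA h) (rtA h') =
    (if i = k then 1 else 0) - (if i = l then 1 else 0) - (if j = k then 1 else 0) +
      if j = l then 1 else 0 :=
  pair_A (sub_eq_add_neg _ _) (sub_eq_add_neg _ _)

/-- the commutator relations of type `A` -/
structure RelsA {ι : Type*} (x : {ij : ι × ι // ij.1 ≠ ij.2} → F → G) : Prop where
  add : ∀ a t u, x a t * x a u = x a (t + u)
  comm : ∀ a b t u, a.1.1 ≠ b.1.2 → a.1.2 ≠ b.1.1 → Commute (x a t) (x b u)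
  cm : ∀ i j l (h1 : i ≠ j) (h2 : j ≠ l) (h3 : i ≠ l) t u,
    x ⟨(i, j), h1⟩ t * x ⟨(j, l), h2⟩ u * (x ⟨(i, j), h1⟩ t)⁻¹ * (x ⟨(j, l), h2⟩ u)⁻¹ =
      x ⟨(i, l), h3⟩ (t * u)

omit [NeZero n] in
theorem relsA_sl {ι : Type*} [Fintype ι] [DecidableEq ι] :
    RelsA fun (a : {ij : ι × ι // ij.1 ≠ ij.2}) (t : F) => SpecialLinearGroup.transvection a.2 t where
  add a t u := Subtype.ext (transvection_mul_transvection_same _ _ a.2 t u)
  comm a b t u h1 h2 := Subtype.ext (by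
    change transvection _ _ _ * transvection _ _ _ = transvection _ _ _ * transvection _ _ _
    simp [transvection, Matrix.add_mul, Matrix.mul_add,
      single_mul_single_of_ne, h1.symm, h2, add_right_comm])
  cm i j l h1 h2 h3 t u := by
    rw [mul_inv_eq_iff_eq_mul, mul_inv_eq_iff_eq_mul]
    refine Subtype.ext ?_
    change transvection _ _ _ * transvection _ _ _ =
      transvection _ _ _ * transvection _ _ _ * transvection _ _ _
    simp [transvection, Matrix.add_mul, Matrix.mul_add,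
      single_mul_single_of_ne, h1.symm, h2.symm, h3.symm]
    abel

namespace RelsA
variable {ι : Type*} {x : {ij : ι × ι // ij.1 ≠ ij.2} → F → G} (h : RelsA x)
include h

theorem zero (a) : x a 0 = 1 := left_eq_mul.1 ((h.add a 0 0).trans (by rw [add_zero])).symm

theorem inv (a t) : (x a t)⁻¹ = x a (-t) := inv_eq_of_mul_eq_one_right (by rw [h.add, add_neg_cancel, h.zero])

theorem cj1 {i j l : ι} (h1 : i ≠ j) (h2 : j ≠ l) (h3 : i ≠ l) (t u : F) :
    MulAut.conj (x ⟨(i, j), h1⟩ t) (x ⟨(j, l), h2⟩ u) = x ⟨(i, l), h3⟩ (t * u) * x ⟨(j, l), h2⟩ u := by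
  rw [← h.cm i j l h1 h2 h3]; simp

theorem cj2 {i j l : ι} (h1 : i ≠ j) (h2 : j ≠ l) (h3 : i ≠ l) (t u : F) :
    MulAut.conj (x ⟨(j, l), h2⟩ u) (x ⟨(i, j), h1⟩ t) = x ⟨(i, j), h1⟩ t * x ⟨(i, l), h3⟩ (-(t * u)) := by
  rw [← neg_mul, ← h.cm i j l h1 h2 h3, h.inv _ (-t), neg_neg, ← h.inv _ t]
  have := (h.comm ⟨(i, j), h1⟩ ⟨(i, l), h3⟩ t (t * u) h3 h1.symm).eq
  simp [mul_assoc]

theorem cj0 {a b} (h1 : a.1.1 ≠ b.1.2) (h2 : a.1.2 ≠ b.1.1) (t u : F) :
    MulAut.conj (x a t) (x b u) = x b u := by simp [(h.comm a b t u h1 h2).eq]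

theorem cm1 {i j l : ι} (a : i ≠ j) (b : j ≠ l) (c : i ≠ l) (t u : F) :
    x ⟨(j, l), b⟩ u * x ⟨(i, j), a⟩ t = x ⟨(i, j), a⟩ t * x ⟨(j, l), b⟩ u * x ⟨(i, l), c⟩ (-(t * u)) := by
  rw [mul_assoc, (h.comm ⟨(j, l), b⟩ ⟨(i, l), c⟩ _ _ b c.symm).eq, ← mul_assoc, ← h.cj2 a b]; simp

theorem cm2 {k i j : ι} (b : k ≠ i) (a : i ≠ j) (e : k ≠ j) (t u : F) :
    x ⟨(k, i), b⟩ u * x ⟨(i, j), a⟩ t = x ⟨(i, j), a⟩ t * x ⟨(k, i), b⟩ u * x ⟨(k, j), e⟩ (u * t) := by
  rw [mul_assoc, (h.comm ⟨(k, i), b⟩ ⟨(k, j), e⟩ _ _ e b.symm).eq, ← mul_assoc,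
    (h.comm ⟨(i, j), a⟩ ⟨(k, j), e⟩ _ _ a e.symm).eq, ← mul_inv_eq_iff_eq_mul.1 (h.cj1 b a e u t)]

theorem nrel {i j k : ι} (h1 : i ≠ j) (h2 : k ≠ i) (h3 : k ≠ j) {t : F} (ht : t ≠ 0) (u : F) :
    MulAut.conj (x ⟨(i, j), h1⟩ t * x ⟨(j, i), h1.symm⟩ (-t⁻¹) * x ⟨(i, j), h1⟩ t) (x ⟨(i, j), h1⟩ u) =
      x ⟨(j, i), h1.symm⟩ (-(t⁻¹ ^ 2 * u)) := by
  have e1 : ∀ a, MulAut.conj (x ⟨(i, j), h1⟩ t * x ⟨(j, i), h1.symm⟩ (-t⁻¹) * x ⟨(i, j), h1⟩ t)
      (x ⟨(i, k), h2.symm⟩ a) = x ⟨(j, k), h3.symm⟩ (-t⁻¹ * a) := fun a => by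
    simp only [map_mul, MulAut.mul_apply]
    rw [h.cj0 h2.symm h1.symm, h.cj1 _ _ h3.symm, map_mul, h.cj1 _ _ h2.symm, h.cj0 h2.symm h1.symm,
      (h.comm _ _ _ _ h2.symm h3).eq, mul_assoc, h.add, show t * (-t⁻¹ * a) + a = 0 by field_simp; ring,
      h.zero, mul_one]
  have e2 : MulAut.conj (x ⟨(i, j), h1⟩ t * x ⟨(j, i), h1.symm⟩ (-t⁻¹) * x ⟨(i, j), h1⟩ t)
      (x ⟨(k, j), h3⟩ 1) = x ⟨(k, i), h2⟩ t⁻¹ := by
    simp only [map_mul, MulAut.mul_apply]
    rw [h.cj0 h1 h3.symm, h.cj2 _ _ h2, map_mul, h.cj2 _ _ h3, h.cj0 h1 h3.symm,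
      (h.comm ⟨(k, i), h2⟩ _ _ _ h3 h2.symm).eq, ← mul_assoc, h.add,
      show (1 : F) + -(-(1 * -t⁻¹) * t) = 0 by field_simp; ring, h.zero, one_mul]
    simp
  rw [← mul_one u, ← h.cm i k j h2.symm h3]
  simp only [map_mul (MulAut.conj _ : MulAut G), map_inv (MulAut.conj _ : MulAut G), e1, e2]
  rw [h.cm _ _ _ _ _ h1.symm]
  congr 1; ring

end RelsA

theorem RelsA.rels (hn : 2 ≤ n) {x : {ij : Fin (n + 1) × Fin (n + 1) // ij.1 ≠ ij.2} → F → G}
    (h : RelsA x) : Rels fun r t => x (ijA r) t where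
  add r := h.add _
  nrel r t u ht := by
    obtain ⟨i, j, h1, rfl⟩ := exists_rtA r
    obtain ⟨k, a, b⟩ := fresh2 (by omega) i j
    simp only [nn, neg_rtA, ijA_rtA]
    rw [← h.nrel h1 a b ht, MulAut.conj_apply, inv_mul_cancel_right]
  comm r s h1 h2 t u := by
    have key : ∀ {i j l : Fin (n + 1)} (h1 : i ≠ j) (h2 : j ≠ l) (h3 : i ≠ l),
        vec (rtA h3) = vec (rtA h1) + vec (rtA h2) := fun _ _ _ =>
      Amb.vec_eq_iff.2 (by rw [map_add, Amb.emb_vec, Amb.emb_vec]; simp [rtA])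
    have k2 : ∀ r s : Rt (ambA n).rs, pair r s ≠ -2 ∨ s = neg r := fun r s => by
      rcases pair_same (a := r) (b := s) (r.2.1.trans s.2.1.symm) with e | e | e | e | e <;> simp [e, PrA] at *
      omega
    have k3 := (k2 r s).resolve_right h2
    have k4 := (k2 s r).resolve_right (by rintro rfl; simp at h2)
    have h5 := (sysSL n F).comm r s h1 h2 1 1
    obtain ⟨i, j, a, rfl⟩ := exists_rtA r
    obtain ⟨k, l, b, rfl⟩ := exists_rtA s
    have hs := relsA_sl (F := F) (ι := Fin (n + 1))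
    have inj : ∀ {i j : Fin (n + 1)} (h : i ≠ j) {t u : F},
        SpecialLinearGroup.transvection h t = SpecialLinearGroup.transvection h u → t = u :=
      fun h _ _ e => (sysSL n F).x_injective (rtA h) ((slX_rtA h _).trans (e.trans (slX_rtA h _).symm))
    simp only [show ∀ r t, (sysSL n F).x r t = slX r t from fun _ _ => rfl] at h5
    by_cases e : j = k
    · subst e
      have c : i ≠ l := by rintro rfl; exact h2 (neg_rtA a).symm
      simp only [cword, cts_add (key a b c) k3 k4, List.map_cons, List.map_nil, List.prod_cons,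
        List.prod_nil, mul_one, pow_one, ijA_rtA, slX_rtA] at h5 ⊢
      rw [h.cm1 a b c, show -(t * u) = -(1 * 1) * t * u by ring,
        inj c (mul_left_cancel ((hs.cm1 a b c 1 1).symm.trans h5))]
      congr 2; ring
    by_cases e' : i = l
    · subst e'
      simp only [cword, cts_add ((key b a (Ne.symm e)).trans (add_comm _ _)) k3 k4, List.map_cons,
        List.map_nil, List.prod_cons, List.prod_nil, mul_one, pow_one, ijA_rtA, slX_rtA] at h5 ⊢
      rw [h.cm2 b a (Ne.symm e), show u * t = 1 * 1 * t * u by ring,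
        inj (Ne.symm e) (mul_left_cancel ((hs.cm2 b a (Ne.symm e) 1 1).symm.trans h5))]
      congr 2; ring
    have h6 : 0 ≤ pair (rtA a) (rtA b) := by rw [pair_rtA, if_neg e, if_neg e']; split_ifs <;> omega
    simp only [cword, cts_nil h2 fun ⟨m, hm⟩ => (by
      have h7 := pair_of_add hm (rtA a)
      have := pair_nonpos_of_add hm
      rw [pair_self] at h7
      obtain rfl := eq_of_pair_two (r := rtA a) (s := m) (by omega)
        (by rw [pair_symm_of_ln (r := m) (s := rtA a) (m.2.1.trans (rtA a).2.1.symm)]; omega)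
      exact vec_ne_zero _ (left_eq_add.1 hm)), List.map_nil, List.prod_nil, mul_one, ijA_rtA]
    exact (h.comm ⟨(i, j), a⟩ ⟨(k, l), b⟩ _ _ e' e).eq.symm

end Gen
end H5
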