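import Cfsg.Agent.H5.GM8

/-! Central extensions with kernel of order prime to the characteristic. -/

set_option autoImplicit false

namespace H5
namespace Gen

open Cfsg Equiv

variable {D : RS} {F : Type*} [Field F] [Rep D F] {G E : Type*} [Group G] [Group E]
  {S : StSys D F G} {ψ : E →* G}

theorem kill_of_tors (hψ : CExt ψ) {p : ℕ} (hp : (p : F) = 0) (h : ∀ z, ψ z = 1 → z ^ p = 1 → z = 1)
    (r s : Rt D) : Kill S ψ r s := by
  intro M h1 h2 _ h4 a b t u ha hb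
  obtain ⟨m, h5, h6⟩ := h4 t u
  obtain ⟨z, h7, h8⟩ : ∃ z, ψ z = 1 ∧ z * cm b a ∈ M :=
    ⟨m * (cm b a)⁻¹, by simp [map_cm, h6, ha, hb], by simpa using h5⟩
  have key : ∀ k : ℕ, z ^ k * cm (b ^ k) a ∈ M := fun k => by
    induction k with
    | zero => simp [cm]
    | succ k ih =>
      convert mul_mem (h2 b u hb _ ih) h8 using 1
      have c1 := (hψ.commute (z := z ^ k) (by simp [h7]) b⁻¹).eq
      have c2 := (hψ.commute h7 (b⁻¹ * cm (b ^ k) a * b)).eq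
      calc _ = z ^ k * (z * (b⁻¹ * cm (b ^ k) a * b)) * cm b a := by
            rw [pow_succ b, cm_mul_left, pow_succ]; simp only [mul_assoc]
        _ = z ^ k * b⁻¹ * cm (b ^ k) a * b * (z * cm b a) := by rw [c2]; simp only [mul_assoc]
        _ = _ := by rw [c1]; simp only [mul_assoc]
  have h9 := key p
  rw [cm_eq_one.2 (hψ.commute (by simp [hb, S.x_pow, hp]) a), mul_one] at h9
  simpa [h z h7 (h1 _ h9 (by simp [h7]))] using h8

theorem lifts_of_tors [Conn D] [Dom D] (hψ : CExt ψ) {p : ℕ} (hp : (p : F) = 0)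
    (h : ∀ z, ψ z = 1 → z ^ p = 1 → z = 1) (h' : ∀ z, ψ z = 1 → ∃ w, ψ w = 1 ∧ w ^ p = z) :
    Lifts S ψ := by
  have lc : ∀ r, LC S ψ r r := fun r => (kill_of_tors hψ hp h r r).lc (S.commute_x r)
  let Y (r : Rt D) : Subgroup E :=
    { carrier := {g | (∃ t, ψ g = S.x r t) ∧ g ^ p = 1}
      one_mem' := ⟨⟨0, by simp⟩, by simp⟩
      mul_mem' := fun ⟨⟨t, h1⟩, h2⟩ ⟨⟨u, h3⟩, h4⟩ => ⟨⟨t + u, by simp [h1, h3, S.add]⟩, by
        rw [(lc r _ _ _ _ h1 h3).mul_pow, h2, h4, one_mul]⟩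
      inv_mem' := fun ⟨⟨t, h1⟩, h2⟩ => ⟨⟨-t, by simp [h1, S.x_inv]⟩, by simp [h2]⟩ }
  suffices ∀ r, Base S ψ r (Y r) by
    obtain ⟨L, -⟩ := exists_lift hψ Y fun r _ => this r
    exact ⟨L.y, L.rels' hψ fun r s _ _ => Or.inl (kill_of_tors hψ hp h r s), L.ψ_y⟩
  refine fun r => ⟨fun t => ?_, fun g hg h1 => h g h1 hg.2, fun g hg => hg.1,
    fun e he h1 g ⟨⟨t, h2⟩, h3⟩ => ?_⟩
  · obtain ⟨g, hg⟩ := hψ.surj (S.x r t)
    obtain ⟨w, h1, h2⟩ := h' (g ^ p) (by simp [hg, S.x_pow, hp])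
    exact ⟨w⁻¹ * g, ⟨⟨t, by simp [h1, hg]⟩, by
      rw [(hψ.commute h1 g).inv_left.mul_pow, inv_pow, h2, inv_mul_cancel]⟩, by simp [h1, hg]⟩
  · obtain ⟨γ, -, -, h4⟩ := S.acts_φ ⟨_, he⟩
    exact ⟨⟨γ r * t, by rw [map_mul, map_mul, map_inv, h2, h4, h1]⟩, by rw [conj_pow, h3]; simp⟩

theorem lifts_of_coprime [Conn D] [Dom D] (hψ : CExt ψ) {p m : ℕ} (hp : (p : F) = 0)
    (hm : m.Coprime p) (h : ∀ z, ψ z = 1 → z ^ m = 1) : Lifts S ψ :=
  lifts_of_tors hψ hp (fun z h1 h2 => pow_eq_one_iff_of_coprime hm |>.1 ⟨h z h1, h2⟩) fun z h1 => by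
    obtain ⟨k, hk⟩ := exists_pow_eq_self_of_coprime (x := z)
      (Nat.Coprime.coprime_dvd_right (orderOf_dvd_of_pow_eq_one (h z h1)) hm.symm)
    exact ⟨z ^ k, by simp [h1], by rw [← pow_mul, mul_comm, pow_mul, hk]⟩

open scoped IsMulCommutative in
theorem pow_index_of_cyclic [Finite G] (hσ : IsStemExtension ψ) (H : Subgroup G) [IsCyclic H] {z : E}
    (hz : ψ z = 1) : z ^ H.index = 1 := by
  have h1 : (H.comap ψ).index = H.index := Subgroup.index_comap_of_surjective _ hσ.1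
  have : (H.comap ψ).FiniteIndex := ⟨h1 ▸ Subgroup.index_ne_zero_of_finite⟩
  have : IsMulCommutative (H.comap ψ) := ⟨⟨commutative_of_cyclic_center_quotient (ψ.subgroupComap H)
    fun g hg => Subgroup.mem_center_iff.2 fun a => Subtype.ext
      (Subgroup.mem_center_iff.1 (hσ.2.1 (congrArg Subtype.val hg)) _)⟩⟩
  have h2 := MonoidHom.transfer_eq_pow (MonoidHom.id (H.comap ψ)) z fun k g _ => by
    rw [mul_assoc, ← Subgroup.mem_center_iff.1 (pow_mem (hσ.2.1 hz) k), inv_mul_cancel_left]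
  rw [Abelianization.commutator_subset_ker _ (hσ.2.2 hz)] at h2
  exact h1 ▸ congrArg Subtype.val h2.symm

end Gen
end H5
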