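import Cfsg.Agent.H5.Misc1

/-! Steinberg symbols vanish over finite fields. -/

set_option autoImplicit false

namespace H5
namespace Chev

open Cfsg Cfsg.Lie Cfsg.Lie.ChevalleyDatum Equiv

variable {D : ChevalleyDatum} {F : Type*} [Field F] {G : Type*} [Group G] [Good D] [Conn D]

namespace StSys
variable (S : StSys D F G)

theorem symb_comm (r : Rt D) {t u : F} (ht : t ≠ 0) (hu : u ≠ 0) {g : G} (hg : g ∈ S.U Set.univ) :
    Commute (S.h r t * S.h r u * (S.h r (t * u))⁻¹) g := by
  have h := mul_ne_zero ht hu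
  refine mul_inv_eq_iff_eq_mul.1 (S.commute_of_π (S.H_le_U (mul_mem (mul_mem (S.h_mem_H r ht)
    (S.h_mem_H r hu)) (inv_mem (S.h_mem_H r h)))) ?_ g hg)
  have : S.π (S.h r t * S.h r u) = S.π (S.h r (t * u)) := by
    simp only [map_mul, π_h, hMat_mul r ht hu]
  rw [map_mul, this, ← map_mul, mul_inv_cancel, map_one]

theorem h_mul_of_add (r : Rt D) {t u : F} (ht : t ≠ 0) (hu : u ≠ 0) (h : t + u = 1) :
    S.h r t * S.h r u = S.h r (t * u) := by
  have h1 : S.n r (-1) = S.x (neg r) 1 * S.x r (-1) * S.x (neg r) 1 := by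
    rw [← S.n_neg r (neg_ne_zero.2 one_ne_zero)]; simp [n]
  have h2 := S.n_conj_neg r ht 1
  have h3 := S.n_conj_self r hu (-u ^ 2)
  rw [show -(u⁻¹ ^ 2 * -u ^ 2) = 1 by field_simp, mul_inv_eq_iff_eq_mul] at h3
  rw [mul_inv_eq_iff_eq_mul] at h2
  have h4 : S.n r t * S.n r (-1) * S.n r u = S.n r (t * u) := by
    calc _ = S.n r t * S.x (neg r) 1 * S.x r (-1) * (S.x (neg r) 1 * S.n r u) := by
          simp only [h1, mul_assoc]
      _ = _ := by
        rw [h2, ← h3]
        simp only [n, mul_assoc, add_mul, S.add]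
        rw [show t + -1 + u = 0 by linear_combination h, x_zero, one_mul, add_mul,
          show -(t ^ 2 * 1) + t = t * u by linear_combination (-t) * h,
          show u + -u ^ 2 = t * u by linear_combination (-u) * h,
          show -t⁻¹ + -u⁻¹ = -(t * u)⁻¹ by field_simp; linear_combination -h]
  rw [StSys.h, StSys.h, StSys.h, ← h4]
  simp only [mul_assoc]

theorem h_commute [Finite F] (r : Rt D) {t u : F} (ht : t ≠ 0) (hu : u ≠ 0) :
    Commute (S.h r t) (S.h r u) := by
  obtain ⟨v, hv⟩ := IsCyclic.exists_monoid_generator (α := Fˣ)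
  have key : ∀ m : ℕ, ∀ g ∈ S.U Set.univ, Commute (S.h r v) g → Commute (S.h r (v ^ m)) g := by
    intro m g hg h
    induction m with
    | zero => simp
    | succ m ih =>
      have := (S.symb_comm r (pow_ne_zero m v.ne_zero) v.ne_zero hg).inv_left.mul_left (ih.mul_left h)
      simpa [mul_assoc, pow_succ] using this
  obtain ⟨a, ha⟩ := hv (Units.mk0 t ht)
  obtain ⟨b, hb⟩ := hv (Units.mk0 u hu)
  obtain rfl : (v : F) ^ a = t := by simpa using congrArg Units.val ha
  obtain rfl : (v : F) ^ b = u := by simpa using congrArg Units.val hb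
  exact key a _ (S.H_le_U (S.h_mem_H r hu))
    (key b _ (S.H_le_U (S.h_mem_H r v.ne_zero)) (Commute.refl _)).symm

theorem hmul_of_finite [Finite F] : S.HMul := by
  intro r
  have h1 : ∀ u v : F, u ≠ 0 → v ≠ 0 → S.h r v * S.h r (u ^ 2) = S.h r (u ^ 2 * v) := by
    intro u v hu hv
    have h2 : S.h r u * S.h r v * (S.h r u)⁻¹ = S.h r (u ^ 2 * v) * (S.h r (u ^ 2))⁻¹ := by
      calc _ = S.h r u * S.n r v * (S.h r u)⁻¹ * (S.h r u * S.n r 1 * (S.h r u)⁻¹)⁻¹ := by
            conv_lhs => rw [show S.h r v = S.n r v * (S.n r 1)⁻¹ by rw [n_inv]; rfl]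
            group
        _ = _ := by
          rw [S.h_conj_n _ _ hu, S.h_conj_n _ _ hu, pair_self, mul_one, zpow_ofNat]
          simp [StSys.h, mul_assoc]
    rw [(S.h_commute r hu hv).eq, mul_inv_cancel_right] at h2
    rw [h2, inv_mul_cancel_right]
  intro t u ht hu
  by_cases h2 : IsSquare u
  · obtain ⟨a, rfl⟩ := h2
    rw [← sq, h1 a t (fun h => hu (by simp [h])) ht, mul_comm]
  by_cases h3 : IsSquare t
  · obtain ⟨a, rfl⟩ := h3
    rw [(S.h_commute r ht hu).eq, ← sq, h1 a u (fun h => ht (by simp [h])) hu]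
  have := Fintype.ofFinite F
  have hp : Fintype.card F % 2 = 1 := FiniteField.odd_card_of_char_ne_two fun h =>
    h2 (FiniteField.isSquare_of_char_two h u)
  obtain ⟨a, b, h4⟩ := FiniteField.exists_root_sum_quadratic
    (f := Polynomial.C t * Polynomial.X ^ 2 - 1) (g := Polynomial.C u * Polynomial.X ^ 2)
    (by rw [Polynomial.degree_sub_eq_left_of_degree_lt] <;> simp [Polynomial.degree_C ht])
    (by simp [Polynomial.degree_C hu]) hp
  simp only [Polynomial.eval_sub, Polynomial.eval_mul, Polynomial.eval_C, Polynomial.eval_pow,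
    Polynomial.eval_X, Polynomial.eval_one] at h4
  have ha : a ≠ 0 := by
    rintro rfl
    have hb : b ≠ 0 := by rintro rfl; simp at h4
    exact h2 ⟨b⁻¹, by field_simp; linear_combination h4⟩
  have hb : b ≠ 0 := by
    rintro rfl
    exact h3 ⟨a⁻¹, by field_simp; linear_combination h4⟩
  have h5 := S.h_mul_of_add r (mul_ne_zero (pow_ne_zero 2 ha) ht) (mul_ne_zero (pow_ne_zero 2 hb) hu)
    (by linear_combination h4)
  rw [show a ^ 2 * t * (b ^ 2 * u) = b ^ 2 * (a ^ 2 * (t * u)) by ring, ← h1 a t ha ht, ← h1 b u hb hu,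
    ← h1 b _ hb (mul_ne_zero (pow_ne_zero 2 ha) (mul_ne_zero ht hu)), ← h1 a _ ha (mul_ne_zero ht hu),
    ← mul_assoc, mul_left_inj, mul_assoc, (S.h_commute r (pow_ne_zero 2 ha) hu).eq, ← mul_assoc,
    mul_left_inj] at h5
  exact h5

end StSys

omit [Conn D] in
theorem exists_sc_st : ∃ f : D.SteinbergCover F →* D.SteinbergGroup F,
    ∀ (r : Rt D) t, f ((scSys D F).x r t) = (stSys D F).x r t := exists_lift_sc (stSys D F).rels

theorem exists_equiv_sc_st [Finite F] : ∃ e : D.SteinbergCover F ≃* D.SteinbergGroup F,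
    ∀ (r : Rt D) t, e ((scSys D F).x r t) = (stSys D F).x r t := by
  obtain ⟨f, hf⟩ := exists_sc_st (D := D) (F := F)
  obtain ⟨g, hg⟩ := exists_lift_st (scSys D F).rels (scSys D F).hmul_of_finite
  replace hg : ∀ r t, g ((stSys D F).x r t) = (scSys D F).x r t := hg
  exact ⟨f.toMulEquiv g (StSys.hom_ext scSys_top fun r t => by simp [hf, hg])
    (StSys.hom_ext stSys_top fun r t => by simp [hf, hg]), hf⟩

end Chev
end H5
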