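import Cfsg.Agent.H5.Mul2

/-! Lifting the Steinberg relations: kernels without `p`-torsion, and the field of two elements. -/

set_option autoImplicit false

namespace H5
namespace Chev

open Cfsg Cfsg.Lie Cfsg.Lie.ChevalleyDatum Equiv

variable {D : ChevalleyDatum} {F : Type*} [Field F] {G E : Type*} [Group G] [Group E]
  {S : StSys D F G} {ψ : E →* G}

/-- the root elements have lifts satisfying the Steinberg relations -/
def Lifts (S : StSys D F G) (ψ : E →* G) : Prop :=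
  ∃ y : Rt D → F → E, Rels y ∧ ∀ r t, ψ (y r t) = S.x r t

theorem kill_of_tors (hψ : CExt ψ) {p : ℕ} (hp : (p : F) = 0) (h : ∀ z, ψ z = 1 → z ^ p = 1 → z = 1)
    (r s : Rt D) : Kill S ψ r s := by
  intro M h1 h2 _ h4 a b t u ha hb
  obtain ⟨m, h5, h6⟩ := h4 t u
  obtain ⟨z, h7, h8⟩ : ∃ z, ψ z = 1 ∧ z * cm b a ∈ M :=
    ⟨m * (cm b a)⁻¹, by simp [map_cm, h6, ha, hb], by simpa using h5⟩
  have key : ∀ k : ℕ, z ^ k * cm (b ^ k) a ∈ M := fun k => by
    induction k with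
    | zero => simp [cm]
    | succ k ih =>
      convert mul_mem (h2 b u hb _ ih) h8 using 1
      have c1 := (hψ.commute (z := z ^ k) (by simp [h7]) b⁻¹).eq
      have c2 := (hψ.commute h7 (b⁻¹ * cm (b ^ k) a * b)).eq
      calc _ = z ^ k * (z * (b⁻¹ * cm (b ^ k) a * b)) * cm b a := by
            rw [pow_succ b, cm_mul_left, pow_succ]; simp only [mul_assoc]
        _ = z ^ k * b⁻¹ * cm (b ^ k) a * b * (z * cm b a) := by rw [c2]; simp only [mul_assoc]
        _ = _ := by rw [c1]; simp only [mul_assoc]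
  have h9 := key p
  rw [cm_eq_one.2 (hψ.commute (by simp [hb, S.x_pow, hp]) a), mul_one] at h9
  simpa [h z h7 (h1 _ h9 (by simp [h7]))] using h8

variable [Good D]

theorem lifts_of_tors [Conn D] [Dom D] (hψ : CExt ψ) {p : ℕ} (hp : (p : F) = 0)
    (h : ∀ z, ψ z = 1 → z ^ p = 1 → z = 1) (h' : ∀ z, ψ z = 1 → ∃ w, ψ w = 1 ∧ w ^ p = z) :
    Lifts S ψ := by
  have lc : ∀ r, LC S ψ r r := fun r => (kill_of_tors hψ hp h r r).lc (S.commute_x r)
  let Y (r : Rt D) : Subgroup E :=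
    { carrier := {g | (∃ t, ψ g = S.x r t) ∧ g ^ p = 1}
      one_mem' := ⟨⟨0, by simp⟩, by simp⟩
      mul_mem' := fun ⟨⟨t, h1⟩, h2⟩ ⟨⟨u, h3⟩, h4⟩ => ⟨⟨t + u, by simp [h1, h3, S.add]⟩, by
        rw [(lc r _ _ _ _ h1 h3).mul_pow, h2, h4, one_mul]⟩
      inv_mem' := fun ⟨⟨t, h1⟩, h2⟩ => ⟨⟨-t, by simp [h1, S.x_inv]⟩, by simp [h2]⟩ }
  suffices ∀ r, Base S ψ r (Y r) by
    obtain ⟨L, -⟩ := exists_lift hψ Y fun r _ => this r
    exact ⟨L.y, L.rels' hψ fun r s _ _ => Or.inl (kill_of_tors hψ hp h r s), L.ψ_y⟩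
  refine fun r => ⟨fun t => ?_, fun g hg h1 => h g h1 hg.2, fun g hg => hg.1,
    fun e he h1 g ⟨⟨t, h2⟩, h3⟩ => ?_⟩
  · obtain ⟨g, hg⟩ := hψ.surj (S.x r t)
    obtain ⟨w, h1, h2⟩ := h' (g ^ p) (by simp [hg, S.x_pow, hp])
    exact ⟨w⁻¹ * g, ⟨⟨t, by simp [h1, hg]⟩, by
      rw [(hψ.commute h1 g).inv_left.mul_pow, inv_pow, h2, inv_mul_cancel]⟩, by simp [h1, hg]⟩
  · obtain ⟨γ, -, -, h4⟩ := S.acts_φ ⟨_, he⟩
    exact ⟨⟨γ r * t, by rw [map_mul, map_mul, map_inv, h2, h4, h1]⟩, by rw [conj_pow, h3]; simp⟩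

theorem lifts_of_H [Conn D] [Dom D] (hψ : CExt ψ) (hS : S.HMul)
    (h1 : ∀ r, (∀ i, 0 ≤ wt r i) → LC S ψ r r ∧ ∃ γ, ∃ v : F, v ≠ 0 ∧ v ^ pair γ r ≠ 1)
    (h2 : ∀ r s, (∀ i, 0 ≤ wt r i) → (∀ i, wt r i = 0 → 0 ≤ wt s i) → s ≠ r → s ≠ neg r →
      Sep F r s ∨ Sep F s r ∨ LC S ψ r s) : Lifts S ψ := by
  have : ∀ r, ∃ Y, (∀ i, 0 ≤ wt r i) → Base S ψ r Y := fun r => by
    by_cases h : ∀ i, 0 ≤ wt r i
    · obtain ⟨h3, γ, v, h4, h5⟩ := h1 r h
      exact (base_of_H hψ hS h3 h4 h5).imp fun _ h _ => h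
    · exact ⟨⊥, fun h' => absurd h' h⟩
  choose Y hY using this
  obtain ⟨L, -⟩ := exists_lift hψ Y hY
  exact ⟨L.y, L.rels hψ fun r s a b c d => (h2 r s a b c d).imp_right (.imp_right Lift.P_of_lc), L.ψ_y⟩

/-! ### checks on dominant pairs -/

noncomputable def chkPairs (T : Fast) (f : ℕ → ℕ → Bool) : Bool :=
  allLt T.n fun r => bc (allLt T.l fun i => znn (T.wt r i))
    (allLt T.n fun s => bc (allLt T.l fun i => bc (zeq (T.wt r i) 0) (znn (T.wt s i)) true)
      (f r s) true) true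

theorem chkPairs_sound {f : ℕ → ℕ → Bool} (h : chkPairs (Good.T D) f = true) {r s : Rt D}
    (hr : ∀ i, 0 ≤ wt r i) (hs : ∀ i, wt r i = 0 → 0 ≤ wt s i) : f r s = true := by
  simp only [chkPairs, allLt_iff, bc_eq_ite, znn_iff, zeq_iff, n_eq, l_eq] at h
  have := h r r.2
  rw [if_pos fun i hi => wt_T r ⟨i, hi⟩ ▸ hr _, allLt_iff] at this
  have := this s s.2
  rwa [if_pos fun i hi => ?_] at this
  split_ifs with h
  · exact znn_iff.2 (wt_T s ⟨i, hi⟩ ▸ hs _ ((wt_T r ⟨i, hi⟩).trans h))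
  · rfl

theorem pairs_of_chk {L : List (ℕ × ℕ)}
    (h : chkPairs (Good.T D) (fun r s => anyL L fun e => band (Nat.beq e.1 r) (Nat.beq e.2 s)) = true)
    {r s : Rt D} (hr : ∀ i, 0 ≤ wt r i) (hs : ∀ i, wt r i = 0 → 0 ≤ wt s i) :
    ((r : ℕ), (s : ℕ)) ∈ L := by
  have := chkPairs_sound h hr hs
  simp only [anyL_iff, band_iff, Nat.beq_eq] at this
  obtain ⟨e, h1, h2, h3⟩ := this
  rwa [← h2, ← h3]

/-- simply laced root systems -/
structure SL (D : ChevalleyDatum) [Good D] : Prop where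
  ex : ∀ r s : Rt D, pair r s = -1 → ∃ k c, (c = 1 ∨ c = -1) ∧ cts r s = [(k, c, 1, 1)]
  nil : ∀ r s : Rt D, s ≠ r → 0 ≤ pair r s → cts r s = []
  rng : ∀ r s : Rt D, s ≠ r → s ≠ neg r → pair r s = -1 ∨ pair r s = 0 ∨ pair r s = 1
  symm : ∀ r s : Rt D, pair r s = pair s r

theorem sl_of_dom (h : ∀ r s : Rt D, (∀ i, 0 ≤ wt r i) → (∀ i, wt r i = 0 → 0 ≤ wt s i) →
    (pair r s = -1 → ∃ e ∈ cts r s, (e.2.1 = 1 ∨ e.2.1 = -1) ∧ cts r s = [(e.1, e.2.1, 1, 1)]) ∧
    (s ≠ r → 0 ≤ pair r s → cts r s = []) ∧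
    (s ≠ r → s ≠ neg r → pair r s = -1 ∨ pair r s = 0 ∨ pair r s = 1) ∧ pair r s = pair s r) : SL D where
  ex := pair_induction (fun r s a b c => let ⟨e, _, h⟩ := (h r s a b).1 c; ⟨_, _, h⟩)
    fun i r s ih h1 => by
      obtain ⟨k, c, h2, h3⟩ := ih (by simpa using h1)
      refine ⟨refl i k, c * eta i k * eta i r * eta i s, ?_,
        ((reflMap i).map_cts r s).trans (by simp [h3, reflMap])⟩
      rcases h2 with rfl | rfl <;> rcases eta_cases i k with a | a <;> rcases eta_cases i r with b | b <;>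
        rcases eta_cases i s with c | c <;> simp [a, b, c]
  nil := pair_induction (fun r s a b => (h r s a b).2.1) fun i r s ih h1 h2 =>
    ((reflMap i).map_cts r s).trans (by simp [ih (fun e => h1 (e ▸ rfl)) (by simpa using h2)])
  rng := pair_induction (fun r s a b => (h r s a b).2.2.1) fun i r s ih h1 h2 => by
    simpa using ih (fun e => h1 (e ▸ rfl)) fun e => h2 (by simp [e])
  symm := pair_induction (fun r s a b => (h r s a b).2.2.2) fun i r s ih => by simpa using ih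

namespace SL
variable (h : SL D)
include h

theorem commute {r s : Rt D} (h1 : 0 ≤ pair r s) (t u : F) : Commute (S.x r t) (S.x s u) := by
  by_cases e : s = r
  · exact e ▸ S.commute_x _ _ _
  · exact S.commute_of_cts (fun e => by simp [e] at h1) (by simp [h.nil r s e h1]) t u

theorem ex' {a s : Rt D} (h1 : pair a s = 1) :
    ∃ c, (c = 1 ∨ c = -1) ∧ cts a (rrefl a s) = [(s, c, 1, 1)] := by
  obtain ⟨k, c, h2, h3⟩ := h.ex a (rrefl a s) (by simp [h1])
  obtain rfl : k = s := vec_injective (by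
    rw [(mem_cts (h3 ▸ List.mem_singleton_self _ : (k, c, 1, 1) ∈ _)).2.2, vec_rrefl, h1]; simp)
  exact ⟨c, h2, h3⟩

omit h in
theorem pair_rrefl' (r a s : Rt D) : pair r (rrefl a s) = pair r s - pair a s * pair r a := by
  rw [← pv_vec, vec_rrefl, map_sub, map_smul]; simp

theorem lc (hψ : CExt ψ) {r s a : Rt D} (h1 : pair a s = 1) (h2 : 0 ≤ pair r a)
    (h3 : pair r a ≤ pair r s) : LC S ψ r s := by
  obtain ⟨c, h4, h5⟩ := h.ex' h1
  have := pair_rrefl_self a s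
  exact lc_of_cts hψ (l₁ := []) (l₂ := []) (fun e => by simp [e, h1] at this)
    (fun e => by simp [e, h1] at this) h5 (by rcases h4 with rfl | rfl <;> simp)
    (h.commute h2) (h.commute (by rw [pair_rrefl', h1]; omega)) (by simp) (by simp)

theorem cm_eq (h2 : (2 : F) = 0) {a s : Rt D} (h1 : pair a s = 1) :
    cm (S.x (rrefl a s) 1) (S.x a 1) = S.x s 1 := by
  obtain ⟨c, h4, h5⟩ := h.ex' h1
  have := pair_rrefl_self a s
  rw [S.cm_of_cts (fun e => by simp [e, h1] at this) (fun e => by simp [e, h1] at this) h5]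
  rcases h4 with rfl | rfl
  · simp [show (-1 : F) = 1 by linear_combination -h2]
  · simp

theorem lifts_two [Conn D] [Dom D] (hψ : CExt ψ) (hF : ∀ t : F, t = 0 ∨ t = 1)
    (dec : ∀ r s : Rt D, 0 ≤ pair r s → ∃ a, pair a s = 1 ∧ 0 ≤ pair r a ∧ pair r a ≤ pair r s)
    (uq : ∀ r s s' : Rt D, (∀ i, 0 ≤ wt r i) → (∀ i, wt r i = 0 → 0 ≤ wt s i) →
      (∀ i, wt r i = 0 → 0 ≤ wt s' i) → pair r s = 1 → pair r s' = 1 → s = s') : Lifts S ψ := by
  have h2 : (2 : F) = 0 := (hF 2).resolve_right fun e => one_ne_zero (α := F) (by linear_combination e)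
  have hF' : ∀ t : F, ∃ k : ℕ, t = k := fun t => (hF t).elim (⟨0, by simp [·]⟩) (⟨1, by simp [·]⟩)
  have lc : ∀ {r s}, 0 ≤ pair r s → LC S ψ r s := fun h1 =>
    let ⟨_, h2, h3, h4⟩ := dec _ _ h1; h.lc hψ h2 h3 h4
  choose l hl using hψ.surj
  let c (r a : Rt D) : E := cm (l (S.x (rrefl a r) 1)) (l (S.x a 1))
  have hc : ∀ {r a}, pair a r = 1 → ψ (c r a) = S.x r 1 := fun h1 => by
    rw [map_cm, hl, hl, h.cm_eq h2 h1]
  have sq : ∀ {r a}, pair a r = 1 → (c r a)⁻¹ = c r a := fun {r a} h1 => by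
    rw [inv_eq_iff_mul_eq_one, ← pow_two, ← cm_pow_left (lc (by
      rw [pair_rrefl', h1, h.symm r a, h1]; simp) _ _ _ _ (hc h1) (hl _))]
    exact cm_eq_one.2 (hψ.commute (by simp [hl, S.x_pow, h2]) _)
  have step : ∀ {r a γ}, pair a r = 1 → pair γ r = 0 → pair γ a = -1 → c r (rrefl γ a) = c r a := by
    intro r a γ h3 h4 h5
    have s := h.symm
    have p1 : pair (rrefl γ a) r = 1 := by rw [s, pair_rrefl', s r, s r, h3, h4]; simp
    have p2 : pair a (rrefl γ a) = 1 := by rw [pair_rrefl', s a γ, h5]; simp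
    have p3 : pair γ (rrefl a r) = 1 := by rw [pair_rrefl', h3, h4, h5]; simp
    have e1 : rrefl γ (rrefl a r) = rrefl (rrefl γ a) r := vec_injective (by
      simp only [vec_rrefl, p1, p3, h3, h5]; module)
    have q1 := h.cm_eq (S := S) h2 p3
    have q2 := h.cm_eq (S := S) h2 (a := γ) (s := rrefl γ a) (by simp [h5])
    rw [e1] at q1
    rw [rrefl_rrefl] at q2
    have z1 := hc h3
    have z2 := hc p1
    simp only [c] at z1 z2 ⊢
    have hA := hl (S.x a 1)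
    have hA' := hl (S.x (rrefl γ a) 1)
    have hB := hl (S.x (rrefl a r) 1)
    have hB' := hl (S.x (rrefl (rrefl γ a) r) 1)
    have c1 := lc (r := rrefl (rrefl γ a) r) (s := a) (by rw [s, pair_rrefl', h3, p1, p2]; simp)
      _ _ _ _ hB' hA
    have c2 := lc (r := rrefl a r) (s := rrefl γ a) (by rw [s, pair_rrefl', h3, p1, s _ a, p2]; simp)
      _ _ _ _ hB hA'
    have c3 := lc (by rw [s, p1]; simp) _ _ _ _ z1 hA'
    have c4 := lc (by rw [pair_rrefl', h3, s r a, h3]; simp) _ _ _ _ z2 hB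
    have sq' := sq h3
    simp only [c] at sq'
    generalize l (S.x a 1) = A at *
    generalize l (S.x (rrefl γ a) 1) = A' at *
    generalize l (S.x (rrefl a r) 1) = B at *
    generalize l (S.x (rrefl (rrefl γ a) r) 1) = B' at *
    have c5 := congrArg (fun g => (l (S.x γ 1))⁻¹ * g * (l (S.x γ 1))⁻¹⁻¹) (cm_eq_one.2 c1)
    simp only [conj_cm, mul_one, mul_inv_cancel] at c5
    rw [hψ.cm_congr (a' := B' * B) (b' := A * A') (by simp [hl, hB, hB', ← q1, cm, mul_assoc])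
      (by simp [hl, hA, hA', ← q2, cm, mul_assoc]), cm_eq_one] at c5
    rw [← sq', eq_inv_iff_mul_eq_one]
    have k1 : B * A = A * B * cm B A := by simp [cm, mul_assoc]
    have k2 : B' * A' = A' * B' * cm B' A' := by simp [cm, mul_assoc]
    have : A * A' * (B' * B) * (cm B' A' * cm B A) = A * A' * (B' * B) := by
      conv_rhs => rw [← c5.eq]
      calc _ = A * (A' * B' * (B * cm B' A')) * cm B A := by simp only [mul_assoc]
        _ = A * B' * (A' * B) * cm B A := by rw [← c4.eq, ← mul_assoc, ← mul_assoc, mul_assoc A, ← k2]; group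
        _ = B' * (A * B * cm B A) * A' := by
          rw [← c2.eq, ← c1.eq, mul_assoc, mul_assoc B, ← c3.eq]; group
        _ = _ := by rw [← k1]; group
    exact mul_eq_left.1 this
  have indep : ∀ {r}, (∀ i, 0 ≤ wt r i) → ∀ a a', pair a r = 1 → pair a' r = 1 → c r a = c r a' := by
    intro r hr
    have : ∀ a, pair a r = 1 → ∃ b, (∀ i, wt r i = 0 → 0 ≤ wt b i) ∧ pair b r = 1 ∧ c r a = c r b := by
      intro a
      induction a using WellFoundedGT.induction with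
      | ind a ih =>
        intro ha
        by_cases h3 : ∀ i, wt r i = 0 → 0 ≤ wt a i
        · exact ⟨a, h3, ha, rfl⟩
        push Not at h3
        obtain ⟨i, h3, h4⟩ := h3
        have h5 : pair (simple i) a = -1 := by
          rcases h.rng (simple i) a (fun e => by simp [e] at h4)
            (fun e => by rw [e, h.symm] at ha; simp [h.symm r, h3] at ha) with e | e | e <;>
            simp_all <;> omega
        obtain ⟨b, h6, h7, h8⟩ := ih (rrefl (simple i) a) (by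
          have := pos_iff_ord.1 (pos_simple i)
          rw [← ord_lt_iff, vec_rrefl, h5]; simpa) (by
          rw [h.symm, pair_rrefl', h.symm r, h.symm r, ha, pair_simple i r, h3]; simp)
        exact ⟨b, h6, h7, (step ha (by simpa using h3) h5).symm.trans h8⟩
    intro a a' ha ha'
    obtain ⟨b, h3, h4, h5⟩ := this a ha
    obtain ⟨b', h3', h4', h5'⟩ := this a' ha'
    rw [h5, h5', uq r b b' hr h3 h3' (h.symm _ _ ▸ h4) (h.symm _ _ ▸ h4')]
  choose a ha using fun r => dec r r (by simp)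
  obtain ⟨L, hL⟩ := exists_lift hψ (fun r => Subgroup.zpowers (c r (a r))) fun r hr =>
    base_of_cm hψ hF' (hl _) (hc (ha r).1) one_ne_zero (lc (by
      rw [pair_rrefl', (ha r).1, h.symm r (a r), (ha r).1]; simp)) fun e he h3 => by
      obtain ⟨γ, h4, -, h5⟩ := S.acts_φ ⟨_, he⟩
      have h6 : ∀ s, γ s = 1 := fun s => (hF _).resolve_left (h4 s)
      have h7 : pair (S.φ ⟨_, he⟩ (a r)) r = 1 := by rw [← (ha r).1, ← wg_pair (S.φ ⟨_, he⟩) (a r), h3]
      rw [conj_cm, hψ.cm_congr (a := e * _ * e⁻¹) (b := e * _ * e⁻¹)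
        (a' := l (S.x (rrefl (S.φ ⟨_, he⟩ (a r)) r) 1))
        (b' := l (S.x (S.φ ⟨_, he⟩ (a r)) 1)) (by simp [hl, h5, h6, (wg_aut _).map_rrefl, h3])
        (by simp [hl, h5, h6])]
      exact ⟨1, (zpow_one _).trans (indep hr _ _ h7 (ha r).1).symm⟩
  refine ⟨L.y, L.rels' hψ fun r s h3 h4 => Or.inr (Or.inr ?_), L.ψ_y⟩
  rcases h.rng r s h3 h4 with e | e
  swap
  · exact Lift.P_of_lc (lc (by omega))
  obtain ⟨w, hw⟩ := exists_dominant (rrefl r s)
  have h5 : pair (w r) (w (rrefl r s)) = 1 := by simp [e]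
  have h6 : rrefl (w r) (w (rrefl r s)) = w s := by rw [← (wg_aut w).map_rrefl, rrefl_rrefl]
  suffices L.P (w r) (w s) by simpa using this.wg hψ w⁻¹
  intro t u
  rcases hF t with rfl | rfl
  · simp [cm]
  rcases hF u with rfl | rfl
  · simp [cm]
  rw [hψ.cm_congr (a' := l (S.x (rrefl (w r) (w (rrefl r s))) 1)) (b' := l (S.x (w r) 1))
    (by rw [L.ψ_y, hl, h6]) (by rw [L.ψ_y, hl])]
  refine L.U_mono ?_ (hL _ hw (indep hw _ _ h5 (ha _).1 ▸ Subgroup.mem_zpowers _))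
  rintro _ rfl
  exact (wg_aut w).btw ⟨1, 1, one_pos, one_pos, by simp [vec_rrefl, e, add_comm]⟩

end SL

end Chev
end H5
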