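import Cfsg.Agent.H5.Mul3

/-! Lifting the Steinberg relations: the tables. -/

set_option autoImplicit false
set_option synthInstance.maxSize 2000

namespace H5
namespace Chev

open Cfsg Cfsg.Lie Cfsg.Lie.ChevalleyDatum Equiv

noncomputable def chkPrs (T : Fast) (L : List (ℕ × ℕ)) : Bool :=
  chkPairs T fun r s => anyL L fun e => band (Nat.beq e.1 r) (Nat.beq e.2 s)

theorem of_prs {D : ChevalleyDatum} [Good D] {L : List (ℕ × ℕ)} (h : chkPrs (Good.T D) L = true)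
    (p : Rt D → Rt D → Prop) (h1 : ∀ e ∈ L, ∀ h1 h2, p ⟨e.1, h1⟩ ⟨e.2, h2⟩) (r s : Rt D)
    (hr : ∀ i, 0 ≤ wt r i) (hs : ∀ i, wt r i = 0 → 0 ≤ wt s i) : p r s :=
  h1 _ (pairs_of_chk h hr hs) r.2 s.2

def prsG2 : List (ℕ × ℕ) := [(9, 1), (9, 2), (9, 4), (9, 6), (9, 8), (9, 9), (9, 11), (11, 0), (11, 3), (11, 5), (11, 7), (11, 9), (11, 10), (11, 11)]
theorem chk_prsG2 : chkPrs (Good.T chevG2) prsG2 = true := by decide +kernel

def prsB2 : List (ℕ × ℕ) := [(6, 1), (6, 3), (6, 5), (6, 6), (6, 7), (7, 0), (7, 2), (7, 4), (7, 6), (7, 7)]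
theorem chk_prsB2 : chkPrs (Good.T chevB2) prsB2 = true := by decide +kernel

def prsD4 : List (ℕ × ℕ) := [(23, 0), (23, 9), (23, 12), (23, 13), (23, 18), (23, 22), (23, 23)]
theorem chk_prsD4 : chkPrs (Good.T chevD4) prsD4 = true := by decide +kernel

def prsF4 : List (ℕ × ℕ) := [(44, 3), (44, 6), (44, 14), (44, 29), (44, 32), (44, 40), (44, 44), (44, 47), (47, 0), (47, 18), (47, 23), (47, 37), (47, 41), (47, 44), (47, 46), (47, 47)]
theorem chk_prsF4 : chkPrs (Good.T chevF4) prsF4 = true := by decide +kernel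

def prsE6 : List (ℕ × ℕ) := [(71, 0), (71, 25), (71, 60), (71, 70), (71, 71)]
theorem chk_prsE6 : chkPrs (Good.T chevE6) prsE6 = true := by decide +kernel

def prsE7 : List (ℕ × ℕ) := [(125, 0), (125, 32), (125, 92), (125, 124), (125, 125)]
theorem chk_prsE7 : chkPrs (Good.T chevE7) prsE7 = true := by decide +kernel

def prsE8 : List (ℕ × ℕ) := [(239, 0), (239, 119), (239, 226), (239, 238), (239, 239)]
theorem chk_prsE8 : chkPrs (Good.T chevE8) prsE8 = true := by decide +kernel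
/-- separation of pairs of roots by coroots -/
def SepE (D : ChevalleyDatum) [Good D] (e : ℕ) : Prop := ∀ r s : Rt D, s ≠ r → s ≠ neg r →
  ∃ γ, pair γ r = 0 ∧ 1 ≤ (pair γ s).natAbs ∧ (pair γ s).natAbs ≤ e

theorem sepE_of {D : ChevalleyDatum} [Good D] {L : List (ℕ × ℕ)} (h : chkPrs (Good.T D) L = true)
    {e : ℕ} (h1 : ∀ x ∈ L, x.2 ≠ x.1 → x.2 ≠ (Good.T D).neg x.1 → ∃ γ < D.nroots,
      (Good.T D).pair γ x.1 = 0 ∧ 1 ≤ ((Good.T D).pair γ x.2).natAbs ∧
        ((Good.T D).pair γ x.2).natAbs ≤ e) : SepE D e :=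
  pair_induction (fun r s hr hs h2 h3 => by
    obtain ⟨γ, h4, h5⟩ := h1 _ (pairs_of_chk h hr hs) (fun e => h2 (Fin.ext e))
      fun e => h3 (Fin.ext (e.trans (neg_eq_T r).symm))
    exact ⟨⟨γ, h4⟩, by simpa only [pair_T] using h5⟩) fun i r s ih h1 h2 =>
    let ⟨γ, h⟩ := ih (fun e => h1 (e ▸ rfl)) fun e => h2 (by simp [e]); ⟨refl i γ, by simpa using h⟩

theorem sepE_G2 : SepE chevG2 3 := sepE_of chk_prsG2 (by decide +kernel)
theorem sepE_B2 : SepE chevB2 2 := sepE_of chk_prsB2 (by decide +kernel)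
theorem sepE_D4 : SepE chevD4 2 := sepE_of chk_prsD4 (by decide +kernel)
theorem sepE_F4 : SepE chevF4 2 := sepE_of chk_prsF4 (by decide +kernel)
theorem sepE_E6 : SepE chevE6 2 := sepE_of chk_prsE6 (by decide +kernel)
theorem sepE_E7 : SepE chevE7 2 := sepE_of chk_prsE7 (by decide +kernel)
theorem sepE_E8 : SepE chevE8 2 := sepE_of chk_prsE8 (by decide +kernel)

/-- separation of dominant pairs modulo two -/
def Sep2 (D : ChevalleyDatum) [Good D] (X : List (ℕ × ℕ)) : Prop := ∀ r s : Rt D, (∀ i, 0 ≤ wt r i) →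
  (∀ i, wt r i = 0 → 0 ≤ wt s i) → s ≠ r → s ≠ neg r →
    (∃ γ, Odd (pair γ r + pair γ s)) ∨ ((r : ℕ), (s : ℕ)) ∈ X

theorem sep2_of {D : ChevalleyDatum} [Good D] {L X : List (ℕ × ℕ)} (h : chkPrs (Good.T D) L = true)
    (h1 : ∀ x ∈ L, x.2 ≠ x.1 → x.2 ≠ (Good.T D).neg x.1 → x ∈ X ∨ ∃ γ < D.nroots,
      ((Good.T D).pair γ x.1 + (Good.T D).pair γ x.2) % 2 = 1) : Sep2 D X := fun r s hr hs h2 h3 => by
  rcases h1 _ (pairs_of_chk h hr hs) (fun e => h2 (Fin.ext e))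
      fun e => h3 (Fin.ext (e.trans (neg_eq_T r).symm)) with h | ⟨γ, h4, h5⟩
  · exact Or.inr h
  · exact Or.inl ⟨⟨γ, h4⟩, by simpa only [pair_T, Int.odd_iff] using h5⟩

theorem sep2_B2 : Sep2 chevB2 [(6, 5), (7, 4)] := sep2_of chk_prsB2 (by decide +kernel)
theorem sep2_D4 : Sep2 chevD4 [(23, 12), (23, 13), (23, 18)] := sep2_of chk_prsD4 (by decide +kernel)
theorem sep2_F4 : Sep2 chevF4 [(47, 41)] := sep2_of chk_prsF4 (by decide +kernel)
theorem sep2_E6 : Sep2 chevE6 [] := sep2_of chk_prsE6 (by decide +kernel)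
theorem sep2_E7 : Sep2 chevE7 [] := sep2_of chk_prsE7 (by decide +kernel)
theorem sep2_E8 : Sep2 chevE8 [] := sep2_of chk_prsE8 (by decide +kernel)

theorem sl4 : SL chevD4 := sl_of_dom (of_prs chk_prsD4 _ (by simp only [pair_T]; decide +kernel))
theorem sl6 : SL chevE6 := sl_of_dom (of_prs chk_prsE6 _ (by simp only [pair_T]; decide +kernel))
theorem sl7 : SL chevE7 := sl_of_dom (of_prs chk_prsE7 _ (by simp only [pair_T]; decide +kernel))
theorem sl8 : SL chevE8 := sl_of_dom (of_prs chk_prsE8 _ (by simp only [pair_T]; decide +kernel))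

/-- simply laced systems in which the commuting pairs lie in subsystems of type A₄ -/
structure Big (D : ChevalleyDatum) [Good D] : Prop where
  dec : ∀ r s : Rt D, 0 ≤ pair r s → ∃ a, pair a s = 1 ∧ 0 ≤ pair r a ∧ pair r a ≤ pair r s
  uq : ∀ r s s' : Rt D, (∀ i, 0 ≤ wt r i) → (∀ i, wt r i = 0 → 0 ≤ wt s i) →
      (∀ i, wt r i = 0 → 0 ≤ wt s' i) → pair r s = 1 → pair r s' = 1 → s = s'

theorem big_of {D : ChevalleyDatum} [Good D] {L : List (ℕ × ℕ)} (h : chkPrs (Good.T D) L = true)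
    (h1 : ∀ x ∈ L, 0 ≤ (Good.T D).pair x.1 x.2 → ∃ a < D.nroots, (Good.T D).pair a x.2 = 1 ∧
      0 ≤ (Good.T D).pair x.1 a ∧ (Good.T D).pair x.1 a ≤ (Good.T D).pair x.1 x.2)
    (h2 : ∀ x ∈ L, ∀ y ∈ L, (Good.T D).pair x.1 x.2 = 1 → (Good.T D).pair y.1 y.2 = 1 → x.2 = y.2) :
    Big D where
  dec := pair_induction (fun r s hr hs h3 => by
    obtain ⟨a, h4, h5⟩ := h1 _ (pairs_of_chk h hr hs) (pair_T r s ▸ h3)
    exact ⟨⟨a, h4⟩, by simpa only [pair_T] using h5⟩) fun i r s ih h1 =>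
    let ⟨a, h⟩ := ih (by simpa using h1); ⟨refl i a, by simpa using h⟩
  uq r s s' hr hs hs' h3 h4 := Fin.ext (h2 _ (pairs_of_chk h hr hs) _ (pairs_of_chk h hr hs')
    (pair_T r s ▸ h3) (pair_T r s' ▸ h4))

theorem big6 : Big chevE6 := big_of chk_prsE6 (by decide +kernel) (by decide +kernel)
theorem big7 : Big chevE7 := big_of chk_prsE7 (by decide +kernel) (by decide +kernel)
theorem big8 : Big chevE8 := big_of chk_prsE8 (by decide +kernel) (by decide +kernel)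

end Chev
end H5
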