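import Cfsg.Agent.H5.Mul4

/-! Lifting the Steinberg relations to central extensions: all types. -/

set_option autoImplicit false
set_option synthInstance.maxSize 2000

namespace H5
namespace Chev

open Cfsg Cfsg.Lie Cfsg.Lie.ChevalleyDatum Equiv

variable {F : Type*} [Field F] {G E : Type*} [Group G] [Group E] {ψ : E →* G}

section General
variable {D : ChevalleyDatum} [Good D] {S : StSys D F G}

theorem SepE.sep {e : ℕ} (h : SepE D e) (hv : ∀ m, 1 ≤ m → m ≤ e → ∃ v : F, v ≠ 0 ∧ v ^ m ≠ 1)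
    {r s : Rt D} (h1 : s ≠ r) (h2 : s ≠ neg r) : Sep F r s := by
  obtain ⟨γ, h3, h4, h5⟩ := h r s h1 h2
  obtain ⟨v, h6, h7⟩ := hv _ h4 h5
  refine ⟨γ, v, h6, by simp [h3], ?_⟩
  rcases Int.natAbs_eq (pair γ s) with e | e <;> rw [e]
  · rwa [zpow_natCast]
  · rwa [zpow_neg, zpow_natCast, Ne, inv_eq_one]

theorem SepE.sep2 (h : SepE D 2) {v : F} (h0 : v ≠ 0) (hv : v ^ 2 ≠ 1)
    {r s : Rt D} (h1 : s ≠ r) (h2 : s ≠ neg r) : Sep F r s :=
  h.sep (fun m a b => ⟨v, h0, by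
    interval_cases m
    · exact fun e => hv (by simp_all)
    · exact hv⟩) h1 h2

theorem sep_of_odd (h2 : (2 : F) ≠ 0) {r s γ : Rt D} (h : Odd (pair γ r + pair γ s)) :
    Sep F r s ∨ Sep F s r := by
  have h3 : (-1 : F) ≠ 1 := fun e => h2 (by linear_combination -e)
  rcases Int.even_or_odd (pair γ r) with e | e
  · exact Or.inl ⟨γ, -1, by simp, e.neg_one_zpow, by
      rwa [((Int.odd_add'.1 h).2 e).neg_one_zpow]⟩
  · exact Or.inr ⟨γ, -1, by simp, ((Int.odd_add.1 h).1 e).neg_one_zpow, by rwa [e.neg_one_zpow]⟩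

variable [Conn D] [Dom D]

theorem lifts_sq (hψ : CExt ψ) (hS : S.HMul) {v : F} (h0 : v ≠ 0) (hv : v ^ 2 ≠ 1)
    (h1 : ∀ r, (∀ i, 0 ≤ wt r i) → LC S ψ r r) (h2 : ∀ r s : Rt D, s ≠ r → s ≠ neg r → Sep F r s) :
    Lifts S ψ :=
  lifts_of_H hψ hS (fun r hr => ⟨h1 r hr, r, v, h0, by rw [pair_self]; exact_mod_cast hv⟩)
    fun r s _ _ a b => Or.inl (h2 r s a b)

theorem lifts_three (hψ : CExt ψ) (hS : S.HMul) (hF : ∀ t : F, ∃ k : ℕ, t = k) (h2 : (2 : F) ≠ 0)
    (h1 : ∀ r : Rt D, (∀ i, 0 ≤ wt r i) → ∃ γ, pair γ r = 1) {X : List (ℕ × ℕ)} (h3 : Sep2 D X)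
    (h4 : ∀ x ∈ X, ∀ h1 h2, LC S ψ ⟨x.1, h1⟩ ⟨x.2, h2⟩) : Lifts S ψ :=
  lifts_of_H hψ hS (fun r hr => ⟨lc_self_of_prime hψ hF r, let ⟨γ, h⟩ := h1 r hr; ⟨γ, -1, by simp, by
      rw [h, zpow_one]; exact fun e => h2 (by linear_combination -e)⟩⟩)
    fun r s a b c d => (h3 r s a b c d).elim (fun ⟨_, h⟩ => or_assoc.1 (Or.inl (sep_of_odd h2 h)))
      fun h => Or.inr (Or.inr (h4 _ h r.2 s.2))

omit [Good D] [Conn D] [Dom D] in
theorem field_cases (F : Type*) [Field F] : (∃ v : F, v ≠ 0 ∧ v ^ 2 ≠ 1) ∨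
    ((∀ t : F, ∃ k : ℕ, t = k) ∧ (2 : F) ≠ 0 ∧ (3 : F) = 0) ∨ ∀ t : F, t = 0 ∨ t = 1 := by
  by_cases h : ∃ v : F, v ≠ 0 ∧ v ^ 2 ≠ 1
  · exact Or.inl h
  have h1 : ∀ t : F, t = 0 ∨ t = 1 ∨ t = -1 := fun t => by
    by_contra h1
    push Not at h1
    exact h ⟨t, h1.1, fun e => by rcases sq_eq_one_iff.1 e with e | e <;> simp_all⟩
  by_cases h2 : (2 : F) = 0
  · refine Or.inr (Or.inr fun t => ?_)
    rcases h1 t with e | e | e
    exacts [Or.inl e, Or.inr e, Or.inr (by linear_combination e - h2)]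
  have h3 : (3 : F) = 0 := by
    rcases h1 2 with e | e | e
    exacts [absurd e h2, absurd (by linear_combination e) one_ne_zero, by linear_combination e]
  refine Or.inr (Or.inl ⟨fun t => ?_, h2, h3⟩)
  rcases h1 t with e | e | e
  exacts [⟨0, by simp [e]⟩, ⟨1, by simp [e]⟩, ⟨2, by push_cast; linear_combination e - h3⟩]

theorem lifts_big (h1 : SL D) (h2 : Big D) (h3 : SepE D 2) (h4 : Sep2 D []) (hψ : CExt ψ)
    (hS : S.HMul) : Lifts S ψ := by
  rcases field_cases F with ⟨v, h0, hv⟩ | ⟨a, b, -⟩ | h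
  · exact lifts_sq hψ hS h0 hv (fun r _ => let ⟨_, a, b, c⟩ := h2.dec r r (by simp); h1.lc hψ a b c)
      fun r s => h3.sep2 h0 hv
  · exact lifts_three hψ hS a b (fun r _ => (h2.dec r r (by simp)).imp fun _ h => h.1) h4 (by simp)
  · exact h1.lifts_two hψ h h2.dec h2.uq

omit [Good D] [Conn D] [Dom D] in
theorem exists_cyclo {v : F} (h0 : v ≠ 0) (hv : v ^ 2 ≠ 1) (h2 : (2 : F) ≠ 0) :
    ∃ w : F, w ≠ 0 ∧ w ≠ 1 ∧ 1 - w + w ^ 2 ≠ 0 := by
  by_cases h : 1 - v + v ^ 2 = 0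
  · exact ⟨-v, neg_ne_zero.2 h0, fun e => hv (by rw [← neg_sq, e, one_pow]), fun e =>
      mul_ne_zero h2 h0 (by linear_combination e - h)⟩
  · exact ⟨v, h0, fun e => hv (by simp [e]), h⟩

end General

def qG2 (k : Fin 12) : Rt chevG2 := k
def qB2 (k : Fin 8) : Rt chevB2 := k
def qF4 (k : Fin 48) : Rt chevF4 := k
def jB2 (k : Fin 2) : Ix chevB2 := k
def jD4 (k : Fin 4) : Ix chevD4 := k
def jF4 (k : Fin 4) : Ix chevF4 := k

theorem lifts_E6 {S : StSys chevE6 F G} (hψ : CExt ψ) (hS : S.HMul) : Lifts S ψ :=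
  lifts_big sl6 big6 sepE_E6 sep2_E6 hψ hS
theorem lifts_E7 {S : StSys chevE7 F G} (hψ : CExt ψ) (hS : S.HMul) : Lifts S ψ :=
  lifts_big sl7 big7 sepE_E7 sep2_E7 hψ hS
theorem lifts_E8 {S : StSys chevE8 F G} (hψ : CExt ψ) (hS : S.HMul) : Lifts S ψ :=
  lifts_big sl8 big8 sepE_E8 sep2_E8 hψ hS

theorem lifts_D4 {S : StSys chevD4 F G} (hψ : CExt ψ) (hS : S.HMul) (hF : ∃ x : F, x ≠ 0 ∧ x ≠ 1) :
    Lifts S ψ := by
  have h1 : ∀ r : Rt chevD4, (∀ i, 0 ≤ wt r i) → ∃ γ, pair γ r = 1 := fun r hr =>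
    of_prs chk_prsD4 (fun r _ => ∃ γ, pair γ r = 1) (by simp only [pair_T]; decide +kernel) r r hr
      fun i _ => hr i
  rcases field_cases F with ⟨v, h0, hv⟩ | ⟨a, b, c⟩ | h
  · exact lifts_sq hψ hS h0 hv (fun r hr => let ⟨γ, h⟩ := h1 r hr
      sl4.lc hψ h (by simp [sl4.symm r, h]) (by simp [sl4.symm r, h])) fun r s => sepE_D4.sep2 h0 hv
  · refine lifts_three hψ hS a b h1 sep2_D4 ?_
    simp only [List.forall_mem_cons, List.not_mem_nil, false_imp_iff, implies_true, and_true]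
    let f := jD4
    exact ⟨fun _ _ => lc_of_swap hψ a c (l := [f 1, f 2, f 0, f 1]) (by decide +revert +kernel)
        (by decide +revert +kernel) (Or.inl rfl) (by decide +revert +kernel) (by decide +revert +kernel),
      fun _ _ => lc_of_swap hψ a c (l := [f 1, f 3, f 0, f 1]) (by decide +revert +kernel)
        (by decide +revert +kernel) (Or.inl rfl) (by decide +revert +kernel) (by decide +revert +kernel),
      fun _ _ => lc_of_swap hψ a c (l := [f 1, f 3, f 2, f 1]) (by decide +revert +kernel)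
        (by decide +revert +kernel) (Or.inl rfl) (by decide +revert +kernel) (by decide +revert +kernel)⟩
  · obtain ⟨x, h1, h2⟩ := hF
    exact absurd (h x) (by simp [h1, h2])

theorem lifts_F4 {S : StSys chevF4 F G} (hψ : CExt ψ) (hS : S.HMul) (hF : ∃ x : F, x ≠ 0 ∧ x ≠ 1) :
    Lifts S ψ := by
  rcases field_cases F with ⟨v, h0, hv⟩ | ⟨a, b, c⟩ | h
  · refine lifts_sq hψ hS h0 hv (fun r hr => ?_) fun r s => sepE_F4.sep2 h0 hv
    obtain ⟨a, b, h1, h2, h3, h4, h5, h6, h7⟩ := of_prs chk_prsF4 (fun r _ => ∃ a ∈ [qF4 33, qF4 24],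
      ∃ b ∈ [qF4 40, qF4 46], b ≠ a ∧ b ≠ neg a ∧ cts a b = [(r, 1, 1, 1)] ∧
      a ≠ neg r ∧ b ≠ neg r ∧ cts r a = [] ∧ cts r b = []) (by decide +kernel) r r hr (fun i _ => hr i)
      |>.imp fun _ h => h.2.imp fun _ h => h.2
    exact lc_of_cts hψ (l₁ := []) (l₂ := []) h1 h2 h3 (by simp) (S.commute_of_cts h4 (by simp [h6]))
      (S.commute_of_cts h5 (by simp [h7])) (by simp) (by simp)
  · refine lifts_three hψ hS a b (fun r hr => of_prs chk_prsF4 (fun r _ => ∃ γ, pair γ r = 1)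
      (by simp only [pair_T]; decide +kernel) r r hr fun i _ => hr i) sep2_F4 ?_
    simp only [List.forall_mem_cons, List.not_mem_nil, false_imp_iff, implies_true, and_true]
    let f := jF4
    exact fun _ _ => lc_of_swap hψ a c (l := [f 3, f 2, f 1, f 2, f 3]) (by decide +revert +kernel)
        (by decide +revert +kernel) (Or.inl rfl) (by decide +revert +kernel) (by decide +revert +kernel)
  · obtain ⟨x, h1, h2⟩ := hF
    exact absurd (h x) (by simp [h1, h2])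

theorem lifts_G2 {S : StSys chevG2 F G} (hψ : CExt ψ) (hS : S.HMul) {v w : F} (h0 : v ≠ 0)
    (hv : v ^ 2 ≠ 1) (h0' : w ≠ 0) (hw : w ^ 3 ≠ 1) : Lifts S ψ := by
  let f := qG2
  refine lifts_sq hψ hS h0 hv (fun r hr => ?_) fun r s => sepE_G2.sep fun m a b => ?_
  · rcases of_prs chk_prsG2 (fun r _ => r = f 9 ∨ r = f 11) (by decide +kernel) r r hr
      (fun i _ => hr i) with rfl | rfl
    · obtain ⟨u, h1, h2, h3⟩ : ∃ w : F, w ≠ 0 ∧ w ≠ 1 ∧ 1 - w + w ^ 2 ≠ 0 := by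
        by_cases h2 : (2 : F) = 0
        · exact ⟨w, h0', fun e => hw (by simp [e]), fun e => hw (by
            linear_combination (w + 1) * e - h2)⟩
        · exact exists_cyclo h0 hv h2
      exact lc_self_of_pair hψ (γ := f 7) (by rw [pair_T]; decide +kernel) h1 h2 h3
    · have h3 : cts (f 6) (f 10) = [(f 11, 1, 1, 1)] ∧ cts (f 11) (f 6) = [] ∧ cts (f 11) (f 10) = [] := by
        decide +kernel
      exact lc_of_cts hψ (l₁ := []) (l₂ := []) (by decide) (by decide) h3.1 (by simp)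
        (S.commute_of_cts (by decide) (by simp [h3])) (S.commute_of_cts (by decide) (by simp [h3]))
        (by simp) (by simp)
  · interval_cases m
    exacts [⟨v, h0, fun e => hv (by simp_all)⟩, ⟨v, h0, hv⟩, ⟨w, h0', hw⟩]

theorem lifts_B2 {S : StSys chevB2 F G} (hψ : CExt ψ) (hS : S.HMul) (hF : ∃ x : F, x ≠ 0 ∧ x ≠ 1) :
    Lifts S ψ := by
  let f := qB2
  have h3 : cts (f 4) (f 5) = [(f 6, 1, 1, 1), (f 7, -1, 1, 2)] ∧ cts (f 7) (f 4) = [] ∧
      cts (f 7) (f 5) = [] ∧ cts (f 7) (f 6) = [] ∧ cts (f 6) (f 4) = [] ∧ cts (f 6) (f 7) = [] ∧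
      cts (f 6) (f 5) = [(f 7, -2, 1, 1)] := by decide +kernel
  have hd : ∀ r, (∀ i, 0 ≤ wt r i) → r = f 6 ∨ r = f 7 := fun r hr =>
    of_prs chk_prsB2 (fun r _ => r = f 6 ∨ r = f 7) (by decide +kernel) r r hr fun i _ => hr i
  have c74 := S.commute_of_cts (r := f 7) (s := f 4) (by decide) (by simp [h3])
  have c75 := S.commute_of_cts (r := f 7) (s := f 5) (by decide) (by simp [h3])
  have c76 := S.commute_of_cts (r := f 7) (s := f 6) (by decide) (by simp [h3])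
  rcases field_cases F with ⟨v, h0, hv⟩ | ⟨a, b, c⟩ | h
  · have l76 : LC S ψ (f 7) (f 6) := ((sepE_B2.sep2 h0 hv (by decide) (by decide)).kill hψ).lc c76
    refine lifts_sq hψ hS h0 hv (fun r hr => ?_) fun r s => sepE_B2.sep2 h0 hv
    rcases hd r hr with rfl | rfl
    · by_cases h2 : (2 : F) = 0
      · exact lc_of_cts hψ (l₁ := []) (by decide) (by decide) h3.1 (by simp)
          (S.commute_of_cts (by decide) (by simp [h3])) (S.commute_of_cts (by decide) (by simp [h3, h2]))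
          (by simp) (by simpa using l76.symm)
      · obtain ⟨u, h1, h2, h3⟩ := exists_cyclo h0 hv h2
        exact lc_self_of_pair hψ (γ := f 4) (by rw [pair_T]; decide +kernel) h1 h2 h3
    · exact lc_of_cts hψ (l₁ := [_]) (l₂ := []) (by decide) (by decide) h3.1 (by simp) c74 c75
        (by simpa using l76) (by simp)
  · have hm : (-1 : F) ≠ 1 := fun e => b (by linear_combination -e)
    have hp : pair (f 4) (f 7) = 0 ∧ pair (f 4) (f 6) = 1 ∧ pair (f 4) (f 5) = -1 := by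
      simp only [pair_T]; decide +kernel
    have l75 : LC S ψ (f 7) (f 5) := (Sep.kill hψ ⟨f 4, -1, by simp, by simp [hp], by simp [hp, hm]⟩).lc c75
    have l76 : LC S ψ (f 7) (f 6) := (Sep.kill hψ ⟨f 4, -1, by simp, by simp [hp], by simp [hp, hm]⟩).lc c76
    obtain ⟨A, hA⟩ := hψ.surj (S.x (f 6) 1)
    obtain ⟨B, hB⟩ := hψ.surj (S.x (f 5) 1)
    have h4 : ψ (cm B A) = S.x (f 7) 2 := by
      rw [map_cm, hA, hB, S.cm_of_cts (by decide) (by decide) h3.2.2.2.2.2.2]; simp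
    obtain ⟨Y, hY⟩ := base_of_H hψ hS (lc_self_of_prime hψ a (f 6)) (γ := f 4) (v := -1) (by simp)
      (by simp [hp, hm])
    have hY' := base_of_cm hψ a hB h4 b l75 fun e he h5 => by
      obtain ⟨γ, -, -, h6⟩ := S.acts_φ ⟨_, he⟩
      obtain ⟨L, hL⟩ := (wg_aut (S.φ ⟨_, he⟩)).lin
      have h7 : ∀ k k' : Rt chevB2, (∀ i, vec (f 7) i = vec k i + vec k' i) →
          k = f 6 ∧ k' = f 5 ∨ k = f 5 ∧ k' = f 6 := by simp only [vec]; decide +kernel
      have h8 : vec (f 7) = vec (f 6) + vec (f 5) := by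
        funext i; revert i; simp only [vec, Pi.add_apply]; decide +kernel
      rw [conj_cm]
      rcases h7 (S.φ ⟨_, he⟩ (f 6)) (S.φ ⟨_, he⟩ (f 5)) fun i => by
        rw [← Pi.add_apply, hL, hL, ← map_add, ← h8, ← hL, h5] with ⟨e1, e2⟩ | ⟨e1, e2⟩
      · exact cm_mem_zpowers hψ a hA hB h4 l76 l75 (by simp only [map_mul, map_inv, hA, h6, e1]; rfl)
          (by simp only [map_mul, map_inv, hB, h6, e2]; rfl)
      · rw [← cm_inv (e * A * e⁻¹)]
        exact inv_mem (cm_mem_zpowers hψ a hA hB h4 l76 l75 (A' := e * B * e⁻¹) (B' := e * A * e⁻¹)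
          (by simp only [map_mul, map_inv, hB, h6, e2]; rfl)
          (by simp only [map_mul, map_inv, hA, h6, e1]; rfl))
    obtain ⟨L, hL⟩ := exists_lift hψ (fun r => if r = f 7 then Subgroup.zpowers (cm B A) else Y)
      fun r hr => by
        rcases hd r hr with rfl | rfl
        · rwa [if_neg (by decide)]
        · rwa [if_pos rfl]
    refine ⟨L.y, L.rels hψ fun r s h5 h6 h7 h8 => ?_, L.ψ_y⟩
    rcases sep2_B2 r s h5 h6 h7 h8 with ⟨γ, h⟩ | h
    · exact or_assoc.1 (Or.inl (sep_of_odd b h))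
    refine Or.inr (Or.inr ?_)
    simp only [List.mem_cons, Prod.mk.injEq, List.not_mem_nil, or_false] at h
    rcases h with ⟨e1, e2⟩ | ⟨e1, e2⟩
    · obtain rfl : r = f 6 := Fin.ext e1
      obtain rfl : s = f 5 := Fin.ext e2
      intro t u
      have := hL (f 7) (by simp only [wt_T]; decide +kernel)
      rw [if_pos rfl] at this
      refine L.U_mono ?_ (this (cm_mem_zpowers hψ a hA hB h4 l76 l75 (L.ψ_y _ _) (L.ψ_y _ _)))
      rintro _ rfl
      exact ⟨1, 1, mem_cts (c := -2) (h3.2.2.2.2.2.2 ▸ List.mem_singleton_self _)⟩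
    · obtain rfl : r = f 7 := Fin.ext e1
      obtain rfl : s = f 4 := Fin.ext e2
      let g := jB2
      exact Lift.P_of_lc (lc_of_swap hψ a c (l := [g 0]) h8 h3.2.1 (Or.inr rfl) (by decide +kernel)
        (by decide +kernel))
  · obtain ⟨x, h1, h2⟩ := hF
    exact absurd (h x) (by simp [h1, h2])

theorem exists_pow_ne_one' {m : ℕ} (hm : 0 < m) {s : Finset F} (h : m + 1 < s.card) :
    ∃ v : F, v ≠ 0 ∧ v ^ m ≠ 1 := by
  classical
  by_contra h1
  push Not at h1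
  have : s.erase 0 ⊆ (Polynomial.nthRoots m (1 : F)).toFinset := fun v hv => by
    simpa [Polynomial.mem_nthRoots hm] using h1 v (Finset.ne_of_mem_erase hv)
  have h2 := (Finset.card_le_card this).trans
    ((Multiset.toFinset_card_le _).trans (Polynomial.card_nthRoots _ _))
  have := Finset.pred_card_le_card_erase (s := s) (a := 0)
  omega

theorem lifts_of_card {D : ChevalleyDatum}
    (hD : D ∈ [chevG2, chevB2, chevD4, chevF4, chevE6, chevE7, chevE8]) {S : StSys D F G}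
    (hψ : CExt ψ) (hS : S.HMul) (h : ∃ s : Finset F, 4 < s.card) : Lifts S ψ := by
  obtain ⟨s, hs⟩ := h
  obtain ⟨v, h0, hv⟩ := exists_pow_ne_one' two_pos (s := s) (by omega)
  obtain ⟨w, h0', hw⟩ := exists_pow_ne_one' three_pos (s := s) (by omega)
  have hF : ∃ x : F, x ≠ 0 ∧ x ≠ 1 := ⟨v, h0, fun e => hv (by simp [e])⟩
  simp only [List.mem_cons, List.not_mem_nil, or_false] at hD
  rcases hD with rfl | rfl | rfl | rfl | rfl | rfl | rfl
  exacts [lifts_G2 hψ hS h0 hv h0' hw, lifts_B2 hψ hS hF, lifts_D4 hψ hS hF, lifts_F4 hψ hS hF,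
    lifts_E6 hψ hS, lifts_E7 hψ hS, lifts_E8 hψ hS]

end Chev
end H5
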