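import Cfsg.Agent.H5.Mul5
import Cfsg.Agent.H5.Mul0
import Cfsg.Agent.H5.Syl1
import Cfsg.Prelude.Def_KGroupFacts

/-! Universal central extensions and Schur multipliers of the Chevalley groups. -/

set_option autoImplicit false

universe u v

namespace H5

theorem surjective_of_stem {Γ G Δ : Type*} [Group Γ] [Group G] [Group Δ] {σ : Γ →* G}
    (h : Cfsg.IsStemExtension σ) {τ : Δ →* Γ} (h1 : Function.Surjective (σ.comp τ)) :
    Function.Surjective τ := by
  have hψ : CExt σ := ⟨h.1, h.2.1⟩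
  have h2 : commutator Γ ≤ τ.range := by
    rw [commutator_eq_closure, Subgroup.closure_le]
    rintro _ ⟨a, b, rfl⟩
    obtain ⟨a', ha⟩ := h1 (σ a⁻¹)
    obtain ⟨b', hb⟩ := h1 (σ b⁻¹)
    exact ⟨cm a' b', by rw [map_cm, hψ.cm_congr ha hb]; simp [cm, commutatorElement_def]⟩
  intro g
  obtain ⟨a, ha⟩ := h1 (σ g)
  obtain ⟨b, hb⟩ := h2 (h.2.2 (show (τ a)⁻¹ * g ∈ σ.ker by simp [← ha]))
  exact ⟨a * b, by simp [hb]⟩

namespace Chev

open Cfsg Cfsg.Lie Cfsg.Lie.ChevalleyDatum Equiv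

variable {D : ChevalleyDatum} [Good D] [Conn D]

theorem exists_theta (F : Type*) [Field F] : ∃ θ : D.SteinbergCover F →* D.group F, CExt θ ∧
    ∀ r t, θ ((scSys D F).x r t) = (grpSys D F).x r t :=
  let ⟨f, hf⟩ := exists_lift_sc (grpSys D F).rels
  ⟨f, ⟨StSys.surjective_of_map (S := scSys D F) grpSys_top hf,
    StSys.ker_le_center (S := scSys D F) scSys_top hf⟩, hf⟩

omit [Conn D] in
theorem Lifts.exists_hom {F G E : Type*} [Field F] [Group G] [Group E] {S : StSys D F G} {ψ : E →* G}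
    (h : Lifts S ψ) {θ : D.SteinbergCover F →* G} (hθ : ∀ r t, θ ((scSys D F).x r t) = S.x r t) :
    ∃ τ : D.SteinbergCover F →* E, ψ.comp τ = θ := by
  obtain ⟨y, h1, h2⟩ := h
  obtain ⟨τ, hτ⟩ := exists_lift_sc h1
  exact ⟨τ, StSys.hom_ext scSys_top fun r t => (congrArg ψ (hτ r t)).trans ((h2 r t).trans (hθ r t).symm)⟩

theorem univ_of_lifts {F : Type u} [Field F] (hp : commutator (D.SteinbergCover F) = ⊤)
    (hL : ∀ (E : Type (max u v)) [Group E] (ψ : E →* D.group F), CExt ψ → Lifts (grpSys D F) ψ)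
    {G : Type*} [Group G] {E : Type v} [Group E] {π : E →* G} (hπ : CExt π)
    (σ : D.SteinbergCover F →* G) : ∃! τ : D.SteinbergCover F →* E, π.comp τ = σ := by
  obtain ⟨θ, h1, h2⟩ := exists_theta (D := D) F
  let P := (π.comp (MonoidHom.fst E _)).eqLocus (σ.comp (MonoidHom.snd E _))
  have hψ : CExt ((MonoidHom.snd E _).comp P.subtype) := ⟨fun g => let ⟨e, he⟩ := hπ.surj (σ g)
    ⟨⟨(e, g), he⟩, rfl⟩, fun ⟨⟨e, g⟩, he⟩ hg => Subgroup.mem_center_iff.2 fun ⟨⟨e', g'⟩, _⟩ => by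
      obtain rfl : g = 1 := hg
      exact Subtype.ext (Prod.ext (hπ.commute (he.trans (map_one σ)) e').eq.symm (by simp))⟩
  obtain ⟨τ, hτ⟩ := (hL _ _ (hψ.comp_ker h1 hp)).exists_hom h2
  have h3 := lift_unique h1.cen hp (f := ((MonoidHom.snd E _).comp P.subtype).comp τ)
    (g := MonoidHom.id _) hτ
  have h4 : π.comp (((MonoidHom.fst E _).comp P.subtype).comp τ) = σ :=
    MonoidHom.ext fun g => (τ g).2.trans (congrArg σ (DFunLike.congr_fun h3 g))
  exact ⟨_, h4, fun τ' h5 => lift_unique hπ.cen hp (h5.trans h4.symm)⟩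

variable {F : Type u} [Field F] [Finite F]

theorem finite_sc : Finite (D.SteinbergCover F) := by
  obtain ⟨θ, h1, h2⟩ := exists_theta (D := D) F
  rw [MonoidHom.finite_iff_finite_ker_range θ, StSys.ker_eq_center scSys_top grpSys_π_injective h2,
    (scSys D F).hmul_of_finite.center_eq scSys_top]
  exact ⟨Set.Finite.image _ (Set.toFinite _), inferInstance⟩

theorem hasMult (hp : commutator (D.SteinbergCover F) = ⊤)
    (hL : ∀ (E : Type u) [Group E] (ψ : E →* D.group F), CExt ψ → Lifts (grpSys D F) ψ)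
    {A : Type*} [CommGroup A] (e : Subgroup.center (D.SteinbergGroup F) ≃* A) :
    HasSchurMultiplier (D.group F) A := by
  obtain ⟨θ, h1, h2⟩ := exists_theta (D := D) F
  obtain ⟨f, -⟩ := exists_equiv_sc_st (D := D) (F := F)
  have e' : θ.ker ≃* A := ((MulEquiv.subgroupCongr (StSys.ker_eq_center scSys_top grpSys_π_injective
    h2)).trans (Subgroup.centerCongr f)).trans e
  refine ⟨⟨_, _, finite_sc, θ, ⟨h1.surj, h1.cen, hp ▸ le_top⟩, ⟨e'⟩⟩, fun Γ _ _ σ hσ => ?_⟩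
  obtain ⟨τ, hτ⟩ := (hL Γ σ ⟨hσ.1, hσ.2.1⟩).exists_hom h2
  have h3 := surjective_of_stem hσ (hτ ▸ h1.surj)
  refine ⟨((τ.comp θ.ker.subtype).codRestrict σ.ker fun g => (DFunLike.congr_fun hτ _).trans g.2).comp
    e'.symm.toMonoidHom, fun ⟨g, hg⟩ => ?_⟩
  obtain ⟨a, rfl⟩ := h3 g
  exact ⟨e' ⟨a, (DFunLike.congr_fun hτ _).symm.trans hg⟩, Subtype.ext (by simp; rfl)⟩

theorem hasCyclicMult (hp : commutator (D.SteinbergCover F) = ⊤)
    (hL : ∀ (E : Type u) [Group E] (ψ : E →* D.group F), CExt ψ → Lifts (grpSys D F) ψ)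
    (hi : Function.Injective (stSys_hmul (D := D) (F := F)).hp) {n p : ℕ} (h0 : p.Prime) (h1 : n ∣ p)
    (h2 : Nat.card (chiHom D F).ker = n) : HasCyclicSchurMultiplier (D.group F) n := by
  have := Fact.mk h0
  have h3 := (card_center_st hi).trans h2
  have := isCyclic_of_card_dvd_prime (h3 ▸ h1 : Nat.card (Subgroup.center (D.SteinbergGroup F)) ∣ p)
  exact hasMult hp hL (mulEquivOfCyclicCardEq
    (h3.trans ((Nat.card_zmod n).symm.trans (Nat.card_congr Multiplicative.ofAdd))))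

theorem hasMult_st (hp : commutator (D.SteinbergCover F) = ⊤)
    (hL : ∀ (E : Type u) [Group E] (ψ : E →* D.group F), CExt ψ → Lifts (grpSys D F) ψ) :
    HasCyclicSchurMultiplier (D.SteinbergGroup F) 1 := by
  obtain ⟨f, -⟩ := exists_equiv_sc_st (D := D) (F := F)
  have := finite_sc (D := D) (F := F)
  have hk := (MonoidHom.ker_eq_bot_iff f.toMonoidHom).2 f.injective
  refine ⟨⟨_, _, this, f.toMonoidHom, ⟨f.surjective, hk ▸ bot_le, hk ▸ bot_le⟩,
    hk ▸ ⟨MulEquiv.ofUnique⟩⟩, fun Γ _ _ σ hσ => ⟨1, fun ⟨g, hg⟩ => ⟨1, Subtype.ext ?_⟩⟩⟩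
  obtain ⟨τ, hτ, -⟩ := univ_of_lifts.{u, u} hp hL (π := σ) ⟨hσ.1, hσ.2.1⟩ f.toMonoidHom
  obtain ⟨a, rfl⟩ := surjective_of_stem hσ (τ := τ) (hτ ▸ f.surjective) g
  have : f a = 1 := (DFunLike.congr_fun hτ _).symm.trans hg
  simp [(map_eq_one_iff _ f.injective).1 this]

end Chev
end H5
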