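import Cfsg.Agent.H5.RS7

/-! The generic group generated by two quadratic families. -/

namespace H5.QP
open Matrix Polynomial H5.RS
open scoped MatrixGroups commutatorElement

section Gen
variable {R : Type*} [CommRing R]

/-- upper unitriangular -/
def upR (t : R) : SL(2, R) := ⟨!![1, t; 0, 1], by simp⟩
/-- lower unitriangular -/
def loR (t : R) : SL(2, R) := ⟨!![1, 0; t, 1], by simp⟩

@[simp] theorem upR_val (t : R) : (upR t : Matrix (Fin 2) (Fin 2) R) = !![1, t; 0, 1] := rfl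
@[simp] theorem loR_val (t : R) : (loR t : Matrix (Fin 2) (Fin 2) R) = !![1, 0; t, 1] := rfl
theorem upR_inv (t : R) : (upR t)⁻¹ = upR (-t) := Subtype.ext (by simp [adjugate_fin_two])
theorem loR_inv (t : R) : (loR t)⁻¹ = loR (-t) := Subtype.ext (by simp [adjugate_fin_two])
theorem slR_det (g : SL(2, R)) : g 0 0 * g 1 1 - g 0 1 * g 1 0 = 1 := by rw [← det_fin_two]; exact g.2

theorem alg_mul {E : Type*} [Ring E] [Algebra R E] {x : R} {α β : E} (ha : α * α = 0) (hb : β * β = 0)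
    (h : α * β + β * α = x • 1) (a r p q s a' r' p' q' s' : R) :
    (a • 1 + r • (α * β) + p • α + q • β + s • (β * α)) * (a' • 1 + r' • (α * β) + p' • α + q' • β + s' • (β * α)) =
      (a * a') • 1 + (a * r' + r * a' + x * r * r' + p * q') • (α * β) + ((a + x * r) * p' + p * (a' + x * s')) • α +
        (q * (a' + x * r') + (a + x * s) * q') • β + (q * p' + a * s' + s * a' + x * s * s') • (β * α) := by
  have h1 : α * (β * α) = x • α := by simpa [mul_add, ← mul_assoc, ha] using congrArg (α * ·) h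
  have h2 : β * (α * β) = x • β := by simpa [mul_add, ← mul_assoc, hb] using congrArg (β * ·) h
  have h3 : ∀ y, α * (α * y) = 0 := fun y => by rw [← mul_assoc, ha, zero_mul]
  have h4 : ∀ y, β * (β * y) = 0 := fun y => by rw [← mul_assoc, hb, zero_mul]
  simp only [mul_add, add_mul, smul_mul_assoc, mul_smul_comm, mul_assoc, one_mul, mul_one, ha, hb, h1, h2, h3, h4, mul_zero,
    smul_zero]
  module

end Gen

variable {k : Type*} [Field k]

/-- the generic group -/
noncomputable def H0 (k : Type*) [Field k] : Subgroup SL(2, k[X]) :=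
  Subgroup.closure (Set.range (fun c : k => upR (C c)) ∪ Set.range fun c : k => loR (X * C c))

theorem up_mem (c : k) : upR (C c) ∈ H0 k := Subgroup.subset_closure (Or.inl ⟨c, rfl⟩)
theorem lo_mem (c : k) : loR (X * C c) ∈ H0 k := Subgroup.subset_closure (Or.inr ⟨c, rfl⟩)

theorem H0_ind {P : SL(2, k[X]) → Prop} (h0 : P 1) (h1 : ∀ c, P (upR (C c))) (h2 : ∀ c, P (loR (X * C c)))
    (h3 : ∀ x y, x ∈ H0 k → y ∈ H0 k → P x → P y → P (x * y)) {g : SL(2, k[X])} (hg : g ∈ H0 k) : P g := by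
  induction hg using Subgroup.closure_induction'' with
  | one => exact h0
  | mul x y hx hy h h' => exact h3 x y hx hy h h'
  | mem x hx => rcases hx with ⟨c, rfl⟩ | ⟨c, rfl⟩; exacts [h1 c, h2 c]
  | inv_mem x hx =>
    rcases hx with ⟨c, rfl⟩ | ⟨c, rfl⟩
    · rw [upR_inv, ← C_neg]; exact h1 _
    · rw [loR_inv, ← mul_neg, ← C_neg]; exact h2 _

/-- unitriangular modulo `X` -/
def Good (g : SL(2, k[X])) : Prop := ∃ r p q s, (g : Matrix (Fin 2) (Fin 2) k[X]) = !![1 + X * r, p; X * q, 1 + X * s]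

theorem good_mul_eq (r p q s r' p' q' s' : k[X]) : !![1 + X * r, p; X * q, 1 + X * s] * !![1 + X * r', p'; X * q', 1 + X * s'] =
    !![1 + X * (1 * r' + r * 1 + X * r * r' + p * q'), (1 + X * r) * p' + p * (1 + X * s');
      X * (q * (1 + X * r') + (1 + X * s) * q'), 1 + X * (q * p' + 1 * s' + s * 1 + X * s * s')] := by
  ext i j : 1; fin_cases i <;> fin_cases j <;> simp <;> ring

theorem Good.mul {g h : SL(2, k[X])} (hg : Good g) (hh : Good h) : Good (g * h) := by
  obtain ⟨r, p, q, s, e⟩ := hg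
  obtain ⟨r', p', q', s', e'⟩ := hh
  exact ⟨_, _, _, _, (Matrix.SpecialLinearGroup.coe_mul g h).trans (by rw [e, e', good_mul_eq])⟩

theorem good_up (p : k[X]) : Good (upR p) := ⟨0, p, 0, 0, by simp⟩
theorem good_lo (p : k[X]) : Good (loR (X * p)) := ⟨0, 0, p, 0, by simp⟩
theorem good_one : Good (1 : SL(2, k[X])) := ⟨0, 0, 0, 0, by simp [one_fin_two]⟩

theorem Good.inv {g : SL(2, k[X])} (hg : Good g) : Good g⁻¹ := by
  obtain ⟨r, p, q, s, e⟩ := hg
  exact ⟨s, -p, -q, r, by simp [e]⟩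

theorem good_of_mem {g : SL(2, k[X])} (hg : g ∈ H0 k) : Good g :=
  H0_ind good_one (fun _ => good_up _) (fun _ => good_lo _) (fun _ _ _ _ => Good.mul) hg

/-- congruence subgroups -/
def DD (k : Type*) [Field k] (j : ℕ) : Subgroup SL(2, k[X]) where
  carrier := {g | ∃ y : Matrix (Fin 2) (Fin 2) k[X], g = 1 + (X : k[X]) ^ j • y}
  one_mem' := ⟨0, by simp⟩
  mul_mem' := by
    rintro g h ⟨x, e⟩ ⟨y, e'⟩
    exact ⟨x + y + (X : k[X]) ^ j • (x * y), by simp [e, e', mul_add, add_mul]; abel⟩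
  inv_mem' := by
    rintro g ⟨x, e⟩
    refine ⟨-(x * (g⁻¹).1), ?_⟩
    have : g.1 * (g⁻¹).1 = 1 := congrArg Subtype.val (mul_inv_cancel g)
    generalize (g⁻¹).1 = w at this ⊢
    rw [← this, e]; simp [add_mul]

theorem DD_comm (i j : ℕ) : ⁅DD k i, DD k j⁆ ≤ DD k (i + j) := by
  refine Subgroup.commutator_le.2 ?_
  rintro g ⟨x, e⟩ h ⟨y, e'⟩
  refine ⟨(x * y - y * x) * (g⁻¹ * h⁻¹).1, ?_⟩
  have : (1 : Matrix (Fin 2) (Fin 2) k[X]) = h.1 * g.1 * (g⁻¹ * h⁻¹).1 :=
    congrArg Subtype.val (by group : (1 : SL(2, k[X])) = h * g * (g⁻¹ * h⁻¹))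
  rw [show (⁅g, h⁆).1 = g.1 * h.1 * (g⁻¹ * h⁻¹).1 from congrArg Subtype.val (mul_assoc (g * h) _ _), this]
  generalize (g⁻¹ * h⁻¹).1 = w
  rw [e, e', ← smul_mul_assoc, ← add_mul]
  congr 1
  simp only [mul_add, add_mul, one_mul, mul_one, smul_mul_assoc, mul_smul_comm, smul_smul, pow_add]
  module

theorem H0_comm : ⁅H0 k, H0 k⁆ ≤ DD k 1 := by
  refine Subgroup.commutator_le.2 fun g hg h hh => ?_
  obtain ⟨r, p, q, s, e⟩ := (((good_of_mem hg).mul (good_of_mem hh)).mul (good_of_mem hg).inv).mul (good_of_mem hh).inv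
  have : X ∣ p := by
    obtain ⟨r, p, q, s, e1⟩ := good_of_mem hg
    obtain ⟨r', p', q', s', e2⟩ := good_of_mem hh
    have := congrArg (fun m => (m 0 1).eval 0) e
    simp [e1, e2] at this
    rw [X_dvd_iff, coeff_zero_eq_eval_zero, ← this]
  obtain ⟨p, rfl⟩ := this
  exact ⟨!![r, p; q, s], by rw [commutatorElement_def, e]; ext i j : 1; fin_cases i <;> fin_cases j <;> simp⟩

theorem sl_perfect {K : Type*} [Field K] {t : K} (h0 : t ≠ 0) (h1 : t ^ 2 ≠ 1) : ⁅(⊤ : Subgroup SL(2, K)), (⊤ : Subgroup SL(2, K))⁆ = ⊤ := by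
  have k1 : ∀ u : K, up u ∈ ⁅(⊤ : Subgroup SL(2, K)), (⊤ : Subgroup SL(2, K))⁆ := fun u => by
    obtain ⟨d, hd⟩ : ∃ d : SL(2, K), d.1 = !![t, 0; 0, t⁻¹] := ⟨⟨_, by simp [h0]⟩, rfl⟩
    have h := Subgroup.commutator_mem_commutator (Subgroup.mem_top d) (Subgroup.mem_top (up (u / (t ^ 2 - 1))))
    rw [commutatorElement_def, borel_conj (by simp [hd]), up_inv, up_add] at h
    have := sub_ne_zero.2 h1
    convert h using 2; simp [hd]; field_simp; ring
  refine top_le_iff.1 fun g _ => sl_gen (K := Subgroup.toSubmonoid _) k1 (fun u => ?_) g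
  obtain ⟨d, hd⟩ : ∃ d : SL(2, K), d.1 = !![0, 1; -1, 0] := ⟨⟨_, by simp⟩, rfl⟩
  have e : lo u = d * up (-u) * d⁻¹ := by ext i j; fin_cases i <;> fin_cases j <;> simp [adjugate_fin_two, hd]
  exact e ▸ Subgroup.Normal.conj_mem inferInstance _ (k1 (-u)) d

theorem ex_unit (h2 : ringChar k ≠ 2) (h3 : Nat.card k ≠ 3) : ∃ t : k, t ≠ 0 ∧ t ^ 2 ≠ 1 := by
  by_contra h
  push Not at h
  have : (Set.univ : Set k) = {0, 1, -1} := Set.eq_of_subset_of_subset (fun t _ => by
    by_cases e : t = 0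
    · exact Or.inl e
    · exact Or.inr (sq_eq_one_iff.1 (h t e))) (Set.subset_univ _)
  apply h3
  rw [← Set.ncard_univ, this, Set.ncard_eq_three]
  exact ⟨0, 1, -1, by simp, by simp, fun e => Ring.two_ne_zero h2 (by linear_combination e), rfl⟩

theorem G1 {K : Type*} [Field K] [Algebra k K] {l : K} (h2 : ringChar k ≠ 2) (h3 : Nat.card k ≠ 3) (hl : l ≠ 0)
    (ha : IsAlgebraic k l) (hK : ∀ x : K, ∃ p : k[X], aeval l p = x) (j : ℕ) :
    (H0 k ⊓ DD k j).map (SpecialLinearGroup.map (aeval l : k[X] →ₐ[k] K).toRingHom) = ⊤ := by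
  obtain ⟨t, t0, t1⟩ := ex_unit h2 h3
  have hp := sl_perfect (K := K) ((map_ne_zero (algebraMap k K)).2 t0) (fun e => t1 ((algebraMap k K).injective
    (by rw [map_pow, e, map_one])))
  have h0 : (H0 k).map (SpecialLinearGroup.map (aeval l : k[X] →ₐ[k] K).toRingHom) = ⊤ := zal h2 h3 hl ha hK
    (fun c => ⟨_, up_mem c, by ext i j; fin_cases i <;> fin_cases j <;> simp⟩)
    (fun c => ⟨_, lo_mem c, by ext i j; fin_cases i <;> fin_cases j <;> simp [mul_comm l]⟩)
  have k0 : ∀ A B, A ≤ H0 k → B ≤ H0 k → ⁅A, B⁆ ≤ H0 k := fun A B h h' =>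
    (Subgroup.commutator_mono h h').trans (Subgroup.commutator_le_self _)
  have h1 : (H0 k ⊓ DD k 1).map (SpecialLinearGroup.map (aeval l : k[X] →ₐ[k] K).toRingHom) = ⊤ := top_le_iff.1 (by
    rw [← hp, ← h0, ← Subgroup.map_commutator]; exact Subgroup.map_mono (le_inf (k0 _ _ le_rfl le_rfl) H0_comm))
  induction j with
  | zero => rwa [inf_eq_left.2 fun g _ => ⟨g - 1, by simp⟩]
  | succ j ih =>
    rw [← top_le_iff, ← hp]
    nth_rw 1 [← ih, ← h1]
    rw [← Subgroup.map_commutator]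
    exact Subgroup.map_mono (le_inf (k0 _ _ inf_le_left inf_le_left)
      ((Subgroup.commutator_mono inf_le_right inf_le_right).trans (DD_comm j 1)))

theorem lev12 {j : ℕ} {g : SL(2, k[X])} {r p q s : k[X]} (hg : g ∈ H0 k)
    (e : (g : Matrix (Fin 2) (Fin 2) k[X]) = !![1 + X * (X ^ j * r), X ^ j * p; X * (X ^ j * q), 1 + X * (X ^ j * s)]) :
    ∃ h ∈ H0 k, ∃ r' p' q' s' : k[X], (h : Matrix (Fin 2) (Fin 2) k[X]) =
      !![1 + X * (X ^ j * r'), X ^ (j + 1) * p'; X * (X ^ (j + 1) * q'), 1 + X * (X ^ j * s')] ∧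
      r'.eval 0 = p.eval 0 ∧ s'.eval 0 = -p.eval 0 := by
  refine ⟨_, mul_mem (mul_mem (mul_mem hg (lo_mem 1)) (inv_mem hg)) (lo_mem (-1)),
    p * (1 + X * X ^ j * s) + X * X ^ j * p ^ 2, -(X ^ j * p ^ 2), 2 * s + X * X ^ j * s ^ 2 + p * (1 + X * X ^ j * s),
    -(p * (1 + X * X ^ j * s)), ?_, by simp, by simp⟩
  have := slR_det g
  rw [e] at this
  ext i j : 1
  fin_cases i <;> fin_cases j <;> simp [e, pow_succ] at this ⊢
  · linear_combination this
  · ring
  · linear_combination (-X) * this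
  · linear_combination this

theorem lev21 {j : ℕ} {g : SL(2, k[X])} {r p q s : k[X]} (hg : g ∈ H0 k) (e : (g : Matrix (Fin 2) (Fin 2) k[X]) =
      !![1 + X * (X ^ j * r), X ^ (j + 1) * p; X * (X ^ (j + 1) * q), 1 + X * (X ^ j * s)]) :
    ∃ h ∈ H0 k, ∃ r' p' q' s' : k[X], (h : Matrix (Fin 2) (Fin 2) k[X]) =
      !![1 + X * (X ^ (j + 1) * r'), X ^ (j + 1) * p'; X * (X ^ (j + 1) * q'), 1 + X * (X ^ (j + 1) * s')] ∧
      p'.eval 0 = 2 * r.eval 0 ∧ q'.eval 0 = 0 := by
  refine ⟨_, mul_mem (mul_mem (mul_mem hg (up_mem 1)) (inv_mem hg)) (up_mem (-1)),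
    -((1 + X * X ^ j * r) * q), 2 * r + X * X ^ j * r ^ 2 + (1 + X * X ^ j * r) * X * q, -(X * X ^ (j + 1) * q ^ 2),
    (1 + X * X ^ j * r) * q + X * X ^ (j + 1) * q ^ 2, ?_, by simp, by simp⟩
  have := slR_det g
  rw [e] at this
  ext i j : 1
  fin_cases i <;> fin_cases j <;> simp [e, pow_succ] at this ⊢
  · linear_combination this
  · linear_combination (-1) * this
  · ring
  · linear_combination this

theorem lev1 (h2 : ringChar k ≠ 2) (j : ℕ) (c : k) : ∃ h ∈ H0 k, ∃ r p q s : k[X], (h : Matrix (Fin 2) (Fin 2) k[X]) =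
      !![1 + X * (X ^ j * r), X ^ j * p; X * (X ^ j * q), 1 + X * (X ^ j * s)] ∧ p.eval 0 = c ∧ q.eval 0 = 0 := by
  induction j generalizing c with
  | zero => exact ⟨_, up_mem c, 0, C c, 0, 0, by simp, by simp, by simp⟩
  | succ j ih =>
    obtain ⟨g, hg, r, p, q, s, e, e1, -⟩ := ih (c / 2)
    obtain ⟨g, hg, r, p, q, s, e, e2, -⟩ := lev12 hg e
    obtain ⟨g, hg, r, p, q, s, e, e3, e4⟩ := lev21 hg e
    exact ⟨g, hg, r, p, q, s, e, by rw [e3, e2, e1, mul_div_cancel₀ _ (Ring.two_ne_zero h2)], e4⟩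

section Rho
variable {E : Type*} [Ring E] [Algebra k E] (α β : E)

/-- evaluation at `αβ + βα` -/
noncomputable abbrev P (p : k[X]) : E := aeval (α * β + β * α) p

/-- the five-parameter normal form -/
noncomputable def nf (r p q s : k[X]) : E := 1 + P α β r * (α * β) + P α β p * α + P α β q * β + P α β s * (β * α)

/-- the representation of the generic group -/
noncomputable def rho (g : SL(2, k[X])) : E := nf α β (g 0 0).divX (g 0 1) (g 1 0).divX (g 1 1).divX

theorem rho_eq {g : SL(2, k[X])} {r p q s : k[X]}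
    (e : (g : Matrix (Fin 2) (Fin 2) k[X]) = !![1 + X * r, p; X * q, 1 + X * s]) : rho α β g = nf α β r p q s := by
  have : ∀ r : k[X], (X * r).divX = r := fun r => by ext; simp
  simp [rho, e, divX_add, this]

variable {α β} (ha : α * α = 0) (hb : β * β = 0)
include ha in
theorem Pa (p : k[X]) : Commute (P α β p) α := by
  refine Commute.symm ?_
  induction p using Polynomial.induction_on with
  | C c => rw [P, aeval_C]; exact (Algebra.commutes c α).symm
  | add _ _ h h' => rw [P, map_add]; exact h.add_right h'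
  | monomial n c h =>
    rw [P, pow_succ, ← mul_assoc, map_mul, aeval_X]
    exact h.mul_right (by simp [Commute, SemiconjBy, mul_add, add_mul, mul_assoc, ha, ← mul_assoc α α])

theorem Pswap (p : k[X]) : P β α p = P α β p := by rw [P, add_comm]

include hb in
theorem Pb (p : k[X]) : Commute (P α β p) β := by rw [← Pswap]; exact Pa hb p

include ha hb
theorem nf_mul (r p q s r' p' q' s' : k[X]) : nf α β r p q s * nf α β r' p' q' s' =
    nf α β (1 * r' + r * 1 + X * r * r' + p * q') ((1 + X * r) * p' + p * (1 + X * s'))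
      (q * (1 + X * r') + (1 + X * s) * q') (q * p' + 1 * s' + s * 1 + X * s * s') := by
  let Z := Subalgebra.centralizer k (Set.range (P (k := k) α β))
  let f : k[X] →+* Z := (aeval (α * β + β * α) : k[X] →ₐ[k] E).toRingHom.codRestrict Z (by
    rintro p _ ⟨q, rfl⟩; simp [← map_mul, mul_comm])
  letI : Algebra k[X] Z := f.toAlgebra' fun c x => Subtype.ext (x.2 _ ⟨c, rfl⟩)
  have := alg_mul (E := Z) (x := (X : k[X])) (α := ⟨α, by rintro _ ⟨q, rfl⟩; exact Pa ha q⟩)
    (β := ⟨β, by rintro _ ⟨q, rfl⟩; exact Pb hb q⟩) (Subtype.ext ha) (Subtype.ext hb)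
    (Subtype.ext (by change _ = aeval _ X * 1; simp)) 1 r p q s 1 r' p' q' s'
  rw [mul_one, one_smul] at this
  exact congrArg Subtype.val this

theorem rho_mul {g h : SL(2, k[X])} (hg : Good g) (hh : Good h) : rho α β (g * h) = rho α β g * rho α β h := by
  obtain ⟨r, p, q, s, e⟩ := hg
  obtain ⟨r', p', q', s', e'⟩ := hh
  rw [rho_eq α β e, rho_eq α β e', nf_mul ha hb, rho_eq α β ((Matrix.SpecialLinearGroup.coe_mul g h).trans (by rw [e, e', good_mul_eq]))]

omit ha hb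
theorem rho_one : rho α β (1 : SL(2, k[X])) = 1 := by
  rw [rho_eq α β (r := 0) (p := 0) (q := 0) (s := 0) (by simp [one_fin_two])]; simp [nf]

theorem rho_up (p : k[X]) : rho α β (upR p) = 1 + P α β p * α := by
  rw [rho_eq α β (r := 0) (p := p) (q := 0) (s := 0) (by simp)]; simp [nf]

theorem rho_lo (p : k[X]) : rho α β (loR (X * p)) = 1 + P α β p * β := by
  rw [rho_eq α β (r := 0) (p := 0) (q := p) (s := 0) (by simp)]; simp [nf]

include ha hb
theorem rho_mem {T : Submonoid E} (h1 : ∀ c : k, 1 + c • α ∈ T) (h2 : ∀ c : k, 1 + c • β ∈ T) {g : SL(2, k[X])}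
    (hg : g ∈ H0 k) : rho α β g ∈ T :=
  H0_ind (by rw [rho_one]; exact one_mem T) (fun c => by simpa [rho_up, Algebra.smul_def] using h1 c)
    (fun c => by rw [rho_lo]; simpa [Algebra.smul_def] using h2 c)
    (fun x y hx hy h h' => rho_mul ha hb (good_of_mem hx) (good_of_mem hy) ▸ mul_mem h h') hg

theorem rho_conj {g : SL(2, k[X])} (hg : Good g) {q : k[X]} (hq : g 1 0 = X * q) (u : k[X]) :
    rho α β g * (P α β u * α) * rho α β g⁻¹ = P α β (-(u * g 0 0 * q)) * (α * β) + P α β (u * g 0 0 ^ 2) * α +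
      P α β (-(u * X * q ^ 2)) * β + P α β (u * g 0 0 * q) * (β * α) := by
  have h1 := rho_mul ha hb hg hg.inv
  have h2 := rho_mul ha hb (hg.mul (good_up u)) hg.inv
  rw [mul_inv_cancel, rho_one] at h1
  rw [rho_mul ha hb hg (good_up u), rho_up, mul_add, add_mul, mul_one, ← h1, rho_eq α β (r := -(u * g 0 0 * q))
    (p := u * g 0 0 ^ 2) (q := -(u * X * q ^ 2)) (s := u * g 0 0 * q), nf, add_assoc, add_assoc, add_assoc, add_right_inj] at h2
  · rw [← h2]; abel
  have := slR_det g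
  ext i j : 1
  fin_cases i <;> fin_cases j <;> simp [adjugate_fin_two, Matrix.mul_apply, Fin.sum_univ_two, hq] at this ⊢
  · linear_combination this
  · ring
  · ring
  · linear_combination this

end Rho

end H5.QP
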