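import Cfsg.Agent.H5.QP9

/-! Arbitrary quadratic elements acting on a component. -/

namespace H5.QP
open Cfsg H5.RS Module Relation Matrix Polynomial
open scoped MatrixGroups

variable {k : Type*} [Field k] {M : Type*} [AddCommGroup M] [Module k M] {d : ℕ} {G A B C : Subgroup (End k M)ˣ}
  {T : Submonoid (End k M)} {α β γ δ : End k M}

theorem sl2_up {N : Subgroup SL(2, k)} (h2 : (2 : k) ≠ 0) (hN : ∀ t, ∀ m ∈ N, up t * m * (up t)⁻¹ ∈ N) {τ : k} (h0 : τ ≠ 0)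
    (h1 : τ ^ 2 ≠ 1) {h : SL(2, k)} (e : h.1 = !![τ⁻¹, 0; τ⁻¹ - τ, τ]) (hh : h ∈ N) (t : k) : up t ∈ N := by
  have h3 : τ ^ 2 - 1 ≠ 0 := sub_ne_zero.2 h1
  have h4 : 1 - τ ^ 2 ≠ 0 := sub_ne_zero.2 h1.symm
  have a : lo (2 * (1 - τ ^ 2)) ∈ N := by
    convert mul_mem hh (hN (-1) h hh) using 1
    rw [up_inv]
    ext i j; fin_cases i <;> fin_cases j <;> simp [sl_mul, e] <;> field_simp <;> ring
  have b := mul_mem (mul_mem a (hN (-(2 * (1 - τ ^ 2))⁻¹) h hh)) (inv_mem a)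
  obtain ⟨g, hg, e0, e1, e2⟩ : ∃ g ∈ N, g.1 0 0 = τ ∧ g.1 1 0 = 0 ∧ g.1 1 1 = τ⁻¹ := ⟨_, b, by
    rw [up_inv, lo_inv]
    refine ⟨?_, ?_, ?_⟩ <;> simp [sl_mul, e] <;> field_simp <;> ring⟩
  convert mul_mem hg (hN (t / (τ ^ 2 - 1)) _ (inv_mem hg)) using 1
  rw [up_inv]
  ext i j; fin_cases i <;> fin_cases j <;> simp [sl_mul, sl_inv, e0, e1, e2] <;> field_simp <;> ring

theorem pt_uniq {y ε ε' w w' : End k M} (h : Pt δ y) (h' : Pt ε ε') (e : δ = ε * w) (e' : ε' = w' * y) : δ * y = ε * ε' := by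
  have a : ε * (ε' * (δ * y)) = -(δ * y) := by rw [e, mul_assoc, h'.aba']
  rw [e', mul_assoc, h.bab, mul_neg, mul_neg, ← e', neg_inj] at a
  exact a.symm

theorem comm_val {g : (End k M)ˣ} (h : InQ T α) (h' : InQ T β) (c : Comm (EE T α) (conjBy (EE T β) g)) :
    α * (g * β * (g⁻¹ : (End k M)ˣ)) = g * β * (g⁻¹ : (End k M)ˣ) * α := by
  obtain ⟨a, ha, e, -⟩ := EE_ex h.1 (cls_self h)
  obtain ⟨b, hb, e', -⟩ := EE_ex h'.1 (cls_self h')
  have := congrArg Units.val (c a ha _ (RS.conj_mem hb))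
  simp only [Units.val_mul, e, e', mul_add, add_mul, mul_one, one_mul, Units.mul_inv] at this
  linear_combination (norm := abel1) this

theorem InQ.sub_le {L : Subgroup (End k M)ˣ} (h : InQ T α) (hl : EE T α ≤ L) : InQ (TG L) α := ⟨h.1, fun c => by
  obtain ⟨g, hg, e, -⟩ := EE_ex h.1 (Submodule.smul_mem _ c (cls_self h))
  exact e ▸ mem_TG.2 (hl hg)⟩

variable [FiniteDimensional k M]

theorem Min.nN (hm : Min T d) (h : InQ T α) (h' : Nd T d β) (hz : IsNilpotent (α * β + β * α)) : β * (α * β) = 0 := by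
  have ha : ∀ x, α * (α * x) = 0 := fun x => by rw [← mul_assoc, h.1, zero_mul]
  have hb : ∀ x, β * (β * x) = 0 := fun x => by rw [← mul_assoc, h'.1.1, zero_mul]
  have : ∀ {α}, InQ T α → IsNilpotent (α * β + β * α) → β * ((1 + α) * β * (1 - α) * β) = 0 ∧
      InQ T (β * ((1 + α) * β * (1 - α)) - (1 + α) * β * (1 - α) * β) := fun {α} h hz => by
    have ha : ∀ x, α * (α * x) = 0 := fun x => by rw [← mul_assoc, h.1, zero_mul]
    have c := h'.conj (y := 1 - α) (by simpa using h.2 1 : 1 + α ∈ T) (by simpa [sub_eq_add_neg] using h.2 (-1))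
      (by simp [mul_sub, add_mul, h.1]) (by simp [mul_add, sub_mul, h.1])
    obtain ⟨u1, u2⟩ := hm.U1 h' c (by
      rw [show β * ((1 + α) * β * (1 - α)) + (1 + α) * β * (1 - α) * β = -(α * β + β * α) ^ 2 by
        simp [pow_two, mul_add, add_mul, mul_sub, sub_mul, mul_assoc, ha, hb, h'.1.1]; abel]
      exact (hz.pow_of_pos two_ne_zero).neg)
    exact ⟨u1, h'.1.comm c.1 u1 u2⟩
  obtain ⟨a1, a2⟩ := this h hz
  obtain ⟨-, a3⟩ := this h.neg (by simpa [add_comm] using hz.neg)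
  replace a1 : β * (α * (β * (α * β))) = 0 := by simpa [mul_add, add_mul, mul_sub, sub_mul, mul_assoc, hb, h'.1.1] using a1
  have a4 : ∀ x, β * (α * (β * (α * (β * x)))) = 0 := fun x => by simpa [mul_assoc] using congrArg (· * x) a1
  have a5 := a2.add a3.neg (by simp [mul_add, add_mul, mul_sub, sub_mul, mul_assoc, ha, hb, h'.1.1, h.1, a1, a4])
    (by simp [mul_add, add_mul, mul_sub, sub_mul, mul_assoc, ha, hb, h'.1.1, h.1, a1, a4])
  by_contra c
  have := hm.zero h' (u := ((2 : k) * 2) • (β * α)) (w := α * β) (by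
    convert a5 using 1
    simp only [mul_add, add_mul, mul_sub, sub_mul, mul_assoc, hb, h'.1.1, mul_neg, neg_mul, mul_one, one_mul, smul_mul_assoc, mul_zero]
    module) (by simp [mul_assoc, a1]) c
  rw [smul_mul_assoc, smul_eq_zero, mul_assoc] at this
  exact this.elim (mul_self_ne_zero.2 (Ring.two_ne_zero hm.h2)) c

variable (hm : Min (TG G) d) (hG : Red G)
include hm hG

theorem Min.q_norm (h : InQ (TG G) α) {g : (End k M)ˣ} (e : (g : End k M) = 1 + α) (hB : B ∈ cp G d A) : conjBy B g ∈ cp G d A := by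
  by_contra c
  have hg : g ∈ G := mem_TG.1 (by simpa [e] using h.2 1)
  have e' := inv_val h.1 e
  have c1 : ∀ C ∈ cp G d A, conjBy C g ∉ cp G d A := fun C hC a =>
    c (((cp_eq (cp_conjG (cp_eq hB ▸ hC) hg)).symm.trans (cp_eq a)) ▸ cp_self (Sg_conj hB.1 hg))
  have c2 : conjBy B g⁻¹ ∉ cp G d A := fun a => c1 _ a (by rwa [conjBy_conjBy, mul_inv_cancel, conjBy_one])
  obtain ⟨E, hE, p⟩ := hm.rSg_opp hG hB.1
  have hE' := cp_opp hB hE p
  obtain ⟨β, h1, rfl⟩ := hB.1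
  obtain ⟨δ, h2, rfl⟩ := hE
  obtain ⟨y, hy, y0, p⟩ := hm.partner h1 h2 (hm.opp_of h1 h2 p)
  rw [← hm.EE_eq h2 hy y0] at hE'
  have a1 := comm_val h1.1 h1.1 (hm.rcp_out hG hB (Sg_conj hB.1 hg) c)
  have a2 := comm_val h1.1 h1.1 (hm.rcp_out hG hB (Sg_conj hB.1 (inv_mem hg)) c2)
  have a3 := comm_val (hy.1 h2.1.1) h1.1 (hm.rcp_out hG hE' (Sg_conj hB.1 hg) c)
  have a4 := comm_val (hy.1 h2.1.1) h1.1 (hm.rcp_out hG hE' (Sg_conj hB.1 (inv_mem hg)) c2)
  simp only [inv_inv, e, e', mul_add, add_mul, mul_sub, sub_mul, mul_assoc, mul_one, one_mul, p.a, p.a', mul_zero] at a1 a2 a3 a4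
  have t : ∀ {x : End k M}, x + x = 0 → x = 0 := fun h => by
    rw [← two_smul k, smul_eq_zero] at h; exact h.resolve_left (Ring.two_ne_zero hm.h2)
  have b1 : β * (α * β) = 0 := t (t (by linear_combination (norm := abel1) a1 - a2))
  have b2 : y * (α * β - β * α) = (α * β - β * α) * y := sub_eq_zero.1 (t (by
    simp only [mul_sub, sub_mul, mul_assoc]; linear_combination (norm := abel1) a3 - a4))
  have b3 : β * (α * β - β * α) = 0 := by simp [mul_sub, b1, p.a']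
  have b4 : (α * β - β * α) * β = 0 := by simp [sub_mul, b1, p.a, mul_assoc]
  have b5 : (1 + β * y + y * β) * (α * β - β * α) * (1 + β * y + y * β) = α * β - β * α := by
    generalize α * β - β * α = γ at *
    have : γ * (y * β) = 0 := by rw [← mul_assoc, ← b2, mul_assoc, b4, mul_zero]
    simp [add_mul, mul_add, mul_assoc, b2, b3, ← mul_assoc β γ, this, ← mul_assoc γ β, b4]
  have b6 : (1 + β * y + y * β) * β = 0 := by simp [add_mul, mul_assoc, p.a, p.aba]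
  have b7 : β * (1 + β * y + y * β) = 0 := by simp [mul_add, p.a', p.aba]
  rw [mul_assoc, sub_mul, mul_assoc, b7, mul_zero, zero_sub, mul_neg, mul_assoc, ← mul_assoc _ β, b6, zero_mul, neg_zero, eq_comm,
    sub_eq_zero] at b5
  apply c
  rwa [conj_EE p.a (mem_TG.2 hg) (mem_TG.2 (inv_mem hg)), e, e', show (1 + α) * β * (1 - α) = β by
    simp [mul_sub, add_mul, b5, mul_assoc, h.1]]

theorem Min.q_nil (hΓ : ∀ {B}, B ∈ cp G d A → ∀ {g}, g ∈ G → conjBy B g ∈ cp G d A) (h : InQ (TG G) α)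
    (hz : ∀ β, Nd (TG G) d β → EE (TG G) β ∈ cp G d A → β * (α * β) = 0) : ∀ x ∈ ⨆ B ∈ cp G d A, B, α * x = x * α := by
  have key : ∀ {α} {g : (End k M)ˣ}, InQ (TG G) α → (g : End k M) = 1 + α → (∀ β, Nd (TG G) d β → EE (TG G) β ∈ cp G d A →
      β * (α * β) = 0) → ∀ B ∈ cp G d A, ∀ D ∈ cp G d A, IsRankOnePair B D → IsRankOnePair (conjBy B g) D := by
    intro α g h e hz B hB D hD p
    have hg : g ∈ G := mem_TG.1 (by simpa [e] using h.2 1)
    have e' := inv_val h.1 e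
    have hB' := hΓ hB hg
    obtain ⟨β, h1, rfl⟩ := hB.1
    obtain ⟨δ, h2, rfl⟩ := hD.1
    have o := hm.opp_of h1 h2 p
    have h3 := h1.gconj hg
    rw [conj_EE h1.1.1 (mem_TG.2 hg) (mem_TG.2 (inv_mem hg))] at hB' ⊢
    refine (hm.special h3 h2 (not_not.1 fun o' => ?_)).1
    have a1 := (hm.nop h3 h2 o').r _ (cls_self h3.1)
    have : ∀ β, Nd (TG G) d β → EE (TG G) β ∈ cp G d A → δ * ((β * α - α * β) * δ) = 0 := fun β h1 hB => by
      obtain ⟨u, hu, e1, -⟩ := hm.EE_ne h1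
      have hu' := inv_mem (EE_le h1.1.1 hu)
      have := hz _ (h2.gconj hu') (conj_EE h2.1.1 (mem_TG.2 hu') (mem_TG.2 (inv_mem hu')) ▸ hΓ hD hu')
      have : δ * (u * α * (u⁻¹ : (End k M)ˣ) * δ) = 0 := by
        simpa [mul_assoc] using congrArg (· * ((u⁻¹ : (End k M)ˣ) : End k M)) this
      rw [inv_val h1.1.1 e1, e1] at this
      have a : β * (α * (β * δ)) = 0 := by simpa [mul_assoc] using congrArg (· * δ) (hz β h1 hB)
      have b := hz δ h2 hD
      simp only [mul_add, add_mul, mul_sub, sub_mul, mul_assoc, mul_one, one_mul, a, b, mul_zero] at this ⊢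
      linear_combination (norm := abel1) this
    have a2 := this β h1 hB
    have a3 := this _ h3 hB'
    have ha : ∀ x, α * (α * x) = 0 := fun x => by rw [← mul_assoc, h.1, zero_mul]
    simp only [e, e', mul_add, add_mul, mul_sub, sub_mul, mul_assoc, mul_one, one_mul, ha, mul_zero] at a1 a2 a3
    have a4 : (2 : k) • (δ * (β * δ)) = 0 := by rw [two_smul]; linear_combination (norm := abel1) a1 + a1 + a2 + a3
    rw [smul_eq_zero] at a4
    exact hm.ne h2 (by simpa using o.2 1 (by simpa using o.1 _ (a4.resolve_left (Ring.two_ne_zero hm.h2))))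
  obtain ⟨g, e⟩ := un_ex h.1
  have hg : g ∈ G := mem_TG.1 (by simpa [e] using h.2 1)
  intro x hx
  have := comm_bisup (A := Subgroup.zpowers g) (fun B hB a ha b hb => (Subgroup.zpowers_le.2 (Subgroup.mem_centralizer_singleton_iff.2
    (hm.cent2 hG (S := cp G d A) (R := IsRankOnePair) (fun _ h => h.1) hΓ (fun g => ⟨fun a => by
      simpa [conjBy_conjBy, conjBy_one] using a.h5conj g⁻¹, fun a => by simpa [conjBy_conjBy, conjBy_one] using a.h5conj g⟩)
      (fun B hB C hC h p => ((h C hC).1 p).ne rfl) hg (fun B hB D hD => ⟨fun p => by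
        simpa [conjBy_conjBy, conjBy_one] using key (g := g⁻¹) h.neg (by rw [inv_val h.1 e, sub_eq_add_neg])
          (fun β a b => by simp [hz β a b]) _ (hΓ hB hg) D hD p, key h e hz B hB D hD⟩) hB b hb)) ha b rfl).symm)
    g (Subgroup.mem_zpowers g) x hx
  simpa [e, add_mul, mul_add] using congrArg Units.val this

theorem Min.q_non (h : InQ (TG G) α) (h' : Nd (TG G) d δ) (hδ : EE (TG G) δ ∈ cp G d A) (hz : ¬ IsNilpotent (α * δ + δ * α)) :
    ∃ β, InQ (TG (⨆ B ∈ cp G d A, B)) β ∧ α * β = 0 ∧ β * α = 0 ∧ rk (α - β) < rk α ∧ β * δ ≠ δ * β := by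
  obtain ⟨g, e⟩ := un_ex h.1
  have hg : g ∈ G := mem_TG.1 (by simpa [e] using h.2 1)
  have e' := inv_val h.1 e
  have h1 := h'.gconj hg
  have ha : ∀ x, α * (α * x) = 0 := fun x => by rw [← mul_assoc, h.1, zero_mul]
  have hb : ∀ x, δ * (δ * x) = 0 := fun x => by rw [← mul_assoc, h'.1.1, zero_mul]
  have ez : δ * (g * δ * (g⁻¹ : (End k M)ˣ)) + g * δ * (g⁻¹ : (End k M)ˣ) * δ = aeval (α * δ + δ * α) (-X ^ 2 : k[X]) := by
    simp [e, e', pow_two, mul_add, add_mul, mul_sub, sub_mul, mul_assoc, ha, hb, h'.1.1]; abel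
  have hz' : ¬ IsNilpotent (δ * (g * δ * (g⁻¹ : (End k M)ˣ)) + g * δ * (g⁻¹ : (End k M)ˣ) * δ) := fun a => hz (by
    rw [ez] at a; exact IsNilpotent.of_pow (m := 2) (by simpa using a))
  obtain ⟨W, w1, w2, w3⟩ : ∃ W, W * α = α * W ∧ W * δ = δ * W ∧ W * (δ * (α * δ)) = δ := by
    obtain ⟨f, -, ⟨v, u, e0⟩, e1, -⟩ := hm.K1 h' h1 hz'
    rw [P, ez, ← aeval_comp] at e1
    refine ⟨P α δ (u.comp (-X ^ 2) * -X), (Pa h.1 _).eq, (Pb h'.1.1 _).eq, ?_⟩
    have := congrArg (fun p : k[X] => P α δ (p.comp (-X ^ 2)) * δ) e0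
    simp only [add_comp, mul_comp, X_comp, one_comp, map_add, map_mul, add_mul, mul_assoc, e1, mul_zero, zero_add, map_one,
      one_mul] at this
    refine Eq.trans ?_ this; simp [pow_two, mul_assoc, add_mul, h'.1.1, hb]
  obtain ⟨y, hy, y0, p⟩ := hm.partner h' h1 ((hm.opp_iff h' h1).2 hz')
  have hy' := (hm.cls_eq h1 hy y0).ge (cls_self h1.1)
  have l1 := h'.1.sub_le fun _ => mem_bisup hδ
  have l2 := (hy.1 h1.1.1).sub_le (hm.EE_eq h1 hy y0 ▸ fun _ => mem_bisup (cp_opp hδ ⟨_, h1, rfl⟩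
    (hm.special h' h1 ((hm.opp_iff h' h1).2 hz')).1))
  have w4 : ∀ x, α * (W * x) = W * (α * x) := fun x => by rw [← mul_assoc, ← w1, mul_assoc]
  have w5 : ∀ x, δ * (W * x) = W * (δ * x) := fun x => by rw [← mul_assoc, ← w2, mul_assoc]
  have w6 : ∀ x, W * (δ * (α * (δ * x))) = δ * x := fun x => by nth_rw 3 [← w3]; simp [mul_assoc]
  obtain ⟨u, hu⟩ := hy'.2.2
  obtain ⟨w, hw⟩ := hy.2.1
  have q1 : W * δ * (W * δ) = 0 := by simp [mul_assoc, w5, h'.1.1]
  have q2 : W * δ * (α * (W * δ)) = W * δ := by simp [mul_assoc, w4, w5, w3]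
  have q3 : δ = W * δ * (α * δ) := by rw [mul_assoc, w3]
  have q4 : (1 + α) * (W * δ) * (1 - α) = W * u * y := by rw [mul_assoc W u, ← hu, e, e']; simp [add_mul, mul_assoc, w4, mul_add]
  have q5 : y = (1 + α) * (W * δ) * (1 - α) * (α * δ * (1 - α) * w) := by
    rw [hw, e, e']; nth_rw 1 [q3]; simp [mul_assoc, sub_mul, ha]
  have q6 : δ * (α * (W * δ)) = δ := by rw [w4, w5, w3]
  obtain ⟨ε, hε⟩ : ∃ ε, W * δ = ε := ⟨_, rfl⟩
  rw [hε] at q1 q2 q3 q4 q5 q6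
  have q1' : ∀ x, ε * (ε * x) = 0 := fun x => by rw [← mul_assoc, q1, zero_mul]
  have q2' : ∀ x, ε * (α * (ε * x)) = ε * x := fun x => by nth_rw 3 [← q2]; simp [mul_assoc]
  have p1 : Pt ε ((1 + α) * ε * (1 - α)) := by
    refine ⟨q1, ?_, ?_, ?_⟩ <;> simp [mul_add, add_mul, mul_sub, sub_mul, mul_assoc, ha, q1, q1', q2, q2', h.1] <;> abel
  have r1 := pt_uniq p p1 q3 q4
  have r2 := pt_uniq p.symm p1.symm q5 hε.symm
  have p2 : Pt (α * (ε * α)) (-ε) := by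
    refine ⟨?_, ?_, ?_, ?_⟩ <;> simp [mul_assoc, ha, q1, q2, q2']
  obtain ⟨f, hf⟩ := p.sl2
  obtain ⟨φ, hφ⟩ := p2.sl2
  obtain ⟨τ, t0, t1⟩ := ex_unit hm.h2 hm.h3
  generalize hL : ⨆ B ∈ cp G d A, B = L at *
  have m1 : ∀ x, f x ∈ L := sl_gen (K := (L.comap f).toSubmonoid) (fun t => mem_TG.1 (by simpa [hf] using l1.2 t))
    fun t => mem_TG.1 (by simpa [hf, sub_eq_add_neg] using l2.2 (-t))
  obtain ⟨x1, y1⟩ : ∃ x : SL(2, k), x.1 = !![τ⁻¹, 0; τ⁻¹ - τ, τ] := ⟨⟨_, by simp [t0]⟩, rfl⟩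
  obtain ⟨x2, y2⟩ : ∃ x : SL(2, k), x.1 = !![τ, 0; 0, τ⁻¹] := ⟨⟨_, by simp [t0]⟩, rfl⟩
  have m2 := sl2_up (N := L.comap φ) (Ring.two_ne_zero hm.h2) (fun t m hm' => by
    obtain ⟨s, e⟩ := un_ex (h.smul t).1
    have : conjBy L s ≤ L := by
      simp only [← hL, conjBy, Subgroup.map_iSup]
      exact iSup₂_le fun B hB x hx => mem_bisup (hm.q_norm hG (h.smul t) e hB) hx
    have a := this (RS.conj_mem hm')
    rw [Subgroup.mem_comap, map_mul, map_mul, up_inv]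
    convert a using 1
    ext1
    simp only [Units.val_mul, inv_val (h.smul t).1 e, e, hφ]
    simp [mul_add, add_mul, mul_sub, sub_mul, mul_assoc, ha, q1, q1', q2, q2', h.1]
    module) t0 t1 y1 (by
    rw [Subgroup.mem_comap]
    convert m1 x2 using 1
    ext1
    simp [hf, hφ, y1, y2, r1, r2, mul_add, add_mul, mul_sub, sub_mul, mul_assoc, q1, q1', q2, q2']
    module)
  refine ⟨α * (ε * α), ⟨p2.a, fun c => by simpa [hφ] using mem_TG.2 (m2 c)⟩, ha _, by simp [mul_assoc, h.1],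
    lt_of_not_ge fun a => hm.ne h' ?_, fun a => hm.ne h' ?_⟩
  · have := full (u := 1 - α * ε) (w := ε) (by simpa [sub_mul, mul_assoc] using a) (by simp [sub_mul, mul_assoc, q2])
    rw [← q6, this, mul_zero]
  · rw [mul_assoc, mul_assoc, ← q3, ← mul_assoc α, ← mul_assoc δ, q6] at a
    rw [q3, a, ← hε, mul_assoc, hb, mul_zero]

theorem Min.q_dich (hA : A ∈ Sg (TG G) d) (hΓ : ∀ {B}, B ∈ cp G d A → ∀ {g}, g ∈ G → conjBy B g ∈ cp G d A)
    (hM : ∀ x : End k M, (∀ g ∈ ⨆ B ∈ cp G d A, B, x * g = x) → x = 0) (h : InQ (TG G) α) :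
    InQ (TG (⨆ B ∈ cp G d A, B)) α ∨ ∀ x ∈ ⨆ B ∈ cp G d A, B, α * x = x * α := by
  induction hr : rk α using Nat.strong_induction_on generalizing α with
  | _ r ih =>
  refine or_iff_not_imp_right.2 fun c => ?_
  obtain ⟨δ, h', hδ, hz⟩ : ∃ δ, Nd (TG G) d δ ∧ EE (TG G) δ ∈ cp G d A ∧ ¬ IsNilpotent (α * δ + δ * α) := by
    by_contra! a
    exact c (hm.q_nil hG hΓ h fun β h1 h2 => hm.nN h h1 (a β h1 h2))
  obtain ⟨β, h1, h2, h3, h4, h5⟩ := hm.q_non hG h h' hδ hz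
  have le : TG (⨆ B ∈ cp G d A, B) ≤ TG G := Submonoid.monotone_map (cp_le.trans Sg_le')
  have h6 : InQ (TG G) (α - β) := sub_eq_add_neg α β ▸ h.add (InQ.neg ⟨h1.1, fun c => le (h1.2 c)⟩) (by simp [h2]) (by simp [h3])
  have h7 : (α - β) * β = 0 := by simp [sub_mul, h2, h1.1]
  rcases ih _ (hr ▸ h4) h6 rfl with a | a
  · simpa using a.add h1 h7 (by simp [mul_sub, h3, h1.1])
  let N : Subgroup (End k M)ˣ := (⨆ B ∈ cp G d A, B) ⊓
    { carrier := {g | (α - β) * g = α - β}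
      one_mem' := by simp
      mul_mem' := fun {x y} (hx : _ = _) (hy : _ = _) => by simp [← mul_assoc, hx, hy]
      inv_mem' := fun {x} (hx : _ = _) => by rw [Set.mem_ofPred, Units.mul_inv_eq_iff_eq_mul, hx] }
  rcases hm.rcp_norm hG hA (N := N) inf_le_left (fun g hg n hn => Subgroup.mem_inf.2 ⟨mul_mem (mul_mem hg hn.1) (inv_mem hg), by
    change _ * _ = _
    rw [Units.val_mul, Units.val_mul, ← mul_assoc, ← mul_assoc, a g hg, mul_assoc _ _ (n : End k M), hn.2, ← a g hg]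
    simp⟩) with b | b
  · rwa [sub_eq_zero.1 (hM _ fun g hg => (b hg).2)]
  · obtain ⟨g, e⟩ := un_ex h1.1
    obtain ⟨x, hx, e', -⟩ := hm.EE_ne h'
    have := congrArg Units.val (b g ⟨mem_TG.1 (by simpa [e] using h1.2 1), by change _ * _ = _; simp [e, mul_add, h7]⟩ x
      (mem_bisup hδ hx))
    simp only [Units.val_mul, e, e', mul_add, add_mul, mul_one, one_mul] at this
    exact absurd (by linear_combination (norm := abel1) this) h5

end H5.QP
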