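import Cfsg.Agent.H5.QP1

/-! Pairs of quadratic elements of minimal rank. -/

namespace H5.QP
open Matrix Polynomial H5.RS Module
open scoped MatrixGroups

variable {k : Type*} [Field k] {M : Type*} [AddCommGroup M] [Module k M]

/-- rank -/
noncomputable def rk (α : End k M) : ℕ := finrank k (LinearMap.range α)

/-- quadratic families -/
def InQ (T : Submonoid (End k M)) (α : End k M) : Prop := α * α = 0 ∧ ∀ c : k, 1 + c • α ∈ T

/-- `d` is a lower bound for the ranks -/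
structure Min (T : Submonoid (End k M)) (d : ℕ) : Prop where
  h2 : ringChar k ≠ 2
  h3 : Nat.card k ≠ 3
  pos : 0 < d
  min : ∀ α, InQ T α → α ≠ 0 → d ≤ rk α

/-- quadratic of rank `d` -/
def Nd (T : Submonoid (End k M)) (d : ℕ) (α : End k M) : Prop := InQ T α ∧ rk α = d

variable {T : Submonoid (End k M)} {d : ℕ} {α β γ : End k M}

theorem InQ.smul (h : InQ T α) (c : k) : InQ T (c • α) := ⟨by simp [h.1], fun e => by rw [smul_smul]; exact h.2 _⟩

theorem InQ.add (h : InQ T α) (h' : InQ T β) (e : α * β = 0) (e' : β * α = 0) : InQ T (α + β) :=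
  ⟨by simp [mul_add, add_mul, h.1, h'.1, e, e'], fun c => by
    simpa [mul_add, add_mul, e, add_assoc] using mul_mem (h.2 c) (h'.2 c)⟩

theorem InQ.conj (h : InQ T α) {x y : End k M} (hx : x ∈ T) (hy : y ∈ T) (e : x * y = 1) (e' : y * x = 1) :
    InQ T (x * α * y) :=
  ⟨by rw [mul_assoc, mul_assoc, ← mul_assoc y, ← mul_assoc y, e', one_mul, ← mul_assoc α, h.1]; simp, fun c => by
    simpa [mul_add, add_mul, e] using mul_mem (mul_mem hx (h.2 c)) hy⟩

theorem InQ.comm (h : InQ T α) (h' : InQ T β) (e : α * (β * α) = 0) (e' : β * (α * β) = 0) : InQ T (α * β - β * α) := by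
  have h3 : ∀ y, α * (α * y) = 0 := fun y => by rw [← mul_assoc, h.1, zero_mul]
  have h4 : ∀ y, β * (β * y) = 0 := fun y => by rw [← mul_assoc, h'.1, zero_mul]
  refine ⟨by simp [mul_sub, sub_mul, mul_assoc, h3, h4, e, e'], fun c => ?_⟩
  convert mul_mem (mul_mem (mul_mem (h.2 (-c)) (h'.2 (-1))) (h.2 c)) (h'.2 1) using 1
  simp only [mul_add, add_mul, smul_mul_assoc, mul_smul_comm, mul_assoc, one_mul, mul_one, h.1, h'.1, e, e', h3, h4, mul_zero,
    smul_zero]
  module

theorem Ptop {z : End k M} {j : ℕ} (h : z ^ (j + 1) * α = 0) (r : k[X]) :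
    aeval z (X ^ j * r) * α = r.eval 0 • (z ^ j * α) := by
  conv_lhs => rw [← X_mul_divX_add r, mul_add, ← mul_assoc, ← pow_succ, mul_comm (X ^ (j + 1)), mul_comm (X ^ j)]
  simp [add_mul, mul_assoc, h, coeff_zero_eq_eval_zero, Algebra.smul_def]

theorem top_mem (h2 : ringChar k ≠ 2) (h : InQ T α) (h' : InQ T β) {j : ℕ} (e : (α * β + β * α) ^ (j + 1) * α = 0)
    (e' : (α * β + β * α) ^ (j + 1) * β = 0) (c : k) : 1 + c • ((α * β + β * α) ^ j * α) ∈ T := by
  obtain ⟨g, hg, r, p, q, s, e1, p0, q0⟩ := lev1 h2 j c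
  obtain ⟨g', hg', r1, p1, q1, s1, e2, p2, -⟩ := lev1 h2 j (-r.eval 0)
  obtain ⟨g', hg', r', p', q', s', e2, r0, s0⟩ := lev12 hg' e2
  have k1 : r.eval 0 + s.eval 0 = 0 := by
    have := slR_det g
    rw [e1] at this
    have : r + s + X * X ^ j * r * s - X ^ j * p * q = 0 :=
      mul_left_cancel₀ (pow_ne_zero (j + 1) X_ne_zero) (by simp at this; linear_combination this)
    simpa [q0] using congrArg (eval 0) this
  have := mul_mem (rho_mem h.1 h'.1 h.2 h'.2 hg) (rho_mem h.1 h'.1 h.2 h'.2 hg')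
  rw [rho_eq α β e1, rho_eq α β e2, nf_mul h.1 h'.1] at this
  replace : nf α β (X ^ j * (r' + r + X * X ^ j * r * r' + p * X ^ (j + 1) * q'))
      (X ^ j * ((1 + X * X ^ j * r) * X * p' + p * (1 + X * X ^ j * s')))
      (X ^ j * (q * (1 + X * X ^ j * r') + (1 + X * X ^ j * s) * X * q'))
      (X ^ j * (q * X ^ (j + 1) * p' + s' + s + X * X ^ j * s * s')) ∈ T := by convert this using 2 <;> ring
  rw [nf, ← mul_assoc, ← mul_assoc, Ptop e, Ptop e, Ptop e', Ptop e'] at this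
  simpa [r0, s0, p0, q0, p2, k1] using this

variable [FiniteDimensional k M]

theorem full {u w : End k M} (h : rk α ≤ rk (u * α)) (e : u * α * w = 0) : α * w = 0 := by
  have h1 := LinearMap.finrank_range_add_finrank_ker α
  have h2 := LinearMap.finrank_range_add_finrank_ker (u * α)
  have h3 : LinearMap.ker α = LinearMap.ker (u * α) := Submodule.eq_of_le_of_finrank_le
    (fun m hm => by simp [show α m = 0 from hm]) (by unfold rk at h; omega)
  ext m
  exact h3.ge (LinearMap.congr_fun e m)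

theorem rk_mul_le (u : End k M) : rk (u * α) ≤ rk α := by
  rw [rk, Module.End.mul_eq_comp, LinearMap.range_comp]; exact Submodule.finrank_map_le _ _

theorem rk_mul_le' (u : End k M) : rk (α * u) ≤ rk α := Submodule.finrank_mono (LinearMap.range_comp_le_range _ _)

theorem stab {z w : End k M} {n : ℕ} (hn : finrank k M ≤ n) (e : z * z ^ n * w = 0) : z ^ n * w = 0 := by
  ext m
  have : w m ∈ LinearMap.ker (z ^ (n + 1)) := by rw [pow_succ']; exact LinearMap.congr_fun e m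
  rwa [Module.End.ker_pow_eq_ker_pow_finrank_of_le (by omega), ← Module.End.ker_pow_eq_ker_pow_finrank_of_le hn] at this

theorem Nd.conj (h : Nd T d α) {x y : End k M} (hx : x ∈ T) (hy : y ∈ T) (e : x * y = 1) (e' : y * x = 1) :
    Nd T d (x * α * y) := by
  refine ⟨h.1.conj hx hy e e', h.2 ▸ le_antisymm ((rk_mul_le' _).trans (rk_mul_le _)) ?_⟩
  have := (rk_mul_le' (α := y * (x * α * y)) x).trans (rk_mul_le y)
  rwa [mul_assoc, mul_assoc, e', mul_one, ← mul_assoc, e', one_mul] at this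

variable (hm : Min T d)
include hm

omit [FiniteDimensional k M] in
theorem Min.ne (h : Nd T d α) : α ≠ 0 := by
  rintro rfl
  have := h.2
  rw [rk, LinearMap.range_zero, finrank_bot] at this
  exact hm.pos.ne this

theorem Min.zero (h : Nd T d α) {u w : End k M} (h1 : InQ T (u * α)) (e : u * α * w = 0) (e' : α * w ≠ 0) : u * α = 0 := by
  by_contra h2
  exact e' (full (h.2 ▸ hm.min _ h1 h2) e)

theorem Min.U1 (h : Nd T d α) (h' : Nd T d β) (hz : IsNilpotent (α * β + β * α)) :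
    α * (β * α) = 0 ∧ β * (α * β) = 0 := by
  classical
  have hex : ∃ j, (α * β + β * α) ^ (j + 1) * α = 0 ∧ (α * β + β * α) ^ (j + 1) * β = 0 := by
    obtain ⟨n, e⟩ := hz; exact ⟨n, by simp [pow_succ, e]⟩
  have k : ∀ {α β : End k M}, Nd T d α → Nd T d β → ∀ j, (α * β + β * α) ^ (j + 1 + 1) * α = 0 →
      (α * β + β * α) ^ (j + 1 + 1) * β = 0 → (α * β + β * α) ^ (j + 1) * α = 0 := by
    intro α β h h' j e e'
    have c : Commute (α * β + β * α) α := by simpa using Pa (k := k) (β := β) h.1.1 X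
    by_contra h1
    have := full (h.2 ▸ hm.min _ ⟨by rw [mul_assoc, ← mul_assoc α, ← (c.pow_left _).eq]; simp [mul_assoc, h.1.1],
      top_mem hm.h2 h.1 h'.1 e e'⟩ h1) (w := (α * β + β * α) ^ (j + 1)) (by
      rw [mul_assoc, ← (c.pow_left _).eq, ← mul_assoc, ← pow_add, show j + 1 + (j + 1) = j + (j + 1 + 1) by ring, pow_add,
        mul_assoc, e, mul_zero])
    exact h1 ((c.pow_left _).eq ▸ this)
  obtain ⟨j, e1, e2⟩ := hex
  induction j with
  | zero => simpa [add_mul, mul_assoc, h.1.1, h'.1.1] using And.intro e1 e2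
  | succ j ih => exact ih (k h h' j e1 e2) (add_comm (α * β) _ ▸ k h' h j (add_comm (α * β) _ ▸ e2) (add_comm (α * β) _ ▸ e1))

omit hm in
theorem ex_prime {z y : End k M} (hy : y ≠ 0) : ∃ f : k[X], Irreducible f ∧ ∃ p : k[X], aeval z f * (aeval z p * y) = 0 ∧
    aeval z p * y ≠ 0 := by
  have : ∀ p : k[X], p ≠ 0 → aeval z p * y = 0 → ∃ f : k[X], Irreducible f ∧ ∃ p : k[X], aeval z f * (aeval z p * y) = 0 ∧
      aeval z p * y ≠ 0 := fun p => by
    induction p using WfDvdMonoid.induction_on_irreducible with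
    | zero => simp
    | unit u hu => exact fun _ e => absurd ((hu.map (aeval z)).mul_right_eq_zero.1 e) hy
    | mul p f hp hf ih =>
      intro _ e
      by_cases h : aeval z p * y = 0
      · exact ih hp h
      · exact ⟨f, hf, p, by rw [← mul_assoc, ← map_mul, e], h⟩
  exact this _ (minpoly.ne_zero (LinearMap.isIntegral z)) (by simp)

omit hm [FiniteDimensional k M] in
theorem cop {z y : End k M} {f g : k[X]} (h : IsCoprime f g) (e : aeval z f * y = 0) (e' : aeval z g * y = 0) : y = 0 := by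
  obtain ⟨a, b, h⟩ := h
  have := congrArg (fun p => aeval z p * y) h
  simpa [add_mul, mul_assoc, e, e'] using this.symm

/-- polynomial action -/
noncomputable abbrev modP (z : End k M) : Module k[X] (End k M) := Module.compHom _ (aeval z : k[X] →ₐ[k] _).toRingHom

omit hm in
theorem pack (ha : α * α = 0) (hb : β * β = 0) : letI := modP (α * β + β * α)
    (∀ (p : k[X]) (x : End k M), P α β p * x = p • x) ∧ (∀ (p : k[X]) (x y : End k M), (p • x) * y = p • (x * y)) ∧
    (∀ (p : k[X]) (x : End k M), α * (p • x) = p • (α * x)) ∧ (∀ (p : k[X]) (x : End k M), β * (p • x) = p • (β * x)) ∧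
    α * (β * α) = (X : k[X]) • α ∧ β * (α * β) = (X : k[X]) • β ∧ α * β + β * α = (X : k[X]) • (1 : End k M) ∧
    (∀ (q : k[X]) (w : End k M), (X * (X ^ finrank k M * q)) • w = 0 → (X ^ finrank k M * q) • w = 0) ∧
    (∀ {f g : k[X]} {y : End k M}, IsCoprime f g → f • y = 0 → g • y = 0 → y = 0) := by
  refine ⟨fun _ _ => rfl, fun p x y => mul_assoc _ x y, fun p x => ?_, fun p x => ?_, ?_, ?_, ?_, fun q w e => ?_, cop⟩
  · change α * (P α β p * x) = P α β p * _
    rw [← mul_assoc, ← (Pa ha p).eq, mul_assoc]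
  · change β * (P α β p * x) = P α β p * _
    rw [← mul_assoc, ← (Pb hb p).eq, mul_assoc]
  · change _ = P α β X * _; simp [add_mul, mul_assoc, ha]
  · change _ = P α β X * _; simp [add_mul, mul_assoc, hb]
  · change _ = P α β X * _; simp
  · change P α β _ * _ = 0 at e ⊢
    simpa [mul_assoc] using stab (z := α * β + β * α) (w := P α β q * w) le_rfl (by simpa [mul_assoc] using e)

omit hm [FiniteDimensional k M] in
theorem rho_pack (h : Nd T d α) (h' : Nd T d β) {g : SL(2, k[X])} (gd : Good g) : rho α β g * rho α β g⁻¹ = 1 ∧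
    rho α β g⁻¹ * rho α β g = 1 :=
  ⟨by rw [← rho_mul h.1.1 h'.1.1 gd gd.inv, mul_inv_cancel, rho_one],
    by rw [← rho_mul h.1.1 h'.1.1 gd.inv gd, inv_mul_cancel, rho_one]⟩

/-- the main step -/
theorem Min.step (h : Nd T d α) (h' : Nd T d β) {f p : k[X]} (hf : Irreducible f)
    (e1 : P α β f * (P α β p * (P α β (X ^ finrank k M : k[X]) * α)) = 0)
    (e2 : P α β p * (P α β (X ^ finrank k M : k[X]) * α) ≠ 0)
    (ih : ∀ γ, Nd T d γ → rk ((α * γ + γ * α) ^ finrank k M * α) < rk (P α β (X ^ finrank k M : k[X]) * α) →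
      IsNilpotent (α * γ + γ * α) ∨ ∀ w, (α * γ + γ * α) * α * w = 0 → α * w = 0) {s : k[X]} (hs : ¬ f ∣ s) :
    ∃ a : k[X], f ∣ a - s ∧ X ∣ a - 1 ∧ ∀ u, InQ T (P α β u * α) → InQ T (P α β (u * a ^ 2) * α) := by
  have := Fact.mk hf
  letI := modP (α * β + β * α)
  obtain ⟨sm, l1, la, lb, m1, m2, mz, st, cp⟩ := pack h.1.1 h'.1.1
  generalize hn : finrank k M = n at *
  simp only [sm, smul_smul] at e1 e2 ih ⊢
  have hl : AdjoinRoot.root f ≠ 0 := fun e => e2 (by
    obtain ⟨g, hg⟩ := AdjoinRoot.mk_eq_zero.1 ((AdjoinRoot.mk_X (f := f)).trans e)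
    rw [mul_comm p]
    refine st _ _ ?_
    nth_rw 1 [hg]
    rw [mul_comm f, mul_assoc g, mul_comm _ p, mul_smul, e1, smul_zero])
  have hs' : AdjoinRoot.mk f s ≠ 0 := fun e => hs (AdjoinRoot.mk_eq_zero.1 e)
  obtain ⟨g, ⟨hg, y, hy⟩, e⟩ := (G1 hm.h2 hm.h3 hl (AdjoinRoot.isAlgebraic_root hf.ne_zero) (fun x => by
    obtain ⟨p, rfl⟩ := AdjoinRoot.mk_surjective x; exact ⟨p, AdjoinRoot.aeval_eq p⟩) (n + 1)).ge
    (Subgroup.mem_top ⟨!![AdjoinRoot.mk f s, 0; 0, (AdjoinRoot.mk f s)⁻¹], by simp [hs']⟩)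
  have g00 : f ∣ g 0 0 - s := AdjoinRoot.mk_eq_mk.1 (by simpa using congrArg (fun g : SL(2, AdjoinRoot f) => g 0 0) e)
  have g10 : f ∣ g 1 0 := AdjoinRoot.mk_eq_zero.1 (by simpa using congrArg (fun g : SL(2, AdjoinRoot f) => g 1 0) e)
  have hq : g 1 0 = X * (X ^ n * y 1 0) := by simp [hy, pow_succ]; ring
  have gd := good_of_mem hg
  have r1 := rho_mem h.1.1 h'.1.1 h.1.2 h'.1.2 hg
  have r2 := rho_mem h.1.1 h'.1.1 h.1.2 h'.1.2 (inv_mem hg)
  obtain ⟨r3, r4⟩ := rho_pack h h' gd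
  have hγ := h.conj r1 r2 r3 r4
  have eγ := rho_conj h.1.1 h'.1.1 gd hq 1
  rw [P, map_one, one_mul] at eγ
  have det := slR_det g
  refine ⟨g 0 0, g00, ⟨X ^ n * y 0 0, by simp [hy, pow_succ]; ring⟩, fun u hu => ?_⟩
  have hu' := hu.conj r1 r2 r3 r4
  rw [← sm, rho_conj h.1.1 h'.1.1 gd hq] at hu'
  rw [hq] at det g10
  simp only [sm] at hu' eγ
  generalize rho α β g * α * rho α β g⁻¹ = γ at *
  generalize g 0 0 = a at *
  generalize hq' : X ^ n * y 1 0 = q at *
  have m0 : ∀ w, α * (α * w) = 0 := fun w => by rw [← mul_assoc, h.1.1, zero_mul]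
  have a1 : α * γ = (-(X * q ^ 2)) • (α * β) + (a * q * X) • α := by
    simp only [eγ, mul_add, la, m0, h.1.1, m1]; module
  have a2 : γ * α = (-(a * q * X)) • α + (-(X * q ^ 2)) • (β * α) := by
    simp only [eγ, add_mul, l1, mul_assoc, h.1.1, m1, mul_zero]; module
  have a3 : α * γ + γ * α = P α β (-(X * q) ^ 2) := by
    rw [← mul_one (P _ _ _), sm, show -(X * q) ^ 2 = -(X * q ^ 2) * X by ring, mul_smul, ← mz, a1, a2]; module
  obtain ⟨c, hc⟩ := g10
  have wit : ∀ t : k[X], (t * (X * q)) • α * (p * X ^ n) • 1 = 0 := fun t => by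
    rw [l1, la, mul_one, smul_smul, hc, mul_comm f, ← mul_assoc t, mul_assoc, mul_smul, e1, smul_zero]
  have wit2 : α * (p * X ^ n) • 1 ≠ 0 := by rwa [la, mul_one]
  have hn0 : n ≠ 0 := by
    rintro rfl
    have := finrank_zero_iff.1 hn
    exact hm.ne h (Subsingleton.elim _ _)
  have nil : IsNilpotent (α * γ + γ * α) := by
    refine (ih γ hγ (lt_of_not_ge fun hle => e2 ?_)).resolve_right fun h1 => wit2 (h1 _ (by
      rw [a3, sm, show -(X * q) ^ 2 = -(X * q) * (X * q) by ring, wit]))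
    obtain ⟨m, rfl⟩ := Nat.exists_eq_succ_of_ne_zero hn0
    have : (α * γ + γ * α) ^ (m + 1) * α = P α β ((-(q * c)) ^ (m + 1) * f ^ m) * (P α β f * (X ^ (m + 1) : k[X]) • α) := by
      rw [a3, ← map_pow, sm, sm, sm, smul_smul, smul_smul, pow_two (X * q)]
      nth_rw 2 [hc]
      congr 1; ring
    have := full (w := p • 1) ((this ▸ hle).trans (rk_mul_le _)) (by
      rw [sm, l1, l1, la, mul_one, smul_smul, smul_smul, ← e1]; congr 1; ring)
    rwa [l1, la, mul_one, smul_smul, mul_comm] at this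
  obtain ⟨u1, u2⟩ := hm.U1 h hγ nil
  have b1 : (X * q ^ 2) • α = 0 := by
    have := st (X * y 1 0 * q) α (by
      rw [a2, mul_add, la, la, h.1.1, m1, smul_zero, zero_add, smul_smul, neg_mul, neg_smul, neg_eq_zero] at u1
      rw [← u1, ← hq']; congr 1; ring)
    rwa [show X ^ n * (X * y 1 0 * q) = X * q ^ 2 by rw [← hq']; ring] at this
  have b2 : α * γ - γ * α = P α β (2 * a * (X * q)) * α := by
    rw [a1, a2, neg_smul, neg_smul (X * q ^ 2), ← l1, ← lb, b1, sm]; simp only [zero_mul, mul_zero]; module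
  have b3 := hm.zero h (b2 ▸ h.1.comm hγ.1 u1 u2) (by rw [sm, wit]) wit2
  have b4 : (X * q) • α = 0 := by
    have e2 : (2 : k[X]) = C 2 := rfl
    have : C (2⁻¹ : k) * 2 = 1 := by rw [e2, ← C_mul, inv_mul_cancel₀ (Ring.two_ne_zero hm.h2), C_1]
    rw [sm] at b3
    calc _ = (C (2⁻¹ : k) * g 1 1) • (2 * a * (X * q)) • α - (g 0 1 * X) • (X * q ^ 2) • α := by
          rw [smul_smul, smul_smul, ← sub_smul]; congr 1; linear_combination (-X * q) * det - X * q * a * g 1 1 * this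
      _ = 0 := by rw [b1, b3]; simp
  have b5 : q • α = 0 := hq' ▸ st _ _ (hq' ▸ b4)
  have b6 : q • β = 0 := hq' ▸ st _ _ (by rw [hq', mul_comm, mul_smul, ← m2, ← lb, ← l1, b5]; simp)
  convert hu' using 1
  rw [neg_smul, neg_smul, mul_smul _ q, mul_smul _ q, ← l1 q, ← l1 q, pow_two q, ← mul_assoc, mul_smul _ q, b5, b6]
  simp

theorem Min.K2 (h : Nd T d α) (h' : Nd T d β) :
    IsNilpotent (α * β + β * α) ∨ ∀ w, (α * β + β * α) * α * w = 0 → α * w = 0 := by
  induction hr : rk ((α * β + β * α) ^ finrank k M * α) using Nat.strong_induction_on generalizing β with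
  | _ r ih =>
  refine or_iff_not_imp_left.2 fun hz => ?_
  have y0 : P α β (X ^ finrank k M : k[X]) * α ≠ 0 := fun e => hz ⟨finrank k M + 1, by
    have c := (Pb (k := k) (α := α) h'.1.1 (X ^ finrank k M)).eq
    simp only [map_pow, aeval_X] at e c
    rw [pow_succ, mul_add, ← mul_assoc, e, ← mul_assoc, c, mul_assoc, e]; simp⟩
  obtain ⟨f, hf, p, e1, e2⟩ := ex_prime (z := α * β + β * α) y0
  obtain ⟨t, t0, t1⟩ := ex_unit hm.h2 hm.h3
  have un : ∀ c : k, c ≠ 0 → ¬ f ∣ C c := fun c hc e => hf.not_isUnit (isUnit_of_dvd_unit e (isUnit_C.2 hc.isUnit))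
  obtain ⟨a, a1, ⟨b, a2⟩, a3⟩ := hm.step h h' hf e1 e2 (fun γ hγ hlt => ih _ (by simpa [← hr] using hlt) hγ rfl) (un t t0)
  letI := modP (α * β + β * α)
  obtain ⟨sm, l1, la, lb, m1, m2, mz, st, cp⟩ := pack h.1.1 h'.1.1
  have q1 := (a3 1 (by simpa using h.1)).add (h.1.smul (-1)) (by simp [mul_assoc, h.1.1]) (by rw [sm, smul_mul_assoc, la, h.1.1]; simp)
  have q2 : P α β (1 * a ^ 2) * α + (-1 : k) • α = P α β (b * (a + 1)) * ((α * β + β * α) * α) := by
    rw [mz, l1, sm, sm, one_mul α, smul_smul, show b * (a + 1) * X = 1 * a ^ 2 - 1 by linear_combination (-a - 1) * a2]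
    simp [sub_smul, sub_eq_add_neg, add_smul]
  intro w hw
  refine full ((h.2 ▸ hm.min _ q1 fun e => e2 (cp (f := f) (g := a ^ 2 - 1) ?_ e1 ?_)).trans (q2 ▸ rk_mul_le _)) hw
  · refine (hf.coprime_iff_not_dvd).2 fun e => un (t ^ 2 - 1) (sub_ne_zero.2 t1) ?_
    convert dvd_sub e (a1.mul_right (a + C t)) using 1; simp; ring
  · rw [sm, sm, smul_smul, smul_smul, mul_assoc, mul_comm, mul_smul, show (a ^ 2 - 1) • α = 0 by
      rw [sm] at e; simpa [sub_smul, sub_eq_add_neg, add_smul] using e, smul_zero]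

theorem Min.K1 (h : Nd T d α) (h' : Nd T d β) (hz : ¬ IsNilpotent (α * β + β * α)) : ∃ f : k[X], Irreducible f ∧
    IsCoprime f X ∧ P α β f * α = 0 ∧ P α β f * β = 0 ∧ ∀ p : k[X], InQ T (P α β p * α) := by
  have ia := (hm.K2 h h').resolve_left hz
  have ib := (hm.K2 h' h).resolve_left (add_comm (α * β) _ ▸ hz)
  rw [add_comm] at ib
  obtain ⟨f, hf, p, e1, e2⟩ := ex_prime (z := α * β + β * α) (y := P α β (X ^ finrank k M : k[X]) * α) fun e => hz
    ⟨finrank k M + 1, by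
      have c := (Pb (k := k) (α := α) h'.1.1 (X ^ finrank k M)).eq
      simp only [map_pow, aeval_X] at e c
      rw [pow_succ, mul_add, ← mul_assoc, e, ← mul_assoc, c, mul_assoc, e]; simp⟩
  have stp := fun s hs => hm.step h h' hf e1 e2 (fun γ hγ _ => hm.K2 h hγ) (s := s) hs
  letI := modP (α * β + β * α)
  obtain ⟨sm, l1, la, lb, m1, m2, mz, -, cp⟩ := pack h.1.1 h'.1.1
  simp only [sm, smul_smul] at e1 e2 stp ⊢
  simp only [mz, l1, one_mul] at ia ib
  generalize p * X ^ finrank k M = w at *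
  have ia' : ∀ q : k[X], (X * q) • α = 0 → q • α = 0 := fun q e => by
    simpa [la] using ia (q • 1) (by rwa [la, mul_one, smul_smul])
  have ib' : ∀ q : k[X], (X * q) • β = 0 → q • β = 0 := fun q e => by
    simpa [lb] using ib (q • 1) (by rwa [lb, mul_one, smul_smul])
  have ab : ∀ q : k[X], q • α = 0 → q • β = 0 := fun q e => ib' q (by rw [mul_comm, mul_smul, ← m2, ← lb, ← l1, e]; simp)
  have ba : ∀ q : k[X], q • β = 0 → q • α = 0 := fun q e => ia' q (by rw [mul_comm, mul_smul, ← m1, ← la, ← l1, e]; simp)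
  have s0 : ∀ u, InQ T (u • α) → f ∣ u → u • α = 0 := by
    rintro _ hu ⟨c, rfl⟩
    exact hm.zero h (u := P α β _) (w := w • 1) hu (by rw [sm, l1, la, mul_one, smul_smul, mul_comm f, mul_assoc, mul_smul, e1, smul_zero])
      (by rwa [la, mul_one])
  have ad : ∀ u v : k[X], InQ T (u • α) → InQ T (v • α) → InQ T ((u + v) • α) := fun u v hu hv => by
    have : ∀ u v : k[X], u • α * v • α = 0 := fun u v => by rw [l1, la, h.1.1]; simp
    exact add_smul u v α ▸ hu.add hv (this _ _) (this _ _)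
  have sc : ∀ (c : k) (u : k[X]), InQ T (u • α) → InQ T ((u * C c) • α) := fun c u hu => by
    convert hu.smul c using 1
    rw [mul_comm, mul_smul, ← sm, P, aeval_C, Algebra.smul_def]
  have s1 : ∀ s : k[X], ∃ t, f ∣ t - s ∧ ∀ u, InQ T (u • α) → InQ T ((u * t) • α) := fun s => by
    have : ∀ s : k[X], ∃ t, f ∣ t - s ^ 2 ∧ ∀ u, InQ T (u • α) → InQ T ((u * t) • α) := fun s => by
      by_cases hs : f ∣ s
      · exact ⟨0, by simpa [pow_two] using hs.mul_left s, fun u hu => by simpa using sc 0 u hu⟩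
      · obtain ⟨a, a1, -, a2⟩ := stp s hs
        exact ⟨_, by convert a1.mul_right (a + s) using 1; ring, a2⟩
    obtain ⟨t1, h1, h2⟩ := this (s + 1)
    obtain ⟨t2, h3, h4⟩ := this (s - 1)
    have e4 : C (4⁻¹ : k) * 4 = 1 := by
      rw [show (4 : k[X]) = C 4 from rfl, ← C_mul, inv_mul_cancel₀, C_1]
      rw [show (4 : k) = 2 * 2 by norm_num]; exact mul_self_ne_zero.2 (Ring.two_ne_zero hm.h2)
    refine ⟨t1 * C 4⁻¹ + t2 * C (-4⁻¹), ?_, fun u hu => ?_⟩
    · convert (dvd_sub h1 h3).mul_right (C 4⁻¹) using 1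
      rw [C_neg]; linear_combination s * e4
    · rw [mul_add, ← mul_assoc, ← mul_assoc]; exact ad _ _ (sc _ _ (h2 u hu)) (sc _ _ (h4 u hu))
  have cx : IsCoprime f X := hf.coprime_iff_not_dvd.2 fun ⟨c, hc⟩ => e2 (ia' _ (by
    rw [hc, mul_comm f, mul_assoc, mul_smul, e1, smul_zero]))
  obtain ⟨v, u0, hv⟩ := id cx
  obtain ⟨u, u1, u2⟩ := s1 (-u0)
  have u3 : InQ T (u • α) := by simpa using u2 1 (by simpa using h.1)
  have u4 : f ∣ 1 + u * X := by convert dvd_add (u1.mul_right X) (dvd_mul_left f v) using 1; linear_combination -hv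
  have gd := (good_up u).mul (good_lo 1)
  obtain ⟨r3, r4⟩ := rho_pack h h' gd
  have hγ := h.conj (T := T) (by
      rw [rho_mul h.1.1 h'.1.1 (good_up u) (good_lo 1), rho_up, rho_lo, sm]
      exact mul_mem (by simpa using u3.2 1) (by simpa using h'.1.2 1)) (by
      rw [_root_.mul_inv_rev, upR_inv, loR_inv, ← mul_neg, rho_mul h.1.1 h'.1.1 (good_lo _) (good_up _), rho_up, rho_lo, sm, sm]
      exact mul_mem (by simpa using h'.1.2 (-1)) (by simpa using u3.2 (-1))) r3 r4
  have eγ := rho_conj h.1.1 h'.1.1 gd (q := 1) (by simp [sl_mul]) 1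
  have g00 : (upR u * loR (X * 1) : SL(2, k[X])) 0 0 = 1 + u * X := by simp [sl_mul]
  rw [P, map_one, one_mul, g00] at eγ
  simp only [sm] at eγ
  generalize rho α β (upR u * loR (X * 1)) * α * rho α β (upR u * loR (X * 1))⁻¹ = γ at *
  generalize ha : 1 + u * X = a at *
  have m0 : ∀ w, β * (β * w) = 0 := fun w => by rw [← mul_assoc, h'.1.1, zero_mul]
  have a1 : β * γ = (-(a * X)) • β + (a ^ 2) • (β * α) := by simp only [eγ, mul_add, lb, m0, h'.1.1, m2]; module
  have a2 : γ * β = (a ^ 2) • (α * β) + (a * X) • β := by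
    simp only [eγ, add_mul, l1, mul_assoc, h'.1.1, m2, mul_zero]; module
  have wit : ∀ t : k[X], (t * a) • β * w • α = 0 := fun t => by
    obtain ⟨c, rfl⟩ := u4
    rw [l1, ← lb, smul_smul, mul_comm f, ← mul_assoc t, mul_assoc, mul_smul, e1, smul_zero, mul_zero]
  have wit2 : β * w • α ≠ 0 := fun e => e2 (ia' _ (by rw [mul_comm, mul_smul, ← m1, ← la, ← lb, e, mul_zero]))
  have a3 : (β * γ + γ * β) * β = (X * a * a) • β := by
    simp only [a1, a2, add_mul, l1, mul_assoc, h'.1.1, m2, mul_zero]; module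
  obtain ⟨v1, v2⟩ := hm.U1 h' hγ ((hm.K2 h' hγ).resolve_right fun h1 => wit2 (h1 _ (by rw [a3, wit])))
  have b1 : (a * a) • β = 0 := ib' _ (by rw [← mul_assoc, ← a3, add_mul, mul_assoc, v1, mul_assoc, h'.1.1]; simp)
  have b2 : β * γ - γ * β = P α β (-(2 * X) * a) * β := by rw [a1, a2, pow_two, ← l1, ← la, b1, sm]; simp only [zero_mul, mul_zero]; module
  have b3 := hm.zero h' (b2 ▸ h'.1.comm hγ.1 v1 v2) (by rw [sm, wit]) wit2
  have b4 : a • α = 0 := ba _ (ib' _ (by
    have : C (2⁻¹ : k) * 2 = 1 := by rw [show (2 : k[X]) = C 2 from rfl, ← C_mul, inv_mul_cancel₀ (Ring.two_ne_zero hm.h2), C_1]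
    rw [← smul_zero (-C (2⁻¹ : k)), ← b3, sm, smul_smul]; congr 1; linear_combination (-X * a) * this))
  obtain ⟨t, t1, t2⟩ := s1 X
  have b5 := s0 _ (ad _ _ (by simpa using h.1) (t2 u u3) : InQ T ((1 + u * t) • α)) (by
    convert dvd_add u4 (t1.mul_left u) using 1; rw [← ha]; ring)
  have b6 : (X : k[X]) • α = t • α := by
    rw [← sub_eq_zero, ← sub_smul, show X - t = X * (1 + u * t) - t * a by rw [← ha]; ring, sub_smul, mul_smul, mul_smul, b4, b5]
    simp
  have all : ∀ p : k[X], InQ T (p • α) := fun p => by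
    induction p using Polynomial.induction_on with
    | C c => simpa using sc c 1 (by simpa using h.1)
    | add _ _ h h' => exact ad _ _ h h'
    | monomial n c h => rw [pow_succ, ← mul_assoc, mul_smul, b6, smul_smul]; exact t2 _ h
  exact ⟨f, hf, cx, s0 f (all f) dvd_rfl, ab f (s0 f (all f) dvd_rfl), all⟩

end H5.QP
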