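import Cfsg.Agent.H5.QP2

/-! Unipotent linear groups. -/

namespace H5.QP
open Cfsg H5.RS Module

section Alg
variable {k : Type*} [Field k] {E : Type*} [Ring E] [Algebra k E]

/-- augmentation span -/
def aug (k : Type*) [Field k] {E : Type*} [Ring E] [Algebra k E] (S : Set (Subgroup Eˣ)) : Submodule k E :=
  Submodule.span k {x | ∃ g ∈ ⨆ A ∈ S, A, x = (g : E) - 1}

theorem bisup_ind {G : Type*} [Group G] {S : Set (Subgroup G)} {p : G → Prop} (h0 : p 1) (h1 : ∀ A ∈ S, ∀ g ∈ A, p g)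
    (h2 : ∀ x y, p x → p y → p (x * y)) {g : G} (hg : g ∈ ⨆ A ∈ S, A) : p g := by
  rw [iSup_subtype'] at hg
  exact Subgroup.iSup_induction _ (C := p) hg (fun A => h1 A A.2) h0 h2

theorem mem_bisup {G : Type*} [Group G] {S : Set (Subgroup G)} {A : Subgroup G} (hA : A ∈ S) {g : G} (hg : g ∈ A) :
    g ∈ ⨆ A ∈ S, A := (le_iSup₂_of_le (f := fun A (_ : A ∈ S) => A) A hA le_rfl) hg

variable {S D : Set (Subgroup Eˣ)}

theorem aug_mem {g : Eˣ} (hg : g ∈ ⨆ A ∈ S, A) : (g : E) - 1 ∈ aug k S := Submodule.subset_span ⟨g, hg, rfl⟩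

theorem aug_mul : aug k S * aug k S ≤ aug k S := by
  refine (Submodule.span_mul_span _ _ _).le.trans (Submodule.span_le.2 ?_)
  rintro _ ⟨_, ⟨g, hg, rfl⟩, _, ⟨h, hh, rfl⟩, rfl⟩
  change _ ∈ aug k S
  convert sub_mem (sub_mem (aug_mem (k := k) (mul_mem hg hh)) (aug_mem hg)) (aug_mem hh) using 1
  simp only [Units.val_mul]; noncomm_ring

theorem aug_le {I : Submodule k E} (h : ∀ A ∈ S, ∀ g ∈ A, (g : E) - 1 ∈ I) (h2 : I * I ≤ I) : aug k S ≤ I := by
  refine Submodule.span_le.2 ?_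
  rintro _ ⟨g, hg, rfl⟩
  refine bisup_ind (p := fun g : Eˣ => (g : E) - 1 ∈ I) (by simp) h (fun x y hx hy => ?_) hg
  convert add_mem (add_mem (h2 (Submodule.mul_mem_mul hx hy)) hx) hy using 1
  simp only [Units.val_mul]; noncomm_ring

theorem aug_mono (h : S ⊆ D) : aug k S ≤ aug k D := aug_le (fun _ hA _ hg => aug_mem (mem_bisup (h hA) hg)) aug_mul

theorem nil_mono {I J : Submodule k E} (h : I ≤ J) (hJ : IsNilpotent J) : IsNilpotent I := by
  obtain ⟨n, e⟩ := hJ
  exact ⟨n, le_bot_iff.1 ((pow_le_pow_left' h n).trans e.le)⟩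

/-- extension -/
theorem aug_ext (h1 : IsNilpotent (aug k D)) (h2 : IsNilpotent (aug k S))
    (h : ∀ A ∈ S, ∀ a ∈ A, ∀ x ∈ aug k D, (a : E) * x * (a⁻¹ : Eˣ) ∈ aug k D) : IsNilpotent (aug k (D ∪ S)) := by
  obtain ⟨m, e1⟩ := h1
  obtain ⟨n, e2⟩ := h2
  have hI := aug_mul (k := k) (S := D)
  have hQ := aug_mul (k := k) (S := S)
  have r1 : aug k S * aug k D ≤ aug k D * (1 + aug k S) := by
    nth_rw 1 [aug]
    refine Submodule.mul_le.2 fun r hr x hx => ?_
    induction hr using Submodule.span_induction with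
    | zero => simp
    | add _ _ _ _ h h' => rw [add_mul]; exact add_mem h h'
    | smul c _ _ h => rw [smul_mul_assoc]; exact Submodule.smul_mem _ _ h
    | mem _ hr =>
      obtain ⟨g, hg, rfl⟩ := hr
      have := bisup_ind (p := fun a : Eˣ => ∀ x ∈ aug k D, (a : E) * x * (a⁻¹ : Eˣ) ∈ aug k D) (by simp) h
        (fun a b ha hb x hx => by simpa [mul_assoc] using ha _ (hb x hx)) hg x hx
      have o : (1 : E) ∈ 1 + aug k S := Submodule.mem_sup_left (Submodule.one_le.1 le_rfl)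
      convert sub_mem (Submodule.mul_mem_mul this (add_mem o (Submodule.mem_sup_right (aug_mem hg))))
        (Submodule.mul_mem_mul hx o) using 1
      simp [sub_mul]
  have l1 : aug k D ≤ aug k (D ∪ S) := aug_mono Set.subset_union_left
  have key : aug k (D ∪ S) ≤ aug k S + aug k D * (1 + aug k S) ∧ IsNilpotent (aug k S + aug k D * (1 + aug k S)) := by
    generalize hR : 1 + aug k S = R at *
    have q1 : aug k S ≤ R := hR ▸ le_sup_right
    have q0 : 1 ≤ R := hR ▸ le_sup_left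
    have rr : R * R ≤ R := by
      nth_rw 1 [← hR]; rw [add_mul, one_mul]; nth_rw 2 [← hR]; rw [mul_add, mul_one]
      exact sup_le le_rfl (sup_le q1 (hQ.trans q1))
    have i1 : aug k D ≤ aug k D * R := by simpa using mul_le_mul_right q0 (aug k D)
    have ri : R * aug k D ≤ aug k D * R := by nth_rw 1 [← hR]; rw [add_mul, one_mul]; exact sup_le i1 r1
    have a1 : R * (aug k D * R) ≤ aug k D * R := by
      rw [← mul_assoc]; exact (mul_le_mul_left ri _).trans (by rw [mul_assoc]; exact mul_le_mul_right rr _)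
    have a2 : aug k D * R * R ≤ aug k D * R := by rw [mul_assoc]; exact mul_le_mul_right rr _
    have a3 : aug k D * R * (aug k D * R) ≤ aug k D * R := by
      rw [mul_assoc]; exact (mul_le_mul_right a1 _).trans (by rw [← mul_assoc]; exact mul_le_mul_left hI _)
    have a4 : ∀ Q ≤ R, (Q + aug k D * R) * (aug k S + aug k D * R) ≤ Q * aug k S + aug k D * R := fun Q hq => by
      rw [add_mul, mul_add, mul_add]
      exact sup_le (sup_le le_sup_left (le_sup_of_le_right ((mul_le_mul_left hq _).trans a1)))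
        (le_sup_of_le_right (sup_le ((mul_le_mul_right q1 _).trans a2) a3))
    have a5 : ∀ j, aug k S ^ j ≤ R := fun j => by
      induction j with
      | zero => simpa using q0
      | succ j ih => rw [pow_succ]; exact (mul_le_mul' ih q1).trans rr
    have a6 : ∀ j, (aug k S + aug k D * R) ^ j ≤ aug k S ^ j + aug k D * R := fun j => by
      induction j with
      | zero => simpa using le_sup_left
      | succ j ih => rw [pow_succ, pow_succ]; exact (mul_le_mul_left ih _).trans (a4 _ (a5 j))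
    have a7 : ∀ j, (aug k D * R) ^ j ≤ aug k D ^ j * R := fun j => by
      induction j with
      | zero => simpa using q0
      | succ j ih =>
        rw [pow_succ, pow_succ, mul_assoc]
        exact (mul_le_mul_left ih _).trans (by rw [mul_assoc]; exact mul_le_mul_right a1 _)
    refine ⟨aug_le ?_ ((a4 _ q1).trans (add_le_add_left hQ _)), n * m, le_bot_iff.1 ?_⟩
    · rintro A (hA | hA) g hg
      · exact Submodule.mem_sup_right (i1 (aug_mem (mem_bisup hA hg)))
      · exact Submodule.mem_sup_left (aug_mem (mem_bisup hA hg))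
    · have := a6 n
      rw [e2, zero_add] at this
      rw [pow_mul]
      simpa [e1] using (pow_le_pow_left' this m).trans (a7 m)
  exact nil_mono key.1 key.2

variable {W : Set (Subgroup Eˣ)} (hW : ∀ A ∈ W, ∀ B ∈ W, ∀ a ∈ A, conjBy B a ∈ W)
include hW

theorem aug_norm (hD : D ⊆ W) (hS : S ⊆ W) (h1 : IsNilpotent (aug k S)) (h2 : aug k D ≤ aug k S) (h3 : ¬ aug k S ≤ aug k D) :
    ∃ A ∈ W, (∀ a ∈ A, (a : E) - 1 ∈ aug k S) ∧ (¬ ∀ a ∈ A, (a : E) - 1 ∈ aug k D) ∧
      ∀ a ∈ A, ∀ x ∈ aug k D, (a : E) * x * (a⁻¹ : Eˣ) ∈ aug k D := by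
  by_contra! hc
  have hI := aug_mul (k := k) (S := D)
  have hJ := aug_mul (k := k) (S := S)
  have pw : ∀ j, aug k S ^ (j + 1) ≤ aug k S := fun j => by
    induction j with
    | zero => simp
    | succ j ih => rw [pow_succ]; exact (mul_le_mul_left ih _).trans hJ
  have : ∀ j, ∃ A ∈ W, (∀ a ∈ A, (a : E) - 1 ∈ aug k D + aug k S ^ (j + 1)) ∧ ¬ ∀ a ∈ A, (a : E) - 1 ∈ aug k D := fun j => by
    induction j with
    | zero =>
      by_contra! h
      exact h3 (aug_le (fun A hA => h A (hS hA) fun a ha => Submodule.mem_sup_right (by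
        simpa using aug_mem (mem_bisup hA ha))) hI)
    | succ j ih =>
      obtain ⟨A, hA, h4, h5⟩ := ih
      by_contra! h
      have hle : aug k D + aug k S ^ (j + 1) ≤ aug k S := sup_le h2 (pw j)
      obtain ⟨a, ha, x, hx, h6⟩ := hc A hA (fun a ha => hle (h4 a ha)) (by simpa using h5)
      refine h6 (aug_le (I := (aug k D).comap ((LinearMap.mulRight k ((a⁻¹ : Eˣ) : E)).comp (LinearMap.mulLeft k (a : E))))
        (fun B hB b hb => ?_) (Submodule.mul_le.2 fun x hx y hy => ?_) hx)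
      · have := h _ (hW A hA B (hD hB) a ha) (fun c hc => ?_) _ (RS.conj_mem hb)
        · simpa [mul_sub, sub_mul] using this
        obtain ⟨b, hb, rfl⟩ := hc
        have m0 := aug_mem (k := k) (mem_bisup hB hb)
        obtain ⟨x, hx, y, hy, e⟩ := Submodule.mem_sup.1 (h4 a ha)
        obtain ⟨x', hx', y', hy', e'⟩ := Submodule.mem_sup.1 (h4 _ (inv_mem ha))
        have m1 : ∀ u ∈ aug k D, ∀ v ∈ aug k D, u * v ∈ aug k D := fun u hu v hv => hI (Submodule.mul_mem_mul hu hv)
        have m2 : ∀ u ∈ aug k S, ∀ v ∈ aug k S, u * v ∈ aug k S := fun u hu v hv => hJ (Submodule.mul_mem_mul hu hv)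
        have : ((MulAut.conj a).toMonoidHom b : Eˣ) - (1 : E) = ((b - 1) + x * (b - 1) + ((b - 1) + x * (b - 1)) * x') +
            (y * ((b - 1) + (b - 1) * ((a⁻¹ : Eˣ) - 1)) + ((b - 1) + x * (b - 1)) * y') := by
          have e1 : (a : E) = 1 + x + y := by rw [add_assoc, e]; simp
          have e2 : ((a⁻¹ : Eˣ) : E) = 1 + x' + y' := by rw [add_assoc, e']; simp
          have : ((MulAut.conj a).toMonoidHom b : Eˣ) - (1 : E) = a * (b - 1) * (a⁻¹ : Eˣ) := by simp [mul_sub, sub_mul]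
          rw [this, e2]; nth_rw 1 [e1]; noncomm_ring
        rw [this]
        have m3 := add_mem m0 (m1 _ hx _ m0)
        refine Submodule.add_mem_sup (add_mem m3 (m1 _ m3 _ hx')) (add_mem ?_ ?_)
        · rw [pow_succ]; exact Submodule.mul_mem_mul hy (add_mem (h2 m0) (m2 _ (h2 m0) _ (hle (h4 _ (inv_mem ha)))))
        · rw [pow_succ']; exact Submodule.mul_mem_mul (h2 m3) hy'
      · simpa [mul_assoc] using hI (Submodule.mul_mem_mul hx hy)
  obtain ⟨n, e⟩ := h1
  obtain ⟨A, -, h4, h5⟩ := this n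
  exact h5 (by simpa [pow_succ, e] using h4)

theorem aug_all [FiniteDimensional k E] (h2 : ∀ A ∈ W, ∀ B ∈ W, IsNilpotent (aug k {A, B})) : IsNilpotent (aug k W) := by
  have big : ∀ {p : Set (Subgroup Eˣ) → Prop}, (∀ D, (∀ D', aug k D < aug k D' → p D') → p D) → ∀ D, p D := fun {p} h D => by
    induction hn : finrank k E - finrank k (aug k D) using Nat.strong_induction_on generalizing D with
    | _ n ih =>
    exact h D fun D' h' => ih _ (by
      have := Submodule.finrank_lt_finrank_of_lt h'; have := Submodule.finrank_le (aug k D'); omega) D' rfl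
  have sub : ∀ {D S : Set (Subgroup Eˣ)} {A : Subgroup Eˣ}, aug k D ≤ aug k S → (∀ a ∈ A, (a : E) - 1 ∈ aug k S) →
      aug k (D ∪ {A}) ≤ aug k S := fun {D S A} h h' => aug_le (by
    rintro B (hB | rfl) g hg
    exacts [h (aug_mem (mem_bisup hB hg)), h' g hg]) aug_mul
  have lt : ∀ {D : Set (Subgroup Eˣ)} {A : Subgroup Eˣ}, (¬ ∀ a ∈ A, (a : E) - 1 ∈ aug k D) → aug k D < aug k (D ∪ {A}) :=
    fun {D A} h => lt_of_le_not_ge (aug_mono Set.subset_union_left) fun h' => h fun a ha =>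
      h' (aug_mem (mem_bisup (Or.inr rfl) ha))
  have un : ∀ {S S' : Set (Subgroup Eˣ)}, aug k S ≤ aug k S' → aug k (S ∪ S') ≤ aug k S' := fun h => aug_le (by
    rintro B (hB | hB) g hg
    exacts [h (aug_mem (mem_bisup hB hg)), aug_mem (mem_bisup hB hg)]) aug_mul
  have key : ∀ D, D ⊆ W → ∀ S ⊆ W, ∀ S' ⊆ W, IsNilpotent (aug k S) → IsNilpotent (aug k S') → aug k D ≤ aug k S →
      aug k D ≤ aug k S' → IsNilpotent (aug k (S ∪ S')) := big fun D ih hD S hS S' hS' n1 n2 l1 l2 => by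
    by_cases c1 : aug k S ≤ aug k D
    · exact nil_mono (un (c1.trans l2)) n2
    by_cases c2 : aug k S' ≤ aug k D
    · exact nil_mono (Set.union_comm _ _ ▸ un (c2.trans l1)) n1
    obtain ⟨A, hA, a1, a2, a3⟩ := aug_norm hW hD hS n1 l1 c1
    obtain ⟨B, hB, b1, b2, b3⟩ := aug_norm hW hD hS' n2 l2 c2
    have n3 := aug_ext (nil_mono l1 n1) (h2 A hA B hB) (by rintro C (rfl | rfl); exacts [a3, b3])
    have w : D ∪ {A, B} ⊆ W := Set.union_subset hD (by rintro C (rfl | rfl); exacts [hA, hB])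
    have n4 := ih _ (lt a2) (Set.union_subset hD (by simpa)) S hS _ w n1 n3 (sub l1 a1)
      (aug_mono (Set.union_subset_union_right _ (by simp)))
    exact nil_mono (aug_mono (Set.union_subset_union_left _ Set.subset_union_left)) (ih _ (lt b2) (Set.union_subset hD (by simpa))
      _ (Set.union_subset hS w) S' hS' n4 n2 (aug_mono (Set.subset_union_of_subset_right
        (Set.union_subset_union_right _ (by simp)) _)) (sub l2 b1))
  have z : ∀ S : Set (Subgroup Eˣ), aug k ∅ ≤ aug k S := fun S => aug_mono (Set.empty_subset _)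
  refine big (p := fun D => D ⊆ W → IsNilpotent (aug k D) → IsNilpotent (aug k W)) (fun D ih hD n => ?_) ∅ (Set.empty_subset _)
    ⟨1, by simpa using aug_le (I := ⊥) (by simp) (by simp)⟩
  by_cases h : ∀ A ∈ W, ∀ a ∈ A, (a : E) - 1 ∈ aug k D
  · exact nil_mono (aug_le h aug_mul) n
  · obtain ⟨A, h⟩ := not_forall.1 h
    obtain ⟨hA, h⟩ := Classical.not_imp.1 h
    exact ih _ (lt h) (Set.union_subset hD (by simpa)) (key ∅ (Set.empty_subset _) D hD _ (by simpa) n
      (by simpa using h2 A hA A hA) (z _) (z _))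

end Alg

variable {k : Type*} [Field k] {M : Type*} [AddCommGroup M] [Module k M]

theorem unip_def {H : Subgroup (End k M)ˣ} : IsUnipotentOn H ↔ ∃ n : ℕ, ∀ l : List (End k M)ˣ, (∀ g ∈ l, g ∈ H) → l.length = n →
    (l.map fun g : (End k M)ˣ => (g : End k M) - 1).prod = 0 := by
  have : ∀ l : List (End k M)ˣ, (l.flatMap fun a : (End k M)ˣ => [(a : End k M)]) = l.map Units.val := fun l => by induction l <;> simp [*]
  simp [IsUnipotentOn, this, Function.comp_def]

theorem unip_iff {S : Set (Subgroup (End k M)ˣ)} : IsUnipotentOn (⨆ A ∈ S, A) ↔ IsNilpotent (aug k S) := by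
  refine unip_def.trans (exists_congr fun n => ?_)
  rw [aug, Submodule.span_pow, Submodule.zero_eq_bot, Submodule.span_eq_bot]
  refine ⟨fun h x hx => ?_, fun h l hl e => h _ ?_⟩
  · obtain ⟨f, rfl⟩ := Set.mem_pow.1 hx
    choose g hg e using fun i => (f i).2
    have := h (List.ofFn g) (by simpa [List.mem_ofFn] using hg) (by simp)
    rw [List.map_ofFn] at this
    simpa only [e, Function.comp_def] using this
  · subst e
    refine Set.mem_pow.2 ⟨fun i => ⟨_, l.get i, hl _ (l.get_mem i), rfl⟩, ?_⟩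
    congr 1
    exact List.ext_get (by simp) (by simp)

theorem unip_all [FiniteDimensional k M] {W : Set (Subgroup (End k M)ˣ)} (hW : ∀ A ∈ W, ∀ B ∈ W, ∀ a ∈ A, conjBy B a ∈ W)
    (h : ∀ A ∈ W, ∀ B ∈ W, IsUnipotentOn (A ⊔ B)) : IsUnipotentOn (⨆ A ∈ W, A) :=
  unip_iff.2 (aug_all hW fun A hA B hB => unip_iff.1 (by rw [iSup_pair]; exact h A hA B hB))

theorem unip_fix {U : Subgroup (End k M)ˣ} (h : IsUnipotentOn U) {m : M} (hm : m ≠ 0) :
    ∃ m' : M, m' ≠ 0 ∧ ∀ g ∈ U, (g : End k M) m' = m' := by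
  obtain ⟨n, h⟩ := unip_def.1 h
  replace h : ∀ l : List (End k M)ˣ, (∀ g ∈ l, g ∈ U) → l.length = n → (l.map fun g : (End k M)ˣ => (g : End k M) - 1).prod m = 0 :=
    fun l h1 h2 => LinearMap.congr_fun (h l h1 h2) m
  induction n generalizing m with
  | zero => exact absurd (h [] (by simp) rfl) hm
  | succ n ih =>
    by_contra! hc
    obtain ⟨g, hg, e⟩ := hc m hm
    obtain ⟨m', h1, h2⟩ := ih (m := (g : End k M) m - m) (sub_ne_zero.2 e) fun l h1 h2 => by
      simpa using h (l ++ [g]) (by simpa [or_imp, forall_and] using ⟨h1, hg⟩) (by simp [h2])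
    obtain ⟨g, hg, e⟩ := hc m' h1
    exact e (h2 g hg)

theorem unip_triv {G U : Subgroup (End k M)ˣ} (hG : IsIrreducibleFor G) (h : IsUnipotentOn U)
    (hn : ∀ g ∈ G, ∀ u ∈ U, g⁻¹ * u * g ∈ U) : U = ⊥ := by
  obtain ⟨m, hm⟩ := hG.1
  obtain ⟨m, hm, h1⟩ := unip_fix h hm
  have mem : ∀ m, m ∈ fixedSubmodule U ↔ ∀ g ∈ U, (g : End k M) m = m := fun m => by simp [fixedSubmodule, sub_eq_zero]
  have := (hG.2 (fixedSubmodule U) fun g hg w hw => (mem _).2 fun u hu => by
    simpa [← Module.End.mul_apply, ← mul_assoc] using congrArg (g : End k M) ((mem _).1 hw _ (hn g hg u hu))).resolve_left fun e => hm (e.le ((mem _).2 h1))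
  exact eq_bot_iff.2 fun u hu => Units.ext (LinearMap.ext fun m => (mem _).1 (this.ge trivial) u hu)

theorem unip_nil {U : Subgroup (End k M)ˣ} (h : IsUnipotentOn U) {g : (End k M)ˣ} (hg : g ∈ U) : IsNilpotent ((g : End k M) - 1) := by
  obtain ⟨n, h⟩ := unip_def.1 h
  exact ⟨n, by simpa using h (List.replicate n g) (fun x hx => List.eq_of_mem_replicate hx ▸ hg) (by simp)⟩

theorem conjBy_bisup {G : Type*} [Group G] {W : Set (Subgroup G)} {H : Subgroup G} (h : ∀ A ∈ W, ∀ g ∈ H, conjBy A g ∈ W)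
    {g : G} (hg : g ∈ H) : conjBy (⨆ A ∈ W, A) g = ⨆ A ∈ W, A := by
  have : ∀ g ∈ H, conjBy (⨆ A ∈ W, A) g ≤ ⨆ A ∈ W, A := fun g hg => by
    simp only [conjBy, Subgroup.map_iSup]
    exact iSup₂_le fun A hA x hx => mem_bisup (h A hA g hg) hx
  refine le_antisymm (this g hg) ?_
  simpa [conjBy_conjBy, conjBy_one] using conjBy_mono (this _ (inv_mem hg)) g

end H5.QP
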