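import Cfsg.Agent.H5.QP3

/-! Classes of quadratic elements of minimal rank and their subgroups. -/

namespace H5.QP
open Cfsg H5.RS Module Polynomial
open LinearMap (range ker)

variable {k : Type*} [Field k] {M : Type*} [AddCommGroup M] [Module k M]
variable {T : Submonoid (End k M)} {d : ℕ} {α β γ δ : End k M}

theorem vn (α : End k M) : ∃ g, α * g * α = α := by
  obtain ⟨s, hs⟩ := α.rangeRestrict.exists_rightInverse_of_surjective α.range_rangeRestrict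
  obtain ⟨g, hg⟩ := s.exists_extend
  refine ⟨g, LinearMap.ext fun m => ?_⟩
  have h1 := LinearMap.congr_fun hg ⟨α m, m, rfl⟩
  have h2 := congrArg Subtype.val (LinearMap.congr_fun hs ⟨α m, m, rfl⟩)
  simp at h1 h2
  simp [h1, h2]

theorem rle : range β ≤ range α ↔ ∃ w, β = α * w := by
  refine ⟨fun h => ?_, by rintro ⟨w, rfl⟩; exact LinearMap.range_comp_le_range _ _⟩
  obtain ⟨g, hg⟩ := vn α
  refine ⟨g * β, LinearMap.ext fun m => ?_⟩
  obtain ⟨m', e⟩ := h ⟨m, rfl⟩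
  simpa [← e] using (LinearMap.congr_fun hg m').symm

theorem kle : ker α ≤ ker β ↔ ∃ u, β = u * α := by
  refine ⟨fun h => ?_, by rintro ⟨w, rfl⟩; exact LinearMap.ker_le_ker_comp _ _⟩
  obtain ⟨g, hg⟩ := vn α
  refine ⟨β * g, LinearMap.ext fun m => ?_⟩
  have := h (show m - g (α m) ∈ ker α by simpa [sub_eq_zero] using (LinearMap.congr_fun hg m).symm)
  simpa [sub_eq_zero] using this

theorem InQ.zero : InQ T 0 := ⟨by simp, by simp⟩

theorem InQ.neg (h : InQ T α) : InQ T (-α) := by simpa using h.smul (-1)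

/-- the class of `α` -/
def cls (T : Submonoid (End k M)) (α : End k M) : Submodule k (End k M) where
  carrier := {β | (α * α = 0 → InQ T β) ∧ (∃ w, β = α * w) ∧ ∃ u, β = u * α}
  zero_mem' := ⟨fun _ => InQ.zero, ⟨0, by simp⟩, 0, by simp⟩
  smul_mem' := fun c _ ⟨h, ⟨w, e⟩, u, e'⟩ => ⟨fun a => (h a).smul c, ⟨c • w, by simp [e]⟩, c • u, by simp [e']⟩
  add_mem' := fun ⟨h, ⟨w, e⟩, u, e'⟩ ⟨h1, ⟨w1, e1⟩, u1, e1'⟩ => ⟨fun a => (h a).add (h1 a)
    (by rw [e', e1, mul_assoc, ← mul_assoc α, a]; simp) (by rw [e1', e, mul_assoc, ← mul_assoc α, a]; simp),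
    ⟨w + w1, by rw [e, e1, mul_add]⟩, u + u1, by rw [e', e1', add_mul]⟩

theorem cls_self (h : InQ T α) : α ∈ cls T α := ⟨fun _ => h, ⟨1, by simp⟩, 1, by simp⟩

theorem mem_cls (h : α * α = 0) : β ∈ cls T α ↔ InQ T β ∧ range β ≤ range α ∧ ker α ≤ ker β := by
  rw [rle, kle]; exact and_congr_left fun _ => ⟨fun a => a h, fun a _ => a⟩

theorem cls_l (h : β ∈ cls T α) {x : End k M} (e : x * α = 0) : x * β = 0 := by
  obtain ⟨w, rfl⟩ := h.2.1; rw [← mul_assoc, e, zero_mul]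

theorem cls_r (h : β ∈ cls T α) {x : End k M} (e : α * x = 0) : β * x = 0 := by
  obtain ⟨w, rfl⟩ := h.2.2; rw [mul_assoc, e, mul_zero]

theorem cls_lr (h : β ∈ cls T α) (h' : δ ∈ cls T γ) {x : End k M} (e : α * (x * γ) = 0) : β * (x * δ) = 0 :=
  cls_r h (by rw [← mul_assoc] at e ⊢; exact cls_l h' e)

theorem cls_mul (ha : α * α = 0) (h : β ∈ cls T α) (h' : γ ∈ cls T α) : β * γ = 0 := cls_r h (cls_l h' ha)

theorem cls_conj (h : β ∈ cls T α) {x y : End k M} (hx : x ∈ T) (hy : y ∈ T) (e : x * y = 1) (e' : y * x = 1) :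
    x * β * y ∈ cls T (x * α * y) := by
  obtain ⟨h, ⟨w, h1⟩, u, h2⟩ := h
  have c : ∀ z, y * (x * z) = z := fun z => by rw [← mul_assoc, e', one_mul]
  refine ⟨fun a => (h ?_).conj hx hy e e', ⟨x * w * y, by simp [h1, mul_assoc, c]⟩, x * u * y, by simp [h2, mul_assoc, c]⟩
  simpa [mul_assoc, c, e'] using congrArg (fun z => y * z * x) a

theorem fr_map {V : Type*} [AddCommGroup V] [Module k V] {p : Submodule k V} (f : V →ₗ[k] V) (h : ∀ x ∈ p, f x = 0 → x = 0) :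
    finrank k (p.map f) = finrank k p := by
  rw [← LinearMap.range_domRestrict, LinearMap.finrank_range_of_inj]
  exact (injective_iff_map_eq_zero _).2 fun x hx => Subtype.ext (h x x.2 hx)

/-- the subgroup of the class -/
def EE (T : Submonoid (End k M)) (α : End k M) : Subgroup (End k M)ˣ := Subgroup.closure {g | (g : End k M) - 1 ∈ cls T α}

theorem inv_val {g : (End k M)ˣ} (h : β * β = 0) (e : (g : End k M) = 1 + β) : ((g⁻¹ : (End k M)ˣ) : End k M) = 1 - β :=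
  Units.inv_eq_of_mul_eq_one_right (by simp [e, mul_sub, add_mul, h])

theorem un_ex (h : β * β = 0) : ∃ g : (End k M)ˣ, (g : End k M) = 1 + β :=
  ⟨⟨1 + β, 1 - β, by simp [mul_sub, add_mul, h], by simp [sub_mul, mul_add, h]⟩, rfl⟩

theorem mem_EE (ha : α * α = 0) {g : (End k M)ˣ} : g ∈ EE T α ↔ (g : End k M) - 1 ∈ cls T α := by
  refine ⟨fun h => ?_, fun h => Subgroup.subset_closure h⟩
  induction h using Subgroup.closure_induction with
  | mem _ h => exact h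
  | one => simp
  | mul x y _ _ h h' =>
    have := cls_mul ha h h'
    convert add_mem h h' using 1
    rw [← sub_eq_zero, ← this, Units.val_mul]; noncomm_ring
  | inv x _ h => rw [inv_val (cls_mul ha h h) (by simp)]; simpa using neg_mem h

theorem EE_val (ha : α * α = 0) {g : (End k M)ˣ} (h : g ∈ EE T α) :
    ∃ β ∈ cls T α, (g : End k M) = 1 + β ∧ ((g⁻¹ : (End k M)ˣ) : End k M) = 1 - β ∧ (g ≠ 1 → β ≠ 0) :=
  have h := (mem_EE ha).1 h
  ⟨_, h, by simp, inv_val (cls_mul ha h h) (by simp), fun h e => h (Units.ext (sub_eq_zero.1 e))⟩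

theorem EE_of (h : β ∈ cls T α) {g : (End k M)ˣ} (e : (g : End k M) = 1 + β) : g ∈ EE T α :=
  Subgroup.subset_closure (by simpa [e] using h)

theorem EE_ex (ha : α * α = 0) (h : β ∈ cls T α) : ∃ g ∈ EE T α, (g : End k M) = 1 + β ∧ (β ≠ 0 → g ≠ 1) :=
  (un_ex (cls_mul ha h h)).imp fun g e => ⟨EE_of h e, e, by rintro h rfl; exact h (by simpa using e)⟩

theorem EE_comm (ha : α * α = 0) : Comm (EE T α) (EE T α) := fun a h b h' => by
  obtain ⟨x, h1, e, -⟩ := EE_val ha h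
  obtain ⟨y, h2, e', -⟩ := EE_val ha h'
  ext1; simp [e, e', mul_add, add_mul, cls_mul ha h1 h2, cls_mul ha h2 h1, add_right_comm]

theorem EE_T (ha : α * α = 0) {g : (End k M)ˣ} (h : g ∈ EE T α) : (g : End k M) ∈ T := by
  simpa using (((mem_EE ha).1 h).1 ha).2 1

theorem conj_EE (ha : α * α = 0) {g : (End k M)ˣ} (h : (g : End k M) ∈ T) (h' : ((g⁻¹ : (End k M)ˣ) : End k M) ∈ T) :
    conjBy (EE T α) g = EE T (g * α * (g⁻¹ : (End k M)ˣ)) := by
  ext x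
  rw [mem_conjBy, mem_EE ha, mem_EE (by simp [mul_assoc, ← mul_assoc α, ha])]
  exact ⟨fun a => by simpa [mul_assoc, mul_sub, sub_mul] using cls_conj a h h' (by simp) (by simp),
    fun a => by simpa [mul_assoc, mul_sub, sub_mul] using cls_conj a h' h (by simp) (by simp)⟩

theorem mem_fix {H : Subgroup (End k M)ˣ} {m : M} : m ∈ fixedSubmodule H ↔ ∀ g ∈ H, (g : End k M) m = m := by
  simp [fixedSubmodule, sub_eq_zero]

theorem com_le {H : Subgroup (End k M)ˣ} {W : Submodule k M} :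
    commutatorSubmodule H ≤ W ↔ ∀ g ∈ H, ∀ m, (g : End k M) m - m ∈ W := by
  simp only [commutatorSubmodule, iSup_le_iff]; simp [SetLike.le_def]

theorem sup_ind {G : Type*} [Group G] {A B : Subgroup G} {p : G → Prop} (h1 : ∀ g ∈ A, p g) (h1' : ∀ g ∈ B, p g)
    (h2 : ∀ x y, p x → p y → p (x * y)) {g : G} (hg : g ∈ A ⊔ B) : p g :=
  bisup_ind (S := {A, B}) (h1 1 (one_mem _)) (by rintro C (rfl | rfl); exacts [h1, h1']) h2 (by rwa [iSup_pair])

theorem fix_sup {A B : Subgroup (End k M)ˣ} : fixedSubmodule (A ⊔ B) = fixedSubmodule A ⊓ fixedSubmodule B := by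
  ext m
  simp only [Submodule.mem_inf, mem_fix]
  exact ⟨fun h => ⟨fun g a => h g (Subgroup.mem_sup_left a), fun g a => h g (Subgroup.mem_sup_right a)⟩,
    fun h g => sup_ind h.1 h.2 fun x y a b => by simp [a, b]⟩

theorem com_sup {A B : Subgroup (End k M)ˣ} : commutatorSubmodule (A ⊔ B) = commutatorSubmodule A ⊔ commutatorSubmodule B := by
  refine eq_of_forall_ge_iff fun W => ?_
  simp only [sup_le_iff, com_le]
  exact ⟨fun h => ⟨fun g a => h g (Subgroup.mem_sup_left a), fun g a => h g (Subgroup.mem_sup_right a)⟩,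
    fun h g => sup_ind h.1 h.2 fun x y a b m => by simpa using add_mem (a ((y : End k M) m)) (b m)⟩

theorem fix_EE (h : InQ T α) : fixedSubmodule (EE T α) = ker α := by
  ext m
  rw [mem_fix]
  obtain ⟨a, ha, e, -⟩ := EE_ex h.1 (cls_self h)
  refine ⟨fun h => by simpa [e] using h a ha, fun h1 g hg => ?_⟩
  simpa [sub_eq_zero] using ((mem_cls h.1).1 ((mem_EE h.1).1 hg)).2.2 h1

theorem com_EE (h : InQ T α) : commutatorSubmodule (EE T α) = range α := by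
  obtain ⟨a, ha, e, -⟩ := EE_ex h.1 (cls_self h)
  refine le_antisymm (com_le.2 fun g hg m => ((mem_cls h.1).1 ((mem_EE h.1).1 hg)).2.1 ⟨m, rfl⟩) ?_
  rintro _ ⟨m, rfl⟩
  simpa [e] using com_le.1 le_rfl a ha m

/-- the set of root subgroups -/
def Sg (T : Submonoid (End k M)) (d : ℕ) : Set (Subgroup (End k M)ˣ) := {A | ∃ α, Nd T d α ∧ A = EE T α}

/-- the monoid of a group -/
def TG (G : Subgroup (End k M)ˣ) : Submonoid (End k M) := G.toSubmonoid.map (Units.coeHom _)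

variable {G : Subgroup (End k M)ˣ}

theorem mem_TG {g : (End k M)ˣ} : (g : End k M) ∈ TG G ↔ g ∈ G :=
  ⟨fun ⟨_, h, e⟩ => Units.ext e ▸ h, fun h => ⟨g, h, rfl⟩⟩

theorem EE_le (ha : α * α = 0) : EE (TG G) α ≤ G := fun _ h => mem_TG.1 (EE_T ha h)

theorem mem_Q {σ : (End k M)ˣ} : σ ∈ quadraticElements G ↔ InQ (TG G) ((σ : End k M) - 1) ∧ (σ : End k M) - 1 ≠ 0 := by
  refine ⟨fun ⟨_, ⟨h1, h2⟩, h3⟩ => ⟨⟨h1, fun c => ?_⟩, h2⟩, fun ⟨⟨h1, h3⟩, h2⟩ =>
    ⟨mem_TG.1 (by simpa using h3 1), ⟨h1, h2⟩, fun τ ⟨c, e⟩ => mem_TG.1 (e ▸ h3 c)⟩⟩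
  obtain ⟨g, e⟩ := un_ex (β := c • ((σ : End k M) - 1)) (by simp [h1])
  exact e ▸ mem_TG.2 (h3 ⟨c, e⟩)

variable [FiniteDimensional k M]

theorem Nd.gconj (h : Nd (TG G) d α) {g : (End k M)ˣ} (hg : g ∈ G) : Nd (TG G) d (g * α * (g⁻¹ : (End k M)ˣ)) :=
  h.conj (mem_TG.2 hg) (mem_TG.2 (inv_mem hg)) (by simp) (by simp)

theorem Sg_conj {A : Subgroup (End k M)ˣ} (h : A ∈ Sg (TG G) d) {g : (End k M)ˣ} (hg : g ∈ G) : conjBy A g ∈ Sg (TG G) d := by
  obtain ⟨α, h, rfl⟩ := h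
  exact ⟨_, h.gconj hg, conj_EE h.1.1 (mem_TG.2 hg) (mem_TG.2 (inv_mem hg))⟩

theorem Min.cls_nd (hm : Min T d) (h : Nd T d α) (hb : β ∈ cls T α) (h0 : β ≠ 0) :
    Nd T d β ∧ range β = range α ∧ ker β = ker α := by
  obtain ⟨h1, h2, h3⟩ := (mem_cls h.1.1).1 hb
  have h4 := hm.min _ h1 h0
  have h5 := Submodule.eq_of_le_of_finrank_le h2 (h.2.le.trans h4)
  have := LinearMap.finrank_range_add_finrank_ker α
  have := LinearMap.finrank_range_add_finrank_ker β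
  exact ⟨⟨h1, by rw [rk, h5]; exact h.2⟩, h5, (Submodule.eq_of_le_of_finrank_le h3 (by rw [h5] at this; omega)).symm⟩

theorem Min.cls_eq (hm : Min T d) (h : Nd T d α) (hb : β ∈ cls T α) (h0 : β ≠ 0) : cls T β = cls T α := by
  obtain ⟨h1, h2, h3⟩ := hm.cls_nd h hb h0
  ext; rw [mem_cls h1.1.1, mem_cls h.1.1, h2, h3]

theorem Min.EE_eq (hm : Min T d) (h : Nd T d α) (hb : β ∈ cls T α) (h0 : β ≠ 0) : EE T β = EE T α := by
  rw [EE, hm.cls_eq h hb h0, EE]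

theorem ex_min (h2 : ringChar k ≠ 2) (h3 : Nat.card k ≠ 3) (G : Subgroup (End k M)ˣ) : ∃ d, Min (TG G) d ∧
    (∀ σ, σ ∈ minimalQuadraticElements G ↔ Nd (TG G) d ((σ : End k M) - 1)) ∧
    (∀ σ ∈ minimalQuadraticElements G, sameActionClass G σ ∪ {1} = EE (TG G) ((σ : End k M) - 1)) ∧
    (∀ σ ∈ minimalQuadraticElements G, sameActionSubgroup G σ = EE (TG G) ((σ : End k M) - 1)) ∧
    quadraticRootSubgroups G = Sg (TG G) d := by
  have pos : ∀ α : End k M, α ≠ 0 → 0 < rk α := fun α h => Nat.pos_of_ne_zero fun e => h (by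
    rwa [rk, Submodule.finrank_eq_zero, LinearMap.range_eq_bot] at e)
  obtain ⟨d, hm, h⟩ : ∃ d, Min (TG G) d ∧ (∀ σ, σ ∈ minimalQuadraticElements G ↔ Nd (TG G) d ((σ : End k M) - 1)) := by
    by_cases h : (quadraticElements G).Nonempty
    · obtain ⟨σ, h1, h4⟩ := (measure commutatorRank).wf.has_min _ h
      have hm : Min (TG G) (rk ((σ : End k M) - 1)) := ⟨h2, h3, pos _ (mem_Q.1 h1).2, fun α ha h0 => by
        obtain ⟨g, e⟩ := un_ex ha.1
        have : (g : End k M) - 1 = α := by simp [e]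
        exact this ▸ not_lt.1 (h4 g (mem_Q.2 (this ▸ ⟨ha, h0⟩)))⟩
      exact ⟨_, hm, fun τ => ⟨fun ⟨a, b⟩ => ⟨(mem_Q.1 a).1, le_antisymm (b _ h1) (not_lt.1 (h4 _ a))⟩,
        fun a => ⟨mem_Q.2 ⟨a.1, hm.ne a⟩, fun _ b => a.2.le.trans (not_lt.1 (h4 _ b))⟩⟩⟩
    · have hm : Min (TG G) 1 := ⟨h2, h3, one_pos, fun α _ => pos α⟩
      exact ⟨1, hm, fun τ => ⟨fun a => (h ⟨_, a.1⟩).elim, fun a => (h ⟨_, mem_Q.2 ⟨a.1, hm.ne a⟩⟩).elim⟩⟩
  have h4 : ∀ σ ∈ minimalQuadraticElements G, sameActionClass G σ ∪ {1} = EE (TG G) ((σ : End k M) - 1) := fun σ hσ => by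
    have a := (h _).1 hσ
    ext τ
    rw [SetLike.mem_coe, mem_EE a.1.1]
    refine ⟨?_, fun b => or_iff_not_imp_right.2 fun c => ?_⟩
    · rintro (⟨b, c, e⟩ | rfl)
      · exact (mem_cls a.1.1).2 ⟨((h _).1 b).1, e.le, c.ge⟩
      · simp
    · obtain ⟨e1, e2, e3⟩ := hm.cls_nd a b fun e => c (Units.ext (sub_eq_zero.1 e))
      exact ⟨(h _).2 e1, e3, e2⟩
  have h5 : ∀ σ ∈ minimalQuadraticElements G, sameActionSubgroup G σ = EE (TG G) ((σ : End k M) - 1) := fun σ hσ => by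
    rw [← Subgroup.closure_eq (EE _ _), ← h4 σ hσ, Subgroup.closure_union]; simp [sameActionSubgroup]
  refine ⟨d, hm, h, h4, h5, Set.ext fun A => ⟨fun ⟨σ, a, e⟩ => ⟨_, (h _).1 a, e.trans (h5 σ a)⟩, fun ⟨α, a, e⟩ => ?_⟩⟩
  obtain ⟨g, e'⟩ := un_ex a.1.1
  have : (g : End k M) - 1 = α := by simp [e']
  exact ⟨g, (h _).2 (this ▸ a), by rw [h5 _ ((h _).2 (this ▸ a)), this, e]⟩

end H5.QP
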