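import Cfsg.Agent.H5.QP4

/-! Opposite pairs and unipotent pairs. -/

namespace H5.QP
open Cfsg H5.RS Module Polynomial
open LinearMap (range ker)

variable {k : Type*} [Field k] {M : Type*} [AddCommGroup M] [Module k M]
variable {T : Submonoid (End k M)} {d : ℕ} {α β γ δ : End k M}

/-- opposite -/
def Opp (α β : End k M) : Prop := (∀ w, β * (α * w) = 0 → α * w = 0) ∧ ∀ w, α * (β * w) = 0 → β * w = 0

theorem Opp.symm (h : Opp α β) : Opp β α := ⟨h.2, h.1⟩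

/-- partners -/
structure Pt (α β : End k M) : Prop where
  a : α * α = 0
  b : β * β = 0
  aba : α * (β * α) = -α
  bab : β * (α * β) = -β

theorem Pt.symm (h : Pt α β) : Pt β α := ⟨h.b, h.a, h.bab, h.aba⟩

theorem Pt.a' (h : Pt α β) (x : End k M) : α * (α * x) = 0 := by rw [← mul_assoc, h.a, zero_mul]
theorem Pt.b' (h : Pt α β) (x : End k M) : β * (β * x) = 0 := h.symm.a' x
theorem Pt.aba' (h : Pt α β) (x : End k M) : α * (β * (α * x)) = -(α * x) := by rw [← neg_mul, ← h.aba]; simp [mul_assoc]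
theorem Pt.bab' (h : Pt α β) (x : End k M) : β * (α * (β * x)) = -(β * x) := h.symm.aba' x

theorem Pt.opp (h : Pt α β) : Opp α β :=
  ⟨fun w e => by simpa [e] using h.aba' w, fun w e => by simpa [e] using h.bab' w⟩

theorem Pt.br (h : Pt α β) {a b : (End k M)ˣ} (e : (a : End k M) = 1 + α) (e' : (b : End k M) = 1 + β) : Br a b := by
  unfold Br; ext1
  simp only [Units.val_mul, e, e', mul_add, add_mul, mul_one, one_mul, mul_assoc, h.a, h.b, h.aba, h.bab]; abel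

/-- the nilpotent algebra of a unipotent pair -/
def JJ (α β x : End k M) : Prop := (∃ u v, x = α * u + β * v) ∧ (∃ u v, x = u * α + v * β) ∧
  α * (x * α) = 0 ∧ α * (x * β) = 0 ∧ β * (x * α) = 0 ∧ β * (x * β) = 0

theorem JJ.symm {x : End k M} (h : JJ α β x) : JJ β α x := by
  obtain ⟨⟨u, v, e⟩, ⟨u', v', e'⟩, h1, h2, h3, h4⟩ := h
  exact ⟨⟨v, u, by rw [e, add_comm]⟩, ⟨v', u', by rw [e', add_comm]⟩, h4, h3, h2, h1⟩

theorem JJ.mul3 {x y z : End k M} (hx : JJ α β x) (hy : JJ α β y) (hz : JJ α β z) : x * (y * z) = 0 := by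
  obtain ⟨-, ⟨u, v, rfl⟩, -⟩ := hx
  obtain ⟨⟨u', v', rfl⟩, -⟩ := hz
  obtain ⟨-, -, h1, h2, h3, h4⟩ := hy
  have : ∀ {a b : End k M}, a * (y * b) = 0 → ∀ w, a * (y * (b * w)) = 0 := fun h w => by
    rw [← mul_assoc y, ← mul_assoc, h, zero_mul]
  simp [mul_add, add_mul, mul_assoc, this h1, this h2, this h3, this h4]

theorem JJ.add {x y : End k M} (hx : JJ α β x) (hy : JJ α β y) : JJ α β (x + y) := by
  obtain ⟨⟨u, v, e⟩, ⟨u', v', e'⟩, h1, h2, h3, h4⟩ := hx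
  obtain ⟨⟨u1, v1, e1⟩, ⟨u1', v1', e1'⟩, g1, g2, g3, g4⟩ := hy
  exact ⟨⟨u + u1, v + v1, by rw [e, e1]; noncomm_ring⟩, ⟨u' + u1', v' + v1', by rw [e', e1']; noncomm_ring⟩,
    by simp [add_mul, mul_add, h1, h2, h3, h4, g1, g2, g3, g4]⟩

theorem JJ.mul {x y : End k M} (hx : JJ α β x) (hy : JJ α β y) : JJ α β (x * y) := by
  obtain ⟨⟨u, v, e⟩, -, h1, h2, h3, h4⟩ := hx
  obtain ⟨⟨u1, v1, e1⟩, ⟨u1', v1', e1'⟩, -⟩ := hy
  simp only [← mul_assoc] at h1 h2 h3 h4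
  exact ⟨⟨u * y, v * y, by rw [e]; noncomm_ring⟩, ⟨x * u1', x * v1', by rw [e1']; noncomm_ring⟩,
    by simp [e1, add_mul, mul_add, ← mul_assoc, h1, h2, h3, h4]⟩

/-- non-opposite pairs -/
structure Nop (T : Submonoid (End k M)) (α β : End k M) : Prop where
  a : InQ T α
  b : InQ T β
  l : ∀ β' ∈ cls T β, α * (β' * α) = 0
  r : ∀ α' ∈ cls T α, β * (α' * β) = 0

theorem Nop.symm (h : Nop T α β) : Nop T β α := ⟨h.b, h.a, h.r, h.l⟩

theorem Nop.aba (h : Nop T α β) {x y z : End k M} (hx : x ∈ cls T α) (hy : y ∈ cls T β) (hz : z ∈ cls T α) : x * (y * z) = 0 :=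
  cls_lr hx hz (h.l y hy)

theorem Nop.jj (h : Nop T α β) {x : End k M} (hx : x ∈ cls T α) : JJ α β x :=
  ⟨hx.2.1.imp fun w e => ⟨0, by simpa using e⟩, hx.2.2.imp fun w e => ⟨0, by simpa using e⟩, by simp [cls_r hx h.a.1],
    by simp [← mul_assoc, cls_l hx h.a.1], by simp [cls_r hx h.a.1], h.r x hx⟩

theorem Nop.mem (h : Nop T α β) {g : (End k M)ˣ} (hg : g ∈ EE T α ⊔ EE T β) : JJ α β ((g : End k M) - 1) := by
  refine sup_ind (p := fun g : (End k M)ˣ => JJ α β ((g : End k M) - 1)) (fun g hg => h.jj ((mem_EE h.a.1).1 hg))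
    (fun g hg => (h.symm.jj ((mem_EE h.b.1).1 hg)).symm) (fun x y hx hy => ?_) hg
  convert ((hx.mul hy).add hx).add hy using 1
  rw [Units.val_mul]; noncomm_ring

theorem Nop.unip (h : Nop T α β) {H : Subgroup (End k M)ˣ} (hH : H ≤ EE T α ⊔ EE T β) : IsUnipotentOn H :=
  unip_def.2 ⟨3, fun l hl e => by
    obtain ⟨x, y, z, rfl⟩ := List.length_eq_three.1 e
    simpa using (h.mem (hH (hl x (by simp)))).mul3 (h.mem (hH (hl y (by simp)))) (h.mem (hH (hl z (by simp))))⟩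

theorem Nop.inq (h : Nop T α β) {x y : End k M} (hx : x ∈ cls T α) (hy : y ∈ cls T β) : InQ T (x * y - y * x) :=
  (hx.1 h.a.1).comm (hy.1 h.b.1) (h.aba hx hy hx) (h.symm.aba hy hx hy)

theorem Nop.val (h : Nop T α β) {g g' : (End k M)ˣ} (hg : g ∈ EE T α ⊔ EE T β) (hg' : g' ∈ EE T α ⊔ EE T β) :
    ((g * g' * g⁻¹ * g'⁻¹ : (End k M)ˣ) : End k M) = 1 + (((g : End k M) - 1) * (g' - 1) - (g' - 1) * (g - 1)) := by
  have h1 := h.mem hg
  have h2 := h.mem hg'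
  have : (g * g' * g⁻¹ * g'⁻¹ : (End k M)ˣ) = g * g' * (g' * g)⁻¹ := by group
  rw [this, Units.val_mul, Units.mul_inv_eq_iff_eq_mul]
  simp only [Units.val_mul]
  obtain ⟨x, e⟩ : ∃ x, (g : End k M) = 1 + x := ⟨g - 1, by simp⟩
  obtain ⟨y, e'⟩ : ∃ x, (g' : End k M) = 1 + x := ⟨g' - 1, by simp⟩
  simp only [e, e', add_sub_cancel_left] at *
  simp only [mul_add, add_mul, sub_mul, mul_assoc, mul_one, one_mul, h1.mul3 h2 h1, h1.mul3 h2 h2, h2.mul3 h1 h1, h2.mul3 h1 h2,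
    h1.mul3 h2 (h2.mul h1), h2.mul3 h1 (h2.mul h1), mul_zero]
  abel

theorem Nop.class2 (h : Nop T α β) : ⁅⁅EE T α ⊔ EE T β, EE T α ⊔ EE T β⁆, EE T α ⊔ EE T β⁆ = ⊥ := by
  rw [Subgroup.commutator_eq_bot_iff_le_centralizer, Subgroup.commutator_le]
  intro a ha b hb c hc
  have h1 := h.mem ha
  have h2 := h.mem hb
  have h3 := h.mem hc
  ext1
  rw [commutatorElement_def, Units.val_mul c, Units.val_mul _ c, h.val ha hb]
  obtain ⟨x, e⟩ : ∃ x, (c : End k M) = 1 + x := ⟨c - 1, by simp⟩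
  simp only [e, add_sub_cancel_left] at *
  generalize (a : End k M) - 1 = y, (b : End k M) - 1 = z at *
  simp only [mul_add, add_mul, sub_mul, mul_sub, mul_assoc, mul_one, one_mul, h1.mul3 h2 h3, h2.mul3 h1 h3, h3.mul3 h1 h2,
    h3.mul3 h2 h1]
  abel

section Inv
variable (h : Pt α β)
include h

theorem Pt.ia : (1 + 2 • (α * β + β * α)) * α = -α := by
  simp only [add_mul, smul_mul_assoc, mul_assoc, h.a, h.aba, mul_zero]; module
theorem Pt.ai : α * (1 + 2 • (α * β + β * α)) = -α := by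
  simp only [mul_add, mul_smul_comm, h.a', h.aba]; module
theorem Pt.ib : (1 + 2 • (α * β + β * α)) * β = -β := add_comm (α * β) _ ▸ h.symm.ia
theorem Pt.bi : β * (1 + 2 • (α * β + β * α)) = -β := add_comm (α * β) _ ▸ h.symm.ai

theorem Pt.nval {a b : (End k M)ˣ} (e : (a : End k M) = 1 + α) (e' : (b : End k M) = 1 + β) :
    ((a * b * a : (End k M)ˣ) : End k M) = 1 + α + β + α * β + β * α := by
  simp only [Units.val_mul, e, e', mul_add, add_mul, mul_one, one_mul, mul_assoc, h.a, h.aba]; abel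

theorem Pt.ival {a b : (End k M)ˣ} (e : (a : End k M) = 1 + α) (e' : (b : End k M) = 1 + β) :
    ((a * b * a * (a * b * a) : (End k M)ˣ) : End k M) = 1 + 2 • (α * β + β * α) := by
  rw [Units.val_mul, h.nval e e']
  simp only [mul_add, add_mul, mul_one, one_mul, mul_assoc, h.a, h.aba, h.b, h.bab, h.a', h.b', h.aba', h.bab', mul_zero, mul_neg]; module

theorem Pt.compl : IsCompl (ker α ⊓ ker β) (range α ⊔ range β) := by
  refine ⟨Submodule.disjoint_def.2 fun m ⟨h1, h2⟩ hm => ?_, codisjoint_iff_le_sup.2 fun m _ => ?_⟩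
  · obtain ⟨_, ⟨x, rfl⟩, _, ⟨y, rfl⟩, rfl⟩ := Submodule.mem_sup.1 hm
    have a1 := LinearMap.congr_fun h.a x
    have a2 := LinearMap.congr_fun h.b y
    have a3 := LinearMap.congr_fun h.aba x
    have a4 := LinearMap.congr_fun h.bab y
    simp_all
  · refine Submodule.mem_sup.2 ⟨(1 + α * β + β * α) m, ⟨?_, ?_⟩, α (-β m) + β (-α m),
      Submodule.add_mem_sup ⟨_, rfl⟩ ⟨_, rfl⟩, by simp; abel⟩
    · exact LinearMap.congr_fun (show α * (1 + α * β + β * α) = 0 by simp [mul_add, h.a', h.aba]) m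
    · exact LinearMap.congr_fun (show β * (1 + α * β + β * α) = 0 by simp [mul_add, h.b', h.bab]) m

end Inv

variable [FiniteDimensional k M] (hm : Min T d)
include hm

theorem Min.opp_iff (h : Nd T d α) (h' : Nd T d β) : Opp α β ↔ ¬ IsNilpotent (α * β + β * α) := by
  refine ⟨fun o hz => ?_, fun hz => ⟨fun w e => (hm.K2 h h').resolve_left hz w ?_,
    fun w e => (hm.K2 h' h).resolve_left (add_comm (α * β) _ ▸ hz) w ?_⟩⟩
  · exact hm.ne h' (by simpa using o.2 1 (by simpa using o.1 β (hm.U1 h h' hz).2))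
  · simp [add_mul, mul_assoc, e, ← mul_assoc α α, h.1.1]
  · simp [add_mul, mul_assoc, e, ← mul_assoc β β, h'.1.1]

theorem Min.opp_cls (h : Nd T d α) (o : Opp α β) (hγ : γ ∈ cls T α) (h0 : γ ≠ 0) : Opp γ β := by
  have := (hm.cls_eq h hγ h0).ge (cls_self h.1)
  obtain ⟨w0, e⟩ := hγ.2.1
  exact ⟨fun w e' => by rw [e, mul_assoc] at e' ⊢; exact o.1 _ e', fun w e' => o.2 w (cls_r this e')⟩

theorem Min.nop (h : Nd T d α) (h' : Nd T d β) (o : ¬ Opp α β) : Nop T α β := by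
  have : ∀ {α β}, Nd T d α → Nd T d β → ¬ Opp α β → ∀ β' ∈ cls T β, α * (β' * α) = 0 := fun {α β} h h' o γ hγ => by
    by_cases h0 : γ = 0
    · simp [h0]
    have h1 := (hm.cls_nd h' hγ h0).1
    exact (hm.U1 h h1 (not_not.1 fun hz => o (hm.opp_cls h1 ((hm.opp_iff h h1).2 hz).symm
      ((hm.cls_eq h' hγ h0).ge (cls_self h'.1)) (hm.ne h')).symm)).1
  exact ⟨h.1, h'.1, this h h' o, this h' h fun a => o a.symm⟩

theorem Min.partner (h : Nd T d α) (h' : Nd T d β) (o : Opp α β) : ∃ β' ∈ cls T β, β' ≠ 0 ∧ Pt α β' := by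
  obtain ⟨f, -, ⟨v, u, e⟩, e1, e2, e3⟩ := hm.K1 h' h ((hm.opp_iff h' h).1 o.symm)
  simp only [Pswap (α := α) (β := β)] at e1 e2 e3
  have e4 := (Pb (α := α) h'.1.1 (-u)).eq
  have hγ : P α β (-u) * β ∈ cls T β := ⟨fun _ => e3 _, ⟨_, e4⟩, _, rfl⟩
  letI := modP (α * β + β * α)
  obtain ⟨sm, l1, la, lb, m1, m2, mz, -, cp⟩ := pack h.1.1 h'.1.1
  simp only [sm] at e1 e2 hγ
  have : ∀ x : End k M, f • x = 0 → (u * X) • x = x := fun x hx => by
    rw [eq_sub_of_add_eq' e, sub_smul, mul_smul, hx]; simp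
  have e5 : α * ((-u) • β * α) = -α := by rw [l1, la, m1, smul_smul, neg_mul, neg_smul, this _ e2]
  refine ⟨_, hγ, fun e => hm.ne h (by simpa [e] using e5), h.1.1, cls_mul h'.1.1 hγ hγ, e5, ?_⟩
  rw [l1, la, lb, m2, smul_smul (-u) X, neg_mul, neg_smul (u * X), this _ e1, smul_neg]

theorem Min.partner' (h : Nd T d α) (h' : Nd T d β) (o : Opp α β) {a : (End k M)ˣ} (ha : a ∈ EE T α) (h1 : a ≠ 1) :
    ∃ α' ∈ cls T α, α' ≠ 0 ∧ (a : End k M) = 1 + α' ∧ ∃ b ∈ EE T β, b ≠ 1 ∧ ∃ β' ∈ cls T β, β' ≠ 0 ∧ (b : End k M) = 1 + β' ∧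
      Pt α' β' := by
  obtain ⟨x, hx, e, -, h0⟩ := EE_val h.1.1 ha
  obtain ⟨y, hy, y0, p⟩ := hm.partner (hm.cls_nd h hx (h0 h1)).1 h' (hm.opp_cls h o hx (h0 h1))
  obtain ⟨b, hb, e', b1⟩ := EE_ex h'.1.1 hy
  exact ⟨x, hx, h0 h1, e, b, hb, b1 y0, y, hy, y0, e', p⟩

theorem Min.EE_ne (h : Nd T d α) : ∃ a ∈ EE T α, (a : End k M) = 1 + α ∧ a ≠ 1 :=
  (EE_ex h.1.1 (cls_self h.1)).imp fun _ e => ⟨e.1, e.2.1, e.2.2 (hm.ne h)⟩

theorem Min.special (h : Nd T d α) (h' : Nd T d β) (o : Opp α β) : IsSpecialRankOnePair (EE T α) (EE T β) := by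
  have : ∀ {α β}, Nd T d α → Nd T d β → Opp α β → RankOneCondition (EE T α) (EE T β) := fun {α β} h h' o a ha h1 => by
    obtain ⟨x, hx, x0, e, b, hb, b1, y, hy, y0, e', p⟩ := hm.partner' h h' o (inv_mem ha) (inv_ne_one.2 h1)
    refine ⟨b, hb, b1, ?_⟩
    rw [← hm.EE_eq h hx x0, ← hm.EE_eq h' hy y0, conj_EE p.a (EE_T h'.1.1 (inv_mem hb)) (by simpa using EE_T h'.1.1 hb),
      conj_EE p.b (EE_T h.1.1 (inv_mem ha)) (by simpa using EE_T h.1.1 ha)]
    have := congrArg Units.val (p.br e e').sp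
    rw [eq_sub_of_add_eq' e.symm, eq_sub_of_add_eq' e'.symm]
    congr 1
    simpa [mul_sub, sub_mul] using this.symm
  refine sp_of ⟨fun e => ?_, (EE_comm h.1.1).nil, (EE_comm h'.1.1).nil, this h h' o, this h' h o.symm⟩ fun a ha h1 => ?_
  · obtain ⟨a, ha, e1, -⟩ := hm.EE_ne h
    rw [e, mem_EE h'.1.1, e1, add_sub_cancel_left] at ha
    exact hm.ne h (by simpa using o.1 1 (by simpa using cls_l ha h'.1.1))
  · obtain ⟨x, hx, x0, e, b, hb, b1, y, hy, y0, e', p⟩ := hm.partner' h h' o ha h1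
    exact ⟨b, hb, p.br e e'⟩

theorem Min.not_unip (h : Nd T d α) (h' : Nd T d β) (o : Opp α β) : ¬ IsUnipotentOn (EE T α ⊔ EE T β) := fun hu => by
  obtain ⟨a, ha, -, h1⟩ := hm.EE_ne h
  obtain ⟨x, hx, x0, e, b, hb, b1, y, hy, y0, e', p⟩ := hm.partner' h h' o ha h1
  have n := mul_mem (mul_mem (Subgroup.mem_sup_left ha) (Subgroup.mem_sup_right hb)) (Subgroup.mem_sup_left (T := EE T β) ha)
  obtain ⟨n, hn⟩ := unip_nil hu (mul_mem n n)
  have : ∀ n : ℕ, (1 + 2 • (x * y + y * x) - 1) ^ n * x = (-2 : k) ^ n • x := fun n => by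
    induction n with
    | zero => simp
    | succ n ih => rw [pow_succ', mul_assoc, ih, mul_smul_comm, sub_mul, p.ia, pow_succ, mul_smul]; congr 1; module
  have := this n
  rw [← p.ival e e', hn, zero_mul, eq_comm, smul_eq_zero] at this
  exact this.elim (pow_ne_zero _ (neg_ne_zero.2 (Ring.two_ne_zero hm.h2))) x0

theorem Min.opp_dim (h : Nd T d α) (h' : Nd T d β) (o : Opp α β) : finrank k (cls T α) ≤ finrank k (cls T β) := by
  obtain ⟨a, ha, -, h1⟩ := hm.EE_ne h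
  obtain ⟨-, -, -, -, b, hb, -⟩ := hm.partner' h h' o ha h1
  obtain ⟨n, hn, e, -⟩ := (hm.special h h' o).1.h5swap
  have t : ∀ n ∈ EE T α ⊔ EE T β, (n : End k M) ∈ T := fun n =>
    sup_ind (fun _ => EE_T h.1.1) (fun _ => EE_T h'.1.1) fun x y => mul_mem
  rw [← fr_map ((LinearMap.mulRight k ((n⁻¹ : (End k M)ˣ) : End k M)).comp (LinearMap.mulLeft k (n : End k M))) (by simp)]
  refine Submodule.finrank_mono ?_
  rintro _ ⟨x, hx, rfl⟩
  obtain ⟨g, hg, e1, -⟩ := EE_ex h.1.1 hx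
  have := (mem_EE h'.1.1).1 (e ▸ RS.conj_mem (g := n) hg)
  rw [Units.val_mul, Units.val_mul, e1] at this
  simpa [mul_add, add_mul] using this

end H5.QP
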