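import Cfsg.Agent.H5.QP5

/-! The commutator case for quadratic pairs. -/

namespace H5.QP
open Cfsg H5.RS Module Polynomial
open LinearMap (range ker)
open scoped commutatorElement

variable {k : Type*} [Field k] {M : Type*} [AddCommGroup M] [Module k M] [FiniteDimensional k M]
variable {T : Submonoid (End k M)} {d : ℕ} {α β γ δ : End k M}

omit [FiniteDimensional k M] in
theorem Nop.ran (h : Nop T α β) {x y : End k M} (hx : x ∈ cls T α) (hy : y ∈ cls T β) : range (x * y) ≤ range α ⊓ ker β :=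
  le_inf ((LinearMap.range_comp_le_range _ _).trans (rle.2 hx.2.1))
    (LinearMap.range_le_ker_iff.2 (h.symm.aba (cls_self h.b) hx hy))

omit [FiniteDimensional k M] in
theorem Nop.ker (h : Nop T α β) {x y : End k M} (hx : x ∈ cls T α) (hy : y ∈ cls T β) : ker β ⊔ range α ≤ ker (x * y) :=
  sup_le ((kle.2 hy.2.2).trans (LinearMap.ker_le_ker_comp _ _))
    (LinearMap.range_le_ker_iff.2 ((mul_assoc x y α).trans (h.aba hx hy (cls_self h.a))))

theorem rk_mul (α β : End k M) : rk (α * β) + finrank k (range β ⊓ ker α :) = rk β := by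
  have := LinearMap.finrank_range_add_finrank_ker (α.domRestrict (range β))
  rw [LinearMap.range_domRestrict, ← LinearMap.range_comp, LinearMap.ker_domRestrict,
    ← Submodule.finrank_map_subtype_eq, Submodule.map_comap_subtype] at this
  exact this

variable (hm : Min T d)
include hm

theorem Min.cc1 (h : Nd T d α) (h' : Nd T d β) (n : Nop T α β) (h0 : α * β - β * α ≠ 0) :
    Nd T d (α * β - β * α) ∧ range (α * β - β * α) = range α ⊓ ker β ⊔ range β ⊓ ker α ∧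
    ker (α * β - β * α) = (ker β ⊔ range α) ⊓ (ker α ⊔ range β) ∧ Disjoint (range α ⊓ ker β) (range β ⊓ ker α) := by
  have a := cls_self h.1
  have b := cls_self h'.1
  have i := n.inq a b
  have e1 := hm.min _ i h0
  have e2 := rk_mul α β
  have e3 := rk_mul β α
  have e4 : rk (α * β - β * α) ≤ rk (α * β) + rk (β * α) :=
    (Submodule.finrank_mono (by rintro _ ⟨m, rfl⟩; exact sub_mem (Submodule.mem_sup_left ⟨m, rfl⟩) (Submodule.mem_sup_right ⟨m, rfl⟩))).trans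
      (Submodule.finrank_add_le_finrank_add_finrank _ _)
  have l1 : range (α * β - β * α) ≤ range α ⊓ ker β ⊔ range β ⊓ ker α := by
    rintro _ ⟨m, rfl⟩
    exact sub_mem (Submodule.mem_sup_left (n.ran a b ⟨m, rfl⟩)) (Submodule.mem_sup_right (n.symm.ran b a ⟨m, rfl⟩))
  have l2 : (ker β ⊔ range α) ⊓ (ker α ⊔ range β) ≤ ker (α * β - β * α) := fun m ⟨h1, h2⟩ =>
    sub_eq_zero.2 ((n.ker a b h1).trans (n.symm.ker b a h2).symm)
  have e5 := Submodule.finrank_sup_add_finrank_inf_eq (range α ⊓ ker β) (range β ⊓ ker α)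
  have e6 := Submodule.finrank_sup_add_finrank_inf_eq (ker β ⊔ range α) (ker α ⊔ range β)
  have e7 := Submodule.finrank_sup_add_finrank_inf_eq (ker β) (range α)
  have e8 := Submodule.finrank_sup_add_finrank_inf_eq (ker α) (range β)
  have e9 := Submodule.finrank_le (ker β ⊔ range α ⊔ (ker α ⊔ range β))
  have e10 := Submodule.finrank_mono l1
  have f1 := LinearMap.finrank_range_add_finrank_ker α
  have f2 := LinearMap.finrank_range_add_finrank_ker β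
  have f3 := LinearMap.finrank_range_add_finrank_ker (α * β - β * α)
  have f4 := h.2
  have f5 := h'.2
  rw [inf_comm] at e7 e8
  unfold rk at *
  exact ⟨⟨i, by unfold rk; omega⟩, Submodule.eq_of_le_of_finrank_le l1 (by omega),
    (Submodule.eq_of_le_of_finrank_le l2 (by omega)).symm, disjoint_iff.2 (Submodule.finrank_eq_zero.1 (by omega))⟩

theorem Min.cc2 (h : Nd T d α) (h' : Nd T d β) (n : Nop T α β) (h0 : α * β - β * α ≠ 0) {x y : End k M} (hx : x ∈ cls T α)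
    (hy : y ∈ cls T β) : x * y - y * x ∈ cls T (α * β - β * α) ∧ (x ≠ 0 → y ≠ 0 → x * y - y * x ≠ 0) := by
  obtain ⟨a, b, c, e⟩ := hm.cc1 h h' n h0
  refine ⟨(mem_cls a.1.1).2 ⟨n.inq hx hy, ?_, c ▸ fun m ⟨h1, h2⟩ =>
    sub_eq_zero.2 ((n.ker hx hy h1).trans (n.symm.ker hy hx h2).symm)⟩, fun x0 y0 e1 => h0 ?_⟩
  · rintro _ ⟨m, rfl⟩
    exact b ▸ sub_mem (Submodule.mem_sup_left (n.ran hx hy ⟨m, rfl⟩)) (Submodule.mem_sup_right (n.symm.ran hy hx ⟨m, rfl⟩))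
  · rw [sub_eq_zero] at e1
    have e2 : x * y = 0 := LinearMap.range_eq_bot.1 (le_bot_iff.1 (e (n.ran hx hy) (e1 ▸ n.symm.ran hy hx)))
    have a := (hm.cls_eq h hx x0).ge (cls_self h.1)
    have b := (hm.cls_eq h' hy y0).ge (cls_self h'.1)
    rw [cls_r a (cls_l b e2), cls_r b (cls_l a (e1 ▸ e2)), sub_zero]

theorem Min.cc_conj (h : Nd T d α) (h' : Nd T d β) (n : Nop T α β) :
    Nd T d (β + (α * β - β * α)) ∧ finrank k (cls T (β + (α * β - β * α))) ≤ finrank k (cls T β) := by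
  have e : β + (α * β - β * α) = (1 + α) * β * (1 - α) := by
    simp [mul_sub, add_mul, mul_assoc, n.aba (cls_self h.1) (cls_self h'.1) (cls_self h.1)]; abel
  have t1 : 1 + α ∈ T := by simpa using h.1.2 1
  have t2 : 1 - α ∈ T := by simpa [sub_eq_add_neg] using h.1.2 (-1)
  have e1 : (1 + α) * (1 - α) = 1 := by simp [mul_sub, add_mul, h.1.1]
  have e2 : (1 - α) * (1 + α) = 1 := by simp [mul_add, sub_mul, h.1.1]
  rw [e]
  refine ⟨h'.conj t1 t2 e1 e2, ?_⟩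
  rw [← fr_map ((LinearMap.mulRight k (1 + α)).comp (LinearMap.mulLeft k (1 - α))) fun x _ a => by
    simpa [mul_assoc, e1, ← mul_assoc (1 + α)] using congrArg (fun z => (1 + α) * z * (1 - α)) a]
  refine Submodule.finrank_mono ?_
  rintro _ ⟨x, hx, rfl⟩
  have := cls_conj hx t2 t1 e2 e1
  rwa [← mul_assoc, ← mul_assoc, e2, one_mul, mul_assoc β, e2, mul_one] at this

theorem Min.cc_opp (h : Nd T d α) (h' : Nd T d β) (n : Nop T α β) (hδ : Nd T d δ) (o : Opp δ (α * β - β * α)) :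
    Opp δ β ∨ Opp δ (β + (α * β - β * α)) := by
  by_contra! hc
  have e1 := (hm.nop hδ h' hc.1).l _ (cls_self h'.1)
  have e2 := (hm.nop hδ (hm.cc_conj h h' n).1 hc.2).l _ (cls_self (hm.cc_conj h h' n).1.1)
  rw [add_mul, mul_add, e1, zero_add] at e2
  exact hm.ne hδ (by simpa using o.1 1 (by simpa using o.2 _ e2))

variable (ho : ∀ γ, Nd T d γ → ∃ δ, Nd T d δ ∧ Opp δ γ)
include ho

theorem Min.cc3 (h : Nd T d α) (h' : Nd T d β) (n : Nop T α β) (h0 : α * β - β * α ≠ 0) {x z : End k M} (hx : x ∈ cls T α)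
    (x0 : x ≠ 0) (hz : z ∈ cls T (α * β - β * α)) : ∃ y ∈ cls T β, x * y - y * x = z := by
  have a := (hm.cc1 h h' n h0).1
  obtain ⟨δ, hδ, o⟩ := ho _ a
  have e1 : finrank k (cls T (α * β - β * α)) ≤ finrank k (cls T β) := (hm.opp_dim a hδ o.symm).trans
    ((hm.cc_opp h h' n hδ o).elim (hm.opp_dim hδ h') fun o => (hm.opp_dim hδ (hm.cc_conj h h' n).1 o).trans (hm.cc_conj h h' n).2)
  rw [← fr_map (LinearMap.mulLeft k x - LinearMap.mulRight k x) fun y hy e => not_not.1 fun y0 =>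
    (hm.cc2 h h' n h0 hx hy).2 x0 y0 e] at e1
  exact (Submodule.eq_of_le_of_finrank_le (by rintro _ ⟨y, hy, rfl⟩; exact (hm.cc2 h h' n h0 hx hy).1) e1).ge hz

theorem Min.cc4 (h : Nd T d α) (h' : Nd T d β) (n : Nop T α β) (h0 : α * β - β * α ≠ 0) {a : (End k M)ˣ} (ha : a ∈ EE T α)
    (h1 : a ≠ 1) : (fun b => a * b * a⁻¹ * b⁻¹) '' (EE T β : Set (End k M)ˣ) = EE T (α * β - β * α) := by
  have c := (hm.cc1 h h' n h0).1
  obtain ⟨x, hx, e, -, x0⟩ := EE_val h.1.1 ha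
  have v : ∀ b ∈ EE T β, ((a * b * a⁻¹ * b⁻¹ : (End k M)ˣ) : End k M) = 1 + (x * (b - 1) - (b - 1) * x) := fun b hb => by
    rw [n.val (Subgroup.mem_sup_left ha) (Subgroup.mem_sup_right hb), e, add_sub_cancel_left]
  ext g
  constructor
  · rintro ⟨b, hb, rfl⟩
    exact EE_of (hm.cc2 h h' n h0 hx ((mem_EE h'.1.1).1 hb)).1 (v b hb)
  · intro hg
    obtain ⟨y, hy, e1⟩ := hm.cc3 ho h h' n h0 hx (x0 h1) ((mem_EE c.1.1).1 hg)
    obtain ⟨b, hb, e2, -⟩ := EE_ex h'.1.1 hy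
    exact ⟨b, hb, Units.ext (by rw [v b hb, e2, add_sub_cancel_left, e1, add_sub_cancel])⟩

theorem Min.cc5 (h : Nd T d α) (h' : Nd T d β) (n : Nop T α β) (h0 : α * β - β * α ≠ 0) :
    ⁅EE T α, EE T β⁆ = EE T (α * β - β * α) := by
  obtain ⟨a, ha, -, a1⟩ := hm.EE_ne h
  refine le_antisymm (Subgroup.commutator_le.2 fun a ha b hb => ?_) fun g hg => ?_
  · by_cases h1 : a = 1
    · simp [h1]
    exact (hm.cc4 ho h h' n h0 ha h1).le ⟨b, hb, rfl⟩
  · obtain ⟨b, hb, rfl⟩ := (hm.cc4 ho h h' n h0 ha a1).ge hg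
    exact Subgroup.commutator_mem_commutator ha hb

omit ho in
theorem Min.ncomm (h : Nd T d α) (h' : Nd T d β) (n : Nop T α β) (h0 : ¬ Comm (EE T α) (EE T β)) :
    ∃ x y, Nd T d x ∧ Nd T d y ∧ EE T α = EE T x ∧ EE T β = EE T y ∧ Nop T x y ∧ x * y - y * x ≠ 0 := by
  simp only [Comm, not_forall] at h0
  obtain ⟨a, ha, b, hb, e⟩ := h0
  obtain ⟨x, hx, e1, -, x0⟩ := EE_val h.1.1 ha
  obtain ⟨y, hy, e2, -, y0⟩ := EE_val h'.1.1 hb
  replace x0 := x0 (by rintro rfl; simp at e)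
  replace y0 := y0 (by rintro rfl; simp at e)
  refine ⟨x, y, (hm.cls_nd h hx x0).1, (hm.cls_nd h' hy y0).1, (hm.EE_eq h hx x0).symm, (hm.EE_eq h' hy y0).symm,
    ⟨hx.1 h.1.1, hy.1 h'.1.1, fun z hz => n.aba hx (hm.cls_eq h' hy y0 ▸ hz) hx,
      fun z hz => n.symm.aba hy (hm.cls_eq h hx x0 ▸ hz) hy⟩, fun c => e (Units.ext ?_)⟩
  simp only [Units.val_mul, e1, e2, mul_add, add_mul, mul_one, one_mul, sub_eq_zero.1 c]; abel

theorem Min.cc (h : Nd T d α) (h' : Nd T d β) (o : ¬ Opp α β) (h0 : ¬ Comm (EE T α) (EE T β)) :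
    RootCommutatorCase (Sg T d) (EE T α) (EE T β) := by
  obtain ⟨x, y, hx, hy, e1, e2, n, h1⟩ := hm.ncomm h h' (hm.nop h h' o) h0
  rw [e1, e2]
  have e := hm.cc5 ho hx hy n h1
  have h2 : y * x - x * y ≠ 0 := fun a => h1 (by rw [← neg_sub, a, neg_zero])
  refine ⟨⟨_, (hm.cc1 hx hy n h1).1, e⟩, fun c hc => comm_iff.1 n.class2 c
    (Subgroup.commutator_mono le_sup_left le_sup_right hc), fun a ha a1 => ?_, fun b hb b1 => ?_⟩
  · rw [hm.cc4 ho hx hy n h1 ha a1, Subgroup.closure_eq, e]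
  · rw [Subgroup.commutator_comm, hm.cc5 ho hy hx n.symm h2, ← Subgroup.closure_inv, ← Set.image_inv_eq_inv, Set.image_image,
      ← Subgroup.closure_eq (EE _ (y * x - x * y)), ← hm.cc4 ho hy hx n.symm h2 hb b1]
    simp [mul_assoc]

omit ho

theorem Min.tri (ho : ∀ γ, Nd T d γ → ∃ δ, Nd T d δ ∧ Opp δ γ) {A B : Subgroup (End k M)ˣ} (hA : A ∈ Sg T d) (hB : B ∈ Sg T d) :
    ⁅A, B⁆ = ⊥ ∨ IsRankOnePair A B ∨ RootCommutatorCase (Sg T d) A B := by
  obtain ⟨α, h, rfl⟩ := hA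
  obtain ⟨β, h', rfl⟩ := hB
  by_cases o : Opp α β
  · exact Or.inr (Or.inl (hm.special h h' o).1)
  exact or_iff_not_imp_left.2 fun c => Or.inr (hm.cc ho h h' o fun a => c (comm_iff.2 a))

theorem Min.opp_of (h : Nd T d α) (h' : Nd T d β) (p : IsRankOnePair (EE T α) (EE T β)) : Opp α β := by
  by_contra o
  obtain ⟨a, ha, -, a1⟩ := hm.EE_ne h
  obtain ⟨x, hx, e, -⟩ := p.h5swap
  have c := comm_iff.1 (hm.nop h h' o).class2
  have h1 := Subgroup.mem_sup_left (T := EE T β) ha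
  refine a1 (p.h5comm ha fun b hb => ?_)
  obtain ⟨a', ha', rfl⟩ := e.ge hb
  have h2 := Subgroup.mem_sup_left (T := EE T β) ha'
  have := c _ (Subgroup.commutator_mem_commutator hx h2) a h1
  have e2 : (MulAut.conj x).toMonoidHom a' = ⁅x, a'⁆ * a' := by simp [commutatorElement_def]
  rw [e2, ← mul_assoc, ← this, mul_assoc, EE_comm h.1.1 a ha a' ha', mul_assoc]

omit hm
variable {G : Subgroup (End k M)ˣ}

theorem Min.core (hm : Min (TG G) d) (h : Nd (TG G) d α) (h' : Nd (TG G) d β) (n : Nop (TG G) α β) (h0 : α * β - β * α ≠ 0) :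
    ((EE (TG G) α ⊔ EE (TG G) β : Subgroup _) : Set (End k M)ˣ) ⊆ quadraticUnipotentCore G (EE (TG G) (α * β - β * α)) := by
  obtain ⟨c, c1, c2, -⟩ := hm.cc1 h h' n h0
  have j := n.jj (cls_self h.1)
  have j' := (n.symm.jj (cls_self h'.1)).symm
  have l : ∀ g ∈ EE (TG G) α ⊔ EE (TG G) β, (α * β - β * α) * ((g : End k M) - 1) = 0 := fun g hg => by
    rw [sub_mul, mul_assoc, mul_assoc, j.mul3 j' (n.mem hg), j'.mul3 j (n.mem hg), sub_zero]
  have r : ∀ g ∈ EE (TG G) α ⊔ EE (TG G) β, ((g : End k M) - 1) * (α * β - β * α) = 0 := fun g hg => by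
    rw [mul_sub ((g : End k M) - 1), (n.mem hg).mul3 j j', (n.mem hg).mul3 j' j, sub_zero]
  have r' : ∀ g ∈ EE (TG G) α ⊔ EE (TG G) β, ∀ m ∈ range (α * β - β * α), (g : End k M) m = m := by
    rintro g hg _ ⟨m, rfl⟩
    exact sub_eq_zero.1 (LinearMap.congr_fun (r g hg) m)
  intro g hg
  refine ⟨sup_le (EE_le h.1.1) (EE_le h'.1.1) hg, conjBy_eq_self.1 (conjBy_of_comm fun a ha => ?_), ?_⟩
  · obtain ⟨x, hx, e, -⟩ := EE_val c.1.1 ha
    have e1 := cls_l hx (r g hg)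
    have e2 := cls_r hx (l g hg)
    ext1
    simp only [Units.val_mul, e, mul_add, add_mul, mul_one, one_mul, sub_mul, mul_sub, sub_eq_zero] at e1 e2 ⊢
    rw [e1, e2]
  rw [fix_EE c.1, com_EE c.1]
  refine ⟨fun m => LinearMap.congr_fun (l g hg) m, ?_, r' g hg⟩
  have : ∀ {α β}, Nop (TG G) α β → ∀ g ∈ EE (TG G) α, ∀ m ∈ ker α ⊔ range β, (g : End k M) m - m ∈ range α ⊓ ker β :=
    fun {α β} n g hg m hm => by
      have hx := (mem_EE n.a.1).1 hg
      obtain ⟨u, hu, _, ⟨w, rfl⟩, rfl⟩ := Submodule.mem_sup.1 hm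
      convert n.ran hx (cls_self n.b) ⟨w, rfl⟩ using 1
      have : (g : End k M) u - u = 0 := kle.2 hx.2.2 hu
      simp [sub_eq_zero.1 this]
  refine (sup_ind (p := fun g : (End k M)ˣ => g ∈ EE (TG G) α ⊔ EE (TG G) β ∧ ∀ m ∈ ker (α * β - β * α),
    (g : End k M) m - m ∈ range (α * β - β * α)) (fun g hg => ⟨Subgroup.mem_sup_left hg, fun m hm => ?_⟩)
    (fun g hg => ⟨Subgroup.mem_sup_right hg, fun m hm => ?_⟩) (fun x y hx hy => ⟨mul_mem hx.1 hy.1, fun m hm => ?_⟩) hg).2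
  · exact c1 ▸ Submodule.mem_sup_left (this n g hg m (c2.le hm).2)
  · exact c1 ▸ Submodule.mem_sup_right (this n.symm g hg m (c2.le hm).1)
  · have := r' x hx.1 _ (hy.2 m hm)
    convert add_mem (hx.2 m hm) (hy.2 m hm) using 1
    rw [← this]; simp

theorem Min.ex_opp (hm : Min (TG G) d) (hG : IsIrreducibleFor G) (γ : End k M) (h : Nd (TG G) d γ) :
    ∃ δ, Nd (TG G) d δ ∧ Opp δ γ := by
  by_contra! hc
  let W := {A | ∃ α, Nd (TG G) d α ∧ (∀ δ, Nd (TG G) d δ → ¬ Opp δ α) ∧ A = EE (TG G) α}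
  have c : ∀ A ∈ W, ∀ g ∈ G, conjBy A g ∈ W := by
    rintro _ ⟨α, h1, h2, rfl⟩ g hg
    refine ⟨_, h1.gconj hg, fun δ h3 o => h2 _ (h3.gconj (inv_mem hg)) ⟨fun w e => ?_, fun w e => ?_⟩,
      conj_EE h1.1.1 (mem_TG.2 hg) (mem_TG.2 (inv_mem hg))⟩
    · simpa [mul_assoc] using o.1 (g * w) (by simpa [mul_assoc] using e)
    · simpa [mul_assoc] using o.2 (g * w) (by simpa [mul_assoc] using e)
  have le : ∀ A ∈ W, A ≤ G := by rintro _ ⟨α, h1, -, rfl⟩; exact EE_le h1.1.1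
  have := unip_triv hG (unip_all (W := W) (fun A hA B hB a ha => c B hB a (le A hA ha)) (by
    rintro _ ⟨α, h1, h2, rfl⟩ _ ⟨β, h3, h4, rfl⟩
    exact (hm.nop h1 h3 (h4 _ h1)).unip le_rfl)) fun g hg u hu => mem_conjBy.1 ((conjBy_bisup c hg).ge hu)
  obtain ⟨a, ha, -, a1⟩ := hm.EE_ne h
  exact a1 (this.le (mem_bisup (S := W) ⟨γ, h, hc, rfl⟩ ha))

theorem Min.main (hm : Min (TG G) d) (hG : IsIrreducibleFor G) (h : Nd (TG G) d α) (h' : Nd (TG G) d β) (o : ¬ Opp α β)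
    (h0 : ¬ Comm (EE (TG G) α) (EE (TG G) β)) : RootCommutatorCase (Sg (TG G) d) (EE (TG G) α) (EE (TG G) β) ∧
    ((EE (TG G) α ⊔ EE (TG G) β : Subgroup _) : Set (End k M)ˣ) ⊆ quadraticUnipotentCore G ⁅EE (TG G) α, EE (TG G) β⁆ := by
  refine ⟨hm.cc (hm.ex_opp hG) h h' o h0, ?_⟩
  obtain ⟨x, y, hx, hy, e1, e2, n, h1⟩ := hm.ncomm h h' (hm.nop h h' o) h0
  rw [e1, e2, hm.cc5 (hm.ex_opp hG) hx hy n h1]
  exact hm.core hx hy n h1

end H5.QP
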