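import Cfsg.Agent.H5.RS3

/-! Abstract root subgroups: connectivity and generation. -/

namespace Cfsg.IsRootSubgroupSet
open H5 H5.RS Cfsg.IsRankOnePair Relation
open scoped commutatorElement

variable {G : Type*} [Group G] {S : Set (Subgroup G)} {A B C D E F : Subgroup G} (hS : IsRootSubgroupSet S)

theorem h5Fsymm (h : ReflTransGen (FAdj S) A B) : ReflTransGen (FAdj S) B A := by
  induction h with
  | refl => rfl
  | tail _ h ih => exact .head ⟨h.2.1, h.1, h.2.2.h5symm⟩ ih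

theorem h5Esymm (h : ReflTransGen (EAdj S S) A B) : ReflTransGen (EAdj S S) B A := by
  induction h with
  | refl => rfl
  | tail _ h ih => exact .head ⟨h.2.1, h.1, lp_symm h.1 h.2.2⟩ ih

theorem h5Fnon (h : ReflTransGen (FAdj S) A B) (h1 : B ≠ A) : ∃ E ∈ S, IsRankOnePair A E := by
  rcases h.cases_head with e | ⟨E, h2, -⟩
  · exact absurd e.symm h1
  · exact ⟨E, h2.2.1, h2.2.2⟩

theorem h5Fconj (h : ReflTransGen (FAdj S) A B) : ∃ g, B = conjBy A g := by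
  induction h with
  | refl => exact ⟨1, (conjBy_one A).symm⟩
  | tail _ h ih =>
    obtain ⟨g, rfl⟩ := ih
    obtain ⟨x, -, e, -⟩ := h.2.2.h5swap
    exact ⟨_, e ▸ conjBy_conjBy _ _ _⟩

theorem h5conn_non (h2 : ∃ A ∈ S, ∃ B ∈ S, A ≠ B) (h : IsConnectedFamily (FAdj S) S) :
    ∀ A ∈ S, ∃ E ∈ S, IsRankOnePair A E := fun A hA => by
  obtain ⟨B, hB, C, hC, hne⟩ := h2
  by_cases e : B = A
  · exact h5Fnon (h A hA C hC) (e ▸ hne.symm)
  · exact h5Fnon (h A hA B hB) e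

include hS

theorem h5path {r : Subgroup G → Subgroup G → Prop} (hs : ∀ {A B}, ReflTransGen r A B → ReflTransGen r B A)
    (h : ∀ A ∈ S, ∀ B ∈ S, ∀ b ∈ B, ReflTransGen r A (conjBy A b)) (hc : IsConjClassOfSubgroups S) :
    IsConnectedFamily r S := by
  let K : Subgroup G :=
    { carrier := {g | ∀ A ∈ S, ReflTransGen r A (conjBy A g)}
      one_mem' := fun A _ => by rw [conjBy_one]
      mul_mem' := fun {x y} hx hy A hA => conjBy_conjBy A y x ▸ (hy A hA).trans (hx _ (hS.conj_mem A hA y))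
      inv_mem' := fun {x} hx A hA => by
        have := hx _ (hS.conj_mem A hA x⁻¹)
        rw [conjBy_conjBy, mul_inv_cancel, conjBy_one] at this
        exact hs this }
  have : K = ⊤ := hS.h5gen fun B hB b hb A hA => h A hA B hB b hb
  intro A hA B hB
  obtain ⟨g, rfl⟩ := hc.2 A hA B hB
  exact this.ge (Subgroup.mem_top g) A hA

theorem h5lp_path (hA : A ∈ S) (hB : B ∈ linePartners S A) (h1 : ∃ E ∈ S, IsRankOnePair A E)
    (h2 : ∃ E ∈ S, IsRankOnePair B E) : ReflTransGen (FAdj S) A B := by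
  obtain ⟨E, hE, h1⟩ := h1
  obtain ⟨F, hF, h2⟩ := h2
  have s : ∀ {A B}, A ∈ S → B ∈ S → IsRankOnePair A B → ReflTransGen (FAdj S) A B := fun h1 h2 h3 => .single ⟨h1, h2, h3⟩
  by_cases h3 : IsRankOnePair B E
  · exact (s hA hE h1).trans (s hE hB.1.1 h3.h5symm)
  by_cases h4 : IsRankOnePair A F
  · exact (s hA hF h4).trans (s hF hB.1.1 h2.h5symm)
  obtain ⟨a, ha, ha1⟩ := hS.h5ex hA
  obtain ⟨b, hb, hb1⟩ := hS.h5ex hB.1.1
  obtain ⟨D, hD, hd⟩ := hB.2.2.1 _ (mul_mem (Subgroup.mem_sup_right hb) (Subgroup.mem_sup_left ha))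
    fun e => ha1 (lp_inf hA hB ha (eq_inv_of_mul_eq_one_right e ▸ inv_mem hb))
  have h5 := hS.h5L1 h1 hE hB.1.1 hD.1 h3 ha ha1 hb ((lp_comm hB).symm b hb) hd
  have h6 := hS.h5L1 h2 hF hA hD.1 h4 hb hb1 ha (lp_comm hB a ha) (lp_comm hB a ha b hb ▸ hd)
  exact (((s hA hE h1).trans (s hE hD.1 h5.h5symm)).trans (s hD.1 hF h6)).trans (s hF hB.1.1 h2.h5symm)

theorem h5class_non (hc : IsConjClassOfSubgroups S) (h : ∃ A ∈ S, ∃ E ∈ S, IsRankOnePair A E) :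
    ∀ A ∈ S, ∃ E ∈ S, IsRankOnePair A E := fun A hA => by
  obtain ⟨B, hB, E, hE, h⟩ := h
  obtain ⟨g, rfl⟩ := hc.2 B hB A hA
  exact ⟨_, hS.conj_mem E hE g, h.h5conj g⟩

theorem h5lp2 (hF : ∀ A ∈ S, ∃ E ∈ S, IsRankOnePair A E) (hA : A ∈ S) (h : RootCommutatorCase S A B) {b : G} (hb : b ∈ B) :
    A ∈ linePartners S ⁅A, B⁆ ∧ conjBy A b ∈ linePartners S ⁅A, B⁆ := by
  obtain ⟨E, hE, h1⟩ := hF A hA
  exact ⟨hS.h5lp h1 hE hA h, h.h5cr.conjBy_eq hb ▸ hS.h5lp_conj (hS.h5lp h1 hE hA h) b⟩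

theorem h5Fconn (hc : IsConjClassOfSubgroups S) (hF : ∀ A ∈ S, ∃ E ∈ S, IsRankOnePair A E) :
    IsConnectedFamily (FAdj S) S := by
  refine hS.h5path h5Fsymm (fun A hA B hB b hb => ?_) hc
  rcases hS.h5tri hB hA with h | h | h
  · rw [h.conjBy_eq hb]
  · by_cases h1 : b = 1
    · rw [h1, conjBy_one]
    · exact .single ⟨hA, hS.conj_mem A hA b, h.h5pair' hb h1⟩
  · obtain ⟨h1, h2⟩ := hS.h5lp2 hF hA h.h5symm hb
    exact (h5Fsymm (hS.h5lp_path h.h5symm.1 h1 (hF _ h.h5symm.1) (hF A hA))).trans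
      (hS.h5lp_path h.h5symm.1 h2 (hF _ h.h5symm.1) (hF _ h2.1.1))

theorem h5haslp (hc : IsConjClassOfSubgroups S) (hF : ∀ A ∈ S, ∃ E ∈ S, IsRankOnePair A E)
    (h : ∃ A ∈ S, ∃ B ∈ S, RootCommutatorCase S A B) (hA : A ∈ S) : ∃ B, B ∈ linePartners S A := by
  obtain ⟨C, hC, D, -, h⟩ := h
  obtain ⟨g, rfl⟩ := hc.2 _ h.1 A hA
  exact ⟨_, hS.h5lp_conj (hS.h5lp2 hF hC h (one_mem _)).1 g⟩

theorem h5K4 (hF : ∀ A ∈ S, ∃ E ∈ S, IsRankOnePair A E) (hA : A ∈ S) (hB : B ∈ linePartners S A) (hE : E ∈ S)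
    (h : IsRankOnePair A E) : ∃ C ∈ linePartners S A, RootCommutatorCase S E C ∧ RootCommutatorCase S A ⁅E, C⁆ ∧
      ⁅A, ⁅E, C⁆⁆ = C ∧ A ⊔ C = A ⊔ B := by
  obtain ⟨C, hC, k1, k2, k3, k4⟩ := hS.h5K3 hF hA hB hE h
  exact ⟨C, lp_symm hC (k3 ▸ hS.h5lp h hE hA k2), k1, k2, k3, k4⟩

theorem h5special (hF : ∀ A ∈ S, ∃ E ∈ S, IsRankOnePair A E) (hA : A ∈ S) (hB : B ∈ linePartners S A) (hE : E ∈ S)
    (h : IsRankOnePair A E) : IsSpecialRankOnePair A E := by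
  obtain ⟨C, hC, k1, k2, k3, -⟩ := hS.h5K3 hF hA hB hE h
  exact hS.h5sl_special k2.h5symm (by rw [Subgroup.commutator_comm, k3]; exact k1.h5symm) rfl
    (by rw [Subgroup.commutator_comm _ A, k3, Subgroup.commutator_comm]) hA hE

theorem h5Econn (hc : IsConjClassOfSubgroups S) (hF : ∀ A ∈ S, ∃ E ∈ S, IsRankOnePair A E)
    (h : ∃ A ∈ S, ∃ B ∈ S, RootCommutatorCase S A B) : IsConnectedFamily (EAdj S S) S := by
  have s : ∀ {A B}, A ∈ S → B ∈ linePartners S A → ReflTransGen (EAdj S S) A B := fun h1 h2 => .single ⟨h1, h2.1.1, h2⟩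
  have k : ∀ A ∈ S, ∀ B, RootCommutatorCase S A B → ∀ b ∈ B, ReflTransGen (EAdj S S) A (conjBy A b) := by
    intro A hA B h b hb
    obtain ⟨h1, h2⟩ := hS.h5lp2 hF hA h hb
    exact (h5Esymm (s h.1 h1)).trans (s h.1 h2)
  refine hS.h5path h5Esymm (fun A hA B hB b hb => ?_) hc
  rcases hS.h5tri hA hB with h1 | h1 | h1
  · rw [h1.symm.conjBy_eq hb]
  · obtain ⟨D, hD⟩ := hS.h5haslp hc hF h hA
    obtain ⟨C, hC, k1, -⟩ := hS.h5K4 hF hA hD hB h1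
    exact ((s hA hC).trans (k C hC.1.1 B k1.h5symm b hb)).trans
      (h5Esymm (s (hS.conj_mem A hA b) (hS.h5lp_conj hC b)))
  · exact k A hA B h1 b hb

theorem h5lp_gen (hc : IsConjClassOfSubgroups S) (hF : ∀ A ∈ S, ∃ E ∈ S, IsRankOnePair A E)
    (h : ∃ A ∈ S, ∃ B ∈ S, RootCommutatorCase S A B) (hA : A ∈ S) (hB : B ∈ S) (hAB : IsRankOnePair A B)
    {H : Subgroup G} (h1 : ∀ C ∈ linePartners S A, C ≤ H) (h2 : B ≤ H) : H = ⊤ := by
  have k1 : ∀ C ∈ linePartners S A, ∃ x ∈ H, C = conjBy A x := fun C hC => by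
    obtain ⟨D, hD, k1, k2, k3, k4⟩ := hS.h5K4 hF hA hC hB hAB
    have hle : ⁅B, D⁆ ≤ H := (Subgroup.commutator_le_sup _ _).trans (sup_le h2 (h1 D hD))
    rcases (hS.h5line hAB hB hA k2).1 ⟨hC.1.1, k3.symm ▸ k4 ▸ le_sup_right⟩ with ⟨f, hf, e⟩ | e
    · exact ⟨f, hle hf, e.symm⟩
    · obtain ⟨P, hP, l1, l2⟩ := hS.h5excomm hF hA hD
      obtain ⟨x, hx, e'⟩ := (hS.h5sl_orb k2 l1 k3 l2 k1.1 hP).ge (Or.inr rfl)
      exact ⟨x, sup_le hle (h1 P (by rw [← l2, Subgroup.commutator_comm]; exact (hS.h5lp2 hF hP l1.h5symm (one_mem _)).1)) hx,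
        e.trans (k3.trans e')⟩
  have k2 : A ≤ H := by
    obtain ⟨C, hC⟩ := hS.h5haslp hc hF h hA
    obtain ⟨P, hP, l1, l2⟩ := hS.h5excomm hF hA hC
    exact l2 ▸ (Subgroup.commutator_le_sup _ _).trans (sup_le (h1 C hC) (h1 P (by
      rw [← l2, Subgroup.commutator_comm]; exact (hS.h5lp2 hF hP l1.h5symm (one_mem _)).1)))
  refine hS.h5gen fun D hD => ?_
  suffices ∃ x ∈ H, D = conjBy A x by
    obtain ⟨x, hx, rfl⟩ := this
    exact conjBy_le k2 hx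
  have := hS.h5Econn hc hF h A hA D hD
  clear hD
  induction this with
  | refl => exact ⟨1, one_mem _, (conjBy_one A).symm⟩
  | tail _ h3 ih =>
    obtain ⟨x, hx, rfl⟩ := ih
    have := hS.h5lp_conj h3.2.2 x⁻¹
    rw [← conjBy_eq_iff.1 rfl] at this
    obtain ⟨y, hy, e⟩ := k1 _ this
    exact ⟨_, mul_mem hx hy, by rw [← conjBy_conjBy, ← e, conjBy_conjBy, mul_inv_cancel, conjBy_one]⟩

/-- a member commuting with `B` and opposite to `A` in the commutator case -/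
theorem h5cc_opp (hF : ∀ A ∈ S, ∃ E ∈ S, IsRankOnePair A E) (hA : A ∈ S) (hB : B ∈ S) (h : RootCommutatorCase S A B) :
    ∃ P ∈ S, Comm B P ∧ IsRankOnePair A P := by
  obtain ⟨P, hP, l1, l2⟩ := hS.h5excomm hF hB (lp_symm h.h5symm.1 (hS.h5lp2 hF hB h.h5symm (one_mem _)).1)
  exact ⟨P, hP, (l2 ▸ l1.h5cr : Comm P B).symm, hS.h5sl_opp h.h5symm l1 rfl l2 hA hP⟩

omit hS in
theorem h5order {r : Subgroup G → Subgroup G → Prop} (h1 : ∀ {A B C}, r A B → r B C → r A C)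
    (h2 : ∀ {A B} g, r A B → r (conjBy A g) (conjBy B g)) (h3 : ∀ {A B}, IsRankOnePair A B → A ∈ S → B ∈ S → ¬ r A B)
    (hS' : ∀ A ∈ S, ∀ g, conjBy A g ∈ S) (h : r A C) (hc : Comm A C) (hD : D ∈ S) (hA : IsRankOnePair A D)
    (hC : IsRankOnePair C D) : r C A := by
  have k : ∀ c ∈ C, c ≠ 1 → ∃ a ∈ A, ∃ e, conjBy C e = conjBy D c ∧ conjBy A e = conjBy D a ∧ r (conjBy D (c⁻¹ * a)) D := by
    intro c hc h1
    obtain ⟨a, ha, -, e, -, e1, e2⟩ := two_opp hC hA hc h1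
    have := h2 c⁻¹ (h2 e h)
    rw [e1, e2, conjBy_conjBy, conjBy_conjBy, inv_mul_cancel, conjBy_one] at this
    exact ⟨a, ha, e, e1, e2, this⟩
  obtain ⟨c, hc', hc1⟩ := hC.h5ex
  obtain ⟨a, ha, e, e1, e2, r1⟩ := k c hc' hc1
  obtain ⟨a', ha', -, -, -, r2⟩ := k c⁻¹ (inv_mem hc') (inv_ne_one.2 hc1)
  have r3 := h1 (h2 (c⁻¹ * a) r2) r1
  rw [conjBy_conjBy, inv_inv, ← hc a ha _ (inv_mem hc'), mul_assoc, inv_mul_cancel_left] at r3
  have e3 : a * a' = 1 := by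
    by_contra h4
    exact h3 (hA.h5pair' (mul_mem ha ha') h4).h5symm (hS' D hD _) hD r3
  have := h2 e⁻¹ (h2 a r2)
  rwa [conjBy_conjBy D, inv_inv, ← mul_assoc, hc a ha c hc', mul_assoc, e3, mul_one, ← e1, ← e2, ← conjBy_eq_iff.1 rfl,
    ← conjBy_eq_iff.1 rfl] at this

end Cfsg.IsRootSubgroupSet
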