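import Cfsg.Agent.H5.QP6
import Cfsg.Agent.H5.RS4

/-! Components of the root subgroups of a quadratic pair. -/

namespace H5.QP
open Cfsg H5.RS Module Matrix Relation
open scoped commutatorElement MatrixGroups

section Grp
variable {G K : Type*} [Group G] [Group K] {f : K →* G} (hf : Function.Injective f) {A B : Subgroup K}
include hf

theorem pair_refl (h : IsRankOnePair (A.map f) (B.map f)) : IsRankOnePair A B := by
  have n : ∀ {A : Subgroup K}, Group.IsNilpotent (A.map f) → Group.IsNilpotent A := fun {A} h =>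
    Group.nilpotent_of_mulEquiv (A.equivMapOfInjective f hf).symm
  have c : ∀ {A B : Subgroup K}, RankOneCondition (A.map f) (B.map f) → RankOneCondition A B := fun h a ha h1 => by
    obtain ⟨_, ⟨b, hb, rfl⟩, b1, e⟩ := h _ ⟨a, ha, rfl⟩ ((map_ne_one_iff f hf).2 h1)
    exact ⟨b, hb, (map_ne_one_iff f hf).1 b1, Subgroup.map_injective hf (by rwa [map_conjBy, map_conjBy, map_inv, map_inv])⟩
  exact ⟨fun e => h.ne (by rw [e]), n h.nilpotent_left, n h.nilpotent_right, c h.cond_left, c h.cond_right⟩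

theorem cc_refl {S : Set (Subgroup G)} (h : RootCommutatorCase S (A.map f) (B.map f)) :
    RootCommutatorCase {C | C.map f ∈ S} A B := by
  obtain ⟨h1, h2, h3, h4⟩ := h
  rw [← Subgroup.map_commutator] at h1 h2 h3 h4
  rw [← Subgroup.map_sup] at h2
  refine ⟨h1, fun c hc x hx => hf (by simpa using h2 _ ⟨c, hc, rfl⟩ _ ⟨x, hx, rfl⟩), fun a ha a1 => Subgroup.map_injective hf ?_,
    fun a ha a1 => Subgroup.map_injective hf ?_⟩
  · rw [← h3 _ ⟨a, ha, rfl⟩ ((map_ne_one_iff f hf).2 a1), MonoidHom.map_closure]; simp [Set.image_image]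
  · rw [← h4 _ ⟨a, ha, rfl⟩ ((map_ne_one_iff f hf).2 a1), MonoidHom.map_closure]; simp [Set.image_image]

omit hf

theorem root_sub {S : Set (Subgroup G)} (h1 : ∀ A ∈ S, Comm A A) (h2 : ∀ A ∈ S, A ≠ ⊥)
    (h3 : ∀ A ∈ S, ∀ g ∈ ⨆ A ∈ S, A, conjBy A g ∈ S)
    (h4 : ∀ A ∈ S, ∀ B ∈ S, ⁅A, B⁆ = ⊥ ∨ IsRankOnePair A B ∨ RootCommutatorCase S A B) :
    IsRootSubgroupSet ((fun A : Subgroup G => A.subgroupOf (⨆ B ∈ S, B)) '' S) := by
  generalize hH : ⨆ B ∈ S, B = H at *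
  have le : ∀ A ∈ S, A ≤ H := fun A hA x hx => hH ▸ mem_bisup hA hx
  have hf := H.subtype_injective
  have e : (fun A : Subgroup G => A.subgroupOf H) '' S = {C | C.map H.subtype ∈ S} := Set.ext fun C =>
    ⟨by rintro ⟨A, hA, rfl⟩; simpa [inf_eq_left.2 (le A hA)] using hA, fun h => ⟨_, h, Subgroup.comap_map_eq_self_of_injective hf C⟩⟩
  rw [e]
  refine ⟨fun A hA => Comm.isMulCommutative fun a ha b hb => hf (h1 _ hA _ ⟨a, ha, rfl⟩ _ ⟨b, hb, rfl⟩),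
    fun A hA e => h2 _ hA (by simp [e]), Subgroup.map_injective hf (le_antisymm (by simp [Subgroup.map_subtype_le]) ?_),
    fun A hA g => by simpa [map_conjBy] using h3 _ hA g g.2, fun A hA B hB => (h4 _ hA _ hB).imp (fun e => ?_)
      (Or.imp (pair_refl hf) (cc_refl hf))⟩
  · rw [← MonoidHom.range_eq_map, Subgroup.range_subtype]
    nth_rw 1 [← hH]
    refine iSup₂_le fun A hA x hx => ⟨⟨x, le A hA hx⟩, mem_bisup (A := A.subgroupOf H) (e.le ⟨A, hA, rfl⟩) hx, rfl⟩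
  · rwa [← Subgroup.map_commutator, Subgroup.map_eq_bot_iff_of_injective _ hf] at e

theorem quasi_of {L : Subgroup G} (h1 : L ≤ ⁅L, L⁆) (h2 : ¬ Comm L L)
    (h : ∀ N ≤ L, (∀ g ∈ L, ∀ n ∈ N, g * n * g⁻¹ ∈ N) → L ≤ N ∨ Comm N L) : IsQuasisimple L := by
  refine ⟨Subgroup.isPerfect_iff.2 (le_antisymm (Subgroup.commutator_le_self _) h1), @IsSimpleGroup.mk _ _
    (QuotientGroup.nontrivial_iff.2 fun e => h2 fun a ha b hb =>
      congrArg Subtype.val (Subgroup.mem_center_iff.1 (e.ge trivial : (⟨b, hb⟩ : L) ∈ _) ⟨a, ha⟩)) fun N hN => ?_⟩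
  rcases h ((N.comap (QuotientGroup.mk' _)).map L.subtype) (Subgroup.map_subtype_le _) (by
    rintro g hg _ ⟨n, hn, rfl⟩
    exact ⟨_, (hN.comap _).conj_mem n hn ⟨g, hg⟩, rfl⟩) with e | e
  · refine Or.inr (top_le_iff.1 ?_)
    rintro ⟨x⟩ -
    obtain ⟨y, hy, e⟩ := e x.2
    exact Subtype.ext e ▸ hy
  · exact Or.inl (eq_bot_iff.2 (by
      rintro ⟨x⟩ hx
      exact (QuotientGroup.eq_one_iff x).2 (Subgroup.mem_center_iff.2 fun g => Subtype.ext (e _ ⟨x, hx, rfl⟩ _ g.2).symm)))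

end Grp

variable {k : Type*} [Field k] {M : Type*} [AddCommGroup M] [Module k M]
variable {T : Submonoid (End k M)} {d : ℕ} {α β γ δ : End k M}

theorem card_k (h2 : ringChar k ≠ 2) (h3 : Nat.card k ≠ 3) : 3 < ENat.card k := by
  obtain ⟨t, t0, t1⟩ := ex_unit h2 h3
  have a1 : t ≠ 1 := by rintro rfl; simp at t1
  have a2 : t ≠ -1 := by rintro rfl; simp at t1
  have a3 : (1 : k) ≠ -1 := fun e => Ring.two_ne_zero h2 (by linear_combination e)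
  have := ENat.card_le_card_of_injective (f := (![0, 1, -1, t] : Fin 4 → k)) (by
    intro i j; fin_cases i <;> fin_cases j <;> simp [t0, a1, a2, a3, t0.symm, a1.symm, a2.symm, a3.symm])
  exact lt_of_lt_of_le (by simp; norm_num) this

theorem Pt.sl2 (h : Pt α β) : ∃ f : SL(2, k) →* (End k M)ˣ, ∀ g, (f g : End k M) =
    1 + (1 - g 0 0) • (α * β) + g 0 1 • α - g 1 0 • β + (1 - g 1 1) • (β * α) := by
  refine ⟨MonoidHom.toHomUnits ⟨⟨fun g => 1 + (1 - g 0 0) • (α * β) + g 0 1 • α - g 1 0 • β + (1 - g 1 1) • (β * α), by simp⟩,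
    fun x y => ?_⟩, fun _ => MonoidHom.coe_toHomUnits _ _⟩
  simp only [Matrix.SpecialLinearGroup.coe_mul, Matrix.mul_apply, Fin.sum_univ_two, mul_add, add_mul, mul_sub, sub_mul, smul_mul_assoc,
    mul_smul_comm, mul_assoc, h.a, h.b, h.aba, h.bab, h.a', h.b', h.aba', h.bab', mul_zero, mul_one, one_mul, mul_neg]
  module

theorem Pt.psl (h : Pt α β) (h0 : α ≠ 0) (ha : α ∈ cls T γ) (hb : β ∈ cls T δ) :
    ∃ A₀ B₀ : Subgroup (End k M)ˣ, A₀ ≤ EE T γ ∧ B₀ ≤ EE T δ ∧ IsPSL2PairOver k A₀ B₀ := by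
  obtain ⟨f, hf⟩ := h.sl2
  have e1 : ∀ t, (f (up t) : End k M) = 1 + t • α := fun t => by simp [hf]
  have e2 : ∀ t, (f (lo t) : End k M) = 1 + (-t) • β := fun t => by simp [hf, sub_eq_add_neg]
  refine ⟨_, _, ?_, ?_, f, by rw [← Subgroup.map_sup, sl_sup, MonoidHom.range_eq_map], sl_ker f (s := 1) (t := -1) fun c => h0 ?_,
    rfl, rfl⟩
  · rintro _ ⟨_, hx, rfl⟩; obtain ⟨t, rfl⟩ := mem_upper.1 hx; exact EE_of (Submodule.smul_mem _ _ ha) (e1 t)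
  · rintro _ ⟨_, hx, rfl⟩; obtain ⟨t, rfl⟩ := mem_lower.1 hx; exact EE_of (Submodule.smul_mem _ _ hb) (e2 t)
  · have := congrArg (fun x : (End k M)ˣ => α * (x : End k M)) c
    simpa [e1, e2, mul_add, add_mul, h.a, h.a', h.aba] using this

variable [FiniteDimensional k M] {G A B C : Subgroup (End k M)ˣ}

theorem Min.psl (hm : Min T d) (hA : A ∈ Sg T d) (hB : B ∈ Sg T d) (p : IsRankOnePair A B) :
    ∃ A₀ B₀ : Subgroup (End k M)ˣ, A₀ ≤ A ∧ B₀ ≤ B ∧ IsPSL2PairOver k A₀ B₀ := by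
  obtain ⟨α, h, rfl⟩ := hA
  obtain ⟨β, h', rfl⟩ := hB
  obtain ⟨y, hy, -, p⟩ := hm.partner h h' (hm.opp_of h h' p)
  exact p.psl (hm.ne h) (cls_self h.1) hy

omit [FiniteDimensional k M] in
theorem Sg_comm (hA : A ∈ Sg T d) : Comm A A := by obtain ⟨α, h, rfl⟩ := hA; exact EE_comm h.1.1

omit [FiniteDimensional k M] in
theorem Sg_le (hA : A ∈ Sg (TG G) d) : A ≤ G := by obtain ⟨α, h, rfl⟩ := hA; exact EE_le h.1.1

theorem Min.Sg_ne (hm : Min T d) (hA : A ∈ Sg T d) : A ≠ ⊥ := by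
  obtain ⟨α, h, rfl⟩ := hA
  obtain ⟨a, ha, -, a1⟩ := hm.EE_ne h
  exact fun e => a1 (e.le ha)

theorem Min.perf (hm : Min T d) (hA : A ∈ Sg T d) (hB : B ∈ Sg T d) (p : IsRankOnePair A B) : A ⊔ B ≤ ⁅A ⊔ B, A ⊔ B⁆ := by
  obtain ⟨α, h, rfl⟩ := hA
  obtain ⟨β, h', rfl⟩ := hB
  refine sp_perfect (hm.special h h' (hm.opp_of h h' p)) (EE_comm h.1.1) ((card_k hm.h2 hm.h3).trans_le ?_)
  choose g hg e _ using fun c : k => EE_ex h.1.1 (Submodule.smul_mem _ c (cls_self h.1))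
  refine ENat.card_le_card_of_injective (f := fun c => ⟨g c, hg c⟩) fun c c' e' => smul_left_injective k (hm.ne h) ?_
  simpa [e] using congrArg (fun x : EE T α => (x.1 : End k M)) e'

theorem Min.unip_comm (hm : Min T d) (hA : A ∈ Sg T d) (hB : B ∈ Sg T d) (p : Comm A B) : IsUnipotentOn (A ⊔ B) := by
  obtain ⟨α, h, rfl⟩ := hA
  obtain ⟨β, h', rfl⟩ := hB
  exact (hm.nop h h' fun o => (hm.special h h' o).1.h5not_comm p).unip le_rfl

variable (hm : Min (TG G) d) (hG : IsIrreducibleFor G)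
include hm hG

theorem Min.Sg_opp (hA : A ∈ Sg (TG G) d) : ∃ B ∈ Sg (TG G) d, IsRankOnePair A B := by
  obtain ⟨α, h, rfl⟩ := hA
  obtain ⟨β, h', o⟩ := hm.ex_opp hG α h
  exact ⟨_, ⟨β, h', rfl⟩, (hm.special h h' o.symm).1⟩

theorem Min.cc_conn (hA : A ∈ Sg (TG G) d) (hB : B ∈ Sg (TG G) d) (h : ¬ IsRankOnePair A B) (h0 : ¬ Comm A B) :
    ReflTransGen (FAdj (Sg (TG G) d)) B ⁅A, B⁆ := by
  obtain ⟨α, h1, rfl⟩ := hA
  obtain ⟨β, h2, rfl⟩ := hB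
  obtain ⟨x, y, hx, hy, e1, e2, n, h3⟩ := hm.ncomm h1 h2 (hm.nop h1 h2 fun o => h (hm.special h1 h2 o).1) h0
  rw [e1, e2, hm.cc5 (hm.ex_opp hG) hx hy n h3]
  have c := (hm.cc1 hx hy n h3).1
  obtain ⟨δ, hδ, o⟩ := hm.ex_opp hG _ c
  have : ∀ {δ}, Nd (TG G) d δ → Opp δ (x * y - y * x) → Opp δ y → ReflTransGen (FAdj (Sg (TG G) d)) (EE (TG G) y)
      (EE (TG G) (x * y - y * x)) := fun {δ} hδ o o' => (ReflTransGen.single ⟨⟨_, hy, rfl⟩, ⟨_, hδ, rfl⟩,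
        (hm.special hy hδ o'.symm).1⟩).tail ⟨⟨_, hδ, rfl⟩, ⟨_, c, rfl⟩, (hm.special hδ c o).1⟩
  refine (hm.cc_opp hx hy n hδ o).elim (this hδ o) fun o' => ?_
  obtain ⟨a, ha, e, -⟩ := hm.EE_ne hx
  have e' := inv_val hx.1.1 e
  have aba := n.aba (cls_self hx.1) (cls_self hy.1) (cls_self hx.1)
  have cj : ∀ {u v : End k M}, Opp δ u → u = (a : End k M) * v * (a⁻¹ : (End k M)ˣ) →
      Opp (((a⁻¹ : (End k M)ˣ) : End k M) * δ * ((a⁻¹⁻¹ : (End k M)ˣ) : End k M)) v := by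
    rintro _ v o rfl
    exact ⟨fun w e => by simpa [mul_assoc] using o.1 (a * w) (by simpa [mul_assoc] using e),
      fun w e => by simpa [mul_assoc] using o.2 (a * w) (by simpa [mul_assoc] using e)⟩
  refine this (hδ.gconj (inv_mem (EE_le hx.1.1 ha))) (cj o ?_) (cj o' ?_)
  · simp [e, e', mul_sub, sub_mul, add_mul, mul_assoc, aba, hx.1.1, ← mul_assoc x x]
  · simp [e, e', mul_sub, add_mul, mul_assoc, aba]; abel

theorem Min.conn (hA : A ∈ Sg (TG G) d) (hB : B ∈ Sg (TG G) d) (h0 : ¬ Comm A B) : ReflTransGen (FAdj (Sg (TG G) d)) A B := by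
  by_cases h : IsRankOnePair A B
  · exact .single ⟨hA, hB, h⟩
  exact (hm.cc_conn hG hB hA (fun p => h p.h5symm) fun c => h0 c.symm).trans
    (Subgroup.commutator_comm A B ▸ IsRootSubgroupSet.h5Fsymm (hm.cc_conn hG hA hB h h0))

theorem Min.conn_conj (hA : A ∈ Sg (TG G) d) {g : (End k M)ˣ} (hg : g ∈ ⨆ B ∈ Sg (TG G) d, B) :
    ReflTransGen (FAdj (Sg (TG G) d)) A (conjBy A g) := by
  refine (bisup_ind (p := fun g => g ∈ G ∧ ∀ A ∈ Sg (TG G) d, ReflTransGen (FAdj (Sg (TG G) d)) A (conjBy A g))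
    ⟨one_mem _, fun A _ => by rw [conjBy_one]⟩ (fun B hB b hb => ⟨Sg_le hB hb, fun A hA => ?_⟩)
    (fun x y hx hy => ⟨mul_mem hx.1 hy.1, fun A hA => conjBy_conjBy A y x ▸ (hy.2 A hA).trans (hx.2 _ (Sg_conj hA hy.1))⟩) hg).2 A hA
  by_cases c : Comm B A
  · rw [c.conjBy_eq hb]
  exact (hm.conn hG hA hB fun a => c a.symm).trans (hm.conn hG hB (Sg_conj hA (Sg_le hB hb)) fun a => c (by
    simpa [conjBy_conjBy, conjBy_one, conjBy_of_mem (inv_mem hb)] using a.conj b⁻¹))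

theorem Min.cent {x : (End k M)ˣ} (hx : x ∈ G) (h : ∀ A ∈ Sg (TG G) d, ∀ D ∈ Sg (TG G) d, Comm (conjBy A x) D ↔ Comm A D)
    (hA : A ∈ Sg (TG G) d) : ∀ a ∈ A, x * a = a * x := by
  let K : Subgroup (End k M)ˣ :=
    { carrier := {x | x ∈ G ∧ ∀ A ∈ Sg (TG G) d, ∀ D ∈ Sg (TG G) d, Comm (conjBy A x) D ↔ Comm A D}
      one_mem' := ⟨one_mem _, by simp [conjBy_one]⟩
      mul_mem' := fun {x y} hx hy => ⟨mul_mem hx.1 hy.1, fun A hA D hD => by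
        rw [← conjBy_conjBy, hx.2 _ (Sg_conj hA hy.1) D hD, hy.2 A hA D hD]⟩
      inv_mem' := fun {x} hx => ⟨inv_mem hx.1, fun A hA D hD => by
        rw [← hx.2 _ (Sg_conj hA (inv_mem hx.1)) D hD, conjBy_conjBy, mul_inv_cancel, conjBy_one]⟩ }
  have cc : ∀ {A D : Subgroup (End k M)ˣ} g, Comm (conjBy A g) D ↔ Comm A (conjBy D g⁻¹) := fun g =>
    ⟨fun a => by simpa [conjBy_conjBy, conjBy_one] using a.conj g⁻¹, fun a => by simpa [conjBy_conjBy, conjBy_one] using a.conj g⟩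
  have kn : ∀ g ∈ G, ∀ x ∈ K, g * x * g⁻¹ ∈ K := fun g hg x hx => ⟨mul_mem (mul_mem hg hx.1) (inv_mem hg), fun A hA D hD => by
    rw [← conjBy_conjBy, ← conjBy_conjBy, cc, hx.2 _ (Sg_conj hA (inv_mem hg)) _ (Sg_conj hD (inv_mem hg)), cc, conjBy_conjBy,
      inv_inv, mul_inv_cancel, conjBy_one]⟩
  let P : Subgroup (End k M)ˣ → Set (Subgroup (End k M)ˣ) := fun A =>
    {C | C ∈ Sg (TG G) d ∧ ∀ D ∈ Sg (TG G) d, Comm C D ↔ Comm A D}
  have p1 : ∀ A, ∀ g ∈ G, ∀ u ∈ ⨆ C ∈ P A, C, g * u * g⁻¹ ∈ ⨆ C ∈ P (conjBy A g), C := fun A g hg u =>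
    bisup_ind (p := fun u => g * u * g⁻¹ ∈ ⨆ C ∈ P (conjBy A g), C) (by simp) (fun C hC c hc => mem_bisup (S := P _) (A := conjBy C g)
      ⟨Sg_conj hC.1 hg, fun D hD => by rw [cc, cc, hC.2 _ (Sg_conj hD (inv_mem hg))]⟩ (RS.conj_mem hc))
      fun x y hx hy => by simpa [mul_assoc] using mul_mem hx hy
  have p2 : ∀ A ∈ Sg (TG G) d, ∀ x ∈ K, P (conjBy A x) = P A := fun A hA x hx => Set.ext fun C => and_congr_right fun _ =>
    forall₂_congr fun D hD => by rw [hx.2 A hA D hD]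
  let W := {U | ∃ A ∈ Sg (TG G) d, U = K ⊓ ⨆ C ∈ P A, C}
  have w1 : ∀ U ∈ W, ∀ g ∈ G, conjBy U g ∈ W := by
    rintro _ ⟨A, hA, rfl⟩ g hg
    refine ⟨_, Sg_conj hA hg, le_antisymm ?_ fun u hu => mem_conjBy.2 (Subgroup.mem_inf.2 ⟨by simpa using kn _ (inv_mem hg) _ hu.1, ?_⟩)⟩
    · rintro _ ⟨u, hu, rfl⟩; exact ⟨kn g hg u hu.1, p1 A g hg u hu.2⟩
    · simpa [conjBy_conjBy, conjBy_one] using p1 _ _ (inv_mem hg) u hu.2
  have w2 : ∀ A ∈ Sg (TG G) d, IsNilpotent (aug k {K ⊓ ⨆ C ∈ P A, C}) := fun A hA => by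
    have c : ∀ B ∈ P A, ∀ C ∈ P A, Comm B C := fun B hB C hC => (hB.2 C hC.1).2 ((hC.2 A hA).2 (Sg_comm hA)).symm
    refine nil_mono (aug_le (fun B hB g hg => aug_mem (hB.le hg).2) aug_mul) (unip_iff.1 (unip_all (fun B hB C hC b hb => ?_)
      fun B hB C hC => hm.unip_comm hB.1 hC.1 (c B hB C hC)))
    rwa [(c B hB C hC).conjBy_eq hb]
  have := unip_triv hG (unip_all (W := W) (fun A hA B hB a ha => w1 B hB a (by obtain ⟨_, -, rfl⟩ := hA; exact ha.1.1)) (by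
    rintro _ ⟨A, hA, rfl⟩ _ ⟨B, hB, rfl⟩
    rw [← iSup_pair (f := fun A => A)]
    refine unip_iff.2 (aug_ext (w2 A hA) (w2 B hB) ?_)
    rintro _ rfl b hb y hy
    refine aug_le (I := (aug k {K ⊓ ⨆ C ∈ P A, C}).comap ((LinearMap.mulRight k ((b⁻¹ : (End k M)ˣ) : End k M)).comp (LinearMap.mulLeft k (b : End k M))))
      ?_ (Submodule.mul_le.2 fun x hx y hy => by simpa [mul_assoc] using aug_mul (Submodule.mul_mem_mul hx hy)) hy
    rintro _ rfl g hg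
    simpa [mul_sub, sub_mul] using aug_mem (k := k) (mem_bisup (S := {K ⊓ ⨆ C ∈ P A, C}) rfl
      ⟨kn b hb.1.1 g hg.1, p2 A hA b hb.1 ▸ p1 A b hb.1.1 g hg.2⟩))) fun g hg u hu => mem_conjBy.1 ((conjBy_bisup w1 hg).ge hu)
  intro a ha
  have hK : x ∈ K := ⟨hx, h⟩
  have a1 : a ∈ ⨆ C ∈ P A, C := mem_bisup (S := P A) ⟨hA, fun _ _ => Iff.rfl⟩ ha
  have : x * a * x⁻¹ * a⁻¹ = 1 := this.le (mem_bisup (S := W) ⟨A, hA, rfl⟩ (Subgroup.mem_inf.2 ⟨by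
    simpa [mul_assoc] using mul_mem hK (kn a (Sg_le hA ha) _ (inv_mem hK)), mul_mem (p2 A hA x hK ▸ p1 A x hx a a1) (inv_mem a1)⟩))
  exact commutatorElement_eq_one_iff_mul_comm.1 this

end H5.QP
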