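import Cfsg.Agent.H5.QP7

/-! The quasisimple components. -/

namespace H5.QP
open Cfsg H5.RS Module Relation
open scoped commutatorElement

theorem cl_norm {G : Type*} [Group G] {L N A C U V : Subgroup G} (hN : ∀ g ∈ L, ∀ n ∈ N, g * n * g⁻¹ ∈ N) (hA : A ≤ L) (hC : C ≤ L)
    (h : Comm A C) (h1 : U ≤ A ⊔ N) (h2 : V ≤ C ⊔ N) : ⁅U, V⁆ ≤ N := by
  have c : ∀ g ∈ L, conjBy N g = N := fun g hg => Subgroup.ext fun x => mem_conjBy.trans
    ⟨fun h => by simpa [mul_assoc] using hN g hg _ h, fun h => by simpa using hN _ (inv_mem hg) _ h⟩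
  refine Subgroup.commutator_le.2 fun x hx y hy => ?_
  obtain ⟨a, ha, n, hn, rfl⟩ := (mem_sup_of_norm fun a ha => c a (hA ha)).1 (h1 hx)
  obtain ⟨b, hb, m, hm, rfl⟩ := (mem_sup_of_norm fun a ha => c a (hC ha)).1 (h2 hy)
  convert mul_mem (mul_mem (hN a (hA ha) n hn) (hN _ (mul_mem (hA ha) (hC hb)) _ (mul_mem hm (inv_mem hn))))
    (hN b (hC hb) _ (inv_mem hm)) using 1
  nth_rw 2 [h a ha b hb]
  rw [commutatorElement_def]; group

theorem comm_bisup {G : Type*} [Group G] {S : Set (Subgroup G)} {A : Subgroup G} (h : ∀ B ∈ S, Comm A B) : Comm A (⨆ B ∈ S, B) :=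
  fun a ha _ => bisup_ind (p := fun b => a * b = b * a) (by simp) (fun B hB => h B hB a ha) fun x y hx hy => by
    rw [← mul_assoc, hx, mul_assoc, hy, mul_assoc]

variable {k : Type*} [Field k] {M : Type*} [AddCommGroup M] [Module k M] {d : ℕ} {G A B C : Subgroup (End k M)ˣ}

/-- component -/
def cp (G : Subgroup (End k M)ˣ) (d : ℕ) (A : Subgroup (End k M)ˣ) := componentOf (FAdj (Sg (TG G) d)) (Sg (TG G) d) A

theorem cp_eq (h : B ∈ cp G d A) : cp G d B = cp G d A :=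
  Set.ext fun _ => and_congr_right fun _ => ⟨h.2.trans, (IsRootSubgroupSet.h5Fsymm h.2).trans⟩

theorem cp_self (h : A ∈ Sg (TG G) d) : A ∈ cp G d A := ⟨h, .refl⟩

theorem cp_le : ⨆ B ∈ cp G d A, B ≤ ⨆ B ∈ Sg (TG G) d, B := iSup₂_le fun _ h _ => mem_bisup h.1

theorem Sg_le' : ⨆ B ∈ Sg (TG G) d, B ≤ G := iSup₂_le fun _ => Sg_le

theorem cp_opp (h : B ∈ cp G d A) (hC : C ∈ Sg (TG G) d) (p : IsRankOnePair B C) : C ∈ cp G d A := ⟨hC, h.2.tail ⟨h.1, hC, p⟩⟩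

theorem cp_class (hA : A ∈ Sg (TG G) d) (h : B ∈ cp G d A) : ∃ g ∈ ⨆ B ∈ cp G d A, B, B = conjBy A g := by
  obtain ⟨h1, h⟩ := h
  induction h with
  | refl => exact ⟨1, one_mem _, (conjBy_one _).symm⟩
  | tail h2 h3 ih =>
    obtain ⟨g, hg, e⟩ := ih h3.1
    obtain ⟨x, hx, e', -⟩ := h3.2.2.h5swap
    exact ⟨x * g, mul_mem ((sup_le (fun _ => mem_bisup (S := cp G d A) ⟨h3.1, h2⟩)
      (fun _ => mem_bisup (S := cp G d A) ⟨h1, h2.tail h3⟩) : _ ≤ ⨆ B ∈ cp G d A, B) hx) hg, by rw [← conjBy_conjBy, ← e, e']⟩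

variable [FiniteDimensional k M] 

theorem cp_conjG (h : B ∈ cp G d A) {g : (End k M)ˣ} (hg : g ∈ G) : conjBy B g ∈ cp G d (conjBy A g) :=
  ⟨Sg_conj h.1 hg, h.2.lift (fun A => conjBy A g) fun _ _ h => ⟨Sg_conj h.1 hg, Sg_conj h.2.1 hg, h.2.2.h5conj g⟩⟩

variable (hm : Min (TG G) d) (hG : IsIrreducibleFor G)
include hm hG

theorem Min.cp_out (h : B ∈ cp G d A) (hC : C ∈ Sg (TG G) d) (h1 : C ∉ cp G d A) : Comm B C :=
  not_not.1 fun c => h1 ⟨hC, h.2.trans (hm.conn hG h.1 hC c)⟩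

theorem Min.cp_comm (h : cp G d A ≠ cp G d B) : Comm (⨆ C ∈ cp G d A, C) (⨆ C ∈ cp G d B, C) :=
  comm_bisup fun _ hC => (comm_bisup fun _ hD => (hm.cp_out hG hD hC.1 fun a => h ((cp_eq a).symm.trans (cp_eq hC))).symm).symm

theorem Min.cp_conj (h : B ∈ cp G d A) {g : (End k M)ˣ} (hg : g ∈ ⨆ B ∈ Sg (TG G) d, B) : conjBy B g ∈ cp G d A :=
  ⟨Sg_conj h.1 (Sg_le' hg), h.2.trans (hm.conn_conj hG h.1 hg)⟩

theorem Min.cp_tri (h : B ∈ cp G d A) (h' : C ∈ cp G d A) : ⁅B, C⁆ = ⊥ ∨ IsRankOnePair B C ∨ RootCommutatorCase (cp G d A) B C := by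
  by_cases p : IsRankOnePair B C
  · exact Or.inr (Or.inl p)
  refine or_iff_not_imp_left.2 fun c => Or.inr ?_
  have := ((hm.tri (hm.ex_opp hG) h.1 h'.1).resolve_left c).resolve_left p
  exact ⟨⟨this.1, h'.2.trans (hm.cc_conn hG h.1 h'.1 p fun a => c (comm_iff.2 a))⟩, this.2⟩

theorem Min.cp_perf : ⨆ B ∈ cp G d A, B ≤ ⁅⨆ B ∈ cp G d A, B, ⨆ B ∈ cp G d A, B⁆ := iSup₂_le fun B hB => by
  obtain ⟨E, hE, p⟩ := hm.Sg_opp hG hB.1
  have : B ⊔ E ≤ ⨆ B ∈ cp G d A, B := sup_le (fun _ => mem_bisup hB) fun _ => mem_bisup (cp_opp hB hE p)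
  exact le_sup_left.trans ((hm.perf hB.1 hE p).trans (Subgroup.commutator_mono this this))

theorem Min.cp_ncomm (hA : A ∈ Sg (TG G) d) : ¬ Comm (⨆ B ∈ cp G d A, B) (⨆ B ∈ cp G d A, B) := fun c => by
  obtain ⟨E, hE, p⟩ := hm.Sg_opp hG hA
  exact p.h5not_comm (c.mono (fun _ => mem_bisup (cp_self hA)) fun _ => mem_bisup (cp_opp (cp_self hA) hE p))

theorem Min.cp_norm (hA : A ∈ Sg (TG G) d) {N : Subgroup (End k M)ˣ} (hle : N ≤ ⨆ B ∈ cp G d A, B)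
    (hN : ∀ g ∈ ⨆ B ∈ cp G d A, B, ∀ n ∈ N, g * n * g⁻¹ ∈ N) : ⨆ B ∈ cp G d A, B ≤ N ∨ Comm N (⨆ B ∈ cp G d A, B) := by
  refine or_iff_not_imp_left.2 fun hn => ?_
  have le : ∀ {B}, B ∈ cp G d A → B ≤ ⨆ B ∈ cp G d A, B := fun h _ => mem_bisup h
  have top : ∀ B ∈ cp G d A, ¬ B ≤ N := fun B hB h => hn (iSup₂_le fun C hC => by
    obtain ⟨g, hg, rfl⟩ := cp_class hB.1 (cp_eq hB ▸ hC)
    rintro _ ⟨a, ha, rfl⟩
    exact hN g (cp_eq hB ▸ hg) a (h ha))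
  have cle : ∀ B : Subgroup (End k M)ˣ, ∀ n ∈ N, conjBy B n ≤ B ⊔ N := fun A n hn =>
    conjBy_le le_sup_left (Subgroup.mem_sup_right hn)
  have l1 : ∀ B ∈ Sg (TG G) d, ∀ n ∈ N, ∀ D ∈ Sg (TG G) d, Comm B D → Comm (conjBy B n) D := fun B hB n hn' D hD h => by
    by_cases b : B ∈ cp G d A
    swap
    · rwa [(comm_bisup fun C hC => (hm.cp_out hG hC hB b).symm).symm.conjBy_eq (hle hn')]
    have b' := hm.cp_conj hG b (cp_le (hle hn'))
    by_cases c : D ∈ cp G d A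
    swap
    · exact hm.cp_out hG b' hD c
    rcases hm.cp_tri hG b' c with h' | h' | h'
    · exact comm_iff.1 h'
    · obtain ⟨x, hx, x1⟩ := h'.h5symm.h5ex
      have p := h'.h5symm.h5pair' hx x1
      have : conjBy (conjBy B n) x = conjBy (conjBy B n) (x * n * x⁻¹ * n⁻¹) := by
        rw [conjBy_conjBy, conjBy_conjBy, inv_mul_cancel_right, ← conjBy_conjBy B x⁻¹, h.symm.conjBy_eq (inv_mem hx)]
      have l := sup_le le_sup_left (this ▸ cle (conjBy B n) _ (mul_mem (hN x (le c hx) n hn') (inv_mem hn')))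
      exact absurd (le_sup_left.trans ((hm.perf b'.1 (Sg_conj b'.1 (Sg_le hD hx)) p).trans
        (cl_norm hN (le b') (le b') (Sg_comm b'.1) l l))) (top _ b')
    · exact absurd (cl_norm hN (le b) (le c) h (cle B n hn') le_sup_left) (top _ h'.1)
  refine comm_bisup fun B hB n hn' => hm.cent hG (Sg_le' (cp_le (hle hn'))) (fun B hB D hD => ⟨fun h => ?_, l1 B hB n hn' D hD⟩) hB.1
  simpa [conjBy_conjBy, conjBy_one] using l1 _ (Sg_conj hB (Sg_le' (cp_le (hle hn')))) _ (inv_mem hn') D hD h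

theorem Min.cp_quasi (hA : A ∈ Sg (TG G) d) : IsQuasisimple ↥(⨆ B ∈ cp G d A, B) :=
  quasi_of (hm.cp_perf hG) (hm.cp_ncomm hG hA) fun _ => hm.cp_norm hG hA

omit hm hG in
theorem fin_of_comm {ι : Type*} (L : ι → Subgroup (End k M)ˣ) (h : ∀ i j, i ≠ j → Comm (L i) (L j)) (h' : ∀ i, ¬ Comm (L i) (L i)) :
    Finite ι := by
  simp only [Comm, not_forall] at h'
  choose a ha b hb e using h'
  classical
  refine (linearIndependent_iff'.2 fun s c hc j hj => ?_ : LinearIndependent k fun i => (a i : End k M)).finite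
  have := congrArg (fun x => x * (b j : End k M) - b j * x) hc
  simp only [Finset.sum_mul, Finset.mul_sum, ← Finset.sum_sub_distrib, smul_mul_assoc, mul_smul_comm, ← smul_sub] at this
  rw [Finset.sum_eq_single j (fun i _ hi => by
    rw [← Units.val_mul, h i j hi _ (ha i) _ (hb j)]; simp) (fun h => (h hj).elim), zero_mul, mul_zero, sub_zero, smul_eq_zero] at this
  exact this.resolve_right fun h => e j (Units.ext (sub_eq_zero.1 h))

theorem Min.cp_fin : Finite {Γ // ∃ A ∈ Sg (TG G) d, Γ = cp G d A} :=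
  fin_of_comm (fun Γ => ⨆ B ∈ Γ.1, B) (by
    rintro ⟨_, A, hA, rfl⟩ ⟨_, B, hB, rfl⟩ h
    exact hm.cp_comm hG fun e => h (Subtype.ext e)) (by rintro ⟨_, A, hA, rfl⟩; exact hm.cp_ncomm hG hA)

theorem Min.cp_enum : ∃ (r : ℕ) (A : Fin r → Subgroup (End k M)ˣ), (∀ i, A i ∈ Sg (TG G) d) ∧
    (∀ i j, i ≠ j → cp G d (A i) ≠ cp G d (A j)) ∧ ∀ B ∈ Sg (TG G) d, ∃ i, B ∈ cp G d (A i) := by
  have := hm.cp_fin hG
  obtain ⟨r, ⟨f⟩⟩ := Finite.exists_equiv_fin {Γ // ∃ A ∈ Sg (TG G) d, Γ = cp G d A}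
  choose A hA e using fun i => (f.symm i).2
  exact ⟨r, A, hA, fun i j h e' => h (f.symm.injective (Subtype.ext (by rw [e, e, e']))), fun B h => ⟨f ⟨_, B, h, rfl⟩, by
    simpa [← e] using cp_self h⟩⟩

theorem Min.cp_root (hA : A ∈ Sg (TG G) d) :
    IsRootSubgroupClass ((fun B : Subgroup (End k M)ˣ => B.subgroupOf (⨆ B ∈ cp G d A, B)) '' cp G d A) := by
  refine ⟨root_sub (S := cp G d A) (fun _ h => Sg_comm h.1) (fun _ h => hm.Sg_ne h.1)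
      (fun B hB g hg => hm.cp_conj hG hB (cp_le hg)) fun _ h _ => hm.cp_tri hG h, ⟨_, A, cp_self hA, rfl⟩, ?_⟩
  rintro _ ⟨B, hB, rfl⟩ _ ⟨C, hC, rfl⟩
  obtain ⟨g, hg, rfl⟩ := cp_class hB.1 (cp_eq hB ▸ hC)
  refine ⟨⟨g, cp_eq hB ▸ hg⟩, Subgroup.ext fun x => ?_⟩
  simp only [mem_conjBy, Subgroup.mem_subgroupOf]; rfl

end H5.QP
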