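import Cfsg.Agent.H5.QP8

/-! The component theory for groups without unipotent normal subgroups. -/

namespace H5.QP
open Cfsg H5.RS Module Relation
open scoped commutatorElement

variable {k : Type*} [Field k] {M : Type*} [AddCommGroup M] [Module k M] {d : ℕ} {G A B C : Subgroup (End k M)ˣ}

/-- no unipotent normal subgroups -/
def Red (G : Subgroup (End k M)ˣ) : Prop := ∀ U ≤ G, IsUnipotentOn U → (∀ g ∈ G, ∀ u ∈ U, g⁻¹ * u * g ∈ U) → U = ⊥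

variable [FiniteDimensional k M]

theorem red_of (hG : IsIrreducibleFor G) (h1 : C ≤ G) (h2 : ∀ g ∈ G, conjBy C g = C) : Red C := fun U hU hu hn => by
  let W := {V | ∃ g ∈ G, V = conjBy U g}
  have w1 : ∀ V ∈ W, ∀ g ∈ G, conjBy V g ∈ W := by
    rintro _ ⟨x, hx, rfl⟩ g hg; exact ⟨_, mul_mem hg hx, conjBy_conjBy _ _ _⟩
  have w2 : ∀ V ∈ W, V ≤ C := by rintro _ ⟨x, hx, rfl⟩; exact h2 x hx ▸ conjBy_mono hU x
  have w3 : ∀ V ∈ W, IsNilpotent (aug k {V}) := by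
    rintro _ ⟨x, hx, rfl⟩
    rw [← unip_iff, iSup_singleton, unip_def]
    obtain ⟨n, h⟩ := unip_def.1 hu
    refine ⟨n, fun l hl e => ?_⟩
    have : ∀ l : List (End k M)ˣ, (l.map fun g : (End k M)ˣ => (g : End k M) - 1).prod =
        x * ((l.map fun g => x⁻¹ * g * x).map fun g : (End k M)ˣ => (g : End k M) - 1).prod * (x⁻¹ : (End k M)ˣ) := fun l => by
      induction l with
      | nil => simp
      | cons a l ih => simp [ih, mul_sub, sub_mul, mul_assoc]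
    rw [this, h _ (by simpa using fun a ha => mem_conjBy.1 (hl a ha)) (by simpa using e)]; simp
  have := unip_triv hG (unip_all (W := W) (fun A hA B hB a ha => w1 B hB a (h1 (w2 A hA ha))) (fun A hA B hB => by
    rw [← iSup_pair (f := fun A => A)]
    refine unip_iff.2 (aug_ext (w3 A hA) (w3 B hB) ?_)
    rintro _ rfl b hb y hy
    refine aug_le (I := (aug k {A}).comap ((LinearMap.mulRight k ((b⁻¹ : (End k M)ˣ) : End k M)).comp (LinearMap.mulLeft k (b : End k M))))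
      ?_ (Submodule.mul_le.2 fun x hx y hy => by simpa [mul_assoc] using aug_mul (Submodule.mul_mem_mul hx hy)) hy
    rintro _ rfl g hg
    obtain ⟨x, hx, rfl⟩ := hA
    have := hn _ (mem_conjBy.1 ((h2 x hx).ge (inv_mem (w2 _ hB hb)))) _ (mem_conjBy.1 hg)
    simpa [mul_sub, sub_mul] using aug_mem (k := k) (mem_bisup (S := {conjBy U x}) rfl (g := b * g * b⁻¹)
      (mem_conjBy.2 (by simpa [mul_assoc] using this))))) fun g hg u hu => mem_conjBy.1 ((conjBy_bisup w1 hg).ge hu)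
  exact eq_bot_iff.2 fun u hu => this.le (mem_bisup (S := W) ⟨1, one_mem _, (conjBy_one _).symm⟩ hu)

variable (hm : Min (TG G) d) (hG : Red G)
include hm hG

theorem Min.rex_opp (γ : End k M) (h : Nd (TG G) d γ) :
    ∃ δ, Nd (TG G) d δ ∧ Opp δ γ := by
  by_contra! hc
  let W := {A | ∃ α, Nd (TG G) d α ∧ (∀ δ, Nd (TG G) d δ → ¬ Opp δ α) ∧ A = EE (TG G) α}
  have c : ∀ A ∈ W, ∀ g ∈ G, conjBy A g ∈ W := by
    rintro _ ⟨α, h1, h2, rfl⟩ g hg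
    refine ⟨_, h1.gconj hg, fun δ h3 o => h2 _ (h3.gconj (inv_mem hg)) ⟨fun w e => ?_, fun w e => ?_⟩,
      conj_EE h1.1.1 (mem_TG.2 hg) (mem_TG.2 (inv_mem hg))⟩
    · simpa [mul_assoc] using o.1 (g * w) (by simpa [mul_assoc] using e)
    · simpa [mul_assoc] using o.2 (g * w) (by simpa [mul_assoc] using e)
  have le : ∀ A ∈ W, A ≤ G := by rintro _ ⟨α, h1, -, rfl⟩; exact EE_le h1.1.1
  have := hG _ (iSup₂_le le) (unip_all (W := W) (fun A hA B hB a ha => c B hB a (le A hA ha)) (by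
    rintro _ ⟨α, h1, h2, rfl⟩ _ ⟨β, h3, h4, rfl⟩
    exact (hm.nop h1 h3 (h4 _ h1)).unip le_rfl)) fun g hg u hu => mem_conjBy.1 ((conjBy_bisup c hg).ge hu)
  obtain ⟨a, ha, -, a1⟩ := hm.EE_ne h
  exact a1 (this.le (mem_bisup (S := W) ⟨γ, h, hc, rfl⟩ ha))

theorem Min.rSg_opp (hA : A ∈ Sg (TG G) d) : ∃ B ∈ Sg (TG G) d, IsRankOnePair A B := by
  obtain ⟨α, h, rfl⟩ := hA
  obtain ⟨β, h', o⟩ := hm.rex_opp hG α h
  exact ⟨_, ⟨β, h', rfl⟩, (hm.special h h' o.symm).1⟩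

theorem Min.rcc_conn (hA : A ∈ Sg (TG G) d) (hB : B ∈ Sg (TG G) d) (h : ¬ IsRankOnePair A B) (h0 : ¬ Comm A B) :
    ReflTransGen (FAdj (Sg (TG G) d)) B ⁅A, B⁆ := by
  obtain ⟨α, h1, rfl⟩ := hA
  obtain ⟨β, h2, rfl⟩ := hB
  obtain ⟨x, y, hx, hy, e1, e2, n, h3⟩ := hm.ncomm h1 h2 (hm.nop h1 h2 fun o => h (hm.special h1 h2 o).1) h0
  rw [e1, e2, hm.cc5 (hm.rex_opp hG) hx hy n h3]
  have c := (hm.cc1 hx hy n h3).1
  obtain ⟨δ, hδ, o⟩ := hm.rex_opp hG _ c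
  have : ∀ {δ}, Nd (TG G) d δ → Opp δ (x * y - y * x) → Opp δ y → ReflTransGen (FAdj (Sg (TG G) d)) (EE (TG G) y)
      (EE (TG G) (x * y - y * x)) := fun {δ} hδ o o' => (ReflTransGen.single ⟨⟨_, hy, rfl⟩, ⟨_, hδ, rfl⟩,
        (hm.special hy hδ o'.symm).1⟩).tail ⟨⟨_, hδ, rfl⟩, ⟨_, c, rfl⟩, (hm.special hδ c o).1⟩
  refine (hm.cc_opp hx hy n hδ o).elim (this hδ o) fun o' => ?_
  obtain ⟨a, ha, e, -⟩ := hm.EE_ne hx
  have e' := inv_val hx.1.1 e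
  have aba := n.aba (cls_self hx.1) (cls_self hy.1) (cls_self hx.1)
  have cj : ∀ {u v : End k M}, Opp δ u → u = (a : End k M) * v * (a⁻¹ : (End k M)ˣ) →
      Opp (((a⁻¹ : (End k M)ˣ) : End k M) * δ * ((a⁻¹⁻¹ : (End k M)ˣ) : End k M)) v := by
    rintro _ v o rfl
    exact ⟨fun w e => by simpa [mul_assoc] using o.1 (a * w) (by simpa [mul_assoc] using e),
      fun w e => by simpa [mul_assoc] using o.2 (a * w) (by simpa [mul_assoc] using e)⟩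
  refine this (hδ.gconj (inv_mem (EE_le hx.1.1 ha))) (cj o ?_) (cj o' ?_)
  · simp [e, e', mul_sub, sub_mul, add_mul, mul_assoc, aba, hx.1.1, ← mul_assoc x x]
  · simp [e, e', mul_sub, add_mul, mul_assoc, aba]; abel

theorem Min.rconn (hA : A ∈ Sg (TG G) d) (hB : B ∈ Sg (TG G) d) (h0 : ¬ Comm A B) : ReflTransGen (FAdj (Sg (TG G) d)) A B := by
  by_cases h : IsRankOnePair A B
  · exact .single ⟨hA, hB, h⟩
  exact (hm.rcc_conn hG hB hA (fun p => h p.h5symm) fun c => h0 c.symm).trans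
    (Subgroup.commutator_comm A B ▸ IsRootSubgroupSet.h5Fsymm (hm.rcc_conn hG hA hB h h0))

theorem Min.rconn_conj (hA : A ∈ Sg (TG G) d) {g : (End k M)ˣ} (hg : g ∈ ⨆ B ∈ Sg (TG G) d, B) :
    ReflTransGen (FAdj (Sg (TG G) d)) A (conjBy A g) := by
  refine (bisup_ind (p := fun g => g ∈ G ∧ ∀ A ∈ Sg (TG G) d, ReflTransGen (FAdj (Sg (TG G) d)) A (conjBy A g))
    ⟨one_mem _, fun A _ => by rw [conjBy_one]⟩ (fun B hB b hb => ⟨Sg_le hB hb, fun A hA => ?_⟩)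
    (fun x y hx hy => ⟨mul_mem hx.1 hy.1, fun A hA => conjBy_conjBy A y x ▸ (hy.2 A hA).trans (hx.2 _ (Sg_conj hA hy.1))⟩) hg).2 A hA
  by_cases c : Comm B A
  · rw [c.conjBy_eq hb]
  exact (hm.rconn hG hA hB fun a => c a.symm).trans (hm.rconn hG hB (Sg_conj hA (Sg_le hB hb)) fun a => c (by
    simpa [conjBy_conjBy, conjBy_one, conjBy_of_mem (inv_mem hb)] using a.conj b⁻¹))

theorem Min.cent2 {S : Set (Subgroup (End k M)ˣ)} {R : Subgroup (End k M)ˣ → Subgroup (End k M)ˣ → Prop} (s1 : S ⊆ Sg (TG G) d)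
    (s2 : ∀ {A}, A ∈ S → ∀ {g}, g ∈ G → conjBy A g ∈ S) (cc : ∀ {A D} g, R (conjBy A g) D ↔ R A (conjBy D g⁻¹))
    (s3 : ∀ B ∈ S, ∀ C ∈ S, (∀ D ∈ S, R B D ↔ R C D) → ¬ IsRankOnePair B C)
    {x : (End k M)ˣ} (hx : x ∈ G) (h : ∀ A ∈ S, ∀ D ∈ S, R (conjBy A x) D ↔ R A D) (hA : A ∈ S) : ∀ a ∈ A, x * a = a * x := by
  let K : Subgroup (End k M)ˣ :=
    { carrier := {x | x ∈ G ∧ ∀ A ∈ S, ∀ D ∈ S, R (conjBy A x) D ↔ R A D}
      one_mem' := ⟨one_mem _, by simp [conjBy_one]⟩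
      mul_mem' := fun {x y} hx hy => ⟨mul_mem hx.1 hy.1, fun A hA D hD => by
        rw [← conjBy_conjBy, hx.2 _ (s2 hA hy.1) D hD, hy.2 A hA D hD]⟩
      inv_mem' := fun {x} hx => ⟨inv_mem hx.1, fun A hA D hD => by
        rw [← hx.2 _ (s2 hA (inv_mem hx.1)) D hD, conjBy_conjBy, mul_inv_cancel, conjBy_one]⟩ }
  have kn : ∀ g ∈ G, ∀ x ∈ K, g * x * g⁻¹ ∈ K := fun g hg x hx => ⟨mul_mem (mul_mem hg hx.1) (inv_mem hg), fun A hA D hD => by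
    rw [← conjBy_conjBy, ← conjBy_conjBy, cc, hx.2 _ (s2 hA (inv_mem hg)) _ (s2 hD (inv_mem hg)), cc, conjBy_conjBy,
      inv_inv, mul_inv_cancel, conjBy_one]⟩
  let P : Subgroup (End k M)ˣ → Set (Subgroup (End k M)ˣ) := fun A =>
    {C | C ∈ S ∧ ∀ D ∈ S, R C D ↔ R A D}
  have p1 : ∀ A, ∀ g ∈ G, ∀ u ∈ ⨆ C ∈ P A, C, g * u * g⁻¹ ∈ ⨆ C ∈ P (conjBy A g), C := fun A g hg u =>
    bisup_ind (p := fun u => g * u * g⁻¹ ∈ ⨆ C ∈ P (conjBy A g), C) (by simp) (fun C hC c hc => mem_bisup (S := P _) (A := conjBy C g)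
      ⟨s2 hC.1 hg, fun D hD => by rw [cc, cc, hC.2 _ (s2 hD (inv_mem hg))]⟩ (RS.conj_mem hc))
      fun x y hx hy => by simpa [mul_assoc] using mul_mem hx hy
  have p2 : ∀ A ∈ S, ∀ x ∈ K, P (conjBy A x) = P A := fun A hA x hx => Set.ext fun C => and_congr_right fun _ =>
    forall₂_congr fun D hD => by rw [hx.2 A hA D hD]
  let W := {U | ∃ A ∈ S, U = K ⊓ ⨆ C ∈ P A, C}
  have w1 : ∀ U ∈ W, ∀ g ∈ G, conjBy U g ∈ W := by
    rintro _ ⟨A, hA, rfl⟩ g hg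
    refine ⟨_, s2 hA hg, le_antisymm ?_ fun u hu => mem_conjBy.2 (Subgroup.mem_inf.2 ⟨by simpa using kn _ (inv_mem hg) _ hu.1, ?_⟩)⟩
    · rintro _ ⟨u, hu, rfl⟩; exact ⟨kn g hg u hu.1, p1 A g hg u hu.2⟩
    · simpa [conjBy_conjBy, conjBy_one] using p1 _ _ (inv_mem hg) u hu.2
  have w2 : ∀ A ∈ S, IsNilpotent (aug k {K ⊓ ⨆ C ∈ P A, C}) := fun A hA => by
    refine nil_mono (aug_le (fun B hB g hg => aug_mem (hB.le hg).2) aug_mul) (unip_iff.1 (unip_all (fun B hB C hC b hb => ?_)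
      fun B hB C hC => ?_))
    · have := Sg_le (s1 hB.1) hb
      exact ⟨s2 hC.1 this, fun D hD => by
        rw [cc, hC.2 _ (s2 hD (inv_mem this)), ← hB.2 _ (s2 hD (inv_mem this)), ← cc, conjBy_of_mem hb, hB.2 D hD]⟩
    · have := s3 B hB.1 C hC.1 fun D hD => (hB.2 D hD).trans (hC.2 D hD).symm
      obtain ⟨α, h, rfl⟩ := s1 hB.1
      obtain ⟨β, h', rfl⟩ := s1 hC.1
      exact (hm.nop h h' fun o => this (hm.special h h' o).1).unip le_rfl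
  have := hG _ (iSup₂_le (by rintro _ ⟨A, -, rfl⟩ _ h; exact h.1.1)) (unip_all (W := W) (fun A hA B hB a ha => w1 B hB a (by obtain ⟨_, -, rfl⟩ := hA; exact ha.1.1)) (by
    rintro _ ⟨A, hA, rfl⟩ _ ⟨B, hB, rfl⟩
    rw [← iSup_pair (f := fun A => A)]
    refine unip_iff.2 (aug_ext (w2 A hA) (w2 B hB) ?_)
    rintro _ rfl b hb y hy
    refine aug_le (I := (aug k {K ⊓ ⨆ C ∈ P A, C}).comap ((LinearMap.mulRight k ((b⁻¹ : (End k M)ˣ) : End k M)).comp (LinearMap.mulLeft k (b : End k M))))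
      ?_ (Submodule.mul_le.2 fun x hx y hy => by simpa [mul_assoc] using aug_mul (Submodule.mul_mem_mul hx hy)) hy
    rintro _ rfl g hg
    simpa [mul_sub, sub_mul] using aug_mem (k := k) (mem_bisup (S := {K ⊓ ⨆ C ∈ P A, C}) rfl
      ⟨kn b hb.1.1 g hg.1, p2 A hA b hb.1 ▸ p1 A b hb.1.1 g hg.2⟩))) fun g hg u hu => mem_conjBy.1 ((conjBy_bisup w1 hg).ge hu)
  intro a ha
  have hK : x ∈ K := ⟨hx, h⟩
  have a1 : a ∈ ⨆ C ∈ P A, C := mem_bisup (S := P A) ⟨hA, fun _ _ => Iff.rfl⟩ ha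
  have : x * a * x⁻¹ * a⁻¹ = 1 := this.le (mem_bisup (S := W) ⟨A, hA, rfl⟩ (Subgroup.mem_inf.2 ⟨by
    simpa [mul_assoc] using mul_mem hK (kn a (Sg_le (s1 hA) ha) _ (inv_mem hK)), mul_mem (p2 A hA x hK ▸ p1 A x hx a a1) (inv_mem a1)⟩))
  exact commutatorElement_eq_one_iff_mul_comm.1 this

theorem Min.rcent {x : (End k M)ˣ} (hx : x ∈ G) (h : ∀ A ∈ Sg (TG G) d, ∀ D ∈ Sg (TG G) d, Comm (conjBy A x) D ↔ Comm A D)
    (hA : A ∈ Sg (TG G) d) : ∀ a ∈ A, x * a = a * x :=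
  hm.cent2 hG le_rfl (fun h _ => Sg_conj h) (fun g => ⟨fun a => by simpa [conjBy_conjBy, conjBy_one] using a.conj g⁻¹,
    fun a => by simpa [conjBy_conjBy, conjBy_one] using a.conj g⟩) (fun B hB C hC h p => p.h5not_comm ((h C hC).2 (Sg_comm (hC)))) hx h hA

theorem Min.rcp_out (h : B ∈ cp G d A) (hC : C ∈ Sg (TG G) d) (h1 : C ∉ cp G d A) : Comm B C :=
  not_not.1 fun c => h1 ⟨hC, h.2.trans (hm.rconn hG h.1 hC c)⟩

theorem Min.rcp_comm (h : cp G d A ≠ cp G d B) : Comm (⨆ C ∈ cp G d A, C) (⨆ C ∈ cp G d B, C) :=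
  comm_bisup fun _ hC => (comm_bisup fun _ hD => (hm.rcp_out hG hD hC.1 fun a => h ((cp_eq a).symm.trans (cp_eq hC))).symm).symm

theorem Min.rcp_conj (h : B ∈ cp G d A) {g : (End k M)ˣ} (hg : g ∈ ⨆ B ∈ Sg (TG G) d, B) : conjBy B g ∈ cp G d A :=
  ⟨Sg_conj h.1 (Sg_le' hg), h.2.trans (hm.rconn_conj hG h.1 hg)⟩

theorem Min.rcp_tri (h : B ∈ cp G d A) (h' : C ∈ cp G d A) : ⁅B, C⁆ = ⊥ ∨ IsRankOnePair B C ∨ RootCommutatorCase (cp G d A) B C := by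
  by_cases p : IsRankOnePair B C
  · exact Or.inr (Or.inl p)
  refine or_iff_not_imp_left.2 fun c => Or.inr ?_
  have := ((hm.tri (hm.rex_opp hG) h.1 h'.1).resolve_left c).resolve_left p
  exact ⟨⟨this.1, h'.2.trans (hm.rcc_conn hG h.1 h'.1 p fun a => c (comm_iff.2 a))⟩, this.2⟩

theorem Min.rcp_perf : ⨆ B ∈ cp G d A, B ≤ ⁅⨆ B ∈ cp G d A, B, ⨆ B ∈ cp G d A, B⁆ := iSup₂_le fun B hB => by
  obtain ⟨E, hE, p⟩ := hm.rSg_opp hG hB.1
  have : B ⊔ E ≤ ⨆ B ∈ cp G d A, B := sup_le (fun _ => mem_bisup hB) fun _ => mem_bisup (cp_opp hB hE p)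
  exact le_sup_left.trans ((hm.perf hB.1 hE p).trans (Subgroup.commutator_mono this this))

theorem Min.rcp_ncomm (hA : A ∈ Sg (TG G) d) : ¬ Comm (⨆ B ∈ cp G d A, B) (⨆ B ∈ cp G d A, B) := fun c => by
  obtain ⟨E, hE, p⟩ := hm.rSg_opp hG hA
  exact p.h5not_comm (c.mono (fun _ => mem_bisup (cp_self hA)) fun _ => mem_bisup (cp_opp (cp_self hA) hE p))

theorem Min.rcp_norm (hA : A ∈ Sg (TG G) d) {N : Subgroup (End k M)ˣ} (hle : N ≤ ⨆ B ∈ cp G d A, B)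
    (hN : ∀ g ∈ ⨆ B ∈ cp G d A, B, ∀ n ∈ N, g * n * g⁻¹ ∈ N) : ⨆ B ∈ cp G d A, B ≤ N ∨ Comm N (⨆ B ∈ cp G d A, B) := by
  refine or_iff_not_imp_left.2 fun hn => ?_
  have le : ∀ {B}, B ∈ cp G d A → B ≤ ⨆ B ∈ cp G d A, B := fun h _ => mem_bisup h
  have top : ∀ B ∈ cp G d A, ¬ B ≤ N := fun B hB h => hn (iSup₂_le fun C hC => by
    obtain ⟨g, hg, rfl⟩ := cp_class hB.1 (cp_eq hB ▸ hC)
    rintro _ ⟨a, ha, rfl⟩
    exact hN g (cp_eq hB ▸ hg) a (h ha))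
  have cle : ∀ B : Subgroup (End k M)ˣ, ∀ n ∈ N, conjBy B n ≤ B ⊔ N := fun A n hn =>
    conjBy_le le_sup_left (Subgroup.mem_sup_right hn)
  have l1 : ∀ B ∈ Sg (TG G) d, ∀ n ∈ N, ∀ D ∈ Sg (TG G) d, Comm B D → Comm (conjBy B n) D := fun B hB n hn' D hD h => by
    by_cases b : B ∈ cp G d A
    swap
    · rwa [(comm_bisup fun C hC => (hm.rcp_out hG hC hB b).symm).symm.conjBy_eq (hle hn')]
    have b' := hm.rcp_conj hG b (cp_le (hle hn'))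
    by_cases c : D ∈ cp G d A
    swap
    · exact hm.rcp_out hG b' hD c
    rcases hm.rcp_tri hG b' c with h' | h' | h'
    · exact comm_iff.1 h'
    · obtain ⟨x, hx, x1⟩ := h'.h5symm.h5ex
      have p := h'.h5symm.h5pair' hx x1
      have : conjBy (conjBy B n) x = conjBy (conjBy B n) (x * n * x⁻¹ * n⁻¹) := by
        rw [conjBy_conjBy, conjBy_conjBy, inv_mul_cancel_right, ← conjBy_conjBy B x⁻¹, h.symm.conjBy_eq (inv_mem hx)]
      have l := sup_le le_sup_left (this ▸ cle (conjBy B n) _ (mul_mem (hN x (le c hx) n hn') (inv_mem hn')))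
      exact absurd (le_sup_left.trans ((hm.perf b'.1 (Sg_conj b'.1 (Sg_le hD hx)) p).trans
        (cl_norm hN (le b') (le b') (Sg_comm b'.1) l l))) (top _ b')
    · exact absurd (cl_norm hN (le b) (le c) h (cle B n hn') le_sup_left) (top _ h'.1)
  refine comm_bisup fun B hB n hn' => hm.rcent hG (Sg_le' (cp_le (hle hn'))) (fun B hB D hD => ⟨fun h => ?_, l1 B hB n hn' D hD⟩) hB.1
  simpa [conjBy_conjBy, conjBy_one] using l1 _ (Sg_conj hB (Sg_le' (cp_le (hle hn')))) _ (inv_mem hn') D hD h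

theorem Min.rcp_quasi (hA : A ∈ Sg (TG G) d) : IsQuasisimple ↥(⨆ B ∈ cp G d A, B) :=
  quasi_of (hm.rcp_perf hG) (hm.rcp_ncomm hG hA) fun _ => hm.rcp_norm hG hA

end H5.QP
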