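import Cfsg.Agent.H5.RE11

/-! Small Ree groups: automorphisms. -/

namespace H5.Ree
open scoped Pointwise MatrixGroups commutatorElement
open H5.Sz H5.Sz.SzS

namespace ReeS
variable {F : Type*} [Field F] [Fintype F] {m : ℕ} {G : Type*} [Group G] (S : ReeS F m G)

theorem aut_smul_P (β : MulAut G) (ω : S.Ω) : ∃ ω', β • S.P ω = S.P ω' := by
  obtain ⟨ω', h⟩ := S.le_P_of_isPGroup (Q := β • S.P ω) ((S.isPGroup_P ω).map _)
  obtain ⟨ω'', h'⟩ := S.le_P_of_isPGroup (Q := β⁻¹ • S.P ω') ((S.isPGroup_P ω').map _)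
  have h1 : S.P ω ≤ β⁻¹ • S.P ω' := by rwa [Subgroup.subset_pointwise_smul_iff, inv_inv]
  obtain rfl := S.eq_of_P_le_stab ((h1.trans h').trans (S.P_le_stab _))
  exact ⟨ω', le_antisymm h (by rwa [Subgroup.subset_pointwise_smul_iff])⟩

theorem aut_P_smul {β : MulAut G} {ω ω' : S.Ω} (h : β • S.P ω = S.P ω') (g : G) :
    β • S.P (g • ω) = S.P (β g • ω') := by
  rw [P_smul, P_smul, ← h, smul_smul, smul_smul]
  congr 1
  ext x
  simp

/-- `ψ` is the field automorphism belonging to `α` -/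
def IsFd (ψ : MulAut G) (α : F ≃+* F) : Prop := (∀ a b c, ψ (S.u a b c) = S.u (α a) (α b) (α c)) ∧ ψ S.w = S.w

variable {S}

theorem IsFd.mul {ψ χ : MulAut G} {α β : F ≃+* F} (h : S.IsFd ψ α) (h' : S.IsFd χ β) : S.IsFd (ψ * χ) (α * β) :=
  ⟨fun a b c => by rw [MulAut.mul_apply, h'.1, h.1]; rfl, by rw [MulAut.mul_apply, h'.2, h.2]⟩

theorem IsFd.inv {ψ : MulAut G} {α : F ≃+* F} (h : S.IsFd ψ α) : S.IsFd ψ⁻¹ α⁻¹ :=
  ⟨fun a b c => ψ.injective (by rw [h.1]; simp [RingAut.inv_apply]), ψ.injective (by rw [h.2]; simp)⟩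

theorem IsFd.P_inf {ψ : MulAut G} {α : F ≃+* F} (h : S.IsFd ψ α) : ψ • S.P S.inf = S.P S.inf := by
  rw [ReeS.P_inf]
  apply le_antisymm
  · rintro _ ⟨_, ⟨a, b, c, rfl⟩, rfl⟩
    exact ⟨_, _, _, h.1 a b c⟩
  · rintro _ ⟨a, b, c, rfl⟩
    exact ⟨_, S.u_mem (α.symm a) (α.symm b) (α.symm c), (h.1 _ _ _).trans (by simp)⟩

theorem IsFd.P_zero {ψ : MulAut G} {α : F ≃+* F} (h : S.IsFd ψ α) :
    ψ • S.P (S.pt 0 0 0) = S.P (S.pt 0 0 0) := by
  rw [← w_inf, S.aut_P_smul h.P_inf, h.2]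

theorem IsFd.inner {α : F ≃+* F} {g : G} (h : S.IsFd (MulAut.conj g) α) : α = 1 := by
  have h1 := h.P_inf
  rw [← P_smul] at h1
  obtain ⟨c, d, e, t, rfl⟩ := S.fix1 (S.P_injective h1)
  have key : ∀ a, α a = t * a := by
    intro a
    have := h.1 a 0 0
    rw [MulAut.conj_apply, mul_inv_rev, mul_assoc, mul_assoc, ← mul_assoc (S.u a 0 0), ← mul_assoc (S.h t),
      ← mul_assoc (S.h t), S.h_u, u_inv, S.u_mul, S.u_mul] at this
    rw [← (S.u_inj this).1]; ring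
  have ht := key 1
  rw [map_one, mul_one] at ht
  ext a
  rw [key, ← ht, one_mul]
  rfl

variable (S)

theorem aut_u {β : MulAut G} (h1 : β • S.P S.inf = S.P S.inf) (a b c : F) :
    ∃ x y z, β (S.u a b c) = S.u x y z := by
  rw [P_inf] at h1
  have := Subgroup.smul_mem_pointwise_smul _ β _ (S.u_mem a b c)
  rwa [h1] at this

theorem aut_z {β : MulAut G} (h1 : β • S.P S.inf = S.P S.inf) (c : F) : ∃ d, β (S.u 0 0 c) = S.u 0 0 d := by
  obtain ⟨t, ht⟩ := S.χ3_surj (-c)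
  obtain ⟨x, y, z, h⟩ := S.aut_u h1 t 0 0
  exact ⟨-(x ^ 2 * S.σ x), by rw [← neg_neg c, ← ht, ← S.u_cube t 0 0, map_pow, h, u_cube]⟩

theorem aut_h {β : MulAut G} (h1 : β • S.P S.inf = S.P S.inf)
    (h2 : β • S.P (S.pt 0 0 0) = S.P (S.pt 0 0 0)) (t : Fˣ) : ∃ s, β (S.h t) = S.h s := by
  have e1 := S.aut_P_smul h1 (S.h t)
  have e2 := S.aut_P_smul h2 (S.h t)
  rw [h_inf, h1] at e1
  rw [h_zero, h2] at e2
  exact S.fix2 (S.P_injective e1).symm (S.P_injective e2).symm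

theorem aut_eq_one (hm : 1 ≤ m) {β : MulAut G} (h1 : β • S.P S.inf = S.P S.inf)
    (h2 : β • S.P (S.pt 0 0 0) = S.P (S.pt 0 0 0)) (h3 : ∀ b, β (S.u 0 0 b) = S.u 0 0 b) : β = 1 := by
  have := S.charP
  have hh : ∀ t, β (S.h t) = S.h t := by
    intro t
    obtain ⟨s, hs⟩ := S.aut_h h1 h2 t
    have := congrArg β (S.h_u t 0 0 1)
    rw [map_mul, map_mul, map_inv, hs, h3, mul_zero, mul_zero, h3, S.h_u] at this
    rw [hs, Units.ext (S.χ3_inj (by simpa using (S.u_inj this).2.2) : (s : F) = t)]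
  have hc : ∀ (t : Fˣ) a b c x y z, β (S.u a b c) = S.u x y z →
      β (S.u (t * a) (t * S.σ t * b) (t ^ 2 * S.σ t * c)) = S.u (t * x) (t * S.σ t * y) (t ^ 2 * S.σ t * z) :=
    fun t a b c x y z h => by rw [← S.h_u, map_mul, map_mul, map_inv, hh, h, S.h_u]
  obtain ⟨d, e, hf⟩ : ∃ d e, β (S.u 1 0 0) = S.u 1 d e := by
    obtain ⟨c, d, e, h⟩ := S.aut_u h1 1 0 0
    have := congrArg (· ^ 3) h
    simp only [← map_pow, u_cube, h3] at this
    obtain rfl := S.χ3_eq_one (t := c) (by simpa using (S.u_inj this).2.2.symm)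
    exact ⟨d, e, h⟩
  have hu : ∀ a, β (S.u a 0 0) = S.u a (a * S.σ a * d) (a ^ 2 * S.σ a * e) := by
    intro a
    by_cases ha : a = 0
    · simp [ha]
    simpa using hc (Units.mk0 a ha) _ _ _ _ _ _ hf
  obtain ⟨γ, hγ⟩ : ∃ γ, β (S.u 0 1 0) = S.u 0 γ 0 := by
    obtain ⟨x, y, z, h⟩ := S.aut_u h1 0 1 0
    have := hc (-1) _ _ _ _ _ _ h
    simp only [Units.val_neg, Units.val_one, map_neg, map_one, mul_zero, mul_neg, mul_one, neg_neg, h] at this
    obtain ⟨e1, -, e2⟩ := S.u_inj this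
    exact ⟨y, by rw [h, u_eq_iff]; refine ⟨?_, rfl, ?_⟩ <;> grind⟩
  have hy : ∀ b, β (S.u 0 b 0) = S.u 0 (b * γ) 0 := by
    intro b
    rcases S.χ2_surj b one_ne_zero with rfl | ⟨t, rfl | rfl⟩
    · simp
    · simpa using hc t _ _ _ _ _ _ hγ
    · simpa [← map_inv, y_inv] using congrArg (·⁻¹) (hc t _ _ _ _ _ _ hγ)
  have key : ∀ a x, -(a * S.σ x + x * S.σ a) * d = (1 - γ) * (a * S.σ x) ∧
      (a ^ 2 * S.σ a + x ^ 2 * S.σ x - (a + x) ^ 2 * (S.σ a + S.σ x)) * e = a * S.σ a * d * x := by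
    intro a x
    have := congrArg β ((S.u_mul a 0 0 x 0 0).trans (S.u_split _ _ _))
    rw [map_mul, map_mul, map_mul, hu, hu, hu, hy, h3, y_mul, S.u_mul, S.u_mul, map_add, map_zero] at this
    obtain ⟨-, e1, e2⟩ := S.u_inj this
    exact ⟨by linear_combination e1, by linear_combination e2⟩
  obtain ⟨x, -, hx⟩ := S.exists_σ_ne hm
  have hγ1 : γ = 1 := by
    have e1 := (key 1 x).1
    have e2 := (key x 1).1
    rw [map_one] at e1 e2
    exact mul_right_cancel₀ (sub_ne_zero.2 hx) (by linear_combination e1 - e2)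
  have hd : d = 0 := by
    have e1 := (key 1 1).1
    rw [map_one, hγ1] at e1
    grind
  have he : e = 0 := by
    have e1 := (key 1 x).2
    have e2 := (key 1 (-x)).2
    rw [map_one, hd] at e1 e2
    rw [map_neg] at e2
    have : (S.σ x - x) * e = 0 := by grind
    exact (mul_eq_zero.1 this).resolve_left (sub_ne_zero.2 hx)
  have hU : ∀ a b c, β (S.u a b c) = S.u a b c := by
    intro a b c
    rw [u_split, map_mul, map_mul, hu, hy, h3, hγ1, hd, he, mul_zero, mul_zero, mul_one]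
  have hP : ∀ ω, β • S.P ω = S.P ω := by
    intro ω
    rcases S.Ω_cases ω with rfl | ⟨x, y, z, rfl⟩
    · exact h1
    · have := S.aut_P_smul h2 (S.u x y z)
      rwa [hU, u_zero_pt] at this
  ext g
  refine S.instFaithful.eq_of_smul_eq_smul fun ω => S.P_injective ?_
  rw [← S.aut_P_smul (hP ω), hP]
  rfl

theorem aut_isFd (hm : 1 ≤ m) {β : MulAut G} (h1 : β • S.P S.inf = S.P S.inf)
    (h2 : β • S.P (S.pt 0 0 0) = S.P (S.pt 0 0 0)) (h3 : β (S.u 0 0 1) = S.u 0 0 1) :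
    ∃ φ, ∀ ψ, S.IsFd ψ φ → β = ψ := by
  choose f hf using S.aut_z h1
  have f1 : f 1 = 1 := (S.u_inj ((hf 1).symm.trans h3)).2.2
  have f0 : f 0 = 0 := (S.u_eq_one.1 (by rw [← hf, u_zero, map_one])).2.2
  let φ : F →+* F :=
    { toFun := f
      map_one' := f1
      map_zero' := f0
      map_add' := fun a b => by
        have := congrArg β (S.y_mul 0 a 0 b)
        rw [map_mul, add_zero, hf, hf, hf, y_mul] at this
        exact (S.u_inj this).2.2.symm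
      map_mul' := fun a b => by
        by_cases ha : a = 0
        · simp [ha, f0]
        obtain ⟨t, rfl⟩ := S.χ3_surj' ha
        obtain ⟨s, hs⟩ := S.aut_h h1 h2 t
        have key : ∀ b, f (t ^ 2 * S.σ t * b) = s ^ 2 * S.σ s * f b := by
          intro b
          have := congrArg β (S.h_u t 0 0 b)
          rw [map_mul, map_mul, map_inv, hs, hf, mul_zero, mul_zero, hf, S.h_u] at this
          exact (S.u_inj this).2.2.symm
        have := key 1
        rw [mul_one, f1, mul_one] at this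
        rw [key, this] }
  let ψ := RingEquiv.ofBijective φ (Finite.injective_iff_bijective.1 φ.injective)
  refine ⟨ψ, fun χ hχ => ?_⟩
  rw [← mul_one χ, ← inv_mul_eq_iff_eq_mul]
  apply S.aut_eq_one hm
  · rw [mul_smul, h1, hχ.inv.P_inf]
  · rw [mul_smul, h2, hχ.inv.P_zero]
  · intro b
    rw [MulAut.mul_apply, hf, hχ.inv.1, map_zero]
    congr 1
    exact ψ.symm_apply_apply b

theorem exists_conj_fd (hm : 1 ≤ m) (α : MulAut G) : ∃ g φ, ∀ ψ, S.IsFd ψ φ → α = MulAut.conj g * ψ := by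
  obtain ⟨ω1, h1⟩ := S.aut_smul_P α S.inf
  obtain ⟨ω2, h2⟩ := S.aut_smul_P α (S.pt 0 0 0)
  have hne : ω1 ≠ ω2 := by
    rintro rfl
    exact S.pt_ne_inf 0 0 0 (S.P_injective (MulAction.injective α (h2.trans h1.symm)))
  obtain ⟨k, rfl, rfl⟩ := S.exists_smul2 hne
  have e1 : (MulAut.conj k⁻¹ * α) • S.P S.inf = S.P S.inf := by
    rw [mul_smul, h1, ← P_smul, inv_smul_smul]
  have e2 : (MulAut.conj k⁻¹ * α) • S.P (S.pt 0 0 0) = S.P (S.pt 0 0 0) := by
    rw [mul_smul, h2, ← P_smul, inv_smul_smul]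
  obtain ⟨b, hb⟩ := S.aut_z e1 1
  have hb0 : b ≠ 0 := by
    rintro rfl
    rw [u_zero, map_eq_one_iff _ (MulEquiv.injective _), u_eq_one] at hb
    exact one_ne_zero hb.2.2
  obtain ⟨t, ht⟩ := S.χ3_surj' (inv_ne_zero hb0)
  obtain ⟨φ, h⟩ := S.aut_isFd hm (β := MulAut.conj (S.h t) * (MulAut.conj k⁻¹ * α))
    (by rw [mul_smul, e1, ← P_smul, h_inf]) (by rw [mul_smul, e2, ← P_smul, h_zero])
    (by rw [MulAut.mul_apply, hb, MulAut.conj_apply, S.h_u, ht, inv_mul_cancel₀ hb0, mul_zero, mul_zero])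
  refine ⟨k * (S.h t)⁻¹, φ, fun ψ hψ => ?_⟩
  rw [← h ψ hψ, map_mul, map_inv, map_inv]
  group

include S in
theorem card_out (hm : 1 ≤ m) : Nat.card (Cfsg.Out G) = 2 * m + 1 := by
  rw [← card_ringAut_three S.hF]
  choose fd hfd using S.fld
  have hfd : ∀ α, S.IsFd (fd α) α := hfd
  symm
  refine Nat.card_congr (Equiv.ofBijective (fun α => QuotientGroup.mk' (Cfsg.Inn G) (fd α)) ⟨?_, ?_⟩)
  · intro φ ψ h
    obtain ⟨g, hg⟩ := QuotientGroup.eq.1 h
    have := (hfd φ).inv.mul (hfd ψ)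
    rw [← hg] at this
    exact inv_mul_eq_one.1 this.inner
  · rintro ⟨α⟩
    obtain ⟨g, φ, h⟩ := S.exists_conj_fd hm α
    refine ⟨φ, QuotientGroup.eq_iff_div_mem.2 ⟨g⁻¹, ?_⟩⟩
    rw [h _ (hfd φ), div_eq_mul_inv, map_inv]
    group

end ReeS

end H5.Ree
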