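import Cfsg.Agent.H5.RE12

/-! Small Ree groups: the Schur multiplier. -/

namespace H5.Ree
open scoped Pointwise MatrixGroups commutatorElement
open H5.Sz H5.Sz.SzS

theorem biadd_trivial' {F Γ : Type*} [Field F] [Group Γ] (β : F → F → Γ) (ν : F → F)
    (h1 : ∀ a a' d, β (a + a') d = β a d * β a' d) (h2 : ∀ a d d', β a (d + d') = β a d * β a d')
    (h3 : ∀ t a d, t ≠ 0 → β (t * a) (ν t * d) = β a d) (h4 : ∀ t, t ≠ 0 → ν t ≠ 0)
    {x : F} (hx : x ≠ 0) (hx1 : x + 1 ≠ 0) (hc : (ν (x + 1))⁻¹ ≠ (ν x)⁻¹ + 1) (a d : F) :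
    β a d = 1 := by
  have e1 : ∀ t d, t ≠ 0 → β t d = β 1 ((ν t)⁻¹ * d) := by
    intro t d ht
    rw [← h3 t 1 _ ht, mul_one, mul_inv_cancel_left₀ (h4 t ht)]
  have e2 : ∀ d, β 1 d = 1 := by
    intro d
    obtain ⟨e, rfl⟩ : ∃ e, d = ((ν (x + 1))⁻¹ - ((ν x)⁻¹ + 1)) * e :=
      ⟨_, (mul_inv_cancel_left₀ (sub_ne_zero.2 hc) d).symm⟩
    have := h1 x 1 e
    rw [e1 _ _ hx1, e1 _ _ hx, ← h2] at this
    rw [← mul_left_inj (β 1 ((ν x)⁻¹ * e + e)), ← h2, one_mul, ← this]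
    congr 1
    ring
  by_cases ha : a = 0
  · simpa [ha] using h1 0 0 d
  · rw [e1 _ _ ha, e2]

theorem commutatorElement_mul_self_aux {Γ : Type*} [Group Γ] (a b : Γ) : ⁅a, b⁆ * b = a * b * a⁻¹ := by
  rw [commutatorElement_def, inv_mul_cancel_right]

namespace ReeS
variable {F : Type*} [Field F] [Fintype F] {m : ℕ} {G : Type*} [Group G] (S : ReeS F m G)

include S in
theorem biadd_same (hm : 1 ≤ m) {Γ : Type*} [Group Γ] (β : F → F → Γ)
    (h1 : ∀ a a' d, β (a + a') d = β a d * β a' d) (h2 : ∀ a d d', β a (d + d') = β a d * β a d')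
    (h3 : ∀ t a d, t ≠ 0 → β (t * a) (t * d) = β a d) (a d : F) : β a d = 1 := by
  have := S.charP
  obtain ⟨x, h0, hx⟩ := S.exists_σ_ne hm
  have e1 : x + 1 ≠ 0 := fun h => hx (by rw [eq_neg_of_add_eq_zero_left h]; simp)
  refine biadd_trivial' β id h1 h2 h3 (fun _ h => h) h0 e1 (fun h => hx ?_) a d
  simp only [id] at h
  field_simp at h
  have : (x - 1) ^ 2 = 0 := by grind
  rw [sub_eq_zero.1 (pow_eq_zero_iff two_ne_zero |>.1 this), map_one]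

theorem exists_gen3 (hm : 1 ≤ m) : ∃ x : F, x ≠ 0 ∧ x + 1 ≠ 0 ∧
    ((x + 1) ^ 2 * S.σ (x + 1))⁻¹ ≠ (x ^ 2 * S.σ x)⁻¹ + 1 := by
  have := S.charP
  obtain ⟨x, h0, hx⟩ := S.exists_σ_ne hm
  have e1 : x + 1 ≠ 0 := fun h => hx (by rw [eq_neg_of_add_eq_zero_left h]; simp)
  have e2 : x - 1 ≠ 0 := fun h => hx (by rw [sub_eq_zero.1 h]; simp)
  by_contra h
  push Not at h
  have h1 := h x h0 e1
  have h2 := h (x - 1) e2 (by simpa using h0)
  rw [sub_add_cancel] at h2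
  have h3 := mul_inv_cancel₀ (mul_ne_zero (pow_ne_zero 2 h0) (S.σ_ne h0))
  have h4 := mul_inv_cancel₀ (mul_ne_zero (pow_ne_zero 2 e1) (S.σ_ne e1))
  have h5 := mul_inv_cancel₀ (mul_ne_zero (pow_ne_zero 2 e2) (S.σ_ne e2))
  rw [h1, map_add, map_one] at h4
  rw [← sub_eq_iff_eq_add.2 h2, map_sub, map_one] at h5
  generalize (x ^ 2 * S.σ x)⁻¹ = z at *
  generalize S.σ x = y at *
  have h7 : 2 * ((x ^ 2 + 1) * ((x ^ 2 - 1) ^ 2 - x ^ 2)) = 0 := by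
    linear_combination x ^ 2 * (x - 1) ^ 2 * h4 + x ^ 2 * (x + 1) ^ 2 * h5 - 2 * (x ^ 2 - 1) ^ 2 * h3
  clear h h1 h2 h3 h4 h5 hx
  have h6 : (x ^ 2 + 1) * ((x ^ 2) ^ 2 + 1) = 0 := by grind
  rcases mul_eq_zero.1 h6 with h6 | h6 <;> exact S.sq_ne_neg_one _ (eq_neg_of_add_eq_zero_left h6)

theorem comm_uy (a b c y z : F) : ⁅S.u a b c, S.u 0 y z⁆ = S.u 0 0 (a * y) := by
  rw [commutatorElement_def, mul_assoc, ← mul_inv_rev, mul_inv_eq_iff_eq_mul, S.u_mul, S.u_mul, S.u_mul, u_eq_iff]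
  simp only [map_zero]
  refine ⟨?_, ?_, ?_⟩ <;> ring

theorem comm_mem_Y {g k : G} (hg : g ∈ S.U) (hk : k ∈ S.U) : ⁅g, k⁆ ∈ S.Y := by
  obtain ⟨a, b, c, rfl⟩ := hg
  obtain ⟨x, y, z, rfl⟩ := hk
  rw [commutatorElement_def, mul_assoc, ← mul_inv_rev, S.u_mul, S.u_mul, u_inv, S.u_mul, add_comm x, add_neg_cancel]
  exact S.y_mem _ _

section
variable {Γ : Type*} [Group Γ] {σ : Γ →* G} (hc : σ.ker ≤ Subgroup.center Γ)
include hc

theorem commutator_comap_B (hm : 1 ≤ m) (hs : ∀ g ∈ S.B, ∃ x, σ x = g) (hr : ∀ x, σ x ∈ S.B) {z : Γ}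
    (hz : σ z = 1) (h : z ∈ ⁅S.U.comap σ, S.U.comap σ⁆) : z = 1 := by
  have := S.charP
  choose X hX using fun a b c => hs _ (S.u_mem_B a b c)
  choose H hH using fun t => hs _ (S.h_mem_B t)
  have hcen : ∀ {z : Γ}, σ z = 1 → ∀ x, x * z = z * x := fun hz x => Subgroup.mem_center_iff.1 (hc hz) x
  have hconj : ∀ g a b : Γ, g * ⁅a, b⁆ * g⁻¹ = ⁅g * a * g⁻¹, g * b * g⁻¹⁆ := by
    intro g a b
    simp only [commutatorElement_def]
    group
  have hfix : ∀ {z : Γ}, σ z = 1 → ∀ g, g * z * g⁻¹ = z := fun hz g => by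
    rw [hcen hz, mul_inv_cancel_right]
  have hHX : ∀ (t : Fˣ) a b c x y z, H t * ⁅X a b c, X x y z⁆ * (H t)⁻¹ =
      ⁅X (t * a) (t * S.σ t * b) (t ^ 2 * S.σ t * c), X (t * x) (t * S.σ t * y) (t ^ 2 * S.σ t * z)⁆ := by
    intro t a b c x y z
    rw [hconj]
    exact comm_congr hc (by simp [hX, hH, S.h_u]) (by simp [hX, hH, S.h_u])
  have hσ : ∀ a b c y z, σ ⁅X a b c, X 0 y z⁆ = S.u 0 0 (a * y) := by
    intro a b c y z
    rw [map_commutatorElement, hX, hX, comm_uy]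
  have hk1 : ∀ a b c z, σ ⁅X a b c, X 0 0 z⁆ = 1 := by simp [hσ]
  have hk2 : ∀ b c y z, σ ⁅X 0 b c, X 0 y z⁆ = 1 := by simp [hσ]
  have hl2 : ∀ b b' c c' y z, ⁅X 0 (b + b') (c + c'), X 0 y z⁆ = ⁅X 0 b c, X 0 y z⁆ * ⁅X 0 b' c', X 0 y z⁆ := by
    intro b b' c c' y z
    rw [add_comm, add_comm c, ← comm_mul_left (hcen (hk2 _ _ _ _) _)]
    exact comm_congr hc (by rw [map_mul, hX, hX, hX, y_mul]) rfl
  have hr2 : ∀ b c y y' z z', ⁅X 0 b c, X 0 (y + y') (z + z')⁆ = ⁅X 0 b c, X 0 y z⁆ * ⁅X 0 b c, X 0 y' z'⁆ := by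
    intro b c y y' z z'
    rw [← comm_mul_right (hcen (hk2 _ _ _ _) _)]
    exact comm_congr hc rfl (by rw [map_mul, hX, hX, hX, y_mul])
  have s1 : ∀ c d, ⁅X 0 0 c, X 0 0 d⁆ = 1 := by
    refine S.biadd_same hm (fun c d => ⁅X 0 0 c, X 0 0 d⁆) (fun a a' d => by simpa using hl2 0 0 a a' 0 d)
      (fun a d d' => by simpa using hr2 0 a 0 0 d d') fun s a d hs => ?_
    obtain ⟨t, rfl⟩ := S.χ3_surj' hs
    simpa [hfix (hk1 0 0 a d)] using (hHX t 0 0 a 0 0 d).symm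
  have s2 : ∀ b d, ⁅X 0 b 0, X 0 0 d⁆ = 1 := by
    intro b d
    have e1 : ⁅X 0 b 0, X 0 0 (-d)⁆ = ⁅X 0 b 0, X 0 0 d⁆ := by
      simpa [hfix (hk1 0 b 0 d)] using (hHX (-1) 0 b 0 0 0 d).symm
    have e2 := hr2 b 0 0 0 d d
    rw [add_zero, show d + d = -d by grind, e1] at e2
    exact left_eq_mul.1 e2
  have s4 : ∀ b d, ⁅X 0 b 0, X 0 d 0⁆ = 1 := by
    have e0 : ∀ b d, ⁅X 0 (-b) 0, X 0 (-d) 0⁆ = ⁅X 0 b 0, X 0 d 0⁆ := by
      intro b d
      have e1 := hl2 b (-b) 0 0 (-d) 0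
      have e2 := hr2 b 0 (-d) d 0 0
      have e3 : X 0 0 0 ∈ σ.ker := by simp [hX]
      rw [add_neg_cancel, add_zero, commutatorElement_eq_one_iff_mul_comm.2 (hcen e3 _).symm] at e1
      rw [neg_add_cancel, add_zero, commutatorElement_eq_one_iff_mul_comm.2 (hcen e3 _)] at e2
      exact mul_left_cancel (e1.symm.trans e2)
    refine S.biadd_same hm (fun c d => ⁅X 0 c 0, X 0 d 0⁆) (fun a a' d => by simpa using hl2 a a' 0 0 d 0)
      (fun a d d' => by simpa using hr2 a 0 d d' 0 0) fun s a d hs => ?_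
    obtain h | ⟨t, h | h⟩ := S.χ2_surj s one_ne_zero
    · exact absurd h hs
    · simpa [h, hfix (hk2 a 0 d 0)] using (hHX t 0 a 0 0 d 0).symm
    · simpa [h, e0, hfix (hk2 a 0 d 0)] using (hHX t 0 a 0 0 d 0).symm
  have hY : ∀ {g k : Γ}, σ g ∈ S.Y → σ k ∈ S.Y → g * k = k * g := by
    rintro g k ⟨b, c, hg⟩ ⟨y, z, hk⟩
    have e1 := hl2 b 0 0 c y z
    have e2 := hr2 b 0 y 0 0 z
    have e3 := hr2 0 c y 0 0 z
    simp only [add_zero, zero_add] at e1 e2 e3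
    rw [← commutatorElement_eq_one_iff_mul_comm, comm_congr hc (hg.trans (hX _ _ _).symm) (hk.trans (hX _ _ _).symm),
      e1, e2, e3, s4, s2, s1, ← commutatorElement_inv, s2]
    simp
  have hXY : ∀ b c, σ (X 0 b c) ∈ S.Y := fun b c => by rw [hX]; exact S.y_mem _ _
  have hred : ∀ {g : Γ} {a b c} {k : Γ}, σ g = S.u a b c → σ k ∈ S.Y → ⁅g, k⁆ = ⁅X a 0 0, k⁆ := by
    intro g a b c k hg hk
    rw [comm_congr hc (a' := X a 0 0 * X 0 b c) (by rw [map_mul, hX, hX, hg, S.u_mul]; simp) rfl,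
      comm_mul_left (by rw [commutatorElement_eq_one_iff_mul_comm.2 (hY (hXY _ _) hk)]; simp),
      commutatorElement_eq_one_iff_mul_comm.2 (hY (hXY _ _) hk), one_mul]
  obtain ⟨y, hy0, hy1, hy⟩ := S.exists_gen3 hm
  have s3 : ∀ a d, ⁅X a 0 0, X 0 0 d⁆ = 1 := by
    refine biadd_trivial' (fun a d => ⁅X a 0 0, X 0 0 d⁆) (fun t => t ^ 2 * S.σ t) ?_ ?_ ?_
      (fun _ h => by simpa using h) hy0 hy1 hy
    · intro a a' d
      rw [add_comm, ← comm_mul_left (hcen (hk1 _ _ _ _) _)]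
      exact (hred (by rw [map_mul, hX, hX, S.u_mul]) (hXY _ _)).symm
    · intro a d d'
      rw [← comm_mul_right (hcen (hk1 _ _ _ _) _)]
      exact comm_congr hc rfl (by rw [map_mul, hX, hX, hX, y_mul, add_zero])
    · intro t a d ht
      simpa [hfix (hk1 a 0 0 d)] using (hHX (Units.mk0 t ht) a 0 0 0 0 d).symm
  have hZ : ∀ {g k : Γ} {d}, σ g ∈ S.U → σ k = S.u 0 0 d → g * k = k * g := by
    rintro g k d ⟨a, b, c, hg⟩ hk
    rw [← commutatorElement_eq_one_iff_mul_comm, hred hg (hk ▸ S.y_mem _ _),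
      comm_congr hc rfl (hk.trans (hX _ _ _).symm), s3]
  have hXU : ∀ a b c, σ (X a b c) ∈ S.U := fun a b c => by rw [hX]; exact S.u_mem _ _ _
  -- the canonical lift of `Y`
  obtain ⟨t0, h0, ht0⟩ := S.exists_σ_ne hm
  have hν2 : t0 * S.σ t0 - 1 ≠ 0 := fun h => by
    rcases S.χ2_eq_one (sub_eq_zero.1 h) with rfl | rfl <;> simp at ht0
  have hν3 : t0 ^ 2 * S.σ t0 - 1 ≠ 0 := fun h => by
    obtain rfl := S.χ3_eq_one (sub_eq_zero.1 h)
    simp at ht0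
  let s : F → F → Γ := fun b c => ⁅H (Units.mk0 t0 h0), X 0 (b / (t0 * S.σ t0 - 1)) (c / (t0 ^ 2 * S.σ t0 - 1))⁆
  have hs1 : ∀ b c, σ (s b c) = S.u 0 b c := by
    intro b c
    rw [map_commutatorElement, hH, hX, commutatorElement_def, S.h_u, y_inv, mul_zero, y_mul, u_eq_iff,
      Units.val_mk0]
    refine ⟨rfl, ?_, ?_⟩ <;> field_simp <;> ring
  have hsY : ∀ b c, σ (s b c) ∈ S.Y := fun b c => by rw [hs1]; exact S.y_mem _ _
  have hs2 : ∀ b c y z, s (b + y) (c + z) = s b c * s y z := by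
    intro b c y z
    rw [← comm_mul_right (hY (hXY _ _) (hsY _ _))]
    exact comm_congr hc rfl (by rw [map_mul, hX, hX, hX, y_mul, add_div, add_div])
  have hs3 : ∀ (t : Fˣ) b c, H t * s b c * (H t)⁻¹ = s (t * S.σ t * b) (t ^ 2 * S.σ t * c) := by
    intro t b c
    rw [hconj]
    refine comm_congr hc ?_ (by simp [hX, hH, S.h_u, mul_div_assoc])
    simp only [map_mul, map_inv, hH]
    rw [← map_mul, mul_comm t, map_mul, mul_inv_cancel_right]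
  have hs0 : s 0 0 = 1 := by simpa using hs2 0 0 0 0
  have s5 : ∀ a b, ⁅X a 0 0, X 0 b 0⁆ = s 0 (a * b) := by
    intro a b
    have hk : ∀ a b, σ (⁅X a 0 0, X 0 b 0⁆ * (s 0 (a * b))⁻¹) = 1 := by
      intro a b
      rw [map_mul, map_inv, hσ, hs1, mul_inv_cancel]
    have e1 : ⁅X (-a) 0 0, X 0 b 0⁆ * (s 0 (-a * b))⁻¹ = ⁅X a 0 0, X 0 b 0⁆ * (s 0 (a * b))⁻¹ := by
      have e2 := hHX (-1) a 0 0 0 b 0
      have e3 := hs3 (-1) 0 (a * b)
      simp only [Units.val_neg, Units.val_one, map_neg, map_one, mul_zero, neg_mul, one_mul, mul_neg, neg_neg,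
        even_two, Even.neg_pow, one_pow] at e2 e3 ⊢
      rw [← hfix (hk a b) (H (-1)), ← e2, ← e3]
      group
    have e2 : ⁅X (-a) 0 0, X 0 b 0⁆ = ⁅X a 0 0, X 0 b 0⁆ * ⁅X a 0 0, X 0 b 0⁆ := by
      rw [← comm_mul_left (hZ (hXU _ _ _) (hσ _ _ _ _ _)), show -a = a + a by grind]
      exact (hred (by rw [map_mul, hX, S.u_mul]) (hXY _ _)).symm
    have e3 : s 0 (-a * b) = s 0 (a * b) * s 0 (a * b) := by
      rw [← hs2, add_zero, show -a * b = a * b + a * b by grind]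
    rw [e2, e3, mul_inv_rev, mul_assoc, mul_right_inj, ← mul_assoc, mul_eq_right] at e1
    exact mul_inv_eq_one.1 e1
  let Y0 : Subgroup Γ :=
    { carrier := {x | ∃ b c, x = s b c}
      mul_mem' := by
        rintro _ _ ⟨b, c, rfl⟩ ⟨y, z, rfl⟩
        exact ⟨_, _, (hs2 b c y z).symm⟩
      one_mem' := ⟨0, 0, hs0.symm⟩
      inv_mem' := by
        rintro _ ⟨b, c, rfl⟩
        exact ⟨-b, -c, inv_eq_of_mul_eq_one_right (by rw [← hs2]; simpa using hs0)⟩ }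
  have hN : Y0.Normal := by
    constructor
    rintro _ ⟨y, z, rfl⟩ g
    obtain ⟨a, b, c, t, hg⟩ := hr g
    rw [conj_congr hc (b := X a b c * H t) (by rw [hg, map_mul, hX, hH]), mul_inv_rev, mul_assoc, mul_assoc,
      ← mul_assoc (s y z), ← mul_assoc (H t), ← mul_assoc (H t), hs3, ← mul_assoc,
      ← commutatorElement_mul_self_aux, hred (hX _ _ _) (hsY _ _),
      comm_congr hc rfl (b' := X 0 (t * S.σ t * y) 0 * X 0 0 (t ^ 2 * S.σ t * z))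
        (by rw [hs1, map_mul, hX, hX, y_mul, add_zero, zero_add]), comm_mul_right (by rw [s3]; simp), s3, s5, mul_one]
    exact Y0.mul_mem ⟨_, _, rfl⟩ ⟨_, _, rfl⟩
  let π := QuotientGroup.mk' Y0
  have hπ : ∀ {v : Γ}, σ v ∈ S.Y → ∀ g, g * π v = π v * g := by
    rintro v ⟨b, c, hv⟩ ⟨g⟩
    have e1 : π v = π (v * (s b c)⁻¹) := by
      rw [map_mul, map_inv, show π (s b c) = 1 from (QuotientGroup.eq_one_iff _).2 ⟨b, c, rfl⟩, inv_one, mul_one]
    show π g * π v = π v * π g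
    rw [e1, ← map_mul, ← map_mul, hcen (by rw [map_mul, map_inv, hv, hs1, mul_inv_cancel])]
  have hπ1 : ∀ {g : Γ} {a b c}, σ g = S.u a b c → ∃ v, (∀ k, k * v = v * k) ∧ π g = π (X a 0 0) * v := by
    intro g a b c hg
    refine ⟨π ((X a 0 0)⁻¹ * g), hπ ?_, by simp⟩
    rw [map_mul, map_inv, hg, hX, u_split _ a b c, inv_mul_cancel_left, y_mul]
    exact S.y_mem _ _
  have hπ2 : ∀ {g k : Γ} {a b c x y z}, σ g = S.u a b c → σ k = S.u x y z →
      ⁅π g, π k⁆ = ⁅π (X a 0 0), π (X x 0 0)⁆ := by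
    intro g k a b c x y z hg hk
    obtain ⟨v, hv, e1⟩ := hπ1 hg
    obtain ⟨w, hw, e2⟩ := hπ1 hk
    rw [e1, e2, comm_mul_left (by rw [commutatorElement_eq_one_iff_mul_comm.2 (hv _).symm]; simp),
      commutatorElement_eq_one_iff_mul_comm.2 (hv _).symm, one_mul,
      comm_mul_right (by rw [commutatorElement_eq_one_iff_mul_comm.2 (hw _)]; simp),
      commutatorElement_eq_one_iff_mul_comm.2 (hw _), mul_one]
  have hπ3 : ∀ a x g, g * ⁅π (X a 0 0), π (X x 0 0)⁆ = ⁅π (X a 0 0), π (X x 0 0)⁆ * g := by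
    intro a x
    rw [← map_commutatorElement]
    exact hπ (by rw [map_commutatorElement]; exact S.comm_mem_Y (hXU _ _ _) (hXU _ _ _))
  have s6 : ∀ a x, ⁅π (X a 0 0), π (X x 0 0)⁆ = 1 := by
    refine S.biadd_same hm (fun a x => ⁅π (X a 0 0), π (X x 0 0)⁆) (fun a a' d => ?_) (fun a d d' => ?_)
      fun t a d ht => ?_
    · rw [add_comm, ← comm_mul_left (hπ3 _ _ _), ← map_mul]
      exact (hπ2 (by rw [map_mul, hX, hX, S.u_mul]) (hX _ _ _)).symm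
    · rw [← comm_mul_right (hπ3 _ _ _), ← map_mul]
      exact (hπ2 (hX _ _ _) (by rw [map_mul, hX, hX, S.u_mul])).symm
    · have := congrArg π (hHX (Units.mk0 t ht) a 0 0 d 0 0)
      rw [map_mul, map_mul, map_commutatorElement, hπ3, map_inv, mul_inv_cancel_right, map_commutatorElement] at this
      simpa using this.symm
  have hle : ⁅S.U.comap σ, S.U.comap σ⁆ ≤ Y0 := by
    rw [Subgroup.commutator_le]
    rintro g ⟨a, b, c, hg⟩ k ⟨x, y, z, hk⟩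
    rw [← QuotientGroup.eq_one_iff]
    exact (map_commutatorElement π g k).trans ((hπ2 hg hk).trans (s6 a x))
  obtain ⟨b, c, rfl⟩ := hle h
  rw [hs1, u_eq_one] at hz
  rw [hz.2.1, hz.2.2, hs0]

variable (hs : Function.Surjective σ)
include hs

theorem commutator_comap (hm : 1 ≤ m) {z : Γ} (hz : σ z = 1) (h : z ∈ ⁅S.U.comap σ, S.U.comap σ⁆) : z = 1 := by
  have h1 : (S.U.comap (σ.comp (S.B.comap σ).subtype)).map (S.B.comap σ).subtype = S.U.comap σ := by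
    ext x
    exact ⟨by rintro ⟨x, hx, rfl⟩; exact hx, fun hx => ⟨⟨x, S.U_le_B hx⟩, hx, rfl⟩⟩
  rw [← h1, ← Subgroup.map_commutator] at h
  obtain ⟨z, h, rfl⟩ := h
  refine congrArg Subtype.val (S.commutator_comap_B (σ := σ.comp (S.B.comap σ).subtype) (fun x hx => ?_) hm
    (fun g hg => ?_) (fun x => x.2) hz h)
  · exact Subgroup.mem_center_iff.2 fun y => Subtype.ext (Subgroup.mem_center_iff.1 (hc hx) y)
  · obtain ⟨x, rfl⟩ := hs g
    exact ⟨⟨x, hg⟩, rfl⟩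

include S in
theorem comm_two {x y : Γ} (hx : σ x * σ x = 1) (hy : σ y * σ y = 1) (h : σ x * σ y = σ y * σ x) :
    ⁅x, y⁆ = 1 := by
  have hcen : ∀ {x y : Γ}, σ x * σ y = σ y * σ x → ∀ g, g * ⁅x, y⁆ = ⁅x, y⁆ * g := fun h g =>
    Subgroup.mem_center_iff.1 (hc (by
      rwa [MonoidHom.mem_ker, map_commutatorElement, commutatorElement_eq_one_iff_mul_comm])) g
  obtain ⟨A, hA⟩ := hs S.a
  obtain ⟨W, hW⟩ := hs S.w
  obtain ⟨B, hB⟩ := hs S.b
  have key : ∀ {x y : Γ}, σ x ≠ 1 → σ x * σ x = 1 → σ y ≠ 1 → σ y * σ y = 1 → σ y ≠ σ x →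
      σ x * σ y = σ y * σ x → ⁅x, y⁆ = ⁅A, W⁆ := by
    intro x y h1 h2 h3 h4 h5 h6
    obtain ⟨g, e1, e2⟩ := S.four_conj h1 h2 h3 h4 h5 h6.symm
    obtain ⟨g, rfl⟩ := hs g
    have e3 : ⁅x, y⁆ = ⁅g * x * g⁻¹, g * y * g⁻¹⁆ := by
      rw [← mul_inv_cancel_right ⁅x, y⁆ g, ← hcen h6]
      simp only [commutatorElement_def]
      group
    rcases e2 with e2 | e2
    · exact e3.trans (comm_congr hc (by simp [e1, hA]) (by simp [e2, hW]))
    · rw [e3, comm_congr hc (a' := A) (b' := A * W) (by simp [e1, hA]) (by simp [e2, hW, hA]),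
        comm_mul_right (hcen (by rw [hA, hW, a_mul_w]) _), commutatorElement_self, one_mul]
  obtain ⟨b1, b2⟩ := S.mem_D.1 S.b_mem_D
  have h1 : ⁅A, W⁆ = 1 := by
    have e1 := key (x := A) (y := B) (hA ▸ S.a_ne) (hA ▸ S.a_mul_a)
      (by rw [hB]; exact fun e => S.b_not_mem (e ▸ one_mem _)) (hB ▸ S.b_mul_b)
      (by rw [hA, hB]; exact fun e => S.b_not_mem (e ▸ S.a_mem_T4)) (by rw [hA, hB, b1])
    have h2 : ∀ t ∈ S.T4, S.w * S.b ≠ t := fun t ht e =>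
      S.b_not_mem ((mul_mem_cancel_left S.w_mem_T4).1 (e ▸ ht))
    have e2 := key (x := A) (y := W * B) (hA ▸ S.a_ne) (hA ▸ S.a_mul_a)
      (by rw [map_mul, hW, hB]; exact h2 _ (one_mem _))
      (by rw [map_mul, hW, hB, mul_assoc, ← mul_assoc S.b, b2, mul_assoc, b_mul_b, mul_one, S.w_mul_w])
      (by rw [map_mul, hW, hB, hA]; exact h2 _ S.a_mem_T4)
      (by rw [map_mul, hW, hB, hA, ← mul_assoc, a_mul_w, mul_assoc, ← b1, mul_assoc])
    rw [comm_mul_right (hcen (by rw [hA, hB, b1]) _), e1] at e2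
    exact mul_eq_left.1 e2
  by_cases h1 : σ x = 1
  · exact commutatorElement_eq_one_iff_mul_comm.2 (Subgroup.mem_center_iff.1 (hc h1) y).symm
  by_cases h2 : σ y = 1
  · exact commutatorElement_eq_one_iff_mul_comm.2 (Subgroup.mem_center_iff.1 (hc h2) x)
  by_cases h3 : σ y = σ x
  · rw [comm_congr hc rfl h3, commutatorElement_self]
  · rwa [key h1 hx h2 hy h3 h]

end

include S in
theorem stem_trivial (hm : 1 ≤ m) {Γ : Type*} [Group Γ] [Finite Γ] {σ : Γ →* G}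
    (hσ : Cfsg.IsStemExtension σ) {z : Γ} (hz : σ z = 1) : z = 1 := by
  have := S.finite
  rw [← orderOf_eq_one_iff]
  by_contra h
  obtain ⟨p, hp, hd⟩ := Nat.exists_prime_and_dvd h
  have := Fact.mk hp
  by_cases h3 : p = 3
  · subst h3
    obtain ⟨Q, hQ⟩ := S.exists_sylow S.inf
    refine Q.not_dvd_index (hd.trans (orderOf_dvd_of_pow_eq_one ?_))
    rw [hQ, P_inf]
    exact S.commutator_comap hσ.2.1 hσ.1 hm (by simp [hz]) (pow_index_mem hσ S.U hz)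
  obtain ⟨Q⟩ : Nonempty (Sylow p G) := inferInstance
  refine Q.not_dvd_index (hd.trans (orderOf_dvd_of_pow_eq_one ?_))
  have h1 := pow_index_mem hσ (Q : Subgroup G) hz
  rw [← Subgroup.mem_bot]
  refine Subgroup.commutator_le.2 ?_ h1
  intro a ha b hb
  by_cases h2 : p = 2
  · subst h2
    exact S.comm_two hσ.2.1 hσ.1 (S.sq_of_two Q.isPGroup' ha) (S.sq_of_two Q.isPGroup' hb)
      (S.comm_of_two Q.isPGroup' ha hb)
  · obtain ⟨c, hc⟩ := (Subgroup.isCyclic_iff_exists_zpowers_eq_top _).1 (S.isCyclic_of_pgroup hm h2 h3 Q.isPGroup')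
    obtain ⟨c, rfl⟩ := hσ.1 c
    rw [Subgroup.mem_comap, ← hc] at ha hb
    obtain ⟨i, hi⟩ := ha
    obtain ⟨j, hj⟩ := hb
    rw [Subgroup.mem_bot, comm_congr hσ.2.1 (a' := c ^ i) (b' := c ^ j) (by simp [← hi]) (by simp [← hj]),
      commutatorElement_eq_one_iff_commute]
    exact Commute.zpow_zpow_self c i j

include S in
theorem multiplier_trivial (hm : 1 ≤ m) : Cfsg.HasCyclicSchurMultiplier G 1 := by
  have := S.finite
  refine ⟨⟨G, inferInstance, inferInstance, MonoidHom.id G, ⟨Function.surjective_id, by simp, by simp⟩, ?_⟩, ?_⟩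
  · have : Unique (MonoidHom.id G).ker := by
      rw [MonoidHom.ker_id]; infer_instance
    exact ⟨MulEquiv.ofUnique⟩
  · intro Γ _ _ σ hσ
    exact ⟨1, fun z => ⟨1, Subtype.ext (S.stem_trivial hm hσ z.2).symm⟩⟩

end ReeS

end H5.Ree
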