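import Cfsg.Prelude.Def_RootSubgroups
import Cfsg.Agent.H1.Inv

/-! Root involutions: lines and odd pairs. -/

namespace H5.RI
open Cfsg Relation

variable {G : Type*} [Group G] {D : Set G} {a b c d e g s u x y z : G}

/-- odd pairs -/
def Od (a b : G) : Prop := a ≠ b ∧ Odd (orderOf (a * b))

/-- pairs of type four -/
def Fo (a b : G) : Prop := orderOf (a * b) = 4

theorem ord_conj (g x : G) : orderOf (g * x * g⁻¹) = orderOf x := (MulAut.conj g).orderOf_eq x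

theorem ord_comm (a b : G) : orderOf (a * b) = orderOf (b * a) := by rw [← ord_conj b]; simp [mul_assoc]

theorem Od.symm (h : Od a b) : Od b a := ⟨h.1.symm, ord_comm a b ▸ h.2⟩
theorem Fo.symm (h : Fo a b) : Fo b a := (ord_comm b a).trans h

theorem Od.conj (h : Od a b) (g : G) : Od (g * a * g⁻¹) (g * b * g⁻¹) :=
  ⟨by simpa using h.1, by rw [← ord_conj g⁻¹]; simpa [mul_assoc] using h.2⟩

theorem Fo.conj (h : Fo a b) (g : G) : Fo (g * a * g⁻¹) (g * b * g⁻¹) := by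
  rw [Fo, ← ord_conj g⁻¹]; simpa [mul_assoc, Fo] using h

theorem Od.not_fo (h : Od a b) : ¬ Fo a b := fun e => by have := h.2; rw [e] at this; exact absurd this (by decide)

theorem odd_two (h : Odd (orderOf u)) {k : ℕ} (e : u ^ 2 ^ k = 1) : u = 1 :=
  orderOf_eq_one_iff.1 (Nat.eq_one_of_self_dvd_coprime (orderOf_dvd_of_pow_eq_one e) h)
  where Nat.eq_one_of_self_dvd_coprime {n k : ℕ} (h : n ∣ 2 ^ k) (h' : Odd n) : n = 1 :=
    Nat.eq_one_of_dvd_coprimes (h'.coprime_two_right.pow_right k) dvd_rfl h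

theorem odd_sq (h : Odd (orderOf u)) (e : u * u = 1) : u = 1 := odd_two h (k := 1) (by simpa [pow_two] using e)

theorem odd_pow (h : Odd (orderOf u)) (n : ℕ) : Odd (orderOf (u ^ n)) := h.of_dvd_nat (orderOf_pow_dvd n)

theorem odd_sqrt (h : Odd (orderOf u)) : ∃ j, (u * u) ^ j = u := by
  obtain ⟨m, e⟩ := h
  exact ⟨m + 1, by rw [← pow_two, ← pow_mul, show 2 * (m + 1) = 2 * m + 1 + 1 by ring, ← e, pow_succ, pow_orderOf_eq_one, one_mul]⟩

/-- commutator of involutions -/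
def cm (a b : G) : G := a * (b * (a * b))

/-- configurations -/
def Cf (D : Set G) (T : G × G × G) : Prop := T.1 ∈ D ∧ T.2.1 ∈ D ∧ T.2.2 ∈ D ∧ Od T.1 T.2.1 ∧ T.1 * T.2.2 ∈ D ∧ Fo T.2.2 T.2.1

/-- next configuration -/
def nx (T : G × G × G) : G × G × G := (T.2.1, T.1, cm T.2.2 T.2.1)

theorem cnt [Finite G] {r : G → G → Prop} (hr : ∀ {a b} g, r a b → r (g * a * g⁻¹) (g * b * g⁻¹))
    (h : ∀ x, r a x → r (g * a * g⁻¹) x) (x : G) (hx : r (g * a * g⁻¹) x) : r a x :=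
  (Set.eq_of_subset_of_ncard_le (s := {x | r a x}) (t := {x | r (g * a * g⁻¹) x}) h (Set.ncard_le_ncard_of_injOn (fun x => g⁻¹ * x * g)
    (fun x hx => by simpa [mul_assoc] using hr g⁻¹ hx) fun x _ y _ e => by simpa using e)).ge hx

end H5.RI

namespace Cfsg.IsRootInvolutionSet
open H5.RI Relation

variable {G : Type*} [Group G] {D : Set G} {a b c d e g s u w x y z : G} (hD : IsRootInvolutionSet D)
include hD

theorem h5sq (ha : a ∈ D) : a * a = 1 := by rw [← pow_two, ← hD.orderOf_eq a ha, pow_orderOf_eq_one]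
theorem h5sq' (ha : a ∈ D) (x : G) : a * (a * x) = x := by rw [← mul_assoc, hD.h5sq ha, one_mul]
theorem h5inv (ha : a ∈ D) : a⁻¹ = a := inv_eq_of_mul_eq_one_right (hD.h5sq ha)
theorem h5ne (ha : a ∈ D) : a ≠ 1 := fun e => by simpa [e] using hD.orderOf_eq a ha
theorem h5cj (ha : a ∈ D) (hb : b ∈ D) : b * (a * b) ∈ D := by simpa [hD.h5inv hb, mul_assoc] using hD.conj_mem a ha b

theorem h5tri (ha : a ∈ D) (hb : b ∈ D) : a * b = b * a ∨ Od a b ∨ Fo a b ∧ a * (b * (a * b)) ∈ D := by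
  by_cases e : a = b
  · exact Or.inl (by rw [e])
  simpa [Od, Fo, e, pow_two, mul_assoc] using hD.pair a ha b hb

theorem h5csq (ha : a ∈ D) (hb : b ∈ D) (h : a * b = b * a) : a * b * (a * b) = 1 := by
  nth_rw 1 [h]; rw [mul_assoc, hD.h5sq' ha, hD.h5sq hb]

theorem h5eq (ha : a ∈ D) (h : a * b = 1) : a = b := by rw [← hD.h5inv ha, inv_eq_of_mul_eq_one_right h]

theorem h5odnc (ha : a ∈ D) (hb : b ∈ D) (h : Od a b) : a * b ≠ b * a := fun e => h.1 (hD.h5eq ha (odd_sq h.2 (hD.h5csq ha hb e)))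

theorem h5fonc (ha : a ∈ D) (hb : b ∈ D) (h : Fo a b) : a * b ≠ b * a := fun e =>
  absurd (h ▸ orderOf_dvd_of_pow_eq_one ((pow_two _).trans (hD.h5csq ha hb e))) (by decide)

theorem h5fo (ha : a ∈ D) (hb : b ∈ D) (h : Fo a b) : a * (b * (a * b)) ∈ D :=
  (((hD.h5tri ha hb).resolve_left (hD.h5fonc ha hb h)).resolve_left fun o => o.not_fo h).2

theorem h5fo' (ha : a ∈ D) (hb : b ∈ D) (h : Fo a b) (y : G) : b * (a * (b * (a * y))) = a * (b * (a * (b * y))) := by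
  have := hD.h5inv (hD.h5fo ha hb h)
  simp only [mul_inv_rev, hD.h5inv ha, hD.h5inv hb] at this
  simpa [mul_assoc] using congrArg (· * y) this

theorem h5fo_of (ha : a ∈ D) (hb : b ∈ D) (h : a * b ≠ b * a) (h' : ¬ Od a b) : Fo a b :=
  (((hD.h5tri ha hb).resolve_left h).resolve_left h').1

theorem h5lc (ha : a ∈ D) (hb : b ∈ D) (h : a * b ∈ D) : a * b = b * a := by
  simpa [hD.h5inv ha, hD.h5inv hb] using (hD.h5inv h).symm

theorem h5E (ha : a ∈ D) (hb : b ∈ D) (h1 : c * c = 1) (h2 : c ≠ 1) (h3 : Commute c u) (h4 : Odd (orderOf u)) (e : a * b = c * u) :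
    u = 1 := by
  have c2 : c ^ 2 = 1 := by rwa [pow_two]
  rcases hD.h5tri ha hb with h | h | h
  · exact odd_two h4 (k := 1) (by simpa [← pow_two, e, h3.mul_pow, c2] using hD.h5csq ha hb h)
  · obtain ⟨m, hm⟩ := h.2
    have := pow_orderOf_eq_one (a * b)
    rw [hm, e, h3.mul_pow, pow_succ c, pow_mul, c2, one_pow, one_mul] at this
    have e2 := eq_inv_of_mul_eq_one_left this
    exact (h2 (by rw [e2, odd_sq (odd_pow h4 (2 * m + 1)) (by simpa [e2, ← mul_inv_rev] using h1), inv_one])).elim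
  · have := pow_orderOf_eq_one (a * b)
    rw [h.1, e, h3.mul_pow, show 4 = 2 * 2 from rfl, pow_mul, c2, one_pow, one_mul] at this
    exact odd_two h4 (k := 2) this

theorem h5dih (ha : a ∈ D) (h : Odd (orderOf s)) (e : a * s * a⁻¹ = s⁻¹) : a * s ∈ D := by
  obtain ⟨j, hj⟩ := odd_sqrt h
  convert hD.conj_mem a ha (s ^ j)⁻¹ using 1
  have : a * s ^ j * a⁻¹ = (s ^ j)⁻¹ := by rw [← inv_pow, ← e, conj_pow]
  rw [inv_inv, ← this, inv_mul_cancel_right, mul_assoc, ← (Commute.refl s).mul_pow, hj]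

theorem h5L1 (ha : a ∈ D) (hb : b ∈ D) (hab : a * b ∈ D) (hx : x ∈ D) (h : Od a x) : b * x ≠ x * b := fun e =>
  h.1 (hD.h5eq ha (hD.h5E hab hx (hD.h5sq hb) (hD.h5ne hb) ((show Commute b a from (hD.h5lc ha hb hab).symm).mul_right e) h.2
    (by rw [hD.h5lc ha hb hab, mul_assoc])))

theorem h5L2 (ha : a ∈ D) (hb : b ∈ D) (hab : a * b ∈ D) (hx : x ∈ D) (h : Od a x) : Od b x ∨ Od (a * b) x := by
  by_contra! hc
  have e : a * (a * b) = b := hD.h5sq' ha b
  have f1 := hD.h5fo' hb hx (hD.h5fo_of hb hx (hD.h5L1 ha hb hab hx h) hc.1)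
  have f2 := hD.h5fo' hab hx (hD.h5fo_of hab hx (hD.h5L1 ha hab (e.symm ▸ hb) hx h) hc.2)
  have e2 : a = b * (a * b) := by rw [hD.h5lc ha hb hab, hD.h5sq' hb]
  have e3 : ∀ y, a * b * (b * y) = b * (a * b * y) := fun y => by
    rw [← mul_assoc b, ← e2, mul_assoc, hD.h5sq' hb]
  generalize a * b = c at *
  have s1 := hD.h5sq' hb
  have s2 := hD.h5sq' hab
  have s3 := hD.h5sq' hx
  obtain ⟨j, hj⟩ := odd_sqrt h.2
  have c1 : Commute (c * (x * c)) (a * x) := hj ▸ Commute.pow_right (by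
    have : c * (x * c) * (a * x * (a * x)) * (c * (x * c)) = a * x * (a * x) := by
      simp only [e2, mul_assoc, e3, s2, f1, f2, s3, hD.h5sq hab, mul_one]
    change _ * _ = _
    nth_rw 2 [← this]; simp [mul_assoc, s2, s3, hD.h5sq hab]) j
  have c2 : Commute (c * (x * c)) x := by
    change _ * _ = _
    simpa [mul_assoc] using (f2 1).symm
  have c3 := (c1.mul_right c2).eq
  rw [mul_assoc a, hD.h5sq hx, mul_one, e2] at c3
  refine hD.h5odnc ha hx h (mul_left_cancel (a := c) (mul_right_cancel (b := c) ?_))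
  simpa [e2, mul_assoc, e3, s2, hD.h5sq hab, ← e3 1] using c3.symm

theorem h5cm (ha : a ∈ D) (hb : b ∈ D) (h : Fo a b) : cm a b ∈ D ∧ cm b a = cm a b ∧ a * cm a b ∈ D ∧ b * cm a b ∈ D := by
  have e : cm b a = cm a b := by simpa [cm] using hD.h5fo' ha hb h 1
  exact ⟨hD.h5fo ha hb h, e, by simpa [cm, hD.h5sq' ha] using hD.h5cj ha hb, by rw [← e, cm, hD.h5sq' hb]; exact hD.h5cj hb ha⟩

theorem h5S4 (ha : a ∈ D) (hz : z ∈ D) (hu : u ∈ D) (h1 : Fo a z) (e1 : cm a z = b) (h2 : Fo b u) (e2 : cm b u = a) :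
    orderOf (z * u) = 3 := by
  obtain ⟨hb, -, k1, k2⟩ := e1 ▸ hD.h5cm ha hz h1
  obtain ⟨-, -, -, k3⟩ := e2 ▸ hD.h5cm hb hu h2
  have c1 := hD.h5lc ha hb k1
  have c2 := hD.h5lc hz hb k2
  have c3 := hD.h5lc hu ha k3
  have r1 : z * a = a * (b * z) := by simp [← e1, cm, mul_assoc, hD.h5sq' ha, hD.h5sq hz]
  have r2 : u * b = b * (a * u) := by simp [← e2, cm, mul_assoc, hD.h5sq' hb, hD.h5sq hu]
  have ta : z * u * a = a * b * (z * u) := by rw [mul_assoc, c3, ← mul_assoc, r1]; simp [mul_assoc]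
  have tb : z * u * b = a * (z * u) := by
    rw [mul_assoc, r2, ← mul_assoc, c2, mul_assoc, ← mul_assoc z, r1, ← mul_assoc a b z, c1]
    simp [mul_assoc, hD.h5sq' hb]
  have n1 : ¬ Commute (z * u) a := fun e => hD.h5ne hb (by simpa [ta, mul_assoc] using e.eq)
  have t3 : Commute ((z * u) ^ 3) a ∧ Commute ((z * u) ^ 3) b := by
    generalize z * u = t at *
    have ta' : ∀ y, t * (a * y) = a * (b * (t * y)) := fun y => by simp [← mul_assoc, ta]
    have tb' : ∀ y, t * (b * y) = a * (t * y) := fun y => by simp [← mul_assoc, tb]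
    have ba : ∀ y, b * (a * y) = a * (b * y) := fun y => by simp [← mul_assoc, c1]
    constructor <;> change _ * _ = _ <;> simp [pow_succ, mul_assoc, ta, tb, ta', tb', ba, hD.h5sq' ha, hD.h5sq' hb]
  have n2 : (z * u) ^ 4 ≠ 1 := fun e => n1 (by
    have := t3.1.inv_left
    rwa [← eq_inv_of_mul_eq_one_left ((pow_succ' _ 3).symm.trans e)] at this)
  have o : Od z u := ((hD.h5tri hz hu).resolve_left fun e => n2 (by
    rw [show 4 = 2 * 2 from rfl, pow_mul, pow_two (z * u), hD.h5csq hz hu e, one_pow])).resolve_right fun e =>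
      n2 (e.1 ▸ pow_orderOf_eq_one _)
  have := Fact.mk Nat.prime_three
  refine orderOf_eq_prime (hD.h5E k2 (hD.h5dih hz (odd_pow o.2 3) (by
    rw [← conj_pow, ← inv_pow]; simp [hD.h5inv hz, hD.h5inv hu, hD.h5sq' hz, mul_assoc])) (hD.h5sq hb) (hD.h5ne hb) t3.2.symm
    (odd_pow o.2 3) (by rw [c2, mul_assoc, hD.h5sq' hz])) fun e => n1 (e ▸ Commute.one_left a)

theorem h5nx {T : G × G × G} (h : Cf D T) : Cf D (nx T) := by
  obtain ⟨a, x, b⟩ := T
  obtain ⟨ha, hx, hb, o, hab, f⟩ := h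
  obtain ⟨hz, -, k1, k2⟩ := hD.h5cm hb hx f
  exact ⟨hx, ha, hz, o.symm, k2, hD.h5fo_of hz ha (hD.h5L1 hx hz k2 ha o.symm) fun o' =>
    hD.h5L1 hz hb (hD.h5lc hb hz k1 ▸ k1) ha o' (hD.h5lc ha hb hab).symm⟩

theorem h5nx' {T : G × G × G} (h : Cf D T) (n : ℕ) : Cf D (nx^[n] T) := by
  induction n with
  | zero => exact h
  | succ n ih => rw [Function.iterate_succ_apply']; exact hD.h5nx ih

theorem h5back {T : G × G × G} (h : Cf D T) {j : ℕ} (e : nx^[j + 2] (nx T) = nx T) : nx^[j + 2] T = T := by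
  have inv : ∀ (s : G) n (T : G × G × G), Commute s T.1 ∧ Commute s T.2.1 ∧ Commute s T.2.2 →
      Commute s (nx^[n] T).1 ∧ Commute s (nx^[n] T).2.1 ∧ Commute s (nx^[n] T).2.2 := fun s n => by
    induction n with
    | zero => exact fun _ h => h
    | succ n ih => exact fun T h => ih _ ⟨h.2.1, h.1, h.2.2.mul_right (h.2.1.mul_right (h.2.2.mul_right h.2.1))⟩
  rw [← Function.iterate_succ_apply, Function.iterate_succ_apply'] at e
  have h2 := hD.h5nx' (hD.h5nx h) j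
  have h1 := hD.h5nx h2
  have i2 := fun s => inv s j (nx T)
  rw [show nx^[j + 2] T = nx (nx^[j] (nx T)) by rw [Function.iterate_succ_apply', Function.iterate_succ_apply]] at e ⊢
  generalize nx^[j] (nx T) = T' at *
  obtain ⟨a, x, b⟩ := T
  obtain ⟨x', a', w⟩ := T'
  simp only [nx, Prod.mk.injEq] at e ⊢ i2
  obtain ⟨rfl, rfl, e⟩ := e
  obtain ⟨ha, hx, hb, o, hab, f⟩ := h
  obtain ⟨-, -, hb', -, hab', f'⟩ := h1
  obtain ⟨-, -, hw, -, -, f''⟩ := h2
  simp only [nx] at *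
  have e2 : a' * cm w a' = w * (a' * w) := by rw [← (hD.h5cm hw ha f'').2.1, cm, hD.h5sq' ha]
  generalize cm w a' = b' at *
  obtain ⟨hz, -, k1, -⟩ := hD.h5cm hb hx f
  obtain ⟨-, -, k2, -⟩ := hD.h5cm hb' hx f'
  have c1 : Commute (b * b') a' := (Commute.mul_right (hD.h5lc ha hb hab) (hD.h5lc ha hb' hab')).symm
  have c2 : Commute (b * b') x' := by
    have := congrArg (fun y => b * y * x' * b') e
    change _ * _ = _
    simpa [cm, mul_assoc, hD.h5sq' hb, hD.h5sq' hx, hD.h5sq hb'] using this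
  have c3 := (i2 (b * b') ⟨c2, c1, Commute.mul_left (hD.h5lc hb hz k1) (hD.h5lc hb' hz (e ▸ k2))⟩).2.2
  have c4 : Commute (b * b') b' := by
    have := c3.mul_right (c1.mul_right c3)
    rw [← e2] at this
    simpa [hD.h5sq' ha] using c1.mul_right this
  have c5 : b * b' = b' * b := by
    have := congrArg (b' * ·) c4.eq
    simpa [mul_assoc, hD.h5sq hb', hD.h5sq' hb'] using this.symm
  refine ⟨trivial, trivial, not_not.1 fun n => o.1 (hD.h5eq ha (hD.h5E (hD.h5cj hab hw) hx (hD.h5csq hb hb' c5)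
    (fun e => n (hD.h5eq hb e).symm) (c1.mul_right c2) o.2 ?_))⟩
  have : a' * b = b * b' * (w * (a' * w)) := by rw [← e2, ← mul_assoc, c1.eq, mul_assoc, mul_assoc, hD.h5sq hb', mul_one]
  rw [this, ← mul_assoc (b * b') w, c3.eq]
  simp [mul_assoc, hD.h5sq' hw]

theorem h5P [Finite G] (ha : a ∈ D) (hb : b ∈ D) (hab : a * b ∈ D) (hx : x ∈ D) (o : Od a x) (f : Fo b x) :
    ∃ w ∈ D, Fo a w ∧ cm a w = b := by
  have h : Cf D (a, x, b) := ⟨ha, hx, hb, o, hab, f⟩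
  obtain ⟨n, k, e⟩ : ∃ n k, nx^[k + 1] (nx^[n] (a, x, b)) = nx^[n] (a, x, b) := by
    obtain ⟨m, n, h1, e⟩ := Finite.exists_ne_map_eq_of_infinite fun n => nx^[n] (a, x, b)
    wlog h2 : m < n generalizing m n
    · exact this n m h1.symm e.symm (by omega)
    exact ⟨m, n - m - 1, by rw [← Function.iterate_add_apply, e]; congr 1; omega⟩
  have e1 : nx^[2 * k + 2] (nx^[n] (a, x, b)) = nx^[n] (a, x, b) := by
    rw [show 2 * k + 2 = k + 1 + (k + 1) by ring, Function.iterate_add_apply, e, e]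
  have : ∀ n T, Cf D T → nx^[2 * k + 2] (nx^[n] T) = nx^[n] T → nx^[2 * k + 2] T = T := fun n => by
    induction n with
    | zero => exact fun _ _ h => h
    | succ n ih => exact fun T h e => hD.h5back h (ih _ (hD.h5nx h) e)
  have e2 := this n _ h e1
  have h2 := hD.h5nx' h (2 * k + 1)
  rw [Function.iterate_succ_apply'] at e2
  generalize nx^[2 * k + 1] (a, x, b) = T at *
  obtain ⟨x', a', w⟩ := T
  simp only [nx, Prod.mk.injEq] at e2
  obtain ⟨rfl, rfl, rfl⟩ := e2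
  exact ⟨w, h2.2.2.1, h2.2.2.2.2.2.symm, (hD.h5cm h2.2.2.1 ha h2.2.2.2.2.2).2.1⟩

omit hD in
theorem h5Osymm (h : ReflTransGen (OddAdj D) a b) : ReflTransGen (OddAdj D) b a :=
  h.trans_induction_on (fun _ => .refl) (fun h => .single ⟨h.2.1, h.1, Od.symm h.2.2⟩) fun _ _ h h' => h'.trans h

theorem h5lp (ha : a ∈ D) (hb : b ∈ D) (hab : a * b ∈ D) (hx : x ∈ D) (hy : y ∈ D) (o : Od a x) (o' : Od b y) :
    ReflTransGen (OddAdj D) a b := by
  have s : ∀ {a b}, a ∈ D → b ∈ D → Od a b → ReflTransGen (OddAdj D) a b := fun h1 h2 h3 => .single ⟨h1, h2, h3⟩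
  rcases hD.h5L2 ha hb hab hx o with h | h
  · exact (s ha hx o).trans (s hx hb h.symm)
  rcases hD.h5L2 hb ha (hD.h5lc ha hb hab ▸ hab) hy o' with h' | h'
  · exact (s ha hy h').trans (s hy hb o'.symm)
  exact (((s ha hx o).trans (s hx hab h.symm)).trans (s hab hy (hD.h5lc ha hb hab ▸ h'))).trans (s hy hb o'.symm)

theorem h5Oconj [Finite G] (h : ReflTransGen (OddAdj D) a b) : ∃ g, b = g * a * g⁻¹ := by
  induction h with
  | refl => exact ⟨1, by simp⟩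
  | tail _ h ih =>
    obtain ⟨g, rfl⟩ := ih
    obtain ⟨c, -, e⟩ := H1B.dih_odd_conj (hD.h5sq h.2.1) (hD.h5sq h.1) (Od.symm h.2.2).2
    exact ⟨c * g, by rw [← e]; group⟩

omit hD in
theorem h5Onon (h : ReflTransGen (OddAdj D) a b) (n : b ≠ a) : ∃ x ∈ D, Od a x := by
  rcases h.cases_head with rfl | ⟨c, h, -⟩
  exacts [(n rfl).elim, ⟨c, h.2.1, h.2.2⟩]

theorem h5baer [Finite G] {W : Set G} (h1 : W ⊆ D) (h2 : ∀ a ∈ W, ∀ b ∈ W, b * (a * b) ∈ W) (h3 : ∀ a ∈ W, ∀ b ∈ W, ¬ Od a b) :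
    IsPGroup 2 (Subgroup.closure W) := by
  have cj : ∀ g ∈ Subgroup.closure W, ∀ a ∈ W, g * a * g⁻¹ ∈ W := fun g hg => by
    induction hg using Subgroup.closure_induction'' with
    | one => simp
    | mul x y _ _ h h' => exact fun a ha => by simpa [mul_assoc] using h _ (h' a ha)
    | mem x hx => exact fun a ha => by simpa [hD.h5inv (h1 hx), mul_assoc] using h2 a ha x hx
    | inv_mem x hx => exact fun a ha => by simpa [hD.h5inv (h1 hx), mul_assoc] using h2 a ha x hx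
  refine (H7.isPGroup_Op 2 (Subgroup.closure W)).to_le ((Subgroup.closure_le _).2 fun a ha => Subgroup.zpowers_le.1
    (H1.baer_suzuki (Subgroup.zpowers_le.2 (Subgroup.subset_closure ha)) fun g hg => ?_))
  rw [H2.cj_zpowers, Subgroup.zpowers_eq_closure, Subgroup.zpowers_eq_closure, ← Subgroup.closure_union]
  have hb := cj g hg a ha
  refine H1B.dih_pgroup (k := 2) (hD.h5sq (h1 ha)) (hD.h5sq (h1 hb)) ?_
  rcases hD.h5tri (h1 ha) (h1 hb) with h | h | h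
  · rw [show 2 ^ 2 = 2 * 2 from rfl, pow_mul, pow_two (a * _), hD.h5csq (h1 ha) (h1 hb) h, one_pow]
  · exact (h3 a ha _ hb h).elim
  · exact (show 2 ^ 2 = orderOf _ from Eq.symm h.1) ▸ pow_orderOf_eq_one _

theorem h5two {N : Subgroup G} (hN : IsPGroup 2 N) (ha : a ∈ D) (hb : b ∈ D) (h : cm a b ∈ N) : ¬ Od a b := fun o => by
  obtain ⟨k, e⟩ := hN ⟨_, h⟩
  refine o.1 (hD.h5eq ha (odd_two o.2 (k := k + 1) ?_))
  rw [pow_succ', pow_mul, pow_two, mul_assoc]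
  exact congrArg Subtype.val e

section Conn
variable [Finite G] (hc : IsConnectedSet (OddAdj D) D)
include hc

theorem h5cnt (ha : a ∈ D) (hb : b ∈ D) (h : ∀ x ∈ D, Od a x → Od b x) : ∀ x ∈ D, Od a x ↔ Od b x := fun x hx => by
  obtain ⟨g, rfl⟩ := hD.h5Oconj (hc a ha b hb)
  exact ⟨h x hx, fun o => (cnt (r := fun a x => x ∈ D ∧ Od a x) (fun g h => ⟨hD.conj_mem _ h.1 g, h.2.conj g⟩)
    (fun x h' => ⟨h'.1, h x h'.1 h'.2⟩) x ⟨hx, o⟩).2⟩

theorem h5T1 (hd : d ∈ D) (he : e ∈ D) (hy : y ∈ D) (h : ∀ x ∈ D, Od d x ↔ Od e x) (c : d * y = y * d) (f : Fo e y) :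
    ∀ x ∈ D, Od (cm e y) x ↔ Od e x := by
  obtain ⟨hz, -, k1, -⟩ := hD.h5cm he hy f
  refine hD.h5cnt hc hz he fun x hx o => (hD.h5L2 hz he (hD.h5lc he hz k1 ▸ k1) hx o).elim id fun o => ?_
  have := ((h _ (hD.conj_mem x hx y)).2 (by
    rw [← hD.h5lc he hz k1] at o
    simpa [cm, mul_assoc, hD.h5sq' he, hD.h5sq' hy, hD.h5inv hy, hD.h5sq hy] using o.conj y)).conj y
  exact (h x hx).1 (by simpa [← c, mul_assoc, hD.h5sq' hy, hD.h5inv hy, hD.h5sq hy, ← mul_assoc y d] using this)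

theorem h5T2 (hd : d ∈ D) (he : e ∈ D) (h : ∀ x ∈ D, Od d x ↔ Od e x) : d * e = e * d := by
  by_contra n
  have f := hD.h5fo_of hd he n fun o => ((h e he).1 o).1 rfl
  have h1 := hD.h5T1 hc hd he hd h rfl f.symm
  let T := {t ∈ D | ∀ x ∈ D, Od t x ↔ Od e x}
  have cj : ∀ {a g}, (∀ x ∈ D, Od (g * e * g⁻¹) x ↔ Od e x) → a ∈ T → g * a * g⁻¹ ∈ T := fun {a g} h ha =>
    ⟨hD.conj_mem a ha.1 g, fun x hx => Iff.trans ⟨fun o => by
      simpa [mul_assoc] using ((ha.2 _ (hD.conj_mem x hx g⁻¹)).1 (by simpa [mul_assoc] using o.conj g⁻¹)).conj g, fun o => by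
      simpa [mul_assoc] using ((ha.2 _ (hD.conj_mem x hx g⁻¹)).2 (by simpa [mul_assoc] using o.conj g⁻¹)).conj g⟩ (h x hx)⟩
  have eT : e ∈ T := ⟨he, fun _ _ => Iff.rfl⟩
  have hP := hD.h5baer (W := T) (fun _ h => h.1) (fun a ha b hb => by
    have : ∀ x ∈ D, Od e x → Od (b * e * b⁻¹) x := fun x hx o => by
      simpa [mul_assoc] using ((hb.2 _ (hD.conj_mem x hx b⁻¹)).1 (by simpa using ((hb.2 x hx).2 o).conj b⁻¹)).conj b
    simpa [hD.h5inv hb.1, mul_assoc] using cj (fun x hx => (hD.h5cnt hc he (hD.conj_mem e he b) this x hx).symm) ha)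
    fun a ha b hb o => ((hb.2 b hb.1).2 ((ha.2 b hb.1).1 o)).1 rfl
  have le : Subgroup.closure T ≤ ⁅Subgroup.closure T, Subgroup.closure T⁆ := (Subgroup.closure_le _).2 fun t ht => by
    obtain ⟨g, e1⟩ := hD.h5Oconj (hc _ (hD.h5fo he hd f.symm) t ht.1)
    have h2 : ∀ x ∈ D, Od (g * e * g⁻¹) x ↔ Od e x := fun x hx => Iff.trans ⟨fun o => by
      simpa [mul_assoc, e1, cm] using ((h1 _ (hD.conj_mem x hx g⁻¹)).2 (by simpa [mul_assoc] using o.conj g⁻¹)).conj g, fun o => by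
      simpa [mul_assoc] using ((h1 _ (hD.conj_mem x hx g⁻¹)).1 (by simpa [mul_assoc, e1, cm] using o.conj g⁻¹)).conj g⟩ (ht.2 x hx)
    convert Subgroup.commutator_mem_commutator (Subgroup.subset_closure (cj h2 eT)) (Subgroup.subset_closure (cj h2 ⟨hd, h⟩))
    simp [e1, commutatorElement_def, mul_assoc, hD.h5inv he, hD.h5inv hd]
  have := Subgroup.isPerfect_iff.2 (le_antisymm (Subgroup.commutator_le_self _) le)
  have : Nontrivial (Subgroup.closure T) := ⟨⟨e, Subgroup.subset_closure eT⟩, 1, fun h => hD.h5ne he (congrArg Subtype.val h)⟩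
  exact Group.IsPerfect.not_isNilpotent _ hP.isNilpotent

omit hc in
theorem h5CA (hd : d ∈ D) (he : e ∈ D) (h : ∀ x ∈ D, x * e = e * x → x * d = d * x) (hx : x ∈ D) (o : Od d x) : Od e x := by
  by_contra n
  obtain ⟨hz, -, k1, k2⟩ := hD.h5cm he hx (hD.h5fo_of he hx (fun c => hD.h5odnc hd hx o (h x hx c.symm).symm) n)
  exact hD.h5L1 hx hz k2 hd o.symm (h _ hz (hD.h5lc he hz k1).symm)

theorem h5AC (hd : d ∈ D) (he : e ∈ D) (h : ∀ x ∈ D, Od d x ↔ Od e x) (hy : y ∈ D) (c : y * d = d * y) : y * e = e * y := by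
  by_contra n
  have f := hD.h5fo_of he hy (Ne.symm n) fun o => hD.h5odnc hd hy ((h y hy).2 o) c.symm
  have h1 := hD.h5T1 hc hd he hy h c.symm f
  obtain ⟨hz, e1, -, k⟩ := hD.h5cm he hy f
  rw [hD.h5lc hy hz k] at k
  refine n (hD.h5T2 hc hy he fun x hx => (hD.h5cnt hc hz hy (fun x hx o => not_not.1 fun n' => ?_) x hx).symm.trans (h1 x hx))
  obtain ⟨w, hw, f', e2⟩ := hD.h5P hz hy k hx o (hD.h5fo_of hy hx (hD.h5L1 hz hy k hx o) n')
  have := hD.h5S4 hz hw he f' e2 f.symm e1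
  exact ((h1 w hw).2 ⟨fun e => by simp [e, hD.h5sq hw] at this, by rw [ord_comm, this]; decide⟩).not_fo f'

theorem h5Eiff (hd : d ∈ D) (he : e ∈ D) : e ∈ sameCommutingClass D d ↔ ∀ x ∈ D, Od d x ↔ Od e x :=
  ⟨fun h x hx => ⟨hD.h5CA hd he (fun x hx c => (h.2.ge ⟨hx, c⟩).2) hx, hD.h5CA he hd (fun x hx c => (h.2.le ⟨hx, c⟩).2) hx⟩,
    fun h => ⟨he, Set.ext fun y => and_congr_right fun hy => ⟨hD.h5AC hc hd he h hy, hD.h5AC hc he hd (fun x hx => (h x hx).symm) hy⟩⟩⟩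

theorem h5P' (ha : a ∈ D) (hb : b ∈ D) (hab : a * b ∈ D) (h : b ∉ sameCommutingClass D a) : ∃ w ∈ D, Fo a w ∧ cm a w = b := by
  rw [hD.h5Eiff hc ha hb] at h
  obtain ⟨x, hx, o, n⟩ : ∃ x ∈ D, Od a x ∧ ¬ Od b x := by
    by_contra! h'
    exact h (hD.h5cnt hc ha hb h')
  exact hD.h5P ha hb hab hx o (hD.h5fo_of hb hx (hD.h5L1 ha hb hab hx o) n)

end Conn

end Cfsg.IsRootInvolutionSet
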