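import Cfsg.Prelude.Def_RootSubgroups

/-! Rank one groups (Timmesfeld). -/

namespace H5.RS
open Cfsg
open scoped commutatorElement

variable {G : Type*} [Group G] {A B C D : Subgroup G}

theorem mem_conjBy {g x : G} : x ∈ conjBy A g ↔ g⁻¹ * x * g ∈ A :=
  ⟨by rintro ⟨y, hy, rfl⟩; simpa [mul_assoc] using hy, fun h => ⟨_, h, by simp [mul_assoc]⟩⟩

theorem conj_mem {g a : G} (h : a ∈ A) : g * a * g⁻¹ ∈ conjBy A g := ⟨a, h, rfl⟩

theorem conjBy_conjBy (A : Subgroup G) (g h : G) : conjBy (conjBy A g) h = conjBy A (h * g) := by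
  ext; simp only [mem_conjBy, mul_inv_rev, mul_assoc]

theorem conjBy_one (A : Subgroup G) : conjBy A 1 = A := by ext; simp [mem_conjBy]

theorem conjBy_eq_self {g : G} : conjBy A g = A ↔ g ∈ Subgroup.normalizer (A : Set G) := by
  rw [Subgroup.mem_normalizer_iff'', SetLike.ext_iff]
  exact forall_congr' fun x => by rw [mem_conjBy]; exact Iff.comm

theorem conjBy_of_mem {g : G} (h : g ∈ A) : conjBy A g = A := conjBy_eq_self.2 (A.le_normalizer h)

theorem conjBy_eq_iff {g : G} : conjBy A g = B ↔ A = conjBy B g⁻¹ :=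
  ⟨by rintro rfl; rw [conjBy_conjBy, inv_mul_cancel, conjBy_one],
    by rintro rfl; rw [conjBy_conjBy, mul_inv_cancel, conjBy_one]⟩

theorem conjBy_inj {g : G} : conjBy A g = conjBy B g ↔ A = B := by
  rw [conjBy_eq_iff, conjBy_conjBy, inv_mul_cancel, conjBy_one]

theorem conjBy_eq_conjBy {g h : G} : conjBy A g = conjBy B h ↔ conjBy A (h⁻¹ * g) = B := by
  rw [← conjBy_conjBy, eq_comm, conjBy_eq_iff, eq_comm]

theorem conjBy_mono (h : A ≤ B) (g : G) : conjBy A g ≤ conjBy B g := Subgroup.map_mono h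

theorem conjBy_le (h : A ≤ C) {g : G} (hg : g ∈ C) : conjBy A g ≤ C := conjBy_of_mem hg ▸ conjBy_mono h g

theorem conjBy_sup (A B : Subgroup G) (g : G) : conjBy (A ⊔ B) g = conjBy A g ⊔ conjBy B g := Subgroup.map_sup _ _ _

theorem conjBy_inf (A B : Subgroup G) (g : G) : conjBy (A ⊓ B) g = conjBy A g ⊓ conjBy B g := by
  ext; simp only [mem_conjBy, Subgroup.mem_inf]

theorem conjBy_comm (A B : Subgroup G) (g : G) : conjBy ⁅A, B⁆ g = ⁅conjBy A g, conjBy B g⁆ :=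
  Subgroup.map_commutator _ _ _

theorem conjBy_bot (g : G) : conjBy (⊥ : Subgroup G) g = ⊥ := Subgroup.map_bot _

theorem conjBy_of_comm {g : G} (h : ∀ a ∈ A, g * a = a * g) : conjBy A g = A := by
  ext x
  exact ⟨by rintro ⟨y, hy, rfl⟩; simpa [h y hy] using hy, fun hx => ⟨x, hx, by simp [h x hx]⟩⟩

/-- elementwise commuting subgroups -/
def Comm (A B : Subgroup G) : Prop := ∀ a ∈ A, ∀ b ∈ B, a * b = b * a

theorem comm_iff : ⁅A, B⁆ = ⊥ ↔ Comm A B := by
  simp only [eq_bot_iff, Subgroup.commutator_le, Subgroup.mem_bot, commutatorElement_eq_one_iff_mul_comm, Comm]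

theorem Comm.symm (h : Comm A B) : Comm B A := fun b hb a ha => (h a ha b hb).symm

theorem Comm.conj (h : Comm A B) (g : G) : Comm (conjBy A g) (conjBy B g) := by
  rw [← comm_iff, ← conjBy_comm, comm_iff.2 h, conjBy_bot]

theorem Comm.mono (h : Comm A B) (h1 : C ≤ A) (h2 : D ≤ B) : Comm C D := fun a ha b hb => h a (h1 ha) b (h2 hb)

theorem Comm.conjBy_eq (h : Comm A B) {a : G} (ha : a ∈ A) : conjBy B a = B := conjBy_of_comm (h a ha)

theorem comm_sup {x : G} (h1 : ∀ a ∈ A, x * a = a * x) (h2 : ∀ a ∈ B, x * a = a * x) : ∀ a ∈ A ⊔ B, x * a = a * x :=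
  fun _ ha => (Subgroup.mem_centralizer_singleton_iff.1 ((sup_le (fun a ha => Subgroup.mem_centralizer_singleton_iff.2
    (h1 a ha).symm) fun a ha => Subgroup.mem_centralizer_singleton_iff.2 (h2 a ha).symm :
      A ⊔ B ≤ Subgroup.centralizer {x}) ha)).symm

theorem Comm.sup (h1 : Comm A B) (h2 : Comm A C) : Comm A (B ⊔ C) := fun a ha => comm_sup (h1 a ha) (h2 a ha)

theorem Comm.sup' (h1 : Comm B A) (h2 : Comm C A) : Comm (B ⊔ C) A := (h1.symm.sup h2.symm).symm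

theorem comm_self (h : IsMulCommutative A) : Comm A A := fun a ha b hb =>
  congrArg Subtype.val (h.is_comm.comm (⟨a, ha⟩ : A) ⟨b, hb⟩)

theorem Comm.isMulCommutative (h : Comm A A) : IsMulCommutative A :=
  ⟨⟨fun a b => Subtype.ext (h _ a.2 _ b.2)⟩⟩

theorem mem_sup_of_norm (h : ∀ a ∈ A, conjBy B a = B) {x : G} : x ∈ A ⊔ B ↔ ∃ a ∈ A, ∃ b ∈ B, a * b = x := by
  rw [← SetLike.mem_coe, Subgroup.coe_mul_of_left_le_normalizer_right A B fun a ha => conjBy_eq_self.1 (h a ha)]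
  rfl

theorem Comm.mem_sup (h : Comm A B) {x : G} : x ∈ A ⊔ B ↔ ∃ a ∈ A, ∃ b ∈ B, a * b = x :=
  mem_sup_of_norm fun _ ha => h.conjBy_eq ha

end H5.RS

namespace Cfsg.IsRankOnePair
open H5.RS
open scoped commutatorElement

variable {G : Type*} [Group G] {A B C D : Subgroup G} (h : IsRankOnePair A B)
include h

theorem h5symm : IsRankOnePair B A := RankOnePair_symm h

theorem h5cond {a : G} (ha : a ∈ A) (h1 : a ≠ 1) : ∃ b ∈ B, b ≠ 1 ∧ conjBy A b = conjBy B a := by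
  obtain ⟨b, hb, h2, e⟩ := h.cond_left a⁻¹ (inv_mem ha) (inv_ne_one.2 h1)
  exact ⟨b⁻¹, inv_mem hb, inv_ne_one.2 h2, by rwa [inv_inv] at e⟩

theorem h5one {a : G} (ha : a ∈ A) (h1 : conjBy B a = B) : a = 1 := by
  by_contra h2
  obtain ⟨b, hb, -, e⟩ := h.h5cond ha h2
  exact h.ne (conjBy_inj.1 (e.trans (h1.trans (conjBy_of_mem hb).symm)))

theorem h5ex : ∃ a ∈ A, a ≠ 1 := by
  by_contra h1
  push Not at h1
  refine h.ne (le_antisymm (fun a ha => h1 a ha ▸ one_mem B) fun b hb => ?_)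
  by_contra h2
  obtain ⟨a, ha, h3, -⟩ := h.cond_right b hb (by rintro rfl; exact h2 (one_mem A))
  exact h3 (h1 a ha)

theorem h5uniq {a a' : G} (ha : a ∈ A) (ha' : a' ∈ A) (e : conjBy B a = conjBy B a') : a = a' :=
  (inv_mul_eq_one.1 (h.h5one (mul_mem (inv_mem ha') ha) (conjBy_eq_conjBy.1 e))).symm

theorem h5inf {x : G} (h1 : x ∈ A) (h2 : x ∈ B) : x = 1 := h.h5one h1 (conjBy_of_mem h2)

theorem h5comm {a : G} (ha : a ∈ A) (h1 : ∀ b ∈ B, a * b = b * a) : a = 1 := h.h5one ha (conjBy_of_comm h1)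

theorem h5not_comm : ¬ Comm A B := fun hc => by
  obtain ⟨a, ha, h1⟩ := h.h5ex
  exact h1 (h.h5comm ha (hc a ha))

theorem h5conj (g : G) : IsRankOnePair (conjBy A g) (conjBy B g) := by
  have key : ∀ {A B : Subgroup G}, RankOneCondition A B → RankOneCondition (conjBy A g) (conjBy B g) := by
    rintro A B h _ ⟨a, ha, rfl⟩ h1
    obtain ⟨b, hb, h2, e⟩ := h a ha (by rintro rfl; simp at h1)
    refine ⟨_, conj_mem hb, by simpa using h2, ?_⟩
    have := congrArg (conjBy · g) e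
    simpa [conjBy_conjBy, mul_assoc] using this
  have nil : ∀ {A : Subgroup G}, Group.IsNilpotent A → Group.IsNilpotent (conjBy A g) := fun h =>
    Group.nilpotent_of_mulEquiv (Subgroup.equivMapOfInjective _ _ (MulAut.conj g).injective)
  exact ⟨fun e => h.ne (conjBy_inj.1 e), nil h.2, nil h.3, key h.4, key h.5⟩

theorem h5Ω {x : G} (hx : x ∈ A ⊔ B) : conjBy A x = A ∨ ∃ a ∈ A, conjBy A x = conjBy B a := by
  have k2 : ∀ b ∈ B, conjBy A b = A ∨ ∃ a ∈ A, conjBy A b = conjBy B a := fun b hb => by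
    by_cases h1 : b = 1
    · exact Or.inl (h1 ▸ conjBy_one A)
    · obtain ⟨a, ha, -, e⟩ := h.h5symm.h5cond hb h1
      exact Or.inr ⟨a, ha, e.symm⟩
  have k1 : ∀ x ∈ (A : Set G) ∪ B, ∀ C, (C = A ∨ ∃ a ∈ A, C = conjBy B a) →
      (conjBy C x = A ∨ ∃ a ∈ A, conjBy C x = conjBy B a) := by
    rintro x (hx | hx) C (e | ⟨a, ha, rfl⟩)
    · exact Or.inl (by rw [e]; exact conjBy_of_mem hx)
    · exact Or.inr ⟨_, mul_mem hx ha, conjBy_conjBy _ _ _⟩
    · exact e ▸ k2 x hx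
    · by_cases h1 : a = 1
      · exact Or.inr ⟨1, one_mem _, by rw [h1, conjBy_one, conjBy_of_mem hx]⟩
      · obtain ⟨b, hb, -, e⟩ := h.h5cond ha h1
        rw [← e, conjBy_conjBy]
        exact k2 _ (mul_mem hx hb)
  have key : ∀ x ∈ A ⊔ B, ∀ C, (C = A ∨ ∃ a ∈ A, C = conjBy B a) →
      (conjBy C x = A ∨ ∃ a ∈ A, conjBy C x = conjBy B a) := by
    intro x hx
    rw [Subgroup.sup_eq_closure] at hx
    induction hx using Subgroup.closure_induction'' with
    | one => simp [conjBy_one]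
    | mul x y _ _ h1 h2 => exact fun C hC => conjBy_conjBy C y x ▸ h1 _ (h2 C hC)
    | mem x hx => exact k1 x hx
    | inv_mem x hx => exact k1 _ (hx.imp inv_mem inv_mem)
  exact key x hx A (Or.inl rfl)

theorem h5swap : ∃ x ∈ A ⊔ B, conjBy A x = B ∧ conjBy B x = A := by
  obtain ⟨a, ha, h1⟩ := h.h5ex
  obtain ⟨b, hb, -, e⟩ := h.h5cond ha h1
  obtain ⟨b', hb', -, e'⟩ := h.h5cond (inv_mem ha) (inv_ne_one.2 h1)
  refine ⟨b'⁻¹ * a⁻¹ * b, mul_mem (mul_mem (Subgroup.mem_sup_right (inv_mem hb')) (Subgroup.mem_sup_left (inv_mem ha)))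
    (Subgroup.mem_sup_right hb), ?_, ?_⟩
  · rw [mul_assoc, ← conjBy_conjBy, conjBy_eq_conjBy.1 e, conjBy_of_mem (inv_mem hb')]
  · rw [← conjBy_conjBy, conjBy_of_mem hb, conjBy_eq_conjBy.1 e'.symm]

theorem h5right : B ∈ unipotentSubgroups A B := by
  obtain ⟨x, hx, e, -⟩ := h.h5swap
  exact ⟨x, hx, e.symm⟩

omit h in
theorem h5left : A ∈ unipotentSubgroups A B := ⟨1, one_mem _, (conjBy_one A).symm⟩

omit h in
theorem h5Ωconj (hC : C ∈ unipotentSubgroups A B) {x : G} (hx : x ∈ A ⊔ B) :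
    conjBy C x ∈ unipotentSubgroups A B := by
  obtain ⟨y, hy, rfl⟩ := hC
  exact ⟨_, mul_mem hx hy, conjBy_conjBy _ _ _⟩

omit h in
theorem h5Ωle (hC : C ∈ unipotentSubgroups A B) : C ≤ A ⊔ B := by
  obtain ⟨y, hy, rfl⟩ := hC
  exact conjBy_le le_sup_left hy

theorem h5two (hC : C ∈ unipotentSubgroups A B) (hD : D ∈ unipotentSubgroups A B) (h1 : C ≠ D) :
    ∃ x ∈ A ⊔ B, conjBy A x = C ∧ conjBy B x = D := by
  obtain ⟨x, hx, rfl⟩ := hC
  obtain ⟨y, hy, rfl⟩ := hD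
  rcases h.h5Ω (mul_mem (inv_mem hx) hy) with e | ⟨a, ha, e⟩
  · exact absurd (conjBy_eq_conjBy.2 e).symm h1
  · exact ⟨x * a, mul_mem hx (Subgroup.mem_sup_left ha), by rw [← conjBy_conjBy, conjBy_of_mem ha],
      by rw [← conjBy_conjBy, ← e, conjBy_conjBy, mul_inv_cancel_left]⟩

theorem h5pair (hC : C ∈ unipotentSubgroups A B) (hD : D ∈ unipotentSubgroups A B) (h1 : C ≠ D) :
    IsRankOnePair C D ∧ C ⊔ D = A ⊔ B := by
  obtain ⟨x, hx, rfl, rfl⟩ := h.h5two hC hD h1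
  exact ⟨h.h5conj x, by rw [← conjBy_sup, conjBy_of_mem hx]⟩

theorem h5pair' {a : G} (ha : a ∈ A) (h1 : a ≠ 1) : IsRankOnePair B (conjBy B a) :=
  (h.h5pair h.h5right (h5Ωconj h.h5right (Subgroup.mem_sup_left ha)) fun e => h1 (h.h5one ha e.symm)).1

theorem h5central {K : Subgroup G} (hK : ∀ x ∈ K, ∀ y ∈ A ⊔ B, y * x * y⁻¹ ∈ K)
    (hA : ∀ x ∈ K, conjBy A x = A) : Comm K (A ⊔ B) := by
  have hB : ∀ x ∈ K, conjBy B x = B := fun x hx => by
    obtain ⟨n, hn, e, -⟩ := h.h5swap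
    have := hA _ (hK x hx _ (inv_mem hn))
    rw [inv_inv, mul_assoc, ← conjBy_eq_conjBy, ← conjBy_conjBy, e] at this
    exact this
  have key : ∀ {A' B' : Subgroup G}, IsRankOnePair A' B' → A' ≤ A ⊔ B → (∀ x ∈ K, conjBy A' x = A') →
      (∀ x ∈ K, conjBy B' x = B') → Comm K A' := fun h h1 h2 h3 x hx a ha => by
    have := h.h5one (mul_mem (h2 x hx ▸ conj_mem ha) (inv_mem ha)) (by
      rw [mul_assoc, mul_assoc, ← mul_assoc a]; exact h3 _ (mul_mem hx (hK _ (inv_mem hx) _ (h1 ha))))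
    rwa [← commutatorElement_def, commutatorElement_eq_one_iff_mul_comm] at this
  exact (key h le_sup_left hA hB).sup (key h.h5symm le_sup_right hB hA)

theorem h5dich {K : Subgroup G} (hK : ∀ x ∈ K, ∀ y ∈ A ⊔ B, y * x * y⁻¹ ∈ K) (hle : K ≤ A ⊔ B) :
    (∃ x ∈ K, conjBy A x = B) ∨ Comm K (A ⊔ B) := by
  by_cases h1 : ∀ x ∈ K, conjBy A x = A
  · exact Or.inr (h.h5central hK h1)
  push Not at h1
  obtain ⟨x, hx, h1⟩ := h1
  obtain ⟨a, ha, e⟩ := (h.h5Ω (hle hx)).resolve_left h1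
  exact Or.inl ⟨_, hK x hx _ (Subgroup.mem_sup_left (inv_mem ha)), by
    rw [← conjBy_conjBy, conjBy_of_mem (inv_mem (inv_mem ha)), conjBy_eq_conjBy.1 e]⟩

theorem h5normal (ht : A ⊔ B = ⊤) (N : Subgroup G) [hN : N.Normal] : N ⊔ A = ⊤ ∨ N ≤ Subgroup.center G := by
  rcases h.h5dich (K := N) (fun x hx y _ => hN.conj_mem x hx y) (ht ▸ le_top) with ⟨x, hx, e⟩ | e
  · exact Or.inl (top_le_iff.1 (ht ▸ sup_le le_sup_right (e ▸ conjBy_le le_sup_right (Subgroup.mem_sup_left hx))))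
  · exact Or.inr fun x hx => Subgroup.mem_center_iff.2 fun g => (e x hx g (ht ▸ trivial)).symm

theorem h5center (ht : A ⊔ B = ⊤) : Subgroup.upperCentralSeries G 2 = Subgroup.center G := by
  refine le_antisymm ?_ (Subgroup.upperCentralSeries_one G ▸ Subgroup.upperCentralSeries_mono G (by norm_num))
  rcases h.h5dich (K := Subgroup.upperCentralSeries G 2) (fun x hx y _ => Subgroup.Normal.conj_mem inferInstance x hx y)
    (ht ▸ le_top) with ⟨x, hx, e⟩ | e
  · exfalso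
    obtain ⟨a, ha, h1⟩ := h.h5ex
    have h2 := Subgroup.mem_upperCentralSeries_succ_iff.1 hx a
    rw [Subgroup.upperCentralSeries_one, Subgroup.mem_center_iff] at h2
    have h3 := h.h5symm.h5one (e ▸ conj_mem ha : x * a * x⁻¹ ∈ B) (by
      rw [← inv_mul_cancel_right (x * a * x⁻¹) a, ← conjBy_conjBy, conjBy_of_mem ha]
      exact conjBy_of_comm fun b _ => (h2 b).symm)
    exact h1 (by simpa using h3)
  · exact fun x hx => Subgroup.mem_center_iff.2 fun g => (e x hx g (ht ▸ trivial)).symm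

theorem h5center_ne (ht : A ⊔ B = ⊤) : Subgroup.center G ≠ ⊤ := fun e =>
  h.h5not_comm fun a _ b _ => (Subgroup.mem_center_iff.1 (e.ge trivial) _)

theorem h5quasi (ht : A ⊔ B = ⊤) (hp : Group.IsPerfect G) : IsQuasisimple G := by
  refine ⟨hp, @IsSimpleGroup.mk _ _ (QuotientGroup.nontrivial_iff.2 (h.h5center_ne ht)) fun N hN => ?_⟩
  rcases h.h5normal ht (N.comap (QuotientGroup.mk' _)) with e | e
  · right
    let f := (QuotientGroup.mk' N).comp (QuotientGroup.mk' (Subgroup.center G))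
    have hf : Function.Surjective f := (QuotientGroup.mk'_surjective _).comp (QuotientGroup.mk'_surjective _)
    have h1 : Function.Surjective (f.comp A.subtype) := by
      rw [← MonoidHom.range_eq_top, ← MonoidHom.map_range, Subgroup.range_subtype, ← MonoidHom.range_eq_top.2 hf,
        MonoidHom.range_eq_map, ← e, Subgroup.map_sup, right_eq_sup, Subgroup.map_le_iff_le_comap]
      intro x hx
      rw [Subgroup.mem_comap, show f x = 1 from (QuotientGroup.eq_one_iff _).2 hx]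
      exact one_mem _
    have := h.nilpotent_left
    have h4 := Group.nilpotent_of_surjective _ h1
    have h2 := Group.IsPerfect.ofSurjective (hf := hf)
    by_contra h3
    have := QuotientGroup.nontrivial_iff.2 h3
    exact Group.IsPerfect.not_isNilpotent _ h4
  · left
    rw [eq_bot_iff]
    rintro ⟨x⟩ hx
    exact (QuotientGroup.eq_one_iff x).2 (e hx)

end Cfsg.IsRankOnePair
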