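import Cfsg.Agent.H5.RS1

/-! Abstract root subgroups: first properties. -/

namespace Cfsg.RootCommutatorCase
open H5.RS
open scoped commutatorElement

variable {G : Type*} [Group G] {S : Set (Subgroup G)} {A B C D : Subgroup G} (h : RootCommutatorCase S A B)
include h

theorem h5symm : RootCommutatorCase S B A := by
  have k : ∀ (a : G) (B : Set G), Subgroup.closure ((fun b : G => b * a * b⁻¹ * a⁻¹) '' B) =
      Subgroup.closure ((fun b : G => a * b * a⁻¹ * b⁻¹) '' B) := fun a B => by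
    rw [← Subgroup.closure_inv, ← Set.image_inv_eq_inv, Set.image_image]
    simp [mul_assoc]
  obtain ⟨h1, h2, h3, h4⟩ := h
  rw [RootCommutatorCase, Subgroup.commutator_comm, sup_comm]
  exact ⟨h1, h2, fun b hb h => by rw [← k, h4 b hb h], fun a ha h => by rw [k, h3 a ha h]⟩

theorem h5cent : Comm ⁅A, B⁆ (A ⊔ B) := h.2.1

theorem h5cl : Comm A ⁅A, B⁆ := (h.h5cent.mono le_rfl le_sup_left).symm

theorem h5cr : Comm B ⁅A, B⁆ := (h.h5cent.mono le_rfl le_sup_right).symm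

theorem h5mul {a b b' : G} (ha : a ∈ A) (hb : b ∈ B) (hb' : b' ∈ B) : ⁅a, b * b'⁆ = ⁅a, b⁆ * ⁅a, b'⁆ := by
  rw [commutatorElement_mul_right_eq_mul_conj, mul_assoc _ b, h.h5cr b hb _ (Subgroup.commutator_mem_commutator ha hb')]
  simp [mul_assoc]

theorem h5surj {a d : G} (ha : a ∈ A) (h1 : a ≠ 1) (hd : d ∈ ⁅A, B⁆) : ∃ b ∈ B, ⁅a, b⁆ = d := by
  rw [← h.2.2.1 a ha h1] at hd
  induction hd using Subgroup.closure_induction with
  | mem x hx => exact hx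
  | one => exact ⟨1, one_mem _, by simp⟩
  | mul x y _ _ h2 h3 =>
    obtain ⟨b, hb, rfl⟩ := h2
    obtain ⟨b', hb', rfl⟩ := h3
    exact ⟨_, mul_mem hb hb', h.h5mul ha hb hb'⟩
  | inv x _ h2 =>
    obtain ⟨b, hb, rfl⟩ := h2
    exact ⟨_, inv_mem hb, eq_inv_of_mul_eq_one_left (by rw [← h.h5mul ha (inv_mem hb) hb]; simp)⟩

theorem h5surj' {b d : G} (hb : b ∈ B) (h1 : b ≠ 1) (hd : d ∈ ⁅A, B⁆) : ∃ a ∈ A, ⁅b, a⁆ = d :=
  h.h5symm.h5surj hb h1 (Subgroup.commutator_comm A B ▸ hd)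

theorem h5le {b : G} (hb : b ∈ B) : conjBy A b ≤ A ⊔ ⁅A, B⁆ := by
  rintro _ ⟨a, ha, rfl⟩
  rw [MulEquiv.coe_toMonoidHom, conj_eq_commutatorElement_mul]
  exact mul_mem (Subgroup.mem_sup_right (Subgroup.commutator_comm A B ▸ Subgroup.commutator_mem_commutator hb ha))
    (Subgroup.mem_sup_left ha)

theorem h5norm {b : G} (hb : b ∈ B) : conjBy (A ⊔ ⁅A, B⁆) b = A ⊔ ⁅A, B⁆ := by
  have k : ∀ b ∈ B, conjBy (A ⊔ ⁅A, B⁆) b ≤ A ⊔ ⁅A, B⁆ := fun b hb => by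
    rw [conjBy_sup, h.h5cr.conjBy_eq hb]; exact sup_le (h.h5le hb) le_sup_right
  refine le_antisymm (k b hb) ?_
  have := conjBy_mono (k _ (inv_mem hb)) b
  rwa [conjBy_conjBy, mul_inv_cancel, conjBy_one] at this

theorem h5sup {b : G} (hb : b ∈ B) (h1 : b ≠ 1) : A ⊔ conjBy A b = A ⊔ ⁅A, B⁆ := by
  refine le_antisymm (sup_le le_sup_left (h.h5le hb)) (sup_le le_sup_left fun d hd => ?_)
  obtain ⟨a, ha, rfl⟩ := h.h5surj' hb h1 hd
  exact mul_mem (Subgroup.mem_sup_right (conj_mem ha)) (Subgroup.mem_sup_left (inv_mem ha))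

theorem h5conj (hS : IsRootSubgroupSet S) (g : G) : RootCommutatorCase S (conjBy A g) (conjBy B g) := by
  have k : ∀ {A B : Subgroup G}, RootCommutatorCase S A B → ∀ a ∈ conjBy A g, a ≠ 1 → Subgroup.closure
      ((fun b : G => a * b * a⁻¹ * b⁻¹) '' (conjBy B g : Set G)) = ⁅conjBy A g, conjBy B g⁆ := by
    rintro A B h _ ⟨a, ha, rfl⟩ h1
    rw [← conjBy_comm, ← h.2.2.1 a ha (by rintro rfl; simp at h1), conjBy, conjBy, MonoidHom.map_closure, Subgroup.coe_map,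
      Set.image_image, Set.image_image]
    simp [mul_assoc]
  refine ⟨conjBy_comm A B g ▸ hS.conj_mem _ h.1 g, ?_, k h, fun b hb h1 => ?_⟩
  · rw [← conjBy_comm, ← conjBy_sup]; exact h.h5cent.conj g
  · rw [Subgroup.commutator_comm, ← k h.h5symm b hb h1, ← Subgroup.closure_inv, ← Set.image_inv_eq_inv, Set.image_image]
    simp [mul_assoc]

end Cfsg.RootCommutatorCase

namespace Cfsg.IsRootSubgroupSet
open H5.RS Cfsg.IsRankOnePair
open scoped commutatorElement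

variable {G : Type*} [Group G] {S : Set (Subgroup G)} {A B C D E : Subgroup G} (hS : IsRootSubgroupSet S)
include hS

theorem h5ab (hA : A ∈ S) : Comm A A := comm_self (hS.commutative A hA)

theorem h5ex (hA : A ∈ S) : ∃ a ∈ A, a ≠ 1 := by
  by_contra h
  push Not at h
  exact hS.ne_bot A hA (eq_bot_iff.2 h)

theorem h5tri (hA : A ∈ S) (hB : B ∈ S) : Comm A B ∨ IsRankOnePair A B ∨ RootCommutatorCase S A B :=
  (hS.pair A hA B hB).imp_left comm_iff.1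

theorem h5cc_not (h : RootCommutatorCase S A B) : ¬ Comm A B := fun hc => hS.ne_bot _ h.1 (comm_iff.2 hc)

theorem h5line_ab (hA : A ∈ S) (h : RootCommutatorCase S A B) : Comm (A ⊔ ⁅A, B⁆) (A ⊔ ⁅A, B⁆) :=
  ((hS.h5ab hA).sup h.h5cl).sup' (h.h5cl.symm.sup (hS.h5ab h.1))

theorem h5nopp (hA : A ∈ S) (hB : B ∈ S) (h : ¬ IsRankOnePair B A) {b : G} (hb : b ∈ B) : Comm (conjBy A b) A := by
  rcases hS.h5tri hB hA with h1 | h1 | h1
  · rw [h1.conjBy_eq hb]; exact hS.h5ab hA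
  · exact absurd h1 h
  · exact (hS.h5line_ab hA h1.h5symm).mono (h1.h5symm.h5le hb) le_sup_left

theorem h5opp (hA : A ∈ S) (hB : B ∈ S) {b : G} (hb : b ∈ B) (h : IsRankOnePair A (conjBy A b)) :
    IsRankOnePair B A ∧ B ⊔ A = A ⊔ conjBy A b := by
  have h1 : IsRankOnePair B A := by
    by_contra h1
    exact h.h5not_comm (hS.h5nopp hA hB h1 hb).symm
  exact ⟨h1, (h1.h5pair h1.h5right (h5Ωconj h1.h5right (Subgroup.mem_sup_left hb)) h.ne).2.symm⟩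

theorem h5ΩS (hA : A ∈ S) (hC : C ∈ unipotentSubgroups A B) : C ∈ S := by
  obtain ⟨x, -, rfl⟩ := hC
  exact hS.conj_mem A hA x

/-- an element acting on `B` like a nontrivial element of an opposite `A` -/
theorem h5opp' (h : IsRankOnePair A B) (hB : B ∈ S) (hC : C ∈ S) {a c : G} (ha : a ∈ A) (h1 : a ≠ 1) (hc : c ∈ C)
    (e : conjBy B c = conjBy B a) : IsRankOnePair C B ∧ C ⊔ B = A ⊔ B ∧ C ∈ unipotentSubgroups A B := by
  obtain ⟨h2, h3⟩ := hS.h5opp hB hC hc (e ▸ h.h5pair' ha h1)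
  have h4 : C ⊔ B = A ⊔ B := by
    rw [h3, e, (h.h5pair h.h5right (h5Ωconj h.h5right (Subgroup.mem_sup_left ha)) (h.h5pair' ha h1).ne).2]
  obtain ⟨x, hx, -, e'⟩ := h2.h5swap
  exact ⟨h2, h4, e' ▸ h5Ωconj h.h5right (h4 ▸ hx)⟩

theorem h5mem_or (h : IsRankOnePair C D) (hC : C ∈ S) (hA : A ∈ S) (hle : A ≤ C ⊔ D) :
    A ∈ unipotentSubgroups C D ∨ Comm A (C ⊔ D) := by
  by_cases h1 : ∀ a ∈ A, ∀ E ∈ unipotentSubgroups C D, conjBy E a = E
  · right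
    refine (h.h5central (K := ⨅ E ∈ unipotentSubgroups C D, Subgroup.normalizer (E : Set G)) (fun x hx y hy => ?_)
      fun x hx => ?_).mono (fun a ha => ?_) le_rfl
    · simp only [Subgroup.mem_iInf, ← conjBy_eq_self] at hx ⊢
      intro E hE
      rw [← conjBy_conjBy, ← conjBy_conjBy, hx _ (h5Ωconj hE (inv_mem hy)), conjBy_conjBy, mul_inv_cancel, conjBy_one]
    · simp only [Subgroup.mem_iInf, ← conjBy_eq_self] at hx
      exact hx _ h5left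
    · simp only [Subgroup.mem_iInf, ← conjBy_eq_self]
      exact h1 a ha
  · left
    push Not at h1
    obtain ⟨a, ha, E, hE, h1⟩ := h1
    obtain ⟨h2, h3⟩ := h.h5pair hE (h5Ωconj hE (hle ha)) h1.symm
    obtain ⟨h4, h5⟩ := hS.h5opp (hS.h5ΩS hC hE) hA ha h2
    obtain ⟨x, hx, -, e'⟩ := h4.h5swap
    exact e' ▸ h5Ωconj hE (h3 ▸ h5 ▸ hx)

theorem h5cc (hA : A ∈ S) (hB : B ∈ S) (h : ⁅A, B⁆ ∈ S) : RootCommutatorCase S A B := by
  rcases hS.pair A hA B hB with h1 | h1 | h1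
  · exact absurd h1 (hS.ne_bot _ h)
  · exfalso
    rcases hS.h5mem_or h1 hA h (Subgroup.commutator_le_sup A B) with ⟨x, hx, e⟩ | h2
    · have k : ∀ x ∈ A ⊔ B, conjBy ⁅A, B⁆ x = ⁅A, B⁆ := fun x hx => conjBy_eq_self.2
        (sup_le (Subgroup.normalizer_commutator_ge_left A B) (Subgroup.normalizer_commutator_ge_right A B) hx)
      have e1 : A = ⁅A, B⁆ := (conjBy_eq_iff.1 e.symm).trans (k _ (inv_mem hx))
      obtain ⟨y, hy, e2, -⟩ := h1.h5swap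
      exact h1.ne (e1.trans ((k y hy).symm.trans (e1 ▸ e2)))
    · obtain ⟨b, hb, h3⟩ := hS.h5ex hB
      refine (h1.h5symm.h5pair' hb h3).h5not_comm ?_
      rintro a ha _ ⟨a', ha', rfl⟩
      rw [MulEquiv.coe_toMonoidHom, conj_eq_commutatorElement_mul, mul_assoc, ← hS.h5ab hA a ha a' ha', ← mul_assoc,
        ← mul_assoc, h2 _ (Subgroup.commutator_comm A B ▸ Subgroup.commutator_mem_commutator hb ha') a
        (Subgroup.mem_sup_left ha)]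
  · exact h1

/-- S5025 -/
theorem h5root (h : IsRankOnePair A B) (hB : B ∈ S) (hC : C ∈ S) {z a : G} (hz : ∀ x ∈ A ⊔ B, z * x = x * z)
    (ha : a ∈ A) (h1 : a ≠ 1) (hc : z * a ∈ C) : z = 1 := by
  have k : ∀ D ≤ A ⊔ B, conjBy D z = D := fun D hD => conjBy_of_comm fun x hx => hz x (hD hx)
  obtain ⟨-, h3, h4⟩ := hS.h5opp' h hB hC ha h1 hc (by
    rw [← conjBy_conjBy, k _ (conjBy_le le_sup_right (Subgroup.mem_sup_left ha))])
  by_cases e : A = C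
  · subst e
    exact h.h5comm ((A.mul_mem_cancel_right ha).1 hc) fun b hb => hz b (Subgroup.mem_sup_right hb)
  · refine absurd ((h.h5pair h5left h4 e).1.h5one ha ?_) h1
    rw [← inv_mul_cancel_left z a, ← conjBy_conjBy, conjBy_of_mem hc, ← conjBy_eq_iff.1 (k C (h5Ωle h4))]

/-- S5028 -/
theorem h5eq (h : IsRankOnePair A E) (hE : E ∈ S) (hB : B ∈ S) {x : G} (h1 : x ≠ 1) (hA' : x ∈ A) (hB' : x ∈ B) :
    A = B := by
  by_contra e
  exact h1 ((h.h5pair h5left (hS.h5opp' h hE hB hA' h1 hB' rfl).2.2 e).1.h5inf hA' hB')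

theorem h5inj (h : IsRankOnePair A E) (hE : E ∈ S) (hA : A ∈ S) (hc : RootCommutatorCase S A B) {a b : G} (ha : a ∈ A)
    (h1 : a ≠ 1) (hb : b ∈ B) (e : ⁅a, b⁆ = 1) : b = 1 := by
  by_contra h2
  have e1 : A = conjBy A b := hS.h5eq h hE (hS.conj_mem A hA b) h1 ha (by
    rw [mem_conjBy, mul_assoc, commutatorElement_eq_one_iff_mul_comm.1 e, inv_mul_cancel_left]; exact ha)
  have e2 := hc.h5sup hb h2
  rw [← e1, sup_idem] at e2
  obtain ⟨c, hc1, hc2⟩ := hS.h5ex hc.1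
  have e3 := hS.h5eq h hE hc.1 hc2 (e2.ge (Subgroup.mem_sup_right hc1)) hc1
  exact hS.h5cc_not hc (e3 ▸ hc.h5cr.symm)

/-- L1 -/
theorem h5L1 (h : IsRankOnePair A E) (hE : E ∈ S) (hB : B ∈ S) (hC : C ∈ S) (hn : ¬ IsRankOnePair B E) {a b : G}
    (ha : a ∈ A) (h1 : a ≠ 1) (hb : b ∈ B) (hab : ∀ a ∈ A, b * a = a * b) (hc : b * a ∈ C) : IsRankOnePair C E := by
  by_contra h2
  have h3 := (hS.h5nopp hE hB hn hb).sup' (hS.h5nopp hE hC h2 hc)
  rw [← conjBy_conjBy, ← conjBy_sup, (h.h5pair h.h5right (h5Ωconj h.h5right (Subgroup.mem_sup_left ha))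
    (h.h5pair' ha h1).ne).2, conjBy_sup, conjBy_of_comm hab] at h3
  exact h.h5not_comm (h3.mono le_sup_left le_rfl)

theorem h5line_mem (hc : RootCommutatorCase S A B) {x : G} (hx : x ∈ A ⊔ ⁅A, B⁆) :
    x ∈ ⁅A, B⁆ ∨ ∃ b ∈ B, x ∈ conjBy A b := by
  obtain ⟨a, ha, c, hc', rfl⟩ := hc.h5cl.mem_sup.1 hx
  by_cases h1 : a = 1
  · exact Or.inl (by rwa [h1, one_mul])
  · obtain ⟨b, hb, e⟩ := hc.h5surj ha h1 (inv_mem hc')
    refine Or.inr ⟨b, hb, a, ha, ?_⟩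
    rw [MulEquiv.coe_toMonoidHom, conj_eq_commutatorElement_mul, ← commutatorElement_inv, e, inv_inv, hc.h5cl a ha c hc']

theorem h5line_le (h : IsRankOnePair A E) (hE : E ∈ S) (hA : A ∈ S) (hc : RootCommutatorCase S A B) (hD : D ∈ S)
    (hle : D ≤ ⁅A, B⁆) : D = ⁅A, B⁆ := by
  obtain ⟨d, hd, hd1⟩ := hS.h5ex hD
  rcases hS.h5tri hE hc.1 with h1 | h1 | h1
  · obtain ⟨a, ha, h2⟩ := hS.h5ex hA
    obtain ⟨b, hb, e⟩ := hc.h5surj ha h2 (inv_mem (hle hd))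
    refine absurd (hS.h5root h hE (hS.conj_mem A hA b) (comm_sup (hc.h5cl.symm d (hle hd)) (h1.symm d (hle hd))) ha h2
      ⟨a, ha, ?_⟩) hd1
    rw [MulEquiv.coe_toMonoidHom, conj_eq_commutatorElement_mul, ← commutatorElement_inv, e, inv_inv]
  · exact (hS.h5eq h1.h5symm hE hD hd1 (hle hd) hd).symm
  · obtain ⟨e, he, he1⟩ := hS.h5ex hE
    rcases hS.h5tri hE hD with h2 | h2 | h2
    · exact absurd (hS.h5inj h.h5symm hA hE h1 he he1 (hle hd) (commutatorElement_eq_one_iff_mul_comm.2 (h2 e he d hd))) hd1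
    · exact hS.h5eq h2.h5symm hE hc.1 hd1 hd (hle hd)
    · refine le_antisymm hle fun c hc' => ?_
      have e1 : ⁅E, D⁆ = ⁅E, ⁅A, B⁆⁆ := (h2.2.2.2 d hd hd1).symm.trans (h1.2.2.2 d (hle hd) hd1)
      obtain ⟨d', hd', e2⟩ := h2.h5surj he he1 (e1 ▸ Subgroup.commutator_mem_commutator he hc')
      have := hS.h5inj h.h5symm hA hE h1 he he1 (mul_mem (inv_mem (hle hd')) hc') (by
        rw [h1.h5mul he (inv_mem (hle hd')) hc', ← e2, ← h1.h5mul he (inv_mem (hle hd')) (hle hd')]; simp)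
      exact inv_mul_eq_one.1 this ▸ hd'

theorem h5line (h : IsRankOnePair A E) (hE : E ∈ S) (hA : A ∈ S) (hc : RootCommutatorCase S A B) :
    D ∈ membersIn S (A ⊔ ⁅A, B⁆) ↔ (∃ b ∈ B, conjBy A b = D) ∨ D = ⁅A, B⁆ := by
  refine ⟨fun ⟨hD, hle⟩ => ?_, ?_⟩
  · by_cases h1 : D ≤ ⁅A, B⁆
    · exact Or.inr (hS.h5line_le h hE hA hc hD h1)
    · obtain ⟨x, hx, h2⟩ := SetLike.not_le_iff_exists.1 h1
      obtain ⟨b, hb, h3⟩ := (hS.h5line_mem hc (hle hx)).resolve_left h2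
      exact Or.inl ⟨b, hb, hS.h5eq (h.h5conj b) (hS.conj_mem E hE b) hD (by rintro rfl; exact h2 (one_mem _)) h3 hx⟩
  · rintro (⟨b, hb, rfl⟩ | rfl)
    · exact ⟨hS.conj_mem A hA b, hc.h5le hb⟩
    · exact ⟨hc.1, le_sup_right⟩

theorem h5cc_ne (hc : RootCommutatorCase S A B) : A ≠ ⁅A, B⁆ := fun e => hS.h5cc_not hc (e ▸ hc.h5cr.symm)

theorem h5part (h : IsRankOnePair A E) (hE : E ∈ S) (hA : A ∈ S) (hc : RootCommutatorCase S A B) :
    IsSubgroupPartition (A ⊔ ⁅A, B⁆) (membersIn S (A ⊔ ⁅A, B⁆)) := by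
  refine ⟨fun C hC => hC.2, fun x hx _ => ?_, fun C hC D hD hne => eq_bot_iff.2 fun x hx => ?_⟩
  · rcases hS.h5line_mem hc hx with h1 | ⟨b, hb, h1⟩
    · exact ⟨_, ⟨hc.1, le_sup_right⟩, h1⟩
    · exact ⟨_, ⟨hS.conj_mem A hA b, hc.h5le hb⟩, h1⟩
  · by_contra h1
    rcases (hS.h5line h hE hA hc).1 hC with ⟨b, -, rfl⟩ | rfl
    · exact hne (hS.h5eq (h.h5conj b) (hS.conj_mem E hE b) hD.1 h1 hx.1 hx.2)
    · rcases (hS.h5line h hE hA hc).1 hD with ⟨b, -, rfl⟩ | rfl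
      · exact hne (hS.h5eq (h.h5conj b) (hS.conj_mem E hE b) hC.1 h1 hx.2 hx.1).symm
      · exact hne rfl

theorem h5lp (h : IsRankOnePair A E) (hE : E ∈ S) (hA : A ∈ S) (hc : RootCommutatorCase S A B) :
    A ∈ linePartners S ⁅A, B⁆ :=
  ⟨⟨hA, hS.h5cc_ne hc, comm_iff.2 hc.h5cl.symm⟩, sup_comm A ⁅A, B⁆ ▸ hS.h5part h hE hA hc⟩

omit hS in
theorem h5noniso (hA : A ∈ S) (h : ¬ IsIsolatedIn (FAdj S) S A) : ∃ E ∈ S, IsRankOnePair A E := by
  by_contra h1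
  exact h ⟨hA, fun B => ⟨fun h2 => h1 ⟨B, h2.2.1, h2.2.2⟩, fun h2 => h1 ⟨B, h2.1, h2.2.2.h5symm⟩⟩⟩

theorem h5gen {K : Subgroup G} (h : ∀ A ∈ S, A ≤ K) : K = ⊤ := top_le_iff.1 (hS.generates ▸ iSup₂_le h)

end Cfsg.IsRootSubgroupSet
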