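import Cfsg.Agent.H5.RS2

/-! Abstract root subgroups: lines. -/

namespace H5.RS
open Cfsg
variable {G : Type*} [Group G] {S : Set (Subgroup G)} {A B C D E : Subgroup G}

theorem lp_comm (h : B ∈ linePartners S A) : Comm A B := comm_iff.1 h.1.2.2

theorem lp_symm (hA : A ∈ S) (h : B ∈ linePartners S A) : A ∈ linePartners S B :=
  ⟨⟨hA, h.1.2.1.symm, comm_iff.2 (lp_comm h).symm⟩, sup_comm A B ▸ h.2⟩

theorem lp_inf (hA : A ∈ S) (h : B ∈ linePartners S A) {x : G} (h1 : x ∈ A) (h2 : x ∈ B) : x = 1 :=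
  (h.2.2.2 A ⟨hA, le_sup_left⟩ B ⟨h.1.1, le_sup_right⟩ h.1.2.1.symm).le ⟨h1, h2⟩

theorem lp_of (h : B ∈ linePartners S A) (hC : C ∈ S) (h1 : C ≠ A) (hab : Comm A A) (hab' : Comm B B)
    (e : A ⊔ C = A ⊔ B) : C ∈ linePartners S A :=
  ⟨⟨hC, h1, comm_iff.2 ((hab.sup (lp_comm h)).mono le_rfl (e ▸ le_sup_right))⟩, e ▸ h.2⟩

theorem inv_sup {P : Set (Subgroup G)} (h1 : ∀ x ∈ A, ∀ E ∈ P, conjBy E x ∈ P) (h2 : ∀ x ∈ B, ∀ E ∈ P, conjBy E x ∈ P) :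
    ∀ x ∈ A ⊔ B, ∀ E ∈ P, conjBy E x ∈ P := by
  intro x hx
  rw [Subgroup.sup_eq_closure] at hx
  induction hx using Subgroup.closure_induction'' with
  | one => simp [conjBy_one]
  | mul x y _ _ h1 h2 => exact fun C hC => conjBy_conjBy C y x ▸ h1 _ (h2 C hC)
  | mem x hx => exact hx.elim (h1 x) (h2 x)
  | inv_mem x hx => exact hx.elim (fun h => h1 _ (inv_mem h)) fun h => h2 _ (inv_mem h)

theorem two_opp (h1 : IsRankOnePair A E) (h2 : IsRankOnePair B E) {a : G} (ha : a ∈ A) (ha1 : a ≠ 1) :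
    ∃ b ∈ B, b ≠ 1 ∧ ∃ e ∈ E, conjBy A e = conjBy E a ∧ conjBy B e = conjBy E b := by
  obtain ⟨e, he, he1, e1⟩ := h1.h5cond ha ha1
  obtain ⟨b, hb, hb1, e2⟩ := h2.h5symm.h5cond he he1
  exact ⟨b, hb, hb1, e, he, e1, e2.symm⟩

theorem two_opp' (h1 : IsRankOnePair A E) (h2 : IsRankOnePair B E) (h : Comm A B) {a : G} (ha : a ∈ A) (ha1 : a ≠ 1) :
    ∃ b ∈ B, b ≠ 1 ∧ Comm (conjBy E (b⁻¹ * a)) E := by
  obtain ⟨b, hb, hb1, e, -, e1, e2⟩ := two_opp h1 h2 ha ha1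
  have := (e1 ▸ e2 ▸ h.conj e : Comm (conjBy E a) (conjBy E b)).conj b⁻¹
  rw [conjBy_conjBy, conjBy_conjBy, inv_mul_cancel, conjBy_one] at this
  exact ⟨b, hb, hb1, this⟩

end H5.RS

namespace Cfsg.IsRootSubgroupSet
open H5 H5.RS Cfsg.IsRankOnePair
open scoped commutatorElement

variable {G : Type*} [Group G] {S : Set (Subgroup G)} {A B C D E F : Subgroup G} (hS : IsRootSubgroupSet S)

theorem h5ce (h : RootCommutatorCase S A B) {a c : G} (ha : a ∈ A) (h1 : a ≠ 1) (hc : c ∈ ⁅A, B⁆) :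
    ∃ b ∈ B, c * a = b * a * b⁻¹ := by
  obtain ⟨b, hb, e⟩ := h.h5surj ha h1 (inv_mem hc)
  exact ⟨b, hb, by rw [← inv_inv c, ← e]; simp [commutatorElement_def, mul_assoc]⟩

include hS

theorem h5lp_conj (h : B ∈ linePartners S A) (g : G) : conjBy B g ∈ linePartners S (conjBy A g) := by
  have k : ∀ C ∈ membersIn S (conjBy A g ⊔ conjBy B g), conjBy C g⁻¹ ∈ membersIn S (A ⊔ B) := fun C hC =>
    ⟨hS.conj_mem _ hC.1 _, by
      have := conjBy_mono hC.2 g⁻¹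
      rwa [← conjBy_sup, conjBy_conjBy, inv_mul_cancel, conjBy_one] at this⟩
  refine ⟨⟨hS.conj_mem _ h.1.1 g, fun e => h.1.2.1 (conjBy_inj.1 e), comm_iff.2 ((lp_comm h).conj g)⟩,
    fun C hC => hC.2, fun x hx h1 => ?_, fun C hC D hD hne => ?_⟩
  · rw [← conjBy_sup] at hx
    obtain ⟨y, hy, rfl⟩ := hx
    obtain ⟨C, hC, h2⟩ := h.2.2.1 y hy (by rintro rfl; simp at h1)
    exact ⟨_, ⟨hS.conj_mem _ hC.1 g, conjBy_sup A B g ▸ conjBy_mono hC.2 g⟩, RS.conj_mem h2⟩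
  · have := h.2.2.2 _ (k C hC) _ (k D hD) fun e => hne (conjBy_inj.1 e)
    rwa [← conjBy_inf, conjBy_eq_iff, conjBy_bot] at this

theorem h5move (h : IsRankOnePair A E) (hE : E ∈ S) (hc : RootCommutatorCase S A B) {b : G} (hb : b ∈ B) (h1 : b ≠ 1) :
    conjBy A b ≠ A := fun e => by
  have e2 := hc.h5sup hb h1
  rw [e, sup_idem] at e2
  obtain ⟨c, hc1, hc2⟩ := hS.h5ex hc.1
  exact hS.h5cc_ne hc (hS.h5eq h hE hc.1 hc2 (e2.ge (Subgroup.mem_sup_right hc1)) hc1)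

theorem h5K2 (h : IsRankOnePair A E) (hA : A ∈ S) (hE : E ∈ S) (hC : C ∈ S) (hAC : Comm A C) (hn : ¬ IsRankOnePair C E)
    (hC' : IsRankOnePair C F) (hF : F ∈ S) (hD : D ∈ S) {a c : G} (ha : a ∈ A) (h1 : a ≠ 1) (hc : c ∈ C) (h2 : c ≠ 1)
    (hca : c * a ∈ D) : RootCommutatorCase S E C ∧ RootCommutatorCase S A ⁅E, C⁆ ∧ ⁅A, ⁅E, C⁆⁆ = C := by
  have k1 : RootCommutatorCase S E C := by
    rcases hS.h5tri hE hC with h3 | h3 | h3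
    · exact absurd (hS.h5root h hE hD (comm_sup (hAC.symm c hc) (h3.symm c hc)) ha h1 hca) h2
    · exact absurd h3.h5symm hn
    · exact h3
  have k2 : RootCommutatorCase S A ⁅E, C⁆ := by
    obtain ⟨e, he, he1⟩ := hS.h5ex hE
    rcases hS.h5tri hA k1.1 with h3 | h3 | h3
    · obtain ⟨f, hf, hf1⟩ := hS.h5ex k1.1
      obtain ⟨c', -, e'⟩ := h5ce k1 he he1 hf
      exact absurd (hS.h5root h.h5symm hA (hS.conj_mem E hE c') (comm_sup (k1.h5cl.symm f hf) (h3.symm f hf)) he he1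
        (e' ▸ RS.conj_mem he)) hf1
    · exfalso
      obtain ⟨f, hf, -, h4⟩ := two_opp' h.h5symm h3.h5symm k1.h5cl he he1
      obtain ⟨c', hc', e'⟩ := h5ce k1 he he1 (inv_mem hf)
      have h5 := h.h5symm.h5conj c'
      rw [hAC.symm.conjBy_eq hc'] at h5
      exact (h5.h5pair' (e' ▸ RS.conj_mem he) (by simpa [e'] using he1)).h5not_comm h4.symm
    · exact h3
  refine ⟨k1, k2, ?_⟩
  obtain ⟨e, he, -, e1⟩ := h.h5cond ha h1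
  have hf : ⁅e, c⁆ ∈ ⁅E, C⁆ := Subgroup.commutator_mem_commutator he hc
  have hg : ⁅a⁻¹, ⁅e, c⁆⁆ ∈ ⁅A, ⁅E, C⁆⁆ := Subgroup.commutator_mem_commutator (inv_mem ha) hf
  have hcg : ∀ x ∈ A ⊔ ⁅E, C⁆, c * x = x * c := comm_sup (hAC.symm c hc) (k1.h5cr c hc)
  have k3 : ∀ x ∈ E, (a⁻¹ * (e * c * e⁻¹) * a) * x = x * (a⁻¹ * (e * c * e⁻¹) * a) := fun x hx => by
    have := (hAC.conj e).symm _ (RS.conj_mem hc) _ (e1 ▸ RS.conj_mem hx : a * x * a⁻¹ ∈ conjBy A e)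
    calc _ = a⁻¹ * (e * c * e⁻¹ * (a * x * a⁻¹)) * a := by group
      _ = _ := by rw [this]; group
  have k4 : a⁻¹ * (e * c * e⁻¹) * a = c * ⁅a⁻¹, ⁅e, c⁆⁆ * ⁅e, c⁆ := by
    rw [mul_assoc c, hcg _ (mul_mem (Subgroup.commutator_le_sup _ _ hg) (Subgroup.mem_sup_right hf))]
    calc _ = a⁻¹ * (e * c * e⁻¹ * c⁻¹) * (c * a) := by group
      _ = _ := by rw [hAC.symm c hc a ha]; simp only [commutatorElement_def]; group
  obtain ⟨f, hf', e2⟩ := h5ce k2 ha h1 hg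
  have k5 := hS.h5root h hE (hS.conj_mem D hD f) (z := c * ⁅a⁻¹, ⁅e, c⁆⁆) (comm_sup (fun x hx =>
    (Commute.mul_left (hAC.symm c hc x hx) (k2.h5cl.symm _ hg x hx)).eq) fun x hx => ?_) ha h1 ?_
  · exact (hS.h5eq hC' hF k2.1 h2 hc (eq_inv_of_mul_eq_one_left k5 ▸ inv_mem hg)).symm
  · apply mul_right_cancel (b := ⁅e, c⁆)
    rw [mul_assoc _ x, k1.h5cl x hx _ hf, ← mul_assoc, ← k4, k3 x hx, k4, mul_assoc x]
  · rw [mul_assoc, e2, ← mul_assoc, ← mul_assoc, k1.h5cr c hc f hf', mul_assoc f]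
    exact RS.conj_mem hca

theorem h5K3 (hF : ∀ A ∈ S, ∃ E ∈ S, IsRankOnePair A E) (hA : A ∈ S) (hB : B ∈ linePartners S A) (hE : E ∈ S)
    (h : IsRankOnePair A E) : ∃ C ∈ S, RootCommutatorCase S E C ∧ RootCommutatorCase S A ⁅E, C⁆ ∧ ⁅A, ⁅E, C⁆⁆ = C ∧
      A ⊔ C = A ⊔ B := by
  obtain ⟨a, ha, h1⟩ := hS.h5ex hA
  obtain ⟨F, hF', h3⟩ := hF B hB.1.1
  by_cases h2 : IsRankOnePair B E
  · obtain ⟨b, hb, hb1, h4⟩ := two_opp' h h2 (lp_comm hB) ha h1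
    have h5 : b⁻¹ * a ≠ 1 := fun e => h1 (lp_inf hA hB ha (inv_mul_eq_one.1 e ▸ hb))
    obtain ⟨C, hC, hc⟩ := hB.2.2.1 _ (mul_mem (Subgroup.mem_sup_right (inv_mem hb)) (Subgroup.mem_sup_left ha)) h5
    obtain ⟨F', hF'', h6⟩ := hF C hC.1
    obtain ⟨k1, k2, k3⟩ := hS.h5K2 h hA hE hC.1 (((hS.h5ab hA).sup (lp_comm hB)).mono le_rfl hC.2)
      (fun h7 => (h7.h5pair' hc h5).h5not_comm h4.symm) h6 hF'' hB.1.1 (inv_mem ha) (inv_ne_one.2 h1) hc h5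
      (by simpa using hb)
    refine ⟨C, hC.1, k1, k2, k3, ?_⟩
    have : b ∈ A ⊔ ⁅A, ⁅E, C⁆⁆ := by
      rw [k3, show b = a * (b⁻¹ * a)⁻¹ by group]
      exact mul_mem (Subgroup.mem_sup_left ha) (Subgroup.mem_sup_right (inv_mem hc))
    rcases hS.h5line_mem k2 this with h7 | ⟨f, hf, h7⟩
    · rw [hS.h5eq h3 hF' hC.1 hb1 hb (k3 ▸ h7)]
    · have e := hS.h5eq h3 hF' (hS.conj_mem A hA f) hb1 hb h7
      rw [e, k2.h5sup hf (by rintro rfl; exact hB.1.2.1 (e.trans (conjBy_one A))), k3]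
  · obtain ⟨b, hb, hb1⟩ := hS.h5ex hB.1.1
    obtain ⟨D, hD, hd⟩ := hB.2.2.1 _ (mul_mem (Subgroup.mem_sup_right hb) (Subgroup.mem_sup_left ha))
      fun e => h1 (lp_inf hA hB ha (eq_inv_of_mul_eq_one_right e ▸ inv_mem hb))
    obtain ⟨k1, k2, k3⟩ := hS.h5K2 h hA hE hB.1.1 (lp_comm hB) h2 h3 hF' hD.1 ha h1 hb hb1 hd
    exact ⟨B, hB.1.1, k1, k2, k3, rfl⟩

theorem h5trans (hF : ∀ A ∈ S, ∃ E ∈ S, IsRankOnePair A E) (hA : A ∈ S) (hB : B ∈ linePartners S A) :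
    ∃ F ∈ S, RootCommutatorCase S A F ∧ ∀ C ∈ membersIn S (A ⊔ B), ∀ D ∈ membersIn S (A ⊔ B), C ≠ D →
      ∃ x ∈ ⨆ E ∈ normalizingMembers S (A ⊔ B), E, conjBy C x = ⁅A, F⁆ ∧ conjBy D x = A := by
  obtain ⟨E, hE, h⟩ := hF A hA
  obtain ⟨C, hC, k1, k2, k3, k4⟩ := hS.h5K3 hF hA hB hE h
  obtain ⟨E', hE', h'⟩ := hF C hC
  obtain ⟨C', hC', l1, l2, l3, l4⟩ := hS.h5K3 hF hC (k3 ▸ hS.h5lp h hE hA k2) hE' h'
  rw [sup_comm C A, k4] at l4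
  have m1 : ∀ D, D ∈ membersIn S (A ⊔ B) ↔ (∃ b ∈ ⁅E, C⁆, conjBy A b = D) ∨ D = C := fun D => by
    rw [← k4, ← k3, hS.h5line h hE hA k2, k3]
  have m2 : ∀ D, D ∈ membersIn S (A ⊔ B) ↔ (∃ b ∈ ⁅E', C'⁆, conjBy C b = D) ∨ D = C' := fun D => by
    rw [← l4, ← l3, hS.h5line h' hE' hC l2, l3]
  have y1 : ⁅E, C⁆ ≤ ⨆ E ∈ normalizingMembers S (A ⊔ B), E :=
    le_iSup₂_of_le _ ⟨k1.1, fun f hf => conjBy_eq_self.1 (by rw [← k4, ← k3]; exact k2.h5norm (k3.symm ▸ hf))⟩ le_rfl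
  have y2 : ⁅E', C'⁆ ≤ ⨆ E ∈ normalizingMembers S (A ⊔ B), E :=
    le_iSup₂_of_le _ ⟨l1.1, fun f hf => conjBy_eq_self.1 (by rw [← l4, ← l3]; exact l2.h5norm (l3.symm ▸ hf))⟩ le_rfl
  have y3 : ∀ x ∈ ⨆ E ∈ normalizingMembers S (A ⊔ B), E, ∀ D ∈ membersIn S (A ⊔ B), conjBy D x ∈ membersIn S (A ⊔ B) :=
    fun x hx D hD => ⟨hS.conj_mem D hD.1 x, conjBy_eq_self.2 ((iSup₂_le fun E hE => hE.2 :
      _ ≤ Subgroup.normalizer ((A ⊔ B : Subgroup G) : Set G)) hx) ▸ conjBy_mono hD.2 x⟩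
  have t1 : ∀ D ∈ membersIn S (A ⊔ B), D ≠ C' → ∃ x ∈ ⨆ E ∈ normalizingMembers S (A ⊔ B), E, conjBy D x = C := fun D hD hne => by
    obtain ⟨f, hf, e⟩ := ((m2 D).1 hD).resolve_right hne
    exact ⟨_, y2 (inv_mem hf), (conjBy_eq_iff.1 e).symm⟩
  have t2 : ∀ D ∈ membersIn S (A ⊔ B), ∃ x ∈ ⨆ E ∈ normalizingMembers S (A ⊔ B), E, conjBy D x = C := fun D hD => by
    by_cases hne : D = C'
    · obtain ⟨f, hf, e⟩ := ((m1 D).1 hD).resolve_right fun e => hS.h5cc_ne l2 (by rw [l3, ← hne, e])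
      obtain ⟨f', hf', h1⟩ := hS.h5ex k1.1
      obtain ⟨x, hx, e'⟩ := t1 _ (y3 _ (y1 hf') D hD) fun e' => by
        rw [← hne, ← e, conjBy_conjBy, conjBy_eq_conjBy] at e'
        exact hS.h5move h hE k2 (mul_mem (inv_mem hf) (mul_mem hf' hf)) (fun e => h1 (by simpa using congrArg (fun x => f * x * f⁻¹) e)) e'
      exact ⟨_, mul_mem hx (y1 hf'), conjBy_conjBy D f' x ▸ e'⟩
    · exact t1 D hD hne
  refine ⟨_, k1.1, k2, fun D hD D' hD' hne => ?_⟩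
  obtain ⟨x, hx, e⟩ := t2 D hD
  obtain ⟨f, hf, e'⟩ := ((m1 _).1 (y3 x hx D' hD')).resolve_right fun e' => hne (conjBy_inj.1 (e.trans e'.symm))
  exact ⟨f⁻¹ * x, mul_mem (y1 (inv_mem hf)) hx, by rw [← conjBy_conjBy, e, k3, k1.h5cr.symm.conjBy_eq (inv_mem hf)],
    by rw [← conjBy_conjBy, ← e', ← conjBy_eq_iff.1 rfl]⟩

theorem h5excomm (hF : ∀ A ∈ S, ∃ E ∈ S, IsRankOnePair A E) (hA : A ∈ S) (hB : B ∈ linePartners S A) :
    ∃ P ∈ S, RootCommutatorCase S B P ∧ ⁅B, P⁆ = A := by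
  obtain ⟨F, hF', h, k⟩ := hS.h5trans hF hA hB
  obtain ⟨x, -, e1, e2⟩ := k A ⟨hA, le_sup_left⟩ B ⟨hB.1.1, le_sup_right⟩ hB.1.2.1.symm
  rw [conjBy_eq_iff] at e1 e2
  exact ⟨_, hS.conj_mem F hF' x⁻¹, e2 ▸ h.h5conj hS x⁻¹, by rw [e2, ← conjBy_comm, ← e1]⟩

/-! ### the `SL₂`-configuration -/

theorem h5cent (h : RootCommutatorCase S A B) {x : G} (hx : x ∈ A ⊔ ⁅A, B⁆) (h1 : ∀ b ∈ B, x * b = b * x) :
    x ∈ ⁅A, B⁆ := by
  obtain ⟨a, ha, c, hc, rfl⟩ := h.h5cl.mem_sup.1 hx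
  by_cases h2 : a = 1
  · rwa [h2, one_mul]
  · obtain ⟨d, hd, h3⟩ := hS.h5ex h.1
    obtain ⟨b, hb, rfl⟩ := h.h5surj ha h2 hd
    refine absurd (commutatorElement_eq_one_iff_mul_comm.2 (mul_right_cancel (b := c) ?_)) h3
    rw [mul_assoc, h.h5cr b hb c hc, ← mul_assoc, h1 b hb, mul_assoc]

theorem h5cc_inf (h : RootCommutatorCase S A B) {x : G} (h1 : x ∈ A) (h2 : x ∈ ⁅A, B⁆) : x = 1 := by
  by_contra h3
  obtain ⟨d, hd, h4⟩ := hS.h5ex h.1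
  obtain ⟨b, hb, rfl⟩ := h.h5surj h1 h3 hd
  exact h4 (commutatorElement_eq_one_iff_mul_comm.2 (h.h5cr b hb x h2).symm)

section
variable (h1 : RootCommutatorCase S A B) (h2 : RootCommutatorCase S C D) (e1 : ⁅A, B⁆ = C) (e2 : ⁅C, D⁆ = A)
include h1 h2 e1 e2

omit hS in
theorem h5sl_norm : ∀ x ∈ B ⊔ D, conjBy (A ⊔ C) x = A ⊔ C := fun _ hx => conjBy_eq_self.2 ((sup_le
  (fun b hb => conjBy_eq_self.1 (e1 ▸ h1.h5norm hb)) fun d hd => conjBy_eq_self.1 (sup_comm C A ▸ e2 ▸ h2.h5norm hd) :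
    _ ≤ Subgroup.normalizer ((A ⊔ C : Subgroup G) : Set G)) hx)

theorem h5sl_opp (hB : B ∈ S) (hD : D ∈ S) : IsRankOnePair B D := by
  by_contra h
  obtain ⟨d, hd, hd1⟩ := hS.h5ex hD
  obtain ⟨a, ha, ha1⟩ := hS.h5ex h2.1
  obtain ⟨c, hc, rfl⟩ := h2.h5surj' hd hd1 ha
  have k1 := hS.h5nopp hB hD (fun h' => h h'.h5symm) hd
  have k2 : Comm C (conjBy B d) := fun c' hc' y hy => by
    obtain ⟨b, hb, rfl⟩ := h1.h5surj (e2 ▸ ha) ha1 (e1 ▸ hc')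
    have k3 : Commute (d * c * d⁻¹) y := ((e1 ▸ h1.h5cr).conj d).symm _ (RS.conj_mem hc) y hy
    have k4 : Commute b y := (k1 y hy b hb).symm
    have : ⁅⁅d, c⁆, b⁆ = (d * c * d⁻¹) * b * (d * c * d⁻¹)⁻¹ * b⁻¹ := by
      calc _ = d * c * d⁻¹ * (c⁻¹ * b) * c * (d * c * d⁻¹)⁻¹ * b⁻¹ := by simp only [commutatorElement_def]; group
        _ = _ := by rw [← h1.h5cr b hb _ (e1 ▸ inv_mem hc)]; group
    rw [this]
    exact (((k3.mul_left k4).mul_left k3.inv_left).mul_left k4.inv_left).eq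
  refine hS.h5cc_not h1 ((e1 ▸ h1.h5cr : Comm B C).symm.mono (fun x hx => ?_) le_rfl)
  obtain ⟨c', hc', rfl⟩ := h2.h5surj' (inv_mem hd) (inv_ne_one.2 hd1) (e2 ▸ hx)
  refine mul_mem (e1 ▸ hS.h5cent h1 ?_ fun b hb => ?_) (inv_mem hc')
  · rw [e1, sup_comm, ← e2]; exact h2.h5le (inv_mem hd) (RS.conj_mem hc')
  · have := k2 c' hc' _ (RS.conj_mem hb)
    calc _ = d⁻¹ * (c' * (d * b * d⁻¹)) * d := by group
      _ = _ := by rw [this]; group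

theorem h5sl_le {b d : G} (hb : b ∈ B) (hd : d ∈ D) (e : conjBy B d = conjBy D b) : conjBy A b ≤ conjBy C d := by
  intro x hx
  rw [mem_conjBy, ← e1]
  refine hS.h5cent h1 ?_ fun y hy => ?_
  · rw [e1, ← mem_conjBy, h5sl_norm h1 h2 e1 e2 d (Subgroup.mem_sup_right hd), ← e1]; exact h1.h5le hb hx
  · have := ((e2 ▸ h2.h5cr : Comm D A).conj b).symm x hx _ (e ▸ RS.conj_mem hy : d * y * d⁻¹ ∈ conjBy D b)
    calc _ = d⁻¹ * (x * (d * y * d⁻¹)) * d := by group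
      _ = _ := by rw [this]; group

theorem h5sl_eq {b d : G} (hb : b ∈ B) (hd : d ∈ D) (e : conjBy B d = conjBy D b) : conjBy A b = conjBy C d :=
  le_antisymm (hS.h5sl_le h1 h2 e1 e2 hb hd e) (hS.h5sl_le h2 h1 e2 e1 hd hb e.symm)

theorem h5sl_sub (hB : B ∈ S) (hD : D ∈ S) :
    (fun b : G => conjBy A b) '' (B : Set G) ∪ {C} ⊆ (fun d : G => conjBy C d) '' (D : Set G) ∪ {A} := by
  rintro _ (⟨b, hb, rfl⟩ | rfl)
  · by_cases h : b = 1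
    · exact Or.inr (h ▸ conjBy_one A)
    · obtain ⟨d, hd, -, e⟩ := (hS.h5sl_opp h1 h2 e1 e2 hB hD).h5cond hb h
      exact Or.inl ⟨d, hd, (hS.h5sl_eq h1 h2 e1 e2 hb hd e).symm⟩
  · exact Or.inl ⟨1, one_mem _, conjBy_one _⟩

theorem h5sl_orb (hB : B ∈ S) (hD : D ∈ S) :
    {E | ∃ x ∈ B ⊔ D, E = conjBy A x} = (fun b : G => conjBy A b) '' (B : Set G) ∪ {C} := by
  have k := (hS.h5sl_sub h1 h2 e1 e2 hB hD).antisymm (hS.h5sl_sub h2 h1 e2 e1 hD hB)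
  refine Set.Subset.antisymm ?_ ?_
  · rintro _ ⟨x, hx, rfl⟩
    refine inv_sup ?_ ?_ x hx A (Or.inl ⟨1, one_mem _, conjBy_one _⟩)
    · rintro b hb _ (⟨b', hb', rfl⟩ | rfl)
      · exact Or.inl ⟨_, mul_mem hb hb', (conjBy_conjBy _ _ _).symm⟩
      · exact Or.inr ((e1 ▸ h1.h5cr : Comm B _).conjBy_eq hb)
    · rw [k]
      rintro b hb _ (⟨b', hb', rfl⟩ | rfl)
      · exact Or.inl ⟨_, mul_mem hb hb', (conjBy_conjBy _ _ _).symm⟩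
      · exact Or.inr ((e2 ▸ h2.h5cr : Comm D _).conjBy_eq hb)
  · rintro _ (⟨b, hb, rfl⟩ | rfl)
    · exact ⟨b, Subgroup.mem_sup_left hb, rfl⟩
    · obtain ⟨b, hb, h⟩ := hS.h5ex hB
      obtain ⟨d, hd, -, e⟩ := (hS.h5sl_opp h1 h2 e1 e2 hB hD).h5cond hb h
      exact ⟨_, mul_mem (Subgroup.mem_sup_right (inv_mem hd)) (Subgroup.mem_sup_left hb),
        (conjBy_eq_conjBy.1 (hS.h5sl_eq h1 h2 e1 e2 hb hd e)).symm⟩

theorem h5sl_cent (hB : B ∈ S) (hD : D ∈ S) :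
    Comm ((B ⊔ D) ⊓ Subgroup.centralizer ((A ⊔ C : Subgroup G) : Set G)) (B ⊔ D) := by
  refine ((hS.h5sl_opp h1 h2 e1 e2 hB hD).h5dich (K := (B ⊔ D) ⊓ Subgroup.centralizer ((A ⊔ C : Subgroup G) : Set G))
    (fun x hx y hy => ⟨(B ⊔ D).mul_mem ((B ⊔ D).mul_mem hy hx.1) (inv_mem hy), fun z hz => ?_⟩) inf_le_left).resolve_left ?_
  · have := hx.2 _ (mem_conjBy.1 ((h5sl_norm h1 h2 e1 e2 y hy).symm ▸ hz))
    calc _ = y * (y⁻¹ * z * y * x) * y⁻¹ := by group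
      _ = _ := by rw [this]; group
  · rintro ⟨x, hx, e⟩
    refine hS.h5cc_not h2 fun c hc d hd => ?_
    obtain ⟨b, hb, rfl⟩ : d ∈ conjBy B x := e ▸ hd
    have k1 : Commute c x := hx.2 c (Subgroup.mem_sup_right hc)
    have k2 : Commute c b := (h1.h5cr b hb c (e1 ▸ hc)).symm
    exact ((k1.mul_right k2).mul_right k1.inv_right).eq

theorem h5sl_special (hB : B ∈ S) (hD : D ∈ S) : IsSpecialRankOnePair B D := by
  have h := hS.h5sl_opp h1 h2 e1 e2 hB hD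
  refine ⟨h, fun b hb hb1 d hd hd1 e => ?_⟩
  have k := hS.h5sl_eq h1 h2 e1 e2 (inv_mem hb) (inv_mem hd) e
  have hu : d⁻¹ * b * d ∈ conjBy B d⁻¹ := by simpa [mem_conjBy, mul_assoc] using hb
  have hv : b⁻¹ * d⁻¹ * b ∈ conjBy B d⁻¹ := by simpa [e, mem_conjBy, mul_assoc] using hd
  have hw := mul_mem (inv_mem hv) hu
  have hle : conjBy B d⁻¹ ≤ B ⊔ D := conjBy_le le_sup_left (Subgroup.mem_sup_right (inv_mem hd))
  refine (inv_mul_eq_one.1 ((h.h5symm.h5pair' (inv_mem hd) (inv_ne_one.2 hd1)).h5symm.h5comm hw fun y hy =>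
    hS.h5sl_cent h1 h2 e1 e2 hB hD _ ⟨hle hw, fun z hz => ?_⟩ y (Subgroup.mem_sup_left hy))).symm
  rw [sup_comm, ← e2, ← h2.h5sup (inv_mem hd) (inv_ne_one.2 hd1)] at hz
  refine (comm_sup (fun c hc => ?_) (((e1 ▸ h1.h5cr : Comm B C).conj d⁻¹) _ hw) z hz).symm
  obtain ⟨f, hf⟩ : ∃ f, f = ⁅d⁻¹, c⁆ := ⟨_, rfl⟩
  have hfA : f ∈ A := by rw [hf, ← e2, Subgroup.commutator_comm]; exact Subgroup.commutator_mem_commutator (inv_mem hd) hc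
  obtain ⟨g, hg⟩ : ∃ g, g = ⁅b, f⁻¹⁆ := ⟨_, rfl⟩
  have hgC : g ∈ C := by rw [hg, ← e1, Subgroup.commutator_comm]; exact Subgroup.commutator_mem_commutator hb (inv_mem hfA)
  have c1 : b * c = c * b := h1.h5cr b hb c (e1 ▸ hc)
  have c2 : d * f = f * d := h2.h5cr d hd f (e2 ▸ hfA)
  have c3 : b * g = g * b := h1.h5cr b hb g (e1 ▸ hgC)
  have c4 : f * g = g * f := h1.h5cl f hfA g (e1 ▸ hgC)
  have r1 : d⁻¹ * c * d = f * c := by rw [hf, commutatorElement_def]; group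
  have r2 : b * f⁻¹ * b⁻¹ = g * f⁻¹ := by rw [hg, commutatorElement_def]; group
  have r3 : b⁻¹ * f * b = f * g := by
    calc _ = b⁻¹ * (b * f * b⁻¹ * (b * f⁻¹ * b⁻¹)) * f * b := by group
      _ = f * (b⁻¹ * g * b) := by rw [r2]; group
      _ = _ := by rw [mul_assoc b⁻¹, ← c3]; group
  have r4 : d⁻¹ * g * d = b⁻¹ * f * b := by
    have m1 : d⁻¹ * g * d * (b⁻¹ * f * b)⁻¹ ∈ conjBy C d⁻¹ :=
      mul_mem (by simpa [mem_conjBy, mul_assoc] using hgC) (inv_mem (by simpa [← k, mem_conjBy, mul_assoc] using hfA))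
    have m2 : d⁻¹ * g * d * (b⁻¹ * f * b)⁻¹ ∈ conjBy A d⁻¹ := by
      rw [(e2 ▸ h2.h5cr : Comm D A).conjBy_eq (inv_mem hd), r3, mul_inv_rev, ← mul_assoc]
      refine mul_mem ?_ (inv_mem hfA)
      rw [← e2, Subgroup.commutator_comm]
      simpa [commutatorElement_def] using Subgroup.commutator_mem_commutator (inv_mem hd) hgC
    have := hS.h5cc_inf h2 (mem_conjBy.1 m1) (e2 ▸ mem_conjBy.1 m2)
    exact mul_inv_eq_one.1 (by simpa using this)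
  have r5 : d * c * d⁻¹ = f⁻¹ * c := by
    calc _ = f⁻¹ * (f * d) * c * d⁻¹ := by group
      _ = f⁻¹ * d * (f * c) * d⁻¹ := by rw [← c2]; group
      _ = _ := by rw [← r1]; group
  have r6 : (d⁻¹ * b * d) * c * (d⁻¹ * b * d)⁻¹ = (b⁻¹ * d⁻¹ * b) * c * (b⁻¹ * d⁻¹ * b)⁻¹ := by
    calc _ = d⁻¹ * b * (d * c * d⁻¹) * b⁻¹ * d := by group
      _ = d⁻¹ * (b * f⁻¹ * b⁻¹) * (b * c) * b⁻¹ * d := by rw [r5]; group
      _ = (d⁻¹ * g * d) * (f * d)⁻¹ * d * (d⁻¹ * c * d) := by rw [r2, c1]; group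
      _ = b⁻¹ * f * (b * c) := by rw [← c2, r1, r4]; group
      _ = b⁻¹ * (d⁻¹ * c * d) * b := by rw [r1, c1]; group
      _ = b⁻¹ * d⁻¹ * (c * b) * b⁻¹ * d * b := by group
      _ = _ := by rw [← c1]; group
  calc _ = (b⁻¹ * d⁻¹ * b)⁻¹ * ((d⁻¹ * b * d) * c * (d⁻¹ * b * d)⁻¹) * (d⁻¹ * b * d) := by group
    _ = _ := by rw [r6]; group

end

end Cfsg.IsRootSubgroupSet
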