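import Cfsg.Agent.H5.RS1
import Cfsg.Prelude.Def_Transfer

/-! Special rank one groups. -/

namespace H5.RS
open Cfsg Cfsg.IsRankOnePair
open scoped commutatorElement

variable {G : Type*} [Group G] {A B : Subgroup G}

/-- the braid relation -/
def Br (a b : G) : Prop := a * b * a = b * a * b

theorem Br.symm {a b : G} (h : Br a b) : Br b a := Eq.symm h

theorem Br.inv {a b : G} (h : Br a b) : Br a⁻¹ b⁻¹ := by
  simpa [Br, mul_assoc] using congrArg (·⁻¹) h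

theorem Br.conj1 {a b : G} (h : Br a b) : a * b * a * a * (a * b * a)⁻¹ = b := by
  rw [mul_inv_eq_iff_eq_mul]; nth_rw 1 [h]; group

theorem Br.conj2 {a b : G} (h : Br a b) : a * b * a * b * (a * b * a)⁻¹ = a := by
  rw [mul_inv_eq_iff_eq_mul]; nth_rw 2 [h]; group

theorem Br.ne_one {a b : G} (h : Br a b) (h1 : a ≠ 1) : b ≠ 1 := by
  rintro rfl; exact h1 (by simpa [Br] using h)

theorem Br.sp {a b : G} (h : Br a b) : a * b * a⁻¹ = b⁻¹ * a * b := by
  calc _ = b⁻¹ * (b * a * b) * a⁻¹ := by group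
    _ = _ := by rw [← h]; group

theorem omega_eq (h : IsRankOnePair A B) {C D : Subgroup G} (hC : C ∈ unipotentSubgroups A B)
    (hD : D ∈ unipotentSubgroups A B) {x : G} (h1 : x ≠ 1) (h2 : x ∈ C) (h3 : x ∈ D) : C = D := by
  by_contra e
  exact h1 ((h.h5pair hC hD e).1.h5inf h2 h3)

theorem Br.pt {a b : G} (e : Br a b) (h : IsRankOnePair A B) (ha : a ∈ A) (hb : b ∈ B) (h1 : a ≠ 1) :
    conjBy B a = conjBy A b⁻¹ :=
  omega_eq h (h5Ωconj h.h5right (Subgroup.mem_sup_left ha)) (h5Ωconj h5left (Subgroup.mem_sup_right (inv_mem hb)))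
    (by simpa using e.ne_one h1) (conj_mem hb) (by simpa [e.sp, mem_conjBy, mul_assoc] using ha)

theorem Br.swap {a b : G} (e : Br a b) (h : IsRankOnePair A B) (ha : a ∈ A) (hb : b ∈ B) (h1 : a ≠ 1) :
    a * b * a ∈ A ⊔ B ∧ conjBy A (a * b * a) = B ∧ conjBy B (a * b * a) = A := by
  have m : a * b * a ∈ A ⊔ B :=
    mul_mem (mul_mem (Subgroup.mem_sup_left ha) (Subgroup.mem_sup_right hb)) (Subgroup.mem_sup_left ha)
  exact ⟨m, omega_eq h (h5Ωconj h5left m) h.h5right (e.ne_one h1) ⟨a, ha, e.conj1⟩ hb,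
    omega_eq h (h5Ωconj h.h5right m) h5left h1 ⟨b, hb, e.conj2⟩ ha⟩

theorem Br.uniq {a a' b : G} (e : Br a b) (e' : Br a' b) (h : IsRankOnePair A B) (ha : a ∈ A) (ha' : a' ∈ A) (hb : b ∈ B)
    (h1 : b ≠ 1) : a = a' :=
  h.h5uniq ha ha' ((e.pt h ha hb (e.symm.ne_one h1)).trans (e'.pt h ha' hb (e'.symm.ne_one h1)).symm)

theorem sp_symm (h : IsSpecialRankOnePair A B) : IsSpecialRankOnePair B A :=
  ⟨h.1.h5symm, fun b hb h1 a ha h2 e => by simpa [mul_assoc] using congrArg (·⁻¹) (h.2 a ha h2 b hb h1 e.symm).symm⟩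

theorem sp_ex (h : IsSpecialRankOnePair A B) {a : G} (ha : a ∈ A) (h1 : a ≠ 1) : ∃ b ∈ B, Br a b := by
  obtain ⟨b, hb, h2, e⟩ := h.1.cond_left a ha h1
  refine ⟨_, inv_mem hb, ?_⟩
  have := h.2 a ha h1 b hb h2 e
  calc _ = a * (b⁻¹ * a * b) * b⁻¹ := by group
    _ = _ := by rw [this]; group

theorem sp_of (h : IsRankOnePair A B) (h1 : ∀ a ∈ A, a ≠ 1 → ∃ b ∈ B, Br a b) : IsSpecialRankOnePair A B := by
  refine ⟨h, fun a ha h2 b hb _ e => ?_⟩
  obtain ⟨c, hc, e'⟩ := h1 _ (inv_mem ha) (inv_ne_one.2 h2)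
  obtain rfl : b = c := inv_inj.1 (h.h5symm.h5uniq (inv_mem hb) (inv_mem hc)
    (e.trans (e'.pt h (inv_mem ha) hc (inv_ne_one.2 h2))))
  simpa [mul_assoc] using congrArg (·⁻¹) e'.sp.symm

theorem hua (h : IsRankOnePair A B) {a b x z u w : G} (ha : a ∈ A) (hb : b ∈ B) (hx : x ∈ A) (hz : z ∈ B) (hu : u ∈ B)
    (hw : w ∈ A) (e1 : Br a b) (e2 : Br x z) (e3 : Br (a * x) u) (e4 : Br w (u * b⁻¹)) (h1 : a ≠ 1) (h2 : x ≠ 1)
    (h3 : a * x ≠ 1) (h4 : w ≠ 1) : a * w = a * b * a * z⁻¹ * (a * b * a)⁻¹ := by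
  obtain ⟨-, s1, s2⟩ := e1.swap h ha hb h1
  refine h.h5uniq (mul_mem ha hw) (s2 ▸ conj_mem (inv_mem hz)) ?_
  calc _ = conjBy (conjBy (conjBy B (a * x)) b) a := by
        rw [← conjBy_conjBy, e4.pt h hw (mul_mem hu (inv_mem hb)) h4, e3.pt h (mul_mem ha hx) hu h3, conjBy_conjBy A u⁻¹,
          mul_inv_rev, inv_inv]
    _ = conjBy (conjBy B x) (a * b * a) := by simp only [conjBy_conjBy, mul_assoc]
    _ = conjBy (conjBy A (a * b * a)) (a * b * a * z⁻¹ * (a * b * a)⁻¹) := by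
        rw [e2.pt h hx hz h2, conjBy_conjBy, conjBy_conjBy, inv_mul_cancel_right]
    _ = _ := by rw [s1]

theorem hua_ex (h : IsSpecialRankOnePair A B) {a b x u : G} (ha : a ∈ A) (hb : b ∈ B) (hx : x ∈ A) (hu : u ∈ B)
    (e1 : Br a b) (e3 : Br (a * x) u) (h1 : a ≠ 1) (h2 : x ≠ 1) : ∃ w ∈ A, w ≠ 1 ∧ Br w (u * b⁻¹) := by
  have h3 : u * b⁻¹ ≠ 1 := fun e => by
    obtain rfl := mul_inv_eq_one.1 e
    exact h2 (by simpa using e3.uniq e1 h.1 (mul_mem ha hx) ha hu (e1.ne_one h1))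
  obtain ⟨w, hw, e⟩ := sp_ex (sp_symm h) (mul_mem hu (inv_mem hb)) h3
  exact ⟨w, hw, e.ne_one h3, e.symm⟩

theorem sp_pow (h : IsSpecialRankOnePair A B) (hA : Comm A A) (hB : Comm B B) (k : ℕ) : ∀ {a b u : G}, a ∈ A → b ∈ B →
    u ∈ B → Br a b → Br (a ^ k) u → a ^ k ≠ 1 → u ^ k = b := by
  induction k with
  | zero => intro a b u _ _ _ _ _ h1; simp at h1
  | succ k ih =>
    intro a b u ha hb hu e1 e3 h3
    have h1 : a ≠ 1 := by rintro rfl; simp at h3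
    rw [pow_succ'] at e3 h3
    by_cases h2 : a ^ k = 1
    · rw [h2, mul_one] at e3
      rw [e3.symm.uniq e1.symm h.1.h5symm hu hb ha h1, pow_succ, ← e1.conj1, conj_pow, h2]
      simp
    obtain ⟨z, hz, e2⟩ := sp_ex h (pow_mem ha k) h2
    obtain ⟨w, hw, h4, e4⟩ := hua_ex h ha hb (pow_mem ha k) hu e1 e3 h1 h2
    have k1 := hua h.1 ha hb (pow_mem ha k) hz hu hw e1 e2 e3 e4 h1 h2 h3 h4
    have k2 : w ^ k = (a * a ^ k)⁻¹ := by
      have := congrArg (· ^ k) k1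
      rw [conj_pow, inv_pow, ih ha hb hz e1 e2 h2, (show Commute a w from hA a ha w hw).mul_pow, ← conj_inv, e1.conj2] at this
      rw [mul_inv_rev, ← this, inv_mul_cancel_left]
    have k3 := ih hw (mul_mem hu (inv_mem hb)) (inv_mem hu) e4 (k2 ▸ e3.inv) (k2 ▸ inv_ne_one.2 h3)
    rw [inv_pow, inv_eq_iff_eq_inv, mul_inv_rev, inv_inv] at k3
    rw [pow_succ, k3, inv_mul_cancel_right]

theorem sp_root (h : IsSpecialRankOnePair A B) (hA : Comm A A) (hB : Comm B B) {k : ℕ} {x y : G} (hx : x ∈ A) (hy : y ∈ A)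
    (e : x ^ k = y ^ k) (h1 : x ^ k ≠ 1) : x = y := by
  have h2 : x ≠ 1 := by rintro rfl; simp at h1
  obtain ⟨u, hu, e1⟩ := sp_ex h (pow_mem hx k) h1
  obtain ⟨b, hb, e2⟩ := sp_ex h hx h2
  obtain ⟨c, hc, e3⟩ := sp_ex h hy (by rintro rfl; simp [e] at h1)
  obtain rfl : b = c := (sp_pow h hA hB k hx hb hu e2 e1 h1).symm.trans (sp_pow h hA hB k hy hc hu e3 (e ▸ e1) (e ▸ h1))
  exact e2.uniq e3 h.1 hx hy hb (e2.ne_one h2)

theorem sp_char (h : IsSpecialRankOnePair A B) (hA : Comm A A) (hB : Comm B B) :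
    (∃ p : ℕ, p.Prime ∧ IsElementaryAbelian p A) ∨
    ((∀ a ∈ A, a ≠ 1 → ¬ IsOfFinOrder a) ∧ ∀ a ∈ A, ∀ n : ℕ, 0 < n → ∃ c ∈ A, c ^ n = a) := by
  by_cases h1 : ∀ a ∈ A, a ≠ 1 → ¬ IsOfFinOrder a
  · refine Or.inr ⟨h1, fun a ha n hn => ?_⟩
    by_cases h2 : a = 1
    · exact ⟨1, one_mem _, by simp [h2]⟩
    obtain ⟨b, hb, e⟩ := sp_ex h ha h2
    have h3 : b ^ n ≠ 1 := fun h3 => h1 a ha h2 (isOfFinOrder_iff_pow_eq_one.2 ⟨n, hn, by
      rw [← e.conj2, conj_pow, h3]; simp⟩)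
    obtain ⟨c, hc, e'⟩ := sp_ex (sp_symm h) (pow_mem hb n) h3
    exact ⟨c, hc, sp_pow (sp_symm h) hB hA n hb ha hc e.symm e' h3⟩
  · push Not at h1
    obtain ⟨a, ha, h1, h2⟩ := h1
    have h3 : orderOf a ≠ 1 := by simpa using h1
    have h4 := Nat.minFac_dvd (orderOf a)
    have h5 := orderOf_pow_orderOf_div h2.orderOf_pos.ne' h4
    have hp := Nat.minFac_prime h3
    refine Or.inl ⟨_, hp, hA.isMulCommutative, fun x hx => ?_⟩
    generalize (orderOf a).minFac = p at *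
    by_contra h6
    have hc := pow_mem ha (orderOf a / p)
    have := sp_root h hA hB hx (mul_mem hc hx) (by
      rw [(show Commute _ x from hA _ hc x hx).mul_pow, show (a ^ (orderOf a / p)) ^ p = 1 from
        orderOf_dvd_iff_pow_eq_one.1 h5.dvd, one_mul]) h6
    rw [right_eq_mul.1 this, orderOf_one] at h5
    exact hp.ne_one h5.symm

theorem ex4 (h : 3 < ENat.card A) (p q r : G) : ∃ x ∈ A, x ≠ p ∧ x ≠ q ∧ x ≠ r := by
  by_contra h1
  push Not at h1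
  have : (A : Set G) ⊆ {p, q, r} := fun x hx => by
    by_cases e : x = p
    · exact Or.inl e
    · by_cases e' : x = q
      · exact Or.inr (Or.inl e')
      · exact Or.inr (Or.inr (h1 x hx e e'))
  have h2 := (Set.encard_le_encard this).trans ((Set.encard_insert_le _ _).trans (add_le_add_left
    (Set.encard_insert_le _ _) _))
  rw [Set.encard_singleton] at h2
  exact absurd (h.trans_le h2) (by decide)

theorem sp_comm (h : IsSpecialRankOnePair A B) (hA : Comm A A) (h3 : 3 < ENat.card A) :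
    ⁅A, rankOneDiagonal A B⁆ = A := by
  refine le_antisymm (Subgroup.commutator_le.2 fun a ha g hg => ?_) ?_
  · rw [commutatorElement_def, mul_assoc, mul_assoc, ← mul_assoc g]
    exact mul_mem ha (conjBy_eq_self.2 hg.1.2 ▸ conj_mem (inv_mem ha))
  have k : ∀ a ∈ A, ∀ x ∈ A, a ≠ 1 → x ≠ 1 → a ≠ x⁻¹ → a * x * x ∈ ⁅A, rankOneDiagonal A B⁆ := by
    intro a ha x hx h1 h2 h3
    have h3 : a * x ≠ 1 := fun e => h3 (eq_inv_of_mul_eq_one_left e)
    obtain ⟨b, hb, e1⟩ := sp_ex h ha h1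
    obtain ⟨z, hz, e2⟩ := sp_ex h hx h2
    obtain ⟨u, hu, e3⟩ := sp_ex h (mul_mem ha hx) h3
    obtain ⟨w, hw, h4, e4⟩ := hua_ex h ha hb hx hu e1 e3 h1 h2
    have k1 := hua h.1 ha hb hx hz hu hw e1 e2 e3 e4 h1 h2 h3 h4
    obtain ⟨s0, s1, s2⟩ := e1.swap h.1 ha hb h1
    have k2 := e1.conj2
    generalize a * b * a = n at *
    have k3 : ∀ {y v}, y ∈ A → v ∈ B → Br y v → y ≠ 1 → y * (n * v * n⁻¹)⁻¹ ∈ ⁅A, rankOneDiagonal A B⁆ := by
      intro y v hy hv e h1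
      obtain ⟨t0, t1, t2⟩ := e.swap h.1 hy hv h1
      have := Subgroup.commutator_mem_commutator hy (show n * (y * v * y)⁻¹ ∈ rankOneDiagonal A B from
        ⟨⟨(A ⊔ B).mul_mem s0 (inv_mem t0), conjBy_eq_self.1 (by rw [← conjBy_conjBy, ← conjBy_eq_iff.1 t2, s2])⟩,
          conjBy_eq_self.1 (by rw [← conjBy_conjBy, ← conjBy_eq_iff.1 t1, s1])⟩)
      have e' := e.conj2
      generalize y * v * y = m at *
      rw [commutatorElement_def] at this
      convert this using 1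
      rw [← e']; group
    have m1 := k3 hw (mul_mem hu (inv_mem hb)) e4 h4
    have m2 := k3 (mul_mem ha hx) hu e3 h3
    have m3 := k3 hx hz e2 h2
    have hU : n * u * n⁻¹ ∈ A := s2 ▸ conj_mem hu
    have hZ : n * z * n⁻¹ ∈ A := s2 ▸ conj_mem hz
    rw [show n * (u * b⁻¹) * n⁻¹ = n * u * n⁻¹ * (n * b * n⁻¹)⁻¹ by group, k2, mul_inv_rev, inv_inv, ← mul_assoc,
      hA w hw a ha, k1, ← conj_inv] at m1
    generalize n * u * n⁻¹ = U at *
    generalize n * z * n⁻¹ = Z at *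
    convert mul_mem (mul_mem m2 (inv_mem m1)) m3 using 1
    rw [hA x hx _ (inv_mem hZ)]; group
  obtain ⟨x, hx, x1, -⟩ := ex4 h3 1 1 1
  obtain ⟨a, ha, a1, a2, -⟩ := ex4 h3 1 x⁻¹ 1
  obtain ⟨c, hc, c1, c2, c3⟩ := ex4 h3 1 x⁻¹ a
  have k0 : c * a⁻¹ ∈ ⁅A, rankOneDiagonal A B⁆ := by
    convert mul_mem (k c hc x hx c1 x1 c2) (inv_mem (k a ha x hx a1 x1 a2)) using 1; group
  intro g hg
  by_cases g1 : g = 1
  · exact g1 ▸ one_mem _
  obtain ⟨y, hy, y1, y2, y3⟩ := ex4 h3 1 g⁻¹ (c * a⁻¹)⁻¹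
  convert mul_mem (mul_mem (k g hg y hy g1 y1 fun e => y2 (by rw [e, inv_inv])) (inv_mem (k _ (mul_mem hc (inv_mem ha)) y hy
    (fun e => c3 (mul_inv_eq_one.1 e)) y1 fun e => y3 (by rw [e, inv_inv])))) k0 using 1
  group

theorem sp_perfect (h : IsSpecialRankOnePair A B) (hA : Comm A A) (h3 : 3 < ENat.card A) : A ⊔ B ≤ ⁅A ⊔ B, A ⊔ B⁆ := by
  have h1 : A ≤ ⁅A ⊔ B, A ⊔ B⁆ := (sp_comm h hA h3).ge.trans (Subgroup.commutator_mono le_sup_left fun x hx => hx.1.1)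
  obtain ⟨x, hx, e, -⟩ := h.1.h5swap
  have h2 := conjBy_mono h1 x
  rw [conjBy_comm, conjBy_of_mem hx, e] at h2
  exact sup_le h1 h2

section Module
variable {N : Type*} [AddCommGroup N] [DistribMulAction G N]

/-- the commutator subgroup `[N, D]` -/
def br (N : Type*) [AddCommGroup N] [DistribMulAction G N] (D : Subgroup G) : AddSubgroup N :=
  AddSubgroup.closure {v | ∃ d ∈ D, ∃ n : N, d • n - n = v}

theorem br_mem {D : Subgroup G} {d : G} (hd : d ∈ D) (n : N) : d • n - n ∈ br N D := AddSubgroup.subset_closure ⟨d, hd, n, rfl⟩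

theorem br_agree {D : Subgroup G} {x y : G} (h : ∀ d ∈ D, ∀ n : N, x • (d • n - n) = y • (d • n - n)) :
    ∀ v ∈ br N D, x • v = y • v := by
  intro v hv
  induction hv using AddSubgroup.closure_induction with
  | mem v hv => obtain ⟨d, hd, n, rfl⟩ := hv; exact h d hd n
  | zero => simp
  | add _ _ _ _ h1 h2 => rw [smul_add, smul_add, h1, h2]
  | neg _ _ h1 => rw [smul_neg, smul_neg, h1]

theorem br_conj {D : Subgroup G} (g : G) {v : N} (hv : v ∈ br N D) : g • v ∈ br N (conjBy D g) := by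
  induction hv using AddSubgroup.closure_induction with
  | mem v hv =>
    obtain ⟨d, hd, n, rfl⟩ := hv
    simpa [smul_sub, mul_smul] using br_mem (conj_mem (g := g) hd) (g • n)
  | zero => simp
  | add _ _ _ _ h1 h2 => rw [smul_add]; exact add_mem h1 h2
  | neg _ _ h1 => rw [smul_neg]; exact neg_mem h1

theorem br_sup {C D : Subgroup G} : br N (C ⊔ D) ≤ br N C ⊔ br N D := by
  rw [br, AddSubgroup.closure_le]
  rintro _ ⟨x, hx, n, rfl⟩
  rw [Subgroup.sup_eq_closure] at hx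
  induction hx using Subgroup.closure_induction'' generalizing n with
  | one => simp
  | mul x y _ _ h1 h2 => simpa [mul_smul] using add_mem (h1 (y • n)) (h2 n)
  | mem x hx => exact hx.elim (fun h => AddSubgroup.mem_sup_left (br_mem h n)) fun h => AddSubgroup.mem_sup_right (br_mem h n)
  | inv_mem x hx =>
    exact hx.elim (fun h => AddSubgroup.mem_sup_left (br_mem (inv_mem h) n)) fun h => AddSubgroup.mem_sup_right (br_mem (inv_mem h) n)

/-- quadratic action -/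
def Quad (N : Type*) [AddCommGroup N] [DistribMulAction G N] (D : Subgroup G) : Prop := ∀ d ∈ D, ∀ v ∈ br N D, d • v = v

theorem Quad.conj {D : Subgroup G} (h : Quad N D) (g : G) : Quad N (conjBy D g) := fun d hd v hv => by
  have := br_conj g⁻¹ hv
  rw [← conjBy_eq_iff.1 rfl] at this
  simpa [mul_smul, inv_smul_eq_iff] using h _ (mem_conjBy.1 hd) _ this

theorem sp_module (h : IsRankOnePair A B) (ht : A ⊔ B = ⊤) (hq : Quad N A)
    (hX : ∃ x y : G, ∃ n : N, y • (x • n - n) ≠ x • n - n) : IsSpecialRankOnePair A B := by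
  obtain ⟨m, -, m1, m2⟩ := h.h5swap
  have hqB : Quad N B := m1 ▸ hq.conj m
  have fix : ∀ z ∈ br N A, z ∈ br N B → ∀ x : G, x • z = z := fun z h1 h2 x =>
    (sup_le (fun a ha => hq a ha z h1) (fun a ha => hqB a ha z h2) : A ⊔ B ≤ MulAction.stabilizer G z) (ht ▸ trivial)
  let K : Subgroup G := ⨅ v ∈ br N (⊤ : Subgroup G), MulAction.stabilizer G v
  have mK : ∀ x, x ∈ K ↔ ∀ v ∈ br N (⊤ : Subgroup G), x • v = v := fun x => by simp [K, Subgroup.mem_iInf]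
  have hK : Comm K (A ⊔ B) := (h.h5dich (K := K) (fun x hx y _ => (mK _).2 fun v hv => by
      have := br_conj y⁻¹ hv
      rw [conjBy_of_mem (Subgroup.mem_top _)] at this
      rw [mul_smul, mul_smul, (mK x).1 hx _ this, smul_inv_smul]) (ht ▸ le_top)).resolve_left (by
    rintro ⟨x, hx, e⟩
    obtain ⟨y, z, n, hn⟩ := hX
    have m : ∀ D, br N D ≤ br N (⊤ : Subgroup G) := fun D => AddSubgroup.closure_mono fun _ ⟨d, _, h⟩ => ⟨d, trivial, h⟩
    have h1 : br N A ≤ br N B := fun v hv => (mK x).1 hx v (m A hv) ▸ e ▸ br_conj x hv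
    have h2 : br N B ≤ br N A := fun v hv => (mK _).1 (inv_mem hx) v (m B hv) ▸ conjBy_eq_iff.1 e ▸ br_conj x⁻¹ hv
    have h3 : y • n - n ∈ br N A := (sup_le le_rfl h2) (br_sup (ht ▸ br_mem (Subgroup.mem_top y) n))
    exact hn (fix _ h3 (h1 h3) z))
  refine ⟨h, fun a ha h1 b hb h2 e => ?_⟩
  have hu : b⁻¹ * a * b ∈ conjBy A b⁻¹ := by simpa [mem_conjBy, mul_assoc] using ha
  have hv : a⁻¹ * b⁻¹ * a ∈ conjBy A b⁻¹ := by simpa [e, mem_conjBy, mul_assoc] using hb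
  have hp := h.h5symm.h5pair' (inv_mem hb) (inv_ne_one.2 h2)
  have hs := (h.h5pair h5left (h5Ωconj h5left (Subgroup.mem_sup_right (inv_mem hb))) hp.ne).2
  refine (inv_mul_eq_one.1 (hp.h5symm.h5comm (mul_mem (inv_mem hv) hu) fun y hy =>
    hK _ ((mK _).2 fun v hv' => ?_) y (Subgroup.mem_sup_left hy))).symm
  obtain ⟨v, hv1, w, hw, rfl⟩ := AddSubgroup.mem_sup.1 (br_sup ((hs.trans ht).symm ▸ hv'))
  rw [smul_add, hq.conj b⁻¹ _ (mul_mem (inv_mem hv) hu) w hw, add_left_inj, mul_smul, inv_smul_eq_iff]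
  have k1 : (a * b⁻¹) • v ∈ br N B := by
    have := br_conj (a * b⁻¹) hv1
    rwa [← conjBy_conjBy, e, conjBy_conjBy, mul_inv_cancel, conjBy_one] at this
  have k2 := br_mem (inv_mem ha) ((a * b⁻¹) • v)
  have k3 := fix _ (sub_mem hv1 k2) (by
    rw [smul_smul, inv_mul_cancel_left, sub_sub_eq_add_sub, add_sub_right_comm, ← neg_sub]
    exact add_mem (neg_mem (br_mem (inv_mem hb) v)) k1)
  rw [smul_smul, inv_mul_cancel_left] at k2 k3
  have f1 := hq a ha _ k2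
  have f2 := hq _ (inv_mem ha) _ k2
  have f3 := k3 b
  have f4 := hqB b hb _ k1
  have f5 := hqB _ (inv_mem hb) _ k1
  have f6 := hq a ha v hv1
  simp only [mul_smul, smul_sub, smul_inv_smul, inv_smul_smul] at f1 f2 f3 f4 f5 ⊢
  rw [f4] at f3
  rw [f6, sub_eq_iff_eq_add.1 f2, sub_eq_iff_eq_add.1 f3]
  simp only [smul_add, smul_sub, f6, sub_sub_cancel, f5]
  rw [show a • a • b⁻¹ • v = a • b⁻¹ • v - (b⁻¹ • v - a • b⁻¹ • v) by rw [← f1]; abel]
  simp only [smul_sub, f5]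
  abel

end Module

end H5.RS
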