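import Cfsg.Agent.H5.RS5

/-! The rank one group `SL₂(k)` and homomorphisms from it. -/

namespace H5.RS
open Cfsg Cfsg.IsRankOnePair Matrix
open scoped commutatorElement MatrixGroups

variable {k : Type*} [Field k]

/-- upper unitriangular -/
def up (t : k) : SL(2, k) := ⟨!![1, t; 0, 1], by simp⟩

/-- lower unitriangular -/
def lo (t : k) : SL(2, k) := ⟨!![1, 0; t, 1], by simp⟩

@[simp] theorem up_val (t : k) : (up t : Matrix (Fin 2) (Fin 2) k) = !![1, t; 0, 1] := rfl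
@[simp] theorem lo_val (t : k) : (lo t : Matrix (Fin 2) (Fin 2) k) = !![1, 0; t, 1] := rfl

theorem up_add (s t : k) : up s * up t = up (s + t) := Subtype.ext (by simp [add_comm])
theorem lo_add (s t : k) : lo s * lo t = lo (s + t) := Subtype.ext (by simp)
theorem up_zero : up (0 : k) = 1 := Subtype.ext (by simp [one_fin_two])
theorem lo_zero : lo (0 : k) = 1 := Subtype.ext (by simp [one_fin_two])
theorem up_inv (t : k) : (up t)⁻¹ = up (-t) := inv_eq_of_mul_eq_one_right (by rw [up_add, add_neg_cancel, up_zero])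
theorem lo_inv (t : k) : (lo t)⁻¹ = lo (-t) := inv_eq_of_mul_eq_one_right (by rw [lo_add, add_neg_cancel, lo_zero])

theorem mem_closure_par {G : Type*} [Group G] {x : k → G} (h : ∀ s t, x s * x t = x (s + t)) {T : Set G}
    (hT : ∀ g, g ∈ T ↔ ∃ t, x t = g) {g : G} : g ∈ Subgroup.closure T ↔ ∃ t, x t = g := by
  have h0 : x 0 = 1 := by simpa using h 0 0
  refine ⟨fun hg => ?_, fun hg => Subgroup.subset_closure ((hT g).2 hg)⟩
  induction hg using Subgroup.closure_induction with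
  | mem g hg => exact (hT g).1 hg
  | one => exact ⟨0, h0⟩
  | mul _ _ _ _ h1 h2 => obtain ⟨s, rfl⟩ := h1; obtain ⟨t, rfl⟩ := h2; exact ⟨_, (h s t).symm⟩
  | inv _ _ h1 => obtain ⟨s, rfl⟩ := h1; exact ⟨-s, eq_inv_of_mul_eq_one_right (by rw [h, add_neg_cancel, h0])⟩

theorem mem_upper {g : SL(2, k)} : g ∈ upperUnipotentSL2 k ↔ ∃ t, up t = g :=
  mem_closure_par up_add fun g => ⟨fun h => ⟨g 0 1, by
    ext i j; fin_cases i <;> fin_cases j <;> simp [h.1, h.2.1, h.2.2]⟩, by rintro ⟨t, rfl⟩; simp⟩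

theorem mem_lower {g : SL(2, k)} : g ∈ lowerUnipotentSL2 k ↔ ∃ t, lo t = g :=
  mem_closure_par lo_add fun g => ⟨fun h => ⟨g 1 0, by
    ext i j; fin_cases i <;> fin_cases j <;> simp [h.1, h.2.1, h.2.2]⟩, by rintro ⟨t, rfl⟩; simp⟩

theorem sl_det (g : SL(2, k)) : g 0 0 * g 1 1 - g 0 1 * g 1 0 = 1 := by rw [← det_fin_two]; exact g.2

theorem sl_big (g : SL(2, k)) (h : g 1 0 ≠ 0) : g = up ((g 0 0 - 1) / g 1 0) * lo (g 1 0) * up ((g 1 1 - 1) / g 1 0) := by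
  have := sl_det g
  ext i j
  fin_cases i <;> fin_cases j <;> simp [Matrix.mul_apply, Fin.sum_univ_two] <;> field_simp
  · ring
  · linear_combination -this
  · ring

theorem sl_gen {K : Submonoid SL(2, k)} (h1 : ∀ t, up t ∈ K) (h2 : ∀ t, lo t ∈ K) (g : SL(2, k)) : g ∈ K := by
  have k1 : ∀ g : SL(2, k), g 1 0 ≠ 0 → g ∈ K := fun g h => sl_big g h ▸ mul_mem (mul_mem (h1 _) (h2 _)) (h1 _)
  by_cases h : g 1 0 = 0
  · rw [← inv_mul_cancel_left (lo 1) g, lo_inv]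
    refine mul_mem (h2 _) (k1 _ fun e => ?_)
    have := sl_det g
    simp [Matrix.mul_apply, Fin.sum_univ_two, h] at e
    simp [e, h] at this
  · exact k1 g h

theorem sl_sup : upperUnipotentSL2 k ⊔ lowerUnipotentSL2 k = ⊤ := top_le_iff.1 fun g _ =>
  sl_gen (K := (upperUnipotentSL2 k ⊔ lowerUnipotentSL2 k).toSubmonoid) (fun t => Subgroup.mem_sup_left (mem_upper.2 ⟨t, rfl⟩))
    (fun t => Subgroup.mem_sup_right (mem_lower.2 ⟨t, rfl⟩)) g

theorem up_comm : Comm (upperUnipotentSL2 k) (upperUnipotentSL2 k) := fun a ha b hb => by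
  obtain ⟨s, rfl⟩ := mem_upper.1 ha; obtain ⟨t, rfl⟩ := mem_upper.1 hb; rw [up_add, up_add, add_comm]

theorem lo_comm : Comm (lowerUnipotentSL2 k) (lowerUnipotentSL2 k) := fun a ha b hb => by
  obtain ⟨s, rfl⟩ := mem_lower.1 ha; obtain ⟨t, rfl⟩ := mem_lower.1 hb; rw [lo_add, lo_add, add_comm]

theorem sl_conj {t : k} (ht : t ≠ 0) (u : k) : up t * lo u * (up t)⁻¹ = lo t⁻¹ * up (-(t ^ 2 * u)) * (lo t⁻¹)⁻¹ := by
  rw [up_inv, lo_inv]
  ext i j
  fin_cases i <;> fin_cases j <;> simp <;> field_simp <;> ring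

theorem sl_pt {t : k} (ht : t ≠ 0) : conjBy (lowerUnipotentSL2 k) (up t) = conjBy (upperUnipotentSL2 k) (lo t⁻¹) := by
  refine le_antisymm ?_ ?_
  · rintro _ ⟨a, ha, rfl⟩
    obtain ⟨u, rfl⟩ := mem_lower.1 ha
    exact ⟨_, mem_upper.2 ⟨_, rfl⟩, (sl_conj ht u).symm⟩
  · rintro _ ⟨a, ha, rfl⟩
    obtain ⟨u, rfl⟩ := mem_upper.1 ha
    have := sl_conj ht (-(u / t ^ 2))
    rw [show -(t ^ 2 * -(u / t ^ 2)) = u by field_simp] at this
    exact ⟨_, mem_lower.2 ⟨_, rfl⟩, this⟩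

theorem up_ne {t : k} : up t ≠ 1 ↔ t ≠ 0 :=
  not_congr ⟨fun h => by simpa using congrArg (fun g : SL(2, k) => g 0 1) h, by rintro rfl; exact up_zero⟩

theorem lo_ne {t : k} : lo t ≠ 1 ↔ t ≠ 0 :=
  not_congr ⟨fun h => by simpa using congrArg (fun g : SL(2, k) => g 1 0) h, by rintro rfl; exact lo_zero⟩

theorem Comm.nil {G : Type*} [Group G] {A : Subgroup G} (h : Comm A A) : Group.IsNilpotent A :=
  ⟨1, by rw [Subgroup.upperCentralSeries_one, eq_top_iff]; exact fun a _ => Subgroup.mem_center_iff.2 fun b =>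
    Subtype.ext (h _ b.2 _ a.2)⟩

theorem sl_special : IsSpecialRankOnePair (upperUnipotentSL2 k) (lowerUnipotentSL2 k) := by
  refine sp_of ⟨fun e => ?_, up_comm.nil, lo_comm.nil, fun a ha h => ?_, fun a ha h => ?_⟩ fun a ha h => ?_
  · obtain ⟨t, h⟩ := mem_lower.1 (e ▸ mem_upper.2 ⟨1, rfl⟩)
    simpa using congrArg (fun g : SL(2, k) => g 0 1) h
  · obtain ⟨t, rfl⟩ := mem_upper.1 ha
    have ht := up_ne.1 h
    exact ⟨lo t⁻¹, mem_lower.2 ⟨_, rfl⟩, lo_ne.2 (inv_ne_zero ht), by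
      rw [up_inv, lo_inv, sl_pt (neg_ne_zero.2 ht), inv_neg]⟩
  · obtain ⟨t, rfl⟩ := mem_lower.1 ha
    have ht := lo_ne.1 h
    exact ⟨up t⁻¹, mem_upper.2 ⟨_, rfl⟩, up_ne.2 (inv_ne_zero ht), by
      rw [up_inv, lo_inv, sl_pt (neg_ne_zero.2 (inv_ne_zero ht)), inv_neg, inv_inv]⟩
  · obtain ⟨t, rfl⟩ := mem_upper.1 ha
    have ht := up_ne.1 h
    refine ⟨lo (-t⁻¹), mem_lower.2 ⟨_, rfl⟩, ?_⟩
    ext i j
    fin_cases i <;> fin_cases j <;> simp [ht]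

variable {G H : Type*} [Group G] [Group H] {A B : Subgroup G}

theorem map_conjBy (f : G →* H) (A : Subgroup G) (g : G) : (conjBy A g).map f = conjBy (A.map f) (f g) := by
  rw [conjBy, conjBy, Subgroup.map_map, Subgroup.map_map]; congr 1; ext; simp

theorem map_pair (h : IsRankOnePair A B) (f : G →* H) (h1 : ∀ x ∈ A ⊔ B, f x = 1 → ∀ y ∈ A ⊔ B, x * y = y * x) :
    IsRankOnePair (A.map f) (B.map f) := by
  have k : ∀ {C D : Subgroup G}, IsRankOnePair C D → C ⊔ D = A ⊔ B → RankOneCondition (C.map f) (D.map f) := by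
    rintro C D h e _ ⟨a, ha, rfl⟩ h2
    obtain ⟨b, hb, h3, e'⟩ := h.cond_left a ha (by rintro rfl; simp at h2)
    refine ⟨_, ⟨b, hb, rfl⟩, fun h4 => h3 (h.h5symm.h5comm hb fun c hc =>
      h1 b (e ▸ Subgroup.mem_sup_right hb) h4 c (e ▸ Subgroup.mem_sup_left hc)), ?_⟩
    rw [← map_inv, ← map_inv, ← map_conjBy, ← map_conjBy, e']
  have nil : ∀ {C : Subgroup G}, Group.IsNilpotent C → Group.IsNilpotent (C.map f) := fun h =>
    Group.nilpotent_of_surjective _ (f.subgroupMap_surjective _)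
  refine ⟨fun e => ?_, nil h.2, nil h.3, k h rfl, k h.h5symm (sup_comm _ _)⟩
  obtain ⟨a, ha, h2⟩ := h.h5ex
  obtain ⟨b, hb, e'⟩ : f a ∈ B.map f := e ▸ ⟨a, ha, rfl⟩
  refine h2 (h.h5one ha ?_)
  rw [← inv_mul_cancel_right a b, ← conjBy_conjBy, conjBy_of_mem hb]
  exact conjBy_of_comm fun c hc => h1 _ (mul_mem (Subgroup.mem_sup_left ha) (Subgroup.mem_sup_right (inv_mem hb)))
    (by simp [e']) c (Subgroup.mem_sup_right hc)

theorem psl_pair (h : IsPSL2PairOver k A B) : IsRankOnePair A B := by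
  obtain ⟨f, -, h1, rfl, rfl⟩ := h
  exact map_pair sl_special.1 f fun x _ h y _ => (Subgroup.mem_center_iff.1 (h1 h) y).symm

theorem psl_of (f : SL(2, k) →* G) (h : f.ker ≤ Subgroup.center _) (h1 : ∀ g, g ∈ A ↔ ∃ t, f (up t) = g)
    (h2 : ∀ g, g ∈ B ↔ ∃ t, f (lo t) = g) : IsPSL2PairOver k A B := by
  have e1 : (upperUnipotentSL2 k).map f = A := by ext g; simp [h1, mem_upper]
  have e2 : (lowerUnipotentSL2 k).map f = B := by ext g; simp [h2, mem_lower]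
  exact ⟨f, by rw [← e1, ← e2, ← Subgroup.map_sup, sl_sup, MonoidHom.range_eq_map], h, e1, e2⟩

/-- Steinberg data for `SL₂` -/
structure St2 (k : Type*) [Field k] (G : Type*) [Group G] where
  x : k → G
  y : k → G
  xadd : ∀ s t, x s * x t = x (s + t)
  yadd : ∀ s t, y s * y t = y (s + t)
  r1 : ∀ t, t ≠ 0 → ∀ u, x t * y (-t⁻¹) * x t * x u * (x t * y (-t⁻¹) * x t)⁻¹ = y (-(t⁻¹ ^ 2 * u))

namespace St2
variable (S : St2 k G)

/-- the element `n(t)` -/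
def n (t : k) : G := S.x t * S.y (-t⁻¹) * S.x t
/-- the element `h(t)` -/
def h (t : k) : G := S.n t * S.n (-1)

theorem x0 : S.x 0 = 1 := by simpa using S.xadd 0 0
theorem y0 : S.y 0 = 1 := by simpa using S.yadd 0 0
theorem xinv (t : k) : (S.x t)⁻¹ = S.x (-t) := inv_eq_of_mul_eq_one_right (by rw [S.xadd, add_neg_cancel, x0])
theorem yinv (t : k) : (S.y t)⁻¹ = S.y (-t) := inv_eq_of_mul_eq_one_right (by rw [S.yadd, add_neg_cancel, y0])
theorem ninv (t : k) : (S.n t)⁻¹ = S.n (-t) := by simp [n, xinv, yinv, mul_assoc]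
theorem h1 : S.h 1 = 1 := by rw [h, ← ninv, mul_inv_cancel]
theorem nx {t : k} (ht : t ≠ 0) (u : k) : S.n t * S.x u * (S.n t)⁻¹ = S.y (-(t⁻¹ ^ 2 * u)) := S.r1 t ht u

theorem ny {t : k} (ht : t ≠ 0) (u : k) : S.n t * S.y u * (S.n t)⁻¹ = S.x (-(t ^ 2 * u)) := by
  have := S.nx (neg_ne_zero.2 ht) (-(t ^ 2 * u))
  rw [← ninv, show -((-t)⁻¹ ^ 2 * -(t ^ 2 * u)) = u by field_simp] at this
  rw [← this]; group

theorem hx {t : k} (ht : t ≠ 0) (u : k) : S.h t * S.x u * (S.h t)⁻¹ = S.x (t ^ 2 * u) := by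
  calc _ = S.n t * (S.n (-1) * S.x u * (S.n (-1))⁻¹) * (S.n t)⁻¹ := by rw [h]; group
    _ = _ := by rw [S.nx (by simp), S.ny ht]; congr 1; field_simp

theorem hy {t : k} (ht : t ≠ 0) (u : k) : S.h t * S.y u * (S.h t)⁻¹ = S.y (t⁻¹ ^ 2 * u) := by
  calc _ = S.n t * (S.n (-1) * S.y u * (S.n (-1))⁻¹) * (S.n t)⁻¹ := by rw [h]; group
    _ = _ := by rw [S.ny (by simp), S.nx ht]; congr 1; ring

theorem hn {t : k} (ht : t ≠ 0) (u : k) : S.h t * S.n u * (S.h t)⁻¹ = S.n (t ^ 2 * u) := by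
  calc _ = (S.h t * S.x u * (S.h t)⁻¹) * (S.h t * S.y (-u⁻¹) * (S.h t)⁻¹) * (S.h t * S.x u * (S.h t)⁻¹) := by rw [n]; group
    _ = _ := by rw [S.hx ht, S.hy ht, n]; congr 3; ring

theorem yeq (v : k) : S.y v = S.x v⁻¹ * S.n (-v⁻¹) * S.x v⁻¹ := by
  simp [n, mul_assoc, S.xadd, x0, ← mul_assoc (S.x v⁻¹)]

/-- central elements -/
def Z : Subgroup G := Subgroup.centralizer (Set.range S.x ∪ Set.range S.y)

theorem memZ {z : G} : z ∈ S.Z ↔ (∀ u, Commute z (S.x u)) ∧ ∀ u, Commute z (S.y u) :=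
  ⟨fun h => ⟨fun u => (h _ (Or.inl ⟨u, rfl⟩)).symm, fun u => (h _ (Or.inr ⟨u, rfl⟩)).symm⟩, by
    rintro h _ (⟨u, rfl⟩ | ⟨u, rfl⟩); exacts [(h.1 u).symm, (h.2 u).symm]⟩

theorem Zh {z : G} (hz : z ∈ S.Z) (t : k) : Commute z (S.h t) := by
  obtain ⟨h1, h2⟩ := S.memZ.1 hz
  exact (((h1 _).mul_right (h2 _)).mul_right (h1 _)).mul_right (((h1 _).mul_right (h2 _)).mul_right (h1 _))

theorem symb {t u : k} (ht : t ≠ 0) (hu : u ≠ 0) : (S.h t * S.h u)⁻¹ * S.h (t * u) ∈ S.Z := by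
  refine S.memZ.2 ⟨fun v => ?_, fun v => ?_⟩ <;> refine mul_inv_eq_iff_eq_mul.1 ?_
  · calc _ = (S.h t * S.h u)⁻¹ * (S.h (t * u) * S.x v * (S.h (t * u))⁻¹) * (S.h t * S.h u) := by group
      _ = _ := by rw [S.hx (mul_ne_zero ht hu), mul_pow, mul_assoc (t ^ 2), ← S.hx ht, ← S.hx hu]; group
  · calc _ = (S.h t * S.h u)⁻¹ * (S.h (t * u) * S.y v * (S.h (t * u))⁻¹) * (S.h t * S.h u) := by group
      _ = _ := by rw [S.hy (mul_ne_zero ht hu), mul_inv, mul_pow, mul_assoc (t⁻¹ ^ 2), ← S.hy ht, ← S.hy hu]; group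

theorem nnn {s : k} (h0 : s ≠ 0) (h1 : 1 - s ≠ 0) : S.h s * S.h (1 - s)⁻¹ = S.h (s * (1 - s)⁻¹) := by
  have e := S.yadd ((1 - s) / s) (-s⁻¹)
  rw [show (1 - s) / s + -s⁻¹ = -1 by field_simp; ring, S.yeq (-1), S.yeq (_ / _), S.yeq (-s⁻¹), inv_div, inv_neg, inv_inv,
    neg_neg, inv_neg, inv_one, neg_neg] at e
  have hb : -(s / (1 - s)) ≠ 0 := neg_ne_zero.2 (div_ne_zero h0 h1)
  have e1 := S.nx hb (s / (1 - s) + -s)
  rw [show -((-(s / (1 - s)))⁻¹ ^ 2 * (s / (1 - s) + -s)) = -(1 - s) by field_simp; ring, S.yeq, inv_neg, neg_neg, ← S.xadd] at e1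
  have e2 := S.nx (div_ne_zero h0 h1) (-(1 - s)⁻¹)
  have e3 := S.ny (neg_ne_zero.2 h0) (-((s / (1 - s))⁻¹ ^ 2 * -(1 - s)⁻¹))
  rw [← e2, show -((-s) ^ 2 * -((s / (1 - s))⁻¹ ^ 2 * -(1 - s)⁻¹)) = -1 + s by field_simp; ring, ← S.ninv, ← S.xadd,
    ← neg_neg (s / (1 - s)), ← S.ninv (-_)] at e3
  have e4 := S.xadd (s / (1 - s)) (-(1 - s)⁻¹)
  rw [show s / (1 - s) + -(1 - s)⁻¹ = -1 by field_simp; ring] at e4
  have e5 : S.x (-1) * (S.n (1 - s)⁻¹ * S.n (-(s / (1 - s))) * S.n s) * S.x (-1) = S.x (-1) * S.n 1 * S.x (-1) := by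
    rw [← e]
    calc _ = S.x (s / (1 - s)) * S.x (-(1 - s)⁻¹) * S.n (1 - s)⁻¹ * S.n (-(s / (1 - s))) * S.n s * (S.x (-1) * S.x s) *
          (S.x s)⁻¹ := by rw [e4]; group
      _ = S.x (s / (1 - s)) * (S.x (-(1 - s)⁻¹) * S.n (1 - s)⁻¹ * S.x (-(1 - s)⁻¹)) * S.n (-(s / (1 - s))) * S.n s *
          (S.x s)⁻¹ := by rw [← e3]; group
      _ = _ := by rw [← e1, S.xinv]; group
  have e6 := mul_left_cancel (mul_right_cancel e5)
  simp only [h]
  rw [← div_eq_mul_inv, ← neg_neg (s / (1 - s)), ← S.ninv (-_), ← S.ninv 1, ← e6]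
  group

theorem hmul [Finite k] {t u : k} (ht : t ≠ 0) (hu : u ≠ 0) : S.h t * S.h u = S.h (t * u) := by
  obtain ⟨g, hg⟩ := IsCyclic.exists_monoid_generator (α := kˣ)
  have p : ∀ t : k, t ≠ 0 → ∃ i : ℕ, t = g ^ i := fun t ht => by
    obtain ⟨i, e⟩ := hg (Units.mk0 t ht)
    exact ⟨i, by simpa using congrArg Units.val e.symm⟩
  have k1 : ∀ i : ℕ, ∃ z ∈ S.Z, S.h (g ^ i) = S.h g ^ i * z := fun i => by
    induction i with
    | zero => exact ⟨1, one_mem _, by simp [h1]⟩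
    | succ i ih =>
      obtain ⟨z, hz, e⟩ := ih
      exact ⟨_, mul_mem hz (S.symb g.ne_zero (pow_ne_zero i g.ne_zero)), by rw [pow_succ', pow_succ', e]; group⟩
  have k2 : ∀ t u, t ≠ 0 → u ≠ 0 → Commute (S.h t) (S.h u) := fun t u ht hu => by
    obtain ⟨i, rfl⟩ := p t ht
    obtain ⟨j, rfl⟩ := p u hu
    obtain ⟨z, hz, e⟩ := k1 i
    obtain ⟨w, hw, e'⟩ := k1 j
    rw [e]
    exact Commute.mul_left (e' ▸ (Commute.pow_pow_self _ _ _).mul_right ((S.Zh hw _).symm.pow_left _)) (S.Zh hz _)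
  have k3 : ∀ t u, t ≠ 0 → u ≠ 0 → S.h (u * t ^ 2) = S.h u * S.h (t ^ 2) := fun t u ht hu => by
    have : S.h t * S.h u * (S.h t)⁻¹ = S.h u := by rw [(k2 t u ht hu).eq, mul_inv_cancel_right]
    rw [← this, h.eq_1 S u, show S.h t * (S.n u * S.n (-1)) * (S.h t)⁻¹ = (S.h t * S.n u * (S.h t)⁻¹) *
      (S.h t * S.n (-1) * (S.h t)⁻¹) by group, S.hn ht, S.hn ht, mul_neg_one, ← ninv, h, h, mul_comm u]
    group
  have q : ∀ t : k, t ≠ 0 → ∃ c, c ≠ 0 ∧ (t = c ^ 2 ∨ t = g * c ^ 2) := fun t ht => by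
    obtain ⟨i, rfl⟩ := p t ht
    refine ⟨g ^ (i / 2), pow_ne_zero _ g.ne_zero, ?_⟩
    rw [← pow_mul, ← pow_succ']
    rcases Nat.mod_two_eq_zero_or_one i with h | h
    · exact Or.inl (by congr 1; omega)
    · exact Or.inr (by congr 1; omega)
  have k4 : S.h g * S.h g = S.h (g * g) := by
    by_cases hs : ∃ c : k, c ≠ 0 ∧ g = c ^ 2
    · obtain ⟨c, hc, e⟩ := hs
      have := k3 c g hc g.ne_zero
      rw [← e] at this
      exact this.symm
    by_cases hs' : ∃ a b : k, a ≠ 0 ∧ b ≠ 0 ∧ 1 - g * a ^ 2 = g * b ^ 2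
    · obtain ⟨a, b, ha, hb, e⟩ := hs'
      have g0 := g.ne_zero
      have := S.nnn (s := g * a ^ 2) (by positivity) (e ▸ by positivity)
      have hc : (g * b)⁻¹ ≠ 0 := by positivity
      rw [e, show (g * b ^ 2)⁻¹ = g * (g * b)⁻¹ ^ 2 by field_simp, ← mul_assoc, k3 _ _ ha g0, k3 _ _ hc g0,
        k3 _ _ hc (by positivity), mul_right_comm, k3 _ _ ha (by positivity), ← mul_assoc, mul_left_inj, mul_assoc,
        (k2 _ _ (by positivity) g0).eq, ← mul_assoc, mul_left_inj] at this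
      exact this
    · exfalso
      let f : {x : k // ∃ c, c ≠ 0 ∧ x = c ^ 2} → {x : k // ∃ c, c ≠ 0 ∧ x = c ^ 2} := fun x => ⟨1 - g * x, by
        obtain ⟨_, a, ha, rfl⟩ := x
        obtain ⟨b, hb, e⟩ := q (1 - g * a ^ 2) fun e => hs ⟨a⁻¹, inv_ne_zero ha, by field_simp; linear_combination -e⟩
        exact ⟨b, hb, e.resolve_right fun e => hs' ⟨a, b, ha, hb, e⟩⟩⟩
      obtain ⟨⟨_, a, ha, rfl⟩, e⟩ := Finite.surjective_of_injective (f := f) (fun x y e => Subtype.ext (by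
        simpa [f] using e)) ⟨1, 1, one_ne_zero, by simp⟩
      simp [f, ha] at e
  obtain ⟨a, ha, rfl | rfl⟩ := q t ht
  · rw [mul_comm (a ^ 2), k3 _ _ ha hu, (k2 _ _ ht hu).eq]
  obtain ⟨b, hb, rfl | rfl⟩ := q u hu
  · rw [k3 _ _ hb ht]
  have g0 := g.ne_zero
  rw [show (g : k) * a ^ 2 * (g * b ^ 2) = g * g * a ^ 2 * b ^ 2 by ring, k3 b (g * g * a ^ 2) hb (by positivity),
    k3 a (g * g) ha (by positivity), ← k4, k3 _ _ ha g0, k3 _ _ hb g0, ← mul_assoc, mul_left_inj, mul_assoc, (k2 (a ^ 2) g (by positivity) g0).eq, ← mul_assoc]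

theorem exists_hom (hm : ∀ t u, t ≠ 0 → u ≠ 0 → S.h t * S.h u = S.h (t * u)) :
    ∃ f : SL(2, k) →* G, (∀ t, f (up t) = S.x t) ∧ ∀ t, f (lo t) = S.y t := by
  classical
  have hi : ∀ {t}, t ≠ 0 → (S.h t)⁻¹ = S.h t⁻¹ := fun ht =>
    inv_eq_of_mul_eq_one_right (by rw [hm _ _ ht (inv_ne_zero ht), mul_inv_cancel₀ ht, h1])
  have nn : ∀ {t u}, t ≠ 0 → u ≠ 0 → S.n t * S.n u = S.h (-(t * u⁻¹)) := fun {t u} ht hu => by
    have : S.n t * S.n u = S.h t * (S.h (-u))⁻¹ := by rw [h, h, ← S.ninv u]; group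
    rw [this, hi (neg_ne_zero.2 hu), hm _ _ ht (inv_ne_zero (neg_ne_zero.2 hu))]; congr 1; ring
  have nh : ∀ {t u}, t ≠ 0 → u ≠ 0 → S.n t * S.h u = S.n (t * u⁻¹) := fun {t u} ht hu => by
    have := hm _ _ (neg_ne_zero.2 (mul_ne_zero ht (inv_ne_zero hu))) (neg_ne_zero.2 one_ne_zero)
    rw [h, ← mul_assoc, nn ht hu, ← mul_left_inj (S.n (-1)), mul_assoc, ← h, this, ← h]; congr 1; ring
  have hx' : ∀ {t}, t ≠ 0 → ∀ u, S.h t * S.x u = S.x (t ^ 2 * u) * S.h t := fun ht u => by rw [← S.hx ht]; group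
  let f : SL(2, k) → G := fun g => if g 1 0 = 0 then S.x (g 0 0 * g 0 1) * S.h (g 0 0)
    else S.x (g 0 0 / g 1 0) * S.n (-(g 1 0)⁻¹) * S.x (g 1 1 / g 1 0)
  obtain ⟨w, cw⟩ : ∃ w : SL(2, k), (w : Matrix (Fin 2) (Fin 2) k) = !![0, 1; -1, 0] := ⟨⟨!![0, 1; -1, 0], by simp⟩, rfl⟩
  have h1 : ∀ t g, f (up t * g) = S.x t * f g := by
    intro t g
    have := sl_det g
    have e00 : (up t * g) 0 0 = g 0 0 + t * g 1 0 := by simp [Matrix.mul_apply, Fin.sum_univ_two]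
    have e01 : (up t * g) 0 1 = g 0 1 + t * g 1 1 := by simp [Matrix.mul_apply, Fin.sum_univ_two]
    have e10 : (up t * g) 1 0 = g 1 0 := by simp [Matrix.mul_apply, Fin.sum_univ_two]
    have e11 : (up t * g) 1 1 = g 1 1 := by simp [Matrix.mul_apply, Fin.sum_univ_two]
    simp only [f, e00, e01, e10, e11]
    by_cases hc : g 1 0 = 0
    · rw [hc] at this
      rw [if_pos hc, if_pos hc, ← mul_assoc, S.xadd, hc, mul_zero, add_zero,
        show g 0 0 * (g 0 1 + t * g 1 1) = t + g 0 0 * g 0 1 by linear_combination t * this]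
    · rw [if_neg hc, if_neg hc, ← mul_assoc, ← mul_assoc, S.xadd,
        show (g 0 0 + t * g 1 0) / g 1 0 = t + g 0 0 / g 1 0 by field_simp; ring]
  have h2 : ∀ g, f (w * g) = S.n 1 * f g := by
    intro g
    have := sl_det g
    have e00 : (w * g) 0 0 = g 1 0 := by simp [cw, Matrix.mul_apply, Fin.sum_univ_two]
    have e01 : (w * g) 0 1 = g 1 1 := by simp [cw, Matrix.mul_apply, Fin.sum_univ_two]
    have e10 : (w * g) 1 0 = - g 0 0 := by simp [cw, Matrix.mul_apply, Fin.sum_univ_two]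
    have e11 : (w * g) 1 1 = - g 0 1 := by simp [cw, Matrix.mul_apply, Fin.sum_univ_two]
    simp only [f, e00, e01, e10, e11, neg_eq_zero]
    by_cases hc : g 1 0 = 0
    · have ha : g 0 0 ≠ 0 := by intro h; simp [h, hc] at this
      have e := hx' ha (g 0 1 / g 0 0)
      rw [show g 0 0 ^ 2 * (g 0 1 / g 0 0) = g 0 0 * g 0 1 by field_simp] at e
      rw [if_neg ha, if_pos hc, ← e, ← mul_assoc, nh one_ne_zero ha]
      simp [hc, x0]
    · rw [if_neg hc]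
      have e1 := nn one_ne_zero (neg_ne_zero.2 (inv_ne_zero hc))
      rw [show -(1 * (-(g 1 0)⁻¹)⁻¹) = g 1 0 by field_simp] at e1
      by_cases ha : g 0 0 = 0
      · have e := hx' hc (g 1 1 / g 1 0)
        rw [show g 1 0 ^ 2 * (g 1 1 / g 1 0) = g 1 0 * g 1 1 by field_simp] at e
        rw [if_pos ha, ← e, ← e1]
        simp [ha, mul_assoc, x0]
      · rw [if_neg ha]
        have e2 := S.nx one_ne_zero (g 0 0 / g 1 0)
        rw [yeq, show (-(1⁻¹ ^ 2 * (g 0 0 / g 1 0)))⁻¹ = g 1 0 / -g 0 0 by field_simp] at e2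
        have e3 := hx' hc (-(g 0 0 * g 1 0)⁻¹)
        rw [show g 1 0 ^ 2 * -(g 0 0 * g 1 0)⁻¹ = g 1 0 / -g 0 0 by field_simp] at e3
        have e4 := nh (t := -(g 1 0 / -g 0 0)) (neg_ne_zero.2 (div_ne_zero hc (neg_ne_zero.2 ha))) hc
        rw [show -(g 1 0 / -g 0 0) * (g 1 0)⁻¹ = -(-g 0 0)⁻¹ by field_simp] at e4
        have e5 : -g 0 1 / -g 0 0 = -(g 0 0 * g 1 0)⁻¹ + g 1 1 / g 1 0 := by
          field_simp; linear_combination -this
        calc _ = S.x (g 1 0 / -g 0 0) * S.n (-(g 1 0 / -g 0 0)) *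
              (S.h (g 1 0) * S.x (-(g 0 0 * g 1 0)⁻¹)) * S.x (g 1 1 / g 1 0) := by
              rw [e5, ← S.xadd, ← e4]; group
          _ = (S.n 1 * S.x (g 0 0 / g 1 0) * (S.n 1)⁻¹) * (S.n 1 * S.n (-(g 1 0)⁻¹)) *
              S.x (g 1 1 / g 1 0) := by rw [e3, e2, e1]; group
          _ = _ := by group
  have h0 : f 1 = 1 := by simp [f, x0, S.h1]
  let K : Submonoid SL(2, k) :=
    { carrier := {a | ∀ g, f (a * g) = f a * f g}
      one_mem' := fun g => by simp [h0]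
      mul_mem' := fun {a b} ha hb g => by rw [mul_assoc, ha, hb, ha, mul_assoc] }
  have hX : ∀ t, up t ∈ K := fun t g => by
    have := h1 t 1
    rw [mul_one, h0, mul_one] at this
    rw [h1, this]
  have hw : w ∈ K := fun g => by
    have := h2 1
    rw [mul_one, h0, mul_one] at this
    rw [h2, this]
  have hY : ∀ t, lo t ∈ K := fun t => by
    have e : lo t = w * up (-t) * (w * w * w) := by
      ext i j
      fin_cases i <;> fin_cases j <;> simp [cw]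
    exact e ▸ mul_mem (mul_mem hw (hX _)) (mul_mem (mul_mem hw hw) hw)
  refine ⟨⟨⟨f, h0⟩, fun a b => sl_gen hX hY a b⟩, fun t => by simp [f, S.h1], fun t => ?_⟩
  by_cases ht : t = 0
  · simp [f, ht, x0, y0, S.h1]
  · simp [f, ht, S.yeq t]

end St2

theorem sl_ker (f : SL(2, k) →* G) {s t : k} (h : ¬ Commute (f (up s)) (f (lo t))) : f.ker ≤ Subgroup.center _ := by
  refine (sl_special.1.h5dich (K := f.ker) (fun x hx y _ => f.normal_ker.conj_mem x hx y) (sl_sup (k := k) ▸ le_top)).elim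
    (fun ⟨x, hx, e⟩ => absurd ?_ h) fun h x hx => Subgroup.mem_center_iff.2 fun g => (h x hx g (sl_sup (k := k) ▸ trivial)).symm
  obtain ⟨u, hu, e'⟩ : lo t ∈ conjBy (upperUnipotentSL2 k) x := e ▸ mem_lower.2 ⟨t, rfl⟩
  have : f (lo t) = f u := by simp [← e', show f x = 1 from hx]
  exact this ▸ (show Commute (up s) u from up_comm _ (mem_upper.2 ⟨s, rfl⟩) u hu).map f

theorem sl_iso (f : SL(2, k) →* G) (h : f.ker ≤ Subgroup.center _) :
    Nonempty (f.range ≃* SL(2, k)) ∨ (Nonempty (f.range ≃* PSL(2, k)) ∧ (2 : k) ≠ 0) := by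
  by_cases h1 : f.ker = ⊥
  · exact Or.inl ⟨(MonoidHom.ofInjective ((MonoidHom.ker_eq_bot_iff f).1 h1)).symm⟩
  · have k1 : ∀ g ∈ Subgroup.center SL(2, k), g = 1 ∨ g = -1 := fun g hg => by
      obtain ⟨r, h2, h3⟩ := Matrix.SpecialLinearGroup.mem_center_iff.1 hg
      rcases sq_eq_one_iff.1 (by simpa using h2 : r ^ 2 = 1) with rfl | rfl
      · exact Or.inl (Subtype.ext (by simp [← h3]))
      · exact Or.inr (Subtype.ext (by simp [← h3, ← Matrix.diagonal_one, ← Matrix.diagonal_neg]))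
    obtain ⟨g, hg, h2⟩ := (Subgroup.bot_or_exists_ne_one _).resolve_left h1
    obtain rfl := (k1 g (h hg)).resolve_left h2
    refine Or.inr ⟨⟨(QuotientGroup.quotientKerEquivRange f).symm.trans (QuotientGroup.quotientMulEquivOfEq
      (h.antisymm fun x hx => (k1 x hx).elim (· ▸ one_mem _) (· ▸ hg)))⟩, fun e => h2 ?_⟩
    ext i j
    fin_cases i <;> fin_cases j <;> simp <;> linear_combination -e

theorem sp_sl2 (h : IsSpecialRankOnePair A B) (hA : Comm A A) (hB : Comm B B) {p : ℕ} [Fact p.Prime] (hp : ∀ a ∈ A, a ^ p = 1)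
    {a b : G} (ha : a ∈ A) (hb : b ∈ B) (h1 : a ≠ 1) (e : Br a b⁻¹) :
    ∃ f : SL(2, ZMod p) →* G, f.ker ≤ Subgroup.center _ ∧ f.range = Subgroup.closure {a, b} := by
  have add : ∀ {c : G}, c ^ p = 1 → ∀ s t : ZMod p, c ^ s.val * c ^ t.val = c ^ (s + t).val := fun hc s t => by
    rw [ZMod.val_add, ← pow_eq_pow_mod _ hc, pow_add]
  have mul : ∀ {c : G}, c ^ p = 1 → ∀ s t : ZMod p, (c ^ s.val) ^ t.val = c ^ (s * t).val := fun hc s t => by
    rw [ZMod.val_mul, ← pow_eq_pow_mod _ hc, pow_mul]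
  have hbp : ∀ c ∈ B, c ^ p = 1 := by
    obtain ⟨m, -, e, -⟩ := h.1.h5swap
    rw [← e]
    rintro _ ⟨c, hc, rfl⟩
    rw [← map_pow, hp c hc, map_one]
  have v1 : (1 : ZMod p).val = 1 := ZMod.val_one p
  have k1 : ∀ t : ZMod p, t ≠ 0 → Br (a ^ t.val) (b ^ (-t⁻¹).val) := fun t ht => by
    have h2 : a ^ t.val ≠ 1 := fun e => h1 (by
      rw [← pow_one a, ← v1, ← mul_inv_cancel₀ ht, ← mul (hp a ha), e, one_pow])
    obtain ⟨u, hu, e'⟩ := sp_ex h (pow_mem ha _) h2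
    have h3 := sp_pow h hA hB _ ha (inv_mem hb) hu e e' h2
    have h4 : b = u ^ (-t).val := by
      rw [← inv_inv b, ← h3, inv_eq_iff_mul_eq_one, add (hbp u hu), add_neg_cancel, ZMod.val_zero, pow_zero]
    rwa [h4, mul (hbp u hu), neg_mul_neg, mul_inv_cancel₀ ht, v1, pow_one]
  obtain ⟨f, f1, f2⟩ := (⟨fun t => a ^ t.val, fun t => b ^ t.val, add (hp a ha), add (hbp b hb), fun t ht u => by
    rw [← mul_div_cancel₀ u ht, ← mul (hp a ha) t (u / t), ← conj_pow, (k1 t ht).conj1, mul (hbp b hb)]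
    congr 2; field_simp⟩ : St2 (ZMod p) G).exists_hom fun _ _ => St2.hmul _
  simp only at f1 f2
  refine ⟨f, sl_ker f (s := 1) (t := 1) fun hc => ?_, le_antisymm ?_ ((Subgroup.closure_le _).2 ?_)⟩
  · rw [f1, f2, v1, pow_one, pow_one] at hc
    have := e.sp
    rw [hc.inv_right.eq, mul_inv_cancel_right, inv_inv, ← hc.eq, mul_inv_cancel_right] at this
    exact h1 (h.1.h5inf ha (this ▸ inv_mem hb))
  · rintro _ ⟨g, rfl⟩
    exact sl_gen (K := ((Subgroup.closure {a, b}).comap f).toSubmonoid)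
      (fun t => show f _ ∈ _ from f1 t ▸ pow_mem (Subgroup.subset_closure (by simp)) _)
      (fun t => show f _ ∈ _ from f2 t ▸ pow_mem (Subgroup.subset_closure (by simp)) _) g
  · rintro _ (rfl | rfl)
    · exact ⟨up 1, by rw [f1, v1, pow_one]⟩
    · exact ⟨lo 1, by rw [f2, v1, pow_one]⟩

end H5.RS
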