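import Cfsg.Agent.H5.RS6
import Cfsg.Agent.H4.PGL2

/-! Zalesskii's generation lemma for `SL₂`. -/

namespace H5.RS
open Matrix Polynomial
open scoped MatrixGroups

section Normal
variable {R : Type*} [CommRing R]

theorem sl_mul (g h : SL(2, R)) (i j : Fin 2) : (g * h) i j = g i 0 * h 0 j + g i 1 * h 1 j := by
  simp [Matrix.mul_apply, Fin.sum_univ_two]

theorem sl_inv (g : SL(2, R)) : g⁻¹ 0 0 = g 1 1 ∧ g⁻¹ 0 1 = -g 0 1 ∧ g⁻¹ 1 0 = -g 1 0 ∧ g⁻¹ 1 1 = g 0 0 := by
  simp [adjugate_fin_two]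

/-- first reduction step -/
noncomputable def st1 (m : ℕ) (a c : R[X]) : R[X] := C (c.coeff m) * a - C (a.coeff (m + 1)) * X * c
/-- second reduction step -/
noncomputable def st2 (m : ℕ) (a c : R[X]) : R[X] := C (a.coeff m) * c - C (c.coeff m) * a

/-- pairs with a normal remainder sequence -/
def Nor : ℕ → R[X] → R[X] → Prop
  | 0, _, _ => True
  | m + 1, a, c => c.coeff m ≠ 0 ∧ (st1 m a c).coeff m ≠ 0 ∧ Nor m (st1 m a c) (st2 m (st1 m a c) c)

theorem st1_map {S : Type*} [CommRing S] (f : R →+* S) (m : ℕ) (a c : R[X]) :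
    st1 m (a.map f) (c.map f) = (st1 m a c).map f := by simp [st1]

theorem st2_map {S : Type*} [CommRing S] (f : R →+* S) (m : ℕ) (a c : R[X]) :
    st2 m (a.map f) (c.map f) = (st2 m a c).map f := by simp [st2]

/-- vanishing of coefficients from `m` on -/
def Lt (m : ℕ) (a : R[X]) : Prop := ∀ i, m ≤ i → a.coeff i = 0

theorem st1_lt {m : ℕ} {a c : R[X]} (ha : Lt (m + 2) a) (hc : Lt (m + 1) c) : Lt (m + 1) (st1 m a c) := by
  intro i hi
  obtain ⟨j, rfl⟩ : ∃ j, i = j + 1 := ⟨i - 1, by omega⟩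
  simp only [st1, mul_assoc, coeff_sub, coeff_C_mul, coeff_X_mul]
  rcases (by omega : j = m ∨ m + 1 ≤ j) with rfl | h
  · ring
  · rw [ha _ (by omega), hc _ h]; ring

theorem st2_lt {m : ℕ} {a c : R[X]} (ha : Lt (m + 1) a) (hc : Lt (m + 1) c) : Lt m (st2 m a c) := by
  intro i hi
  simp only [st2, coeff_sub, coeff_C_mul]
  rcases (by omega : i = m ∨ m + 1 ≤ i) with rfl | h
  · ring
  · rw [ha _ h, hc _ h]; ring

variable {k : Type*} [Field k]

theorem nor_generic (m : ℕ) : ∀ a c : k[X][X], Nor m (a.map (evalRingHom 0)) (c.map (evalRingHom 0)) →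
    ∀ᶠ s in Filter.cofinite, Nor m (a.map (evalRingHom s)) (c.map (evalRingHom s)) := by
  have key : ∀ p : k[X], p.eval 0 ≠ 0 → ∀ᶠ s in Filter.cofinite, p.eval s ≠ 0 := fun p h =>
    (finite_setOfPred_isRoot (by rintro rfl; simp at h : p ≠ 0)).subset fun s hs => by simpa using hs
  induction m with
  | zero => exact fun _ _ _ => .of_forall fun _ => trivial
  | succ m ih =>
    intro a c h
    simp only [Nor, st1_map, st2_map, coeff_map, coe_evalRingHom] at h ⊢
    exact (key _ h.1).and ((key _ h.2.1).and (ih _ _ h.2.2))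

theorem nor_ex (m : ℕ) : ∃ a c : k[X], Lt (m + 1) a ∧ Lt m c ∧ a.coeff 0 = 1 ∧ a.coeff m = 1 ∧ Nor m a c := by
  induction m with
  | zero => exact ⟨1, 0, fun i hi => by rw [coeff_one, if_neg (by omega)], fun _ _ => rfl, by simp, by simp, trivial⟩
  | succ m ih =>
    obtain ⟨a, c, h1, h2, h3, h4, h5⟩ := ih
    have e1 : (c + a).coeff m = 1 := by simp [h2 m le_rfl, h4]
    have e2 : (a + X * (c + a)).coeff (m + 1) = 1 := by rw [coeff_add, coeff_X_mul, e1, h1 _ le_rfl, zero_add]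
    have e3 : st1 m (a + X * (c + a)) (c + a) = a := by rw [st1, e1, e2]; simp
    have e4 : Lt (m + 1) (c + a) := fun i hi => by rw [coeff_add, h1 i hi, h2 i (by omega), add_zero]
    refine ⟨a + X * (c + a), c + a, fun i hi => ?_, e4, by simp [h3], e2, by simp [e1], by simp [e3, h4], ?_⟩
    · obtain ⟨j, rfl⟩ : ∃ j, i = j + 1 := ⟨i - 1, by omega⟩
      rw [coeff_add, coeff_X_mul, h1 _ (by omega), e4 _ (by omega), add_zero]
    · rw [e3, st2, e1, h4]; simpa using h5

end Normal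

variable {k K : Type*} [Field k] [Field K] [Algebra k K] {l : K} {H : Subgroup SL(2, K)}

theorem nor_orbit (h1 : ∀ c : k, up (algebraMap k K c) ∈ H) (h2 : ∀ c : k, lo (algebraMap k K c * l) ∈ H) (m : ℕ) :
    ∀ a c : k[X], Lt (m + 1) a → Lt m c → a.coeff 0 ≠ 0 → Nor m a c → ∀ y : k, y ≠ 0 →
      ∃ g ∈ H, g 0 0 = (a.coeff 0)⁻¹ • aeval l a ∧ g 1 0 = y • (l * aeval l c) := by
  induction m with
  | zero =>
    intro a c ha hc h0 _ y _
    obtain rfl : c = 0 := by ext i; exact hc i (Nat.zero_le i)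
    have : a = C (a.coeff 0) := by
      ext i; rw [coeff_C]; split_ifs with h; exacts [h ▸ rfl, ha i (by omega)]
    refine ⟨1, one_mem _, ?_, by simp⟩
    rw [this]; simp [Algebra.algebraMap_eq_smul_one, smul_smul, h0]
  | succ m ih =>
    intro a c ha hc h0 ⟨n1, n2, n3⟩ y hy
    have e0 : (st1 m a c).coeff 0 = c.coeff m * a.coeff 0 := by simp [st1, mul_assoc]
    obtain ⟨g, hg, e1, e2⟩ := ih _ _ (st1_lt ha hc) (st2_lt (st1_lt ha hc) hc) (e0 ▸ mul_ne_zero n1 h0) n3
      (y / (st1 m a c).coeff m) (div_ne_zero hy n2)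
    refine ⟨_, mul_mem (h1 (a.coeff (m + 1) / (c.coeff m * a.coeff 0 * y))) (mul_mem
      (h2 (y / (st1 m a c).coeff m * c.coeff m * (st1 m a c).coeff 0)) hg), ?_⟩
    have e3 : g 1 0 + algebraMap k K (y / (st1 m a c).coeff m * c.coeff m * (st1 m a c).coeff 0) * l * g 0 0 =
        y • (l * aeval l c) := by
      rw [e1, e2, st2]
      generalize st1 m a c = b at *
      have : b.coeff 0 ≠ 0 := e0 ▸ mul_ne_zero n1 h0
      have := (map_ne_zero (algebraMap k K)).2 this
      have := (map_ne_zero (algebraMap k K)).2 n2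
      simp [Algebra.smul_def]; field_simp; ring
    simp only [sl_mul, up_val, lo_val, of_apply, cons_val',
      cons_val_zero, cons_val_one, cons_val_fin_one, one_mul, zero_mul, zero_add, add_zero, add_comm _ (g 1 0), e3, and_true]
    rw [e1, e0, st1]
    have := (map_ne_zero (algebraMap k K)).2 h0
    have := (map_ne_zero (algebraMap k K)).2 n1
    have := (map_ne_zero (algebraMap k K)).2 hy
    simp [Algebra.smul_def]; field_simp; ring

theorem zal_borel [Infinite k] (hl : l ≠ 0) (ha : IsAlgebraic k l) (hK : ∀ x : K, ∃ p : k[X], aeval l p = x)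
    (h1 : ∀ c : k, up (algebraMap k K c) ∈ H) (h2 : ∀ c : k, lo (algebraMap k K c * l) ∈ H) {t : K} (ht : t ≠ 0) :
    ∃ g ∈ H, g 0 0 = t ∧ g 1 0 = 0 := by
  obtain ⟨n, hn⟩ : ∃ n, ∀ x : K, ∃ p : k[X], Lt n p ∧ aeval l p = x := ⟨(minpoly k l).natDegree, fun x => by
    obtain ⟨p, rfl⟩ := hK x
    have hm := minpoly.monic ha.isIntegral
    refine ⟨p %ₘ minpoly k l, fun i hi => coeff_eq_zero_of_degree_lt ((degree_modByMonic_lt p hm).trans_le ?_),
      aeval_modByMonic_eq_self_of_root (minpoly.aeval k l)⟩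
    rw [degree_eq_natDegree hm.ne_zero]; exact_mod_cast hi⟩
  obtain ⟨a, c, a1, c1, a0, -, nr⟩ := nor_ex (k := k) n
  have ec : ∀ s : k, (evalRingHom s).comp C = RingHom.id k := fun s => by ext; simp
  have key : ∀ u w : K, ∀ᶠ s : k in Filter.cofinite, ∃ g ∈ H, g 0 0 = aeval l a + s • u ∧ g 1 0 = l * aeval l c + s • w := by
    intro u w
    obtain ⟨p, p1, p2⟩ := hn (u / l)
    obtain ⟨q, q1, q2⟩ := hn (w / l)
    refine (nor_generic n (a.map C + C X * (X * p).map C) (c.map C + C X * q.map C) (by simpa [Polynomial.map_map, ec] using nr)).mono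
      fun s hs => ?_
    have hs' : Nor n (a + C s * (X * p)) (c + C s * q) := by simpa [Polynomial.map_map, ec] using hs
    obtain ⟨g, hg, e1, e2⟩ := nor_orbit h1 h2 n _ _ (fun i hi => by
      obtain ⟨j, rfl⟩ : ∃ j, i = j + 1 := ⟨i - 1, by omega⟩
      simp [a1 _ hi, p1 j (by omega)]) (fun i hi => by simp [c1 _ hi, q1 _ hi]) (by simp [a0]) hs' 1 one_ne_zero
    refine ⟨g, hg, ?_, ?_⟩
    · rw [e1]; simp [a0, p2, Algebra.smul_def, mul_div_cancel₀ _ hl]
    · rw [e2]; simp [q2, Algebra.smul_def]; field_simp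
  obtain ⟨s, ⟨g, hg, e1, e2⟩, g', hg', e3, e4⟩ := ((key ((t⁻¹ - 1) * aeval l a) ((t⁻¹ - 1) * (l * aeval l c))).and
    ((Function.Injective.tendsto_cofinite (sub_right_injective (b := (1 : k)))).eventually
      (key ((t - 1) * aeval l a) ((t - 1) * (l * aeval l c))))).exists
  have e5 : g' 0 0 = t * g 0 0 := by rw [e1, e3]; simp [Algebra.smul_def]; field_simp; ring
  have e6 : g' 1 0 = t * g 1 0 := by rw [e2, e4]; simp [Algebra.smul_def]; field_simp; ring
  have := sl_det g
  refine ⟨g⁻¹ * g', mul_mem (inv_mem hg) hg', ?_, ?_⟩ <;>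
    simp only [sl_mul, sl_inv, e5, e6]
  · linear_combination t * this
  · ring

theorem borel_conj {g : SL(2, K)} (h : g 1 0 = 0) (c : K) : g * up c * g⁻¹ = up (g 0 0 ^ 2 * c) := by
  have := sl_det g
  rw [h] at this
  ext i j
  fin_cases i <;> fin_cases j <;> simp [adjugate_fin_two, Matrix.mul_apply, Fin.sum_univ_two, h]
  · linear_combination this
  · ring
  · linear_combination this

theorem zal_fin [Finite k] (h2' : ringChar k ≠ 2) (h3 : Nat.card k ≠ 3) (hl : l ≠ 0) (ha : IsAlgebraic k l)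
    (hK : ∀ x : K, ∃ p : k[X], aeval l p = x)
    (h1 : ∀ c : k, up (algebraMap k K c) ∈ H) (h2 : ∀ c : k, lo (algebraMap k K c * l) ∈ H) (u : K) : up u ∈ H := by
  classical
  have : Finite K := by
    have e : Algebra.adjoin k {l} = ⊤ := top_le_iff.1 fun x _ => by
      obtain ⟨p, rfl⟩ := hK x; exact aeval_mem_adjoin_singleton k l
    have : Module.Finite k K := Module.finite_def.2 (by simpa [e] using ha.isIntegral.fg_adjoin_singleton)
    exact Module.finite_of_finite k
  obtain ⟨p, hp⟩ := CharP.exists k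
  have := Fintype.ofFinite k
  obtain ⟨n, hpp, hn⟩ := FiniteField.card k p
  have := Fact.mk hpp
  have : CharP K p := charP_of_injective_algebraMap (algebraMap k K).injective p
  have hp2 : p ≠ 2 := fun e => h2' (e ▸ ringChar.eq k p)
  let φ : Multiplicative k →* H.map SpecialLinearGroup.toPGL := MonoidHom.mk'
    (fun c => ⟨_, _, h1 c.toAdd, rfl⟩) fun a b => Subtype.ext (by simp [← map_mul, up_add])
  have hφ : p ^ (n : ℕ) ∣ Nat.card (H.map SpecialLinearGroup.toPGL) := by
    have := Subgroup.card_dvd_of_injective φ ((injective_iff_map_eq_one φ).2 fun c hc => by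
      rcases H4.toPGL_eq_iff.1 ((congrArg Subtype.val hc).trans (map_one _).symm) with e | e <;>
        simpa using congrArg (fun g : SL(2, K) => g 0 1) e)
    rwa [Nat.card_congr Multiplicative.toAdd, Nat.card_eq_fintype_card, hn] at this
  rcases H4.dickson_wild (algebraMap K (AlgebraicClosure K)) (H.map SpecialLinearGroup.toPGL)
    ((dvd_pow_self p n.ne_zero).trans hφ) with ⟨x, h⟩ | h | ⟨F, m, h⟩ | ⟨rfl, ⟨e⟩⟩
  · exfalso
    have e1 := h _ ⟨_, h1 1, rfl⟩
    have e2 := h _ ⟨_, h2 1, rfl⟩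
    rw [show SpecialLinearGroup.toPGL (up _) = _ from H4.toPGL_slUp _] at e1
    rw [show SpecialLinearGroup.toPGL (lo _) = _ from H4.toPGL_slLow _] at e2
    induction x using OnePoint.rec with
    | infty => simp [H4.mob_smul_infty, hl] at e2
    | coe x => simp [H4.aff_smul_coe] at e1
  · exact absurd h.1 hp2
  · have two : (2 : K) ≠ 0 := Ring.two_ne_zero (by rw [ringChar.eq K p]; exact hp2)
    have hle : H.map SpecialLinearGroup.toPGL ≤ (H4.pglSub F.subtype).map (MulAut.conj m).toMonoidHom :=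
      h.elim le_of_eq fun h => h.le.trans (Subgroup.map_mono (H4.pslSub_le_pglSub _))
    have k1 : ∀ c : k, (2 + algebraMap k K c * l) ^ 2 ∈ F := fun c => by
      obtain ⟨_, ⟨g, rfl⟩, e⟩ := hle ⟨_, mul_mem (h1 1) (h2 c), rfl⟩
      have := congrArg H4.tau e
      rw [H4.tau_toPGL, MulEquiv.coe_toMonoidHom, MulAut.conj_apply, H4.tau_conj, H4.tau_map] at this
      convert (H4.tau g).2 using 1
      rw [show ((H4.tau g : F) : K) = _ from this]; simp [trace_fin_two]; ring
    have k2 : ∀ c : k, algebraMap k K c * l ∈ F := fun c => by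
      have e8 : (8 : F) = (8 : K) := rfl
      convert div_mem (sub_mem (k1 c) (k1 (-c))) (e8 ▸ (8 : F).2) using 1
      have : (8 : K) ≠ 0 := by rw [show (8 : K) = 2 ^ 3 by norm_num]; positivity
      simp; field_simp; ring
    have k3 : l ∈ F := by simpa using k2 1
    have k4 : ∀ x, x ∈ F := fun x => by
      obtain ⟨q, rfl⟩ := hK x
      induction q using Polynomial.induction_on with
      | C c => simpa [hl] using div_mem (k2 c) k3
      | add _ _ h h' => rw [map_add]; exact add_mem h h'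
      | monomial n c h => rw [pow_succ, ← mul_assoc, map_mul, aeval_X]; exact mul_mem h k3
    have k5 : H4.Lsub K ≤ H4.pslSub F.subtype := H4.pslSub_id (K := K) ▸ H4.pslSub_comp_le F.subtype
      ((RingHom.id K).codRestrict F k4)
    refine H4.mem_of_toPGL_mem (hpp.odd_of_ne_two hp2) (show H4.slUp u ^ p = 1 by simp [H4.slUp_pow, H4.slUp_zero]) ?_
    have k6 : (H4.pslSub F.subtype).map (MulAut.conj m).toMonoidHom ≤ H.map SpecialLinearGroup.toPGL :=
      h.elim (fun h => (Subgroup.map_mono (H4.pslSub_le_pglSub _)).trans h.ge) ge_of_eq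
    exact k6 ⟨_, k5 (H4.Lsub_normal.conj_mem _ (by rw [H4.Lsub_eq]; exact ⟨H4.slUp u, rfl⟩) m⁻¹), by simp [mul_assoc]; rfl⟩
  · exfalso
    have h60 : Nat.card (alternatingGroup (Fin 5)) = 60 := by
      have := two_mul_nat_card_alternatingGroup (α := Fin 5)
      rw [Nat.card_perm] at this; simp [Nat.factorial] at this ⊢; omega
    rw [Nat.card_congr e.toEquiv, h60] at hφ
    rcases (by have := n.pos; omega : (n : ℕ) = 1 ∨ 2 ≤ (n : ℕ)) with e | e
    · exact h3 (by rw [Nat.card_eq_fintype_card, hn, e, pow_one])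
    · exact absurd ((pow_dvd_pow 3 e).trans hφ) (by norm_num)

theorem zal (h2' : ringChar k ≠ 2) (h3 : Nat.card k ≠ 3) (hl : l ≠ 0) (ha : IsAlgebraic k l)
    (hK : ∀ x : K, ∃ p : k[X], aeval l p = x)
    (h1 : ∀ c : k, up (algebraMap k K c) ∈ H) (h2 : ∀ c : k, lo (algebraMap k K c * l) ∈ H) : H = ⊤ := by
  have k1 : ∀ u, up u ∈ H := by
    cases finite_or_infinite k
    · exact zal_fin h2' h3 hl ha hK h1 h2
    · have k0 : ∀ (t : K) (c : k), up (t ^ 2 * algebraMap k K c) ∈ H := fun t c => by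
        by_cases ht : t = 0
        · simp [ht, up_zero]
        · obtain ⟨g, hg, e1, e2⟩ := zal_borel hl ha hK h1 h2 ht
          exact e1 ▸ borel_conj e2 _ ▸ mul_mem (mul_mem hg (h1 c)) (inv_mem hg)
      intro u
      have := mul_mem (k0 (u + 1) 4⁻¹) (k0 (u - 1) (-4⁻¹))
      have two : (2 : K) ≠ 0 := by simpa [map_ofNat] using (map_ne_zero (algebraMap k K)).2 (Ring.two_ne_zero h2')
      have four : (4 : K) ≠ 0 := by rw [show (4 : K) = 2 ^ 2 by norm_num]; positivity
      rw [up_add] at this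
      convert this using 2
      simp [map_ofNat]; field_simp; ring
  refine top_le_iff.1 fun g _ => sl_gen (K := H.toSubmonoid) k1 (fun t => ?_) g
  have hn : up (-l⁻¹) * lo l * up (-l⁻¹) ∈ H := mul_mem (mul_mem (k1 _) (by simpa using h2 1)) (k1 _)
  have : lo t = (up (-l⁻¹) * lo l * up (-l⁻¹)) * up (-(t / l ^ 2)) * (up (-l⁻¹) * lo l * up (-l⁻¹))⁻¹ := by
    rw [eq_mul_inv_iff_mul_eq]
    ext i j
    fin_cases i <;> fin_cases j <;> simp [hl] <;> field_simp <;> ring
  exact this ▸ H.mul_mem (mul_mem hn (k1 _)) (inv_mem hn)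

end H5.RS
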