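import Cfsg.Agent.H5.RS6
import Cfsg.Agent.H5.RS4

/-! Families of square-zero elements giving sets of root subgroups. -/

namespace H5.RT
open Cfsg Cfsg.IsRankOnePair Matrix H5.RS
open scoped commutatorElement MatrixGroups

variable (k : Type*) [Field k] {E : Type*} [Ring E] [Algebra k E] {G : Type*} [Group G] (ι : G →* E)

/-- root subgroup attached to `α` -/
def RR (α : E) : Subgroup G := Subgroup.closure {g | ∃ c : k, ι g = 1 + c • α}

/-- the opposite relation -/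
def Opp (α β : E) : Prop := ∃ c : k, c ≠ 0 ∧ α * β * α = c • α ∧ β * α * β = c • β

/-- a good family -/
structure Fam (T : Set E) : Prop where
  inj : Function.Injective ι
  sq : ∀ α ∈ T, α * α = 0
  ne : ∀ α ∈ T, α ≠ 0
  ex : ∀ α ∈ T, ∀ c : k, ∃ g, ι g = 1 + c • α
  cj : ∀ α ∈ T, ∀ g, ι g * α * ι g⁻¹ ∈ T
  tri : ∀ α ∈ T, ∀ β ∈ T, ∃ c : k, α * β * α = c • α ∧ β * α * β = c • β ∧
    (c = 0 → α * β = β * α ∨ α * β - β * α ∈ T)

variable {k ι}

theorem one_add_mul {α : E} (h : α * α = 0) (c d : k) :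
    (1 + c • α) * (1 + d • α) = 1 + (c + d) • α := by
  simp only [mul_add, add_mul, smul_mul_assoc, mul_smul_comm, h, one_mul, mul_one, smul_zero]; module

theorem ι_inv {α : E} (h : α * α = 0) {g : G} {c : k} (e : ι g = 1 + c • α) : ι g⁻¹ = 1 + (-c) • α := by
  have : ι g⁻¹ * (ι g * (1 + (-c) • α)) = ι g⁻¹ := by rw [e, one_add_mul h]; simp
  rw [← this, ← mul_assoc, ← map_mul]; simp

theorem mem_RR {α : E} (h : α * α = 0) {g : G} : g ∈ RR k ι α ↔ ∃ c : k, ι g = 1 + c • α := by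
  refine ⟨fun hg => ?_, fun hg => Subgroup.subset_closure hg⟩
  induction hg using Subgroup.closure_induction with
  | mem x hx => exact hx
  | one => exact ⟨0, by simp⟩
  | mul x y _ _ hx hy =>
    obtain ⟨c, hc⟩ := hx; obtain ⟨d, hd⟩ := hy
    exact ⟨c + d, by rw [map_mul, hc, hd, one_add_mul h]⟩
  | inv x _ hx => obtain ⟨c, hc⟩ := hx; exact ⟨-c, ι_inv h hc⟩

theorem RR_smul (α : E) {c : k} (hc : c ≠ 0) : RR k ι (c • α) = RR k ι α := by
  unfold RR; congr 1; ext g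
  refine ⟨fun ⟨d, h⟩ => ⟨d * c, by rw [h, mul_smul]⟩, fun ⟨d, h⟩ => ⟨d * c⁻¹, ?_⟩⟩
  rw [h, smul_smul, mul_assoc, inv_mul_cancel₀ hc, mul_one]

theorem ι_mi (g : G) : ι g * ι g⁻¹ = 1 := by rw [← map_mul]; simp
theorem ι_im (g : G) : ι g⁻¹ * ι g = 1 := by rw [← map_mul]; simp

theorem conj_RR {α : E} (h : α * α = 0) (g : G) : conjBy (RR k ι α) g = RR k ι (ι g * α * ι g⁻¹) := by
  have h' : (ι g * α * ι g⁻¹) * (ι g * α * ι g⁻¹) = 0 := by
    have : (ι g * α * ι g⁻¹) * (ι g * α * ι g⁻¹) = ι g * (α * (ι g⁻¹ * ι g) * α) * ι g⁻¹ := by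
      simp only [mul_assoc]
    rw [this, ι_im, mul_one, h]; simp
  ext x
  rw [mem_conjBy, mem_RR h, mem_RR h']
  refine exists_congr fun c => ⟨fun e => ?_, fun e => ?_⟩
  · have : ι x = ι g * ι (g⁻¹ * x * g) * ι g⁻¹ := by rw [← map_mul, ← map_mul]; congr 1; group
    rw [this, e]; simp only [mul_add, add_mul, mul_one, ι_mi, smul_mul_assoc, mul_smul_comm]
  · have : ι g⁻¹ * (ι g * α * ι g⁻¹) * ι g = (ι g⁻¹ * ι g) * α * (ι g⁻¹ * ι g) := by simp only [mul_assoc]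
    rw [map_mul, map_mul, e]
    simp only [mul_add, add_mul, mul_one, ι_im, smul_mul_assoc, mul_smul_comm, this, one_mul]

/-- matrix units -/
def slE (α β : E) (h1 : α * α = 0) (h2 : β * β = 0) (h3 : α * β * α = α) (h4 : β * α * β = β) :
    SL(2, k) →* E where
  toFun g := 1 + (g 0 0 - 1) • (α * β) + g 0 1 • α + g 1 0 • β + (g 1 1 - 1) • (β * α)
  map_one' := by simp
  map_mul' g h := by
    have a1 : ∀ x, α * (α * x) = 0 := fun x => by rw [← mul_assoc, h1, zero_mul]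
    have a2 : ∀ x, β * (β * x) = 0 := fun x => by rw [← mul_assoc, h2, zero_mul]
    have a3 : ∀ x, α * (β * (α * x)) = α * x := fun x => by rw [← mul_assoc, ← mul_assoc, h3]
    have a4 : ∀ x, β * (α * (β * x)) = β * x := fun x => by rw [← mul_assoc, ← mul_assoc, h4]
    rw [mul_assoc] at h3 h4
    have m : ∀ i j, (g * h) i j = g i 0 * h 0 j + g i 1 * h 1 j := fun i j => by
      simp [Matrix.SpecialLinearGroup.coe_mul, Matrix.mul_apply, Fin.sum_univ_two]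
    simp only [m, mul_add, add_mul, smul_mul_assoc, mul_smul_comm, one_mul, mul_one, mul_assoc, a1, a2,
      a3, a4, h1, h2, h3, h4, mul_zero, smul_zero]
    module

theorem comm_of {α β : E} (hi : Function.Injective ι) (h1 : α * α = 0) (h2 : β * β = 0)
    (h : α * β = β * α) : Comm (RR k ι α) (RR k ι β) := by
  intro a ha b hb
  obtain ⟨s, hs⟩ := (mem_RR h1).1 ha
  obtain ⟨t, ht⟩ := (mem_RR h2).1 hb
  apply hi
  rw [map_mul, map_mul, hs, ht]
  simp only [mul_add, add_mul, smul_mul_assoc, mul_smul_comm, one_mul, mul_one, h]; module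

theorem smul_eq0 {α : E} {c : k} (h : α ≠ 0) (e : c • α = 0) : c = 0 := by
  by_contra hc
  exact h (by rw [← one_smul k α, ← inv_mul_cancel₀ hc, mul_smul, e, smul_zero])

theorem ι_comm {α β : E} (h1 : α * α = 0) (h2 : β * β = 0) (h3 : α * β * α = 0) (h4 : β * α * β = 0)
    {a b : G} {s t : k} (hs : ι a = 1 + s • α) (ht : ι b = 1 + t • β) :
    ι (a * b * a⁻¹ * b⁻¹) = 1 + (s * t) • (α * β - β * α) := by
  have a1 : ∀ x, α * (α * x) = 0 := fun x => by rw [← mul_assoc, h1, zero_mul]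
  have a2 : ∀ x, β * (β * x) = 0 := fun x => by rw [← mul_assoc, h2, zero_mul]
  have a3 : ∀ x, α * (β * (α * x)) = 0 := fun x => by rw [← mul_assoc, ← mul_assoc, h3, zero_mul]
  rw [mul_assoc] at h3 h4
  rw [map_mul, map_mul, map_mul, ι_inv h1 hs, ι_inv h2 ht, hs, ht]
  simp only [mul_add, add_mul, smul_mul_assoc, mul_smul_comm, one_mul, mul_one, mul_assoc, a1, a2,
    a3, h1, h2, h3, h4, mul_zero, smul_zero, zero_mul]
  module

namespace Fam
variable {T : Set E} (hT : Fam k ι T) {α β : E}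
include hT

theorem psl (hα : α ∈ T) (hβ : β ∈ T) (h : Opp k α β) : IsPSL2PairOver k (RR k ι α) (RR k ι β) := by
  obtain ⟨c, hc, e1, e2⟩ := h
  have h1 := hT.sq α hα
  have h2 : (c⁻¹ • β) * (c⁻¹ • β) = 0 := by simp [hT.sq β hβ]
  have h3 : α * (c⁻¹ • β) * α = α := by
    simp only [smul_mul_assoc, mul_smul_comm, e1, smul_smul, inv_mul_cancel₀ hc, one_smul]
  have h4 : (c⁻¹ • β) * α * (c⁻¹ • β) = c⁻¹ • β := by
    simp only [smul_mul_assoc, mul_smul_comm, e2, smul_smul, inv_mul_cancel₀ hc, mul_one]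
  set F : SL(2, k) →* E := slE α (c⁻¹ • β) h1 h2 h3 h4 with hF
  have u : ∀ t, F (up t) = 1 + t • α := fun t => by simp [hF, slE, up]
  have l : ∀ t, F (lo t) = 1 + t • c⁻¹ • β := fun t => by simp [hF, slE, lo]
  have r : ∀ g, ∃ x, ι x = F g := fun g =>
    sl_gen (K := (MonoidHom.mrange ι).comap F) (fun t => by
      obtain ⟨x, hx⟩ := hT.ex α hα t; exact ⟨x, by rw [hx, u]⟩) (fun t => by
      obtain ⟨x, hx⟩ := hT.ex β hβ (t * c⁻¹); exact ⟨x, by rw [hx, l, mul_smul]⟩) g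
  choose f hf using r
  let φ : SL(2, k) →* G := MonoidHom.mk' f fun a b => hT.inj (by rw [map_mul, hf, hf, hf, map_mul])
  have hφ : ∀ g, ι (φ g) = F g := hf
  rw [← RR_smul β (inv_ne_zero hc)]
  refine psl_of φ (sl_ker φ (s := 1) (t := 1) fun e => ?_) (fun g => ?_) (fun g => ?_)
  · have e' := congrArg ι e.eq
    rw [map_mul, map_mul, hφ, hφ, u, l, one_smul, one_smul] at e'
    have e3 : α * (c⁻¹ • β) = (c⁻¹ • β) * α := by
      simp only [mul_add, add_mul, one_mul, mul_one] at e'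
      linear_combination (norm := abel1) e'
    rw [e3, mul_assoc, h1, mul_zero] at h3
    exact hT.ne α hα h3.symm
  · rw [mem_RR h1]
    exact exists_congr fun t => ⟨fun e => hT.inj (by rw [hφ, u, e]), fun e => by rw [← e, hφ, u]⟩
  · rw [mem_RR h2]
    exact exists_congr fun t => ⟨fun e => hT.inj (by rw [hφ, l, e]), fun e => by rw [← e, hφ, l]⟩

theorem cl (hα : α ∈ T) (hβ : β ∈ T) (h3 : α * β * α = 0) (h4 : β * α * β = 0) (hγ : α * β - β * α ∈ T)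
    {a : G} (ha : a ∈ RR k ι α) (h1 : a ≠ 1) :
    Subgroup.closure ((fun b : G => a * b * a⁻¹ * b⁻¹) '' (RR k ι β : Set G)) = RR k ι (α * β - β * α) := by
  obtain ⟨s, hs⟩ := (mem_RR (hT.sq α hα)).1 ha
  have s0 : s ≠ 0 := by rintro rfl; exact h1 (hT.inj (by simpa using hs))
  unfold RR; congr 1; ext x
  constructor
  · rintro ⟨b, hb, rfl⟩
    obtain ⟨t, ht⟩ := (mem_RR (hT.sq β hβ)).1 hb
    exact ⟨_, ι_comm (hT.sq α hα) (hT.sq β hβ) h3 h4 hs ht⟩
  · rintro ⟨c, hc⟩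
    obtain ⟨b, hb⟩ := hT.ex β hβ (s⁻¹ * c)
    refine ⟨b, Subgroup.subset_closure ⟨_, hb⟩, hT.inj ?_⟩
    rw [hc, ι_comm (hT.sq α hα) (hT.sq β hβ) h3 h4 hs hb, mul_inv_cancel_left₀ s0]

theorem exne (hα : α ∈ T) : ∃ a ∈ RR k ι α, a ≠ 1 := by
  obtain ⟨a, ha⟩ := hT.ex α hα 1
  refine ⟨a, Subgroup.subset_closure ⟨1, ha⟩, fun e => hT.ne α hα ?_⟩
  simpa [e] using ha

theorem br (hα : α ∈ T) (hβ : β ∈ T) (h3 : α * β * α = 0) (h4 : β * α * β = 0) (hγ : α * β - β * α ∈ T) :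
    ⁅RR k ι α, RR k ι β⁆ = RR k ι (α * β - β * α) := by
  refine le_antisymm (Subgroup.commutator_le.2 fun a ha b hb => ?_) ?_
  · obtain ⟨s, hs⟩ := (mem_RR (hT.sq α hα)).1 ha
    obtain ⟨t, ht⟩ := (mem_RR (hT.sq β hβ)).1 hb
    exact Subgroup.subset_closure ⟨_, ι_comm (hT.sq α hα) (hT.sq β hβ) h3 h4 hs ht⟩
  · obtain ⟨a, ha, h1⟩ := hT.exne hα
    rw [← hT.cl hα hβ h3 h4 hγ ha h1, Subgroup.closure_le]
    rintro _ ⟨b, hb, rfl⟩
    exact Subgroup.commutator_mem_commutator ha hb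

theorem cc (hα : α ∈ T) (hβ : β ∈ T) (h3 : α * β * α = 0) (h4 : β * α * β = 0) (hγ : α * β - β * α ∈ T) :
    RootCommutatorCase (RR k ι '' T) (RR k ι α) (RR k ι β) := by
  have h1 := hT.sq α hα
  have h2 := hT.sq β hβ
  have e := hT.br hα hβ h3 h4 hγ
  refine ⟨⟨_, hγ, e.symm⟩, ?_, fun a ha h => by rw [e, hT.cl hα hβ h3 h4 hγ ha h], fun b hb h => ?_⟩
  · rw [e]
    refine Comm.sup (comm_of hT.inj (hT.sq _ hγ) h1 ?_) (comm_of hT.inj (hT.sq _ hγ) h2 ?_)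
    · rw [sub_mul, mul_sub, h3, mul_assoc, h1, ← mul_assoc, ← mul_assoc, h1, h3]; simp
    · rw [sub_mul, mul_sub, h4, mul_assoc, h2, ← mul_assoc, ← mul_assoc, h2, h4]; simp
  · obtain ⟨t, ht⟩ := (mem_RR h2).1 hb
    have t0 : t ≠ 0 := by rintro rfl; exact h (hT.inj (by simpa using ht))
    rw [e]; unfold RR; congr 1; ext x
    constructor
    · rintro ⟨a, ha, rfl⟩
      obtain ⟨s, hs⟩ := (mem_RR h1).1 ha
      exact ⟨_, ι_comm h1 h2 h3 h4 hs ht⟩
    · rintro ⟨c, hc⟩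
      obtain ⟨a, ha⟩ := hT.ex α hα (c * t⁻¹)
      refine ⟨a, Subgroup.subset_closure ⟨_, ha⟩, hT.inj ?_⟩
      rw [hc, ι_comm h1 h2 h3 h4 ha ht, inv_mul_cancel_right₀ t0]

theorem tri' (hα : α ∈ T) (hβ : β ∈ T) : Comm (RR k ι α) (RR k ι β) ∨ Opp k α β ∨
    (RootCommutatorCase (RR k ι '' T) (RR k ι α) (RR k ι β) ∧ α * β ≠ β * α ∧ α * β * α = 0) := by
  obtain ⟨c, e1, e2, h⟩ := hT.tri α hα β hβ
  by_cases hc : c = 0
  · subst hc
    rw [zero_smul] at e1 e2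
    rcases h rfl with h | h
    · exact Or.inl (comm_of hT.inj (hT.sq _ hα) (hT.sq _ hβ) h)
    · exact Or.inr (Or.inr ⟨hT.cc hα hβ e1 e2 h, fun e => hT.ne _ h (by rw [e, sub_self]), e1⟩)
  · exact Or.inr (Or.inl ⟨c, hc, e1, e2⟩)

theorem root (hg : (⨆ A ∈ RR k ι '' T, A) = ⊤) : IsRootSubgroupSet (RR k ι '' T) where
  commutative := by
    rintro _ ⟨α, hα, rfl⟩
    exact (comm_of hT.inj (hT.sq _ hα) (hT.sq _ hα) rfl).isMulCommutative
  ne_bot := by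
    rintro _ ⟨α, hα, rfl⟩ e
    obtain ⟨a, ha, h⟩ := hT.exne hα
    rw [e] at ha; exact h ha
  generates := hg
  conj_mem := by
    rintro _ ⟨α, hα, rfl⟩ g
    exact ⟨_, hT.cj α hα g, (conj_RR (hT.sq _ hα) g).symm⟩
  pair := by
    rintro _ ⟨α, hα, rfl⟩ _ ⟨β, hβ, rfl⟩
    rcases hT.tri' hα hβ with h | h | h
    · exact Or.inl (comm_iff.2 h)
    · exact Or.inr (Or.inl (psl_pair (hT.psl hα hβ h)))
    · exact Or.inr (Or.inr h.1)

omit hT in
theorem not_cc {S : Set (Subgroup G)} (hS : IsRootSubgroupSet S) {A B : Subgroup G} (hA : A ∈ S)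
    (h : IsRankOnePair A B) (hc : RootCommutatorCase S A B) : False := by
  obtain ⟨a, ha, h1⟩ := h.h5ex
  obtain ⟨b, hb, -, e⟩ := h.h5cond ha h1
  have c1 : Comm (conjBy A a) (conjBy B a) := by
    rw [← e]
    exact (hS.h5line_ab hA hc).mono (by rw [conjBy_of_mem ha]; exact le_sup_left) (hc.h5le hb)
  have c2 := c1.conj a⁻¹
  rw [conjBy_conjBy, conjBy_conjBy, inv_mul_cancel, conjBy_one, conjBy_one] at c2
  exact h.h5not_comm c2

theorem kroot (hg : (⨆ A ∈ RR k ι '' T, A) = ⊤) : IsKRootSubgroupSet k (RR k ι '' T) := by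
  refine ⟨hT.root hg, ?_⟩
  rintro _ ⟨α, hα, rfl⟩ _ ⟨β, hβ, rfl⟩ hp
  rcases hT.tri' hα hβ with h | h | h
  · exact (hp.h5not_comm h).elim
  · exact hT.psl hα hβ h
  · exact (not_cc (hT.root hg) ⟨_, hα, rfl⟩ hp h.1).elim

theorem degen (hg : (⨆ A ∈ RR k ι '' T, A) = ⊤)
    (hd : ∀ α ∈ T, ∀ β ∈ T, α * β * α = 0 → α * β = β * α) : IsDegenerateRootSet (RR k ι '' T) := by
  rintro _ ⟨α, hα, rfl⟩ _ ⟨β, hβ, rfl⟩ hp
  rcases hT.tri' hα hβ with h | h | h
  · exact (hT.root hg).h5cc_not hp h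
  · exact not_cc (hT.root hg) ⟨_, hα, rfl⟩ (psl_pair (hT.psl hα hβ h)) hp
  · exact h.2.1 (hd α hα β hβ h.2.2)

theorem conn (hc : ∀ α ∈ T, ∀ β ∈ T, Relation.ReflTransGen (fun a b => a ∈ T ∧ b ∈ T ∧ Opp k a b) α β) :
    IsConnectedFamily (FAdj (RR k ι '' T)) (RR k ι '' T) := by
  rintro _ ⟨α, hα, rfl⟩ _ ⟨β, hβ, rfl⟩
  have := hc α hα β hβ
  clear hβ
  induction this with
  | refl => exact .refl
  | tail _ h ih => exact ih.tail ⟨⟨_, h.1, rfl⟩, ⟨_, h.2.1, rfl⟩, psl_pair (hT.psl h.1 h.2.1 h.2.2)⟩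

omit hT in
theorem cls {S : Set (Subgroup G)} (hn : S.Nonempty) (hc : IsConnectedFamily (FAdj S) S) :
    IsConjClassOfSubgroups S := by
  refine ⟨hn, fun A hA B hB => ?_⟩
  have := hc A hA B hB
  clear hB
  induction this with
  | refl => exact ⟨1, (conjBy_one _).symm⟩
  | tail _ h ih =>
    obtain ⟨g, rfl⟩ := ih
    obtain ⟨x, -, e, -⟩ := h.2.2.h5swap
    exact ⟨x * g, by rw [← e, conjBy_conjBy]⟩

theorem sub : Fam k (ι.comp (⨆ A ∈ RR k ι '' T, A).subtype) T where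
  inj := hT.inj.comp Subtype.val_injective
  sq := hT.sq
  ne := hT.ne
  ex α hα c := by
    obtain ⟨g, hg⟩ := hT.ex α hα c
    exact ⟨⟨g, (le_iSup₂_of_le (f := fun A (_ : A ∈ RR k ι '' T) => A) (RR k ι α) ⟨α, hα, rfl⟩ le_rfl :)
      (Subgroup.subset_closure ⟨c, hg⟩)⟩, hg⟩
  cj α hα g := hT.cj α hα g
  tri := hT.tri

theorem sub_eq (K : Subgroup G) :
    (fun A : Subgroup G => A.subgroupOf K) '' (RR k ι '' T) = RR k (ι.comp K.subtype) '' T := by
  rw [Set.image_image]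
  refine Set.image_congr fun α hα => ?_
  ext g
  rw [Subgroup.mem_subgroupOf, mem_RR (hT.sq α hα), mem_RR (hT.sq α hα)]; rfl

omit hT in
theorem sub_top (S : Set (Subgroup G)) :
    (⨆ A ∈ (fun A : Subgroup G => A.subgroupOf (⨆ A ∈ S, A)) '' S, A) = ⊤ := by
  apply Subgroup.map_injective (⨆ A ∈ S, A).subtype_injective
  rw [← MonoidHom.range_eq_map, Subgroup.range_subtype, iSup_image]
  simp only [Subgroup.map_iSup]
  refine iSup_congr fun A => iSup_congr fun hA => ?_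
  rw [Subgroup.subgroupOf_map_subtype, inf_eq_left]
  exact le_iSup₂_of_le (f := fun A (_ : A ∈ S) => A) A hA le_rfl

theorem sub_gen : (⨆ A ∈ RR k (ι.comp (⨆ A ∈ RR k ι '' T, A).subtype) '' T, A) = ⊤ := by
  rw [← hT.sub_eq]
  exact sub_top _

end Fam
end H5.RT
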