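import Cfsg.Agent.H5.RT1
import Cfsg.Agent.H4.SLBasic

/-! Transvection subgroups of `SL_n`. -/

namespace H5.RT
open Cfsg Cfsg.IsRankOnePair Matrix H5.RS
open scoped commutatorElement MatrixGroups

theorem conj_ne {E : Type*} [Ring E] {G : Type*} [Group G] (ι : G →* E) {α : E} (h : α ≠ 0) (g : G) :
    ι g * α * ι g⁻¹ ≠ 0 := fun e => h (by
  have : ι g⁻¹ * (ι g * α * ι g⁻¹) * ι g = (ι g⁻¹ * ι g) * α * (ι g⁻¹ * ι g) := by simp only [mul_assoc]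
  rw [ι_im, e] at this; simpa using this.symm)

theorem or3 {k : Type*} [Field k] {a b c d : k} (ha : a ≠ 0) (hd : d ≠ 0) :
    c ≠ 0 ∨ b ≠ 0 ∨ (a + b ≠ 0 ∧ c + d ≠ 0) := by
  by_cases hc : c = 0
  · by_cases hb : b = 0
    · simp [*]
    · simp [*]
  · simp [*]

variable {k : Type*} [Field k] {n : Type*} [Fintype n] [DecidableEq n]

omit [DecidableEq n] in
theorem vv_mul (u v w x : n → k) : vecMulVec u v * vecMulVec w x = (v ⬝ᵥ w) • vecMulVec u x := by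
  rw [vecMulVec_mul_vecMulVec, vecMulVec_smul]

omit [DecidableEq n] in
theorem vv_mulVec (u v w : n → k) : vecMulVec u v *ᵥ w = (v ⬝ᵥ w) • u := by
  rw [vecMulVec_mulVec]; simp

theorem det_vv (u v : n → k) : (1 + vecMulVec u v).det = 1 + v ⬝ᵥ u := by
  rw [vecMulVec_eq Unit, det_one_add_replicateCol_mul_replicateRow]

theorem ex_dot {u : n → k} (h : u ≠ 0) : ∃ x, u ⬝ᵥ x ≠ 0 := by
  obtain ⟨i, hi⟩ := Function.ne_iff.1 h
  exact ⟨Pi.single i 1, by simpa using hi⟩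

theorem ex_dot2 {u v : n → k} (h : u ≠ 0) (h' : v ≠ 0) : ∃ x, u ⬝ᵥ x ≠ 0 ∧ v ⬝ᵥ x ≠ 0 := by
  obtain ⟨x, hx⟩ := ex_dot h
  obtain ⟨y, hy⟩ := ex_dot h'
  rcases or3 (b := u ⬝ᵥ y) (c := v ⬝ᵥ x) hx hy with e | e | e
  · exact ⟨x, hx, e⟩
  · exact ⟨y, e, hy⟩
  · exact ⟨x + y, by simpa [dotProduct_add] using e⟩

theorem mat_ext {A B : Matrix n n k} (h : ∀ v, A *ᵥ v = B *ᵥ v) : A = B := by
  ext i j; simpa using congrFun (h (Pi.single j 1)) i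

variable (k n) in
/-- rank one square-zero matrices -/
def TS : Set (Matrix n n k) := {α | ∃ v φ : n → k, v ≠ 0 ∧ φ ≠ 0 ∧ φ ⬝ᵥ v = 0 ∧ α = vecMulVec v φ}

omit [DecidableEq n] in
theorem mem_TS {α : Matrix n n k} : α ∈ TS k n ↔ α ≠ 0 ∧ ∃ v φ : n → k, φ ⬝ᵥ v = 0 ∧ α = vecMulVec v φ := by
  constructor
  · rintro ⟨v, φ, h1, h2, h3, rfl⟩; exact ⟨by simp [h1, h2], v, φ, h3, rfl⟩
  · rintro ⟨h, v, φ, h3, rfl⟩
    exact ⟨v, φ, by rintro rfl; simp at h, by rintro rfl; simp at h, h3, rfl⟩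

omit [DecidableEq n] in
theorem vv3 (v φ w ψ : n → k) :
    vecMulVec v φ * vecMulVec w ψ * vecMulVec v φ = ((φ ⬝ᵥ w) * (ψ ⬝ᵥ v)) • vecMulVec v φ := by
  rw [vv_mul, smul_mul_assoc, vv_mul, smul_smul]

theorem famSL : Fam k (SpecialLinearGroup.coeMonoidHom : SpecialLinearGroup n k →* _) (TS k n) where
  inj := Subtype.val_injective
  sq := by rintro _ ⟨v, φ, -, -, h, rfl⟩; rw [vv_mul, h, zero_smul]
  ne α h := (mem_TS.1 h).1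
  ex := by
    rintro _ ⟨v, φ, -, -, h, rfl⟩ c
    exact ⟨⟨1 + c • vecMulVec v φ, by rw [← vecMulVec_smul, det_vv]; simp [h]⟩, rfl⟩
  cj α hα g := by
    refine mem_TS.2 ⟨conj_ne _ (mem_TS.1 hα).1 g, ?_⟩
    obtain ⟨v, φ, -, -, h, rfl⟩ := hα
    refine ⟨_, _, ?_, by rw [mul_vecMulVec, vecMulVec_mul]⟩
    rw [← dotProduct_mulVec, mulVec_mulVec, ι_im, one_mulVec, h]
  tri := by
    rintro _ ⟨v, φ, v0, φ0, h, rfl⟩ _ ⟨w, ψ, w0, ψ0, h', rfl⟩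
    refine ⟨_, vv3 .., by rw [vv3, mul_comm], fun e => ?_⟩
    rw [vv_mul, vv_mul]
    by_cases h1 : φ ⬝ᵥ w = 0
    · by_cases h2 : ψ ⬝ᵥ v = 0
      · simp [h1, h2]
      · exact Or.inr ⟨(-(ψ ⬝ᵥ v)) • w, φ, by simp [h2, w0], φ0, by simp [h1], by
          rw [h1, smul_vecMulVec]; simp⟩
    · have h2 : ψ ⬝ᵥ v = 0 := by simpa [h1] using e
      exact Or.inr ⟨(φ ⬝ᵥ w) • v, ψ, by simp [h1, v0], ψ0, by simp [h2], by
        rw [h2, smul_vecMulVec]; simp⟩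

theorem opp_vv {v φ w ψ : n → k} (h1 : φ ⬝ᵥ w ≠ 0) (h2 : ψ ⬝ᵥ v ≠ 0) :
    Opp k (vecMulVec v φ) (vecMulVec w ψ) :=
  ⟨_, mul_ne_zero h1 h2, vv3 .., by rw [vv3, mul_comm]⟩

theorem ex_ann {v φ w : n → k} (v0 : v ≠ 0) (h : φ ⬝ᵥ v = 0) (h1 : φ ⬝ᵥ w ≠ 0) :
    ∃ ψ, ψ ⬝ᵥ w = 0 ∧ ψ ⬝ᵥ v ≠ 0 := by
  obtain ⟨χ, hχ⟩ := ex_dot v0
  refine ⟨χ - ((χ ⬝ᵥ w) / (φ ⬝ᵥ w)) • φ, ?_, ?_⟩
  · rw [sub_dotProduct, smul_dotProduct, smul_eq_mul, div_mul_cancel₀ _ h1, sub_self]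
  · rw [sub_dotProduct, smul_dotProduct, h, smul_zero, sub_zero, dotProduct_comm]; exact hχ

theorem connSL : IsConnectedFamily (FAdj (RR k (SpecialLinearGroup.coeMonoidHom : SpecialLinearGroup n k →* _) ''
    TS k n)) (RR k (SpecialLinearGroup.coeMonoidHom : SpecialLinearGroup n k →* _) '' TS k n) := by
  refine famSL.conn ?_
  rintro _ ⟨v, φ, v0, φ0, h, rfl⟩ _ ⟨v', φ', v0', φ0', h', rfl⟩
  obtain ⟨w, h1, h2⟩ := ex_dot2 φ0 φ0'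
  obtain ⟨ψ, h3, h4, h5⟩ : ∃ ψ, ψ ⬝ᵥ w = 0 ∧ ψ ⬝ᵥ v ≠ 0 ∧ ψ ⬝ᵥ v' ≠ 0 := by
    obtain ⟨x, hx, hx'⟩ := ex_ann v0 h h1
    obtain ⟨y, hy, hy'⟩ := ex_ann v0' h' h2
    rcases or3 (b := y ⬝ᵥ v) (c := x ⬝ᵥ v') hx' hy' with e | e | e
    · exact ⟨x, hx, hx', e⟩
    · exact ⟨y, hy, e, hy'⟩
    · exact ⟨x + y, by simp [hx, hy], by simpa [add_dotProduct] using e⟩
  have m : vecMulVec w ψ ∈ TS k n :=
    ⟨w, ψ, by rintro rfl; simp at h1, by rintro rfl; simp at h4, h3, rfl⟩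
  exact (Relation.ReflTransGen.single ⟨⟨v, φ, v0, φ0, h, rfl⟩, m, opp_vv h1 h4⟩).tail
    ⟨m, ⟨v', φ', v0', φ0', h', rfl⟩, opp_vv h5 h2⟩

theorem sg_mem {i j : n} (h : i ≠ j) : single i j (1 : k) ∈ TS k n :=
  ⟨Pi.single i 1, Pi.single j 1, by simp, by simp, by simp [h.symm, Pi.single_apply],
    single_eq_single_vecMulVec_single i j⟩

theorem tv_eq (i j : n) (c : k) : transvection i j c = 1 + c • single i j (1 : k) := by
  simp [transvection]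

theorem genSL : (⨆ A ∈ RR k (SpecialLinearGroup.coeMonoidHom : SpecialLinearGroup n k →* _) '' TS k n, A) = ⊤ :=
  H4.sl_eq_top_of_transvection _ fun i j h c =>
    (le_iSup₂_of_le (f := fun A (_ : A ∈ RR k (SpecialLinearGroup.coeMonoidHom : SpecialLinearGroup n k →* _) ''
      TS k n) => A) _ ⟨_, sg_mem h, rfl⟩ le_rfl :) (Subgroup.subset_closure ⟨c, tv_eq i j c⟩)

theorem setSL {i j : n} (h : i ≠ j) : {A : Subgroup (SpecialLinearGroup n k) | ∃ g : SpecialLinearGroup n k,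
    A = conjBy (Subgroup.closure {t : SpecialLinearGroup n k | ∃ c : k, (t : Matrix n n k) = transvection i j c}) g} =
    RR k (SpecialLinearGroup.coeMonoidHom : SpecialLinearGroup n k →* _) '' TS k n := by
  have e : Subgroup.closure {t : SpecialLinearGroup n k | ∃ c : k, (t : Matrix n n k) = transvection i j c} =
      RR k (SpecialLinearGroup.coeMonoidHom : SpecialLinearGroup n k →* _) (single i j 1) := by
    simp only [tv_eq]; rfl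
  rw [e]; ext A
  exact ⟨by rintro ⟨g, rfl⟩; exact (famSL.root genSL).conj_mem _ ⟨_, sg_mem h, rfl⟩ g,
    fun hA => (Fam.cls ⟨_, hA⟩ connSL).2 _ ⟨_, sg_mem h, rfl⟩ _ hA⟩

theorem nondegSL {i j l : n} (h1 : i ≠ j) (h2 : i ≠ l) (h3 : j ≠ l) : IsNondegenerateRootSet
    (RR k (SpecialLinearGroup.coeMonoidHom : SpecialLinearGroup n k →* _) '' TS k n) := by
  refine ⟨⟨_, ⟨_, sg_mem h1, rfl⟩, _, ⟨_, sg_mem h2, rfl⟩, fun e => ?_, comm_iff.2 (comm_of famSL.inj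
    (famSL.sq _ (sg_mem h1)) (famSL.sq _ (sg_mem h2)) ?_)⟩,
    ⟨_, ⟨_, sg_mem h1, rfl⟩, _, ⟨_, sg_mem h1.symm, rfl⟩, psl_pair (famSL.psl (sg_mem h1) (sg_mem h1.symm)
      ⟨1, one_ne_zero, by simp, by simp⟩)⟩,
    ⟨_, ⟨_, sg_mem h1, rfl⟩, _, ⟨_, sg_mem h3, rfl⟩, famSL.cc (sg_mem h1) (sg_mem h3) ?_ ?_ ?_⟩⟩
  · obtain ⟨g, hg⟩ := famSL.ex _ (sg_mem (k := k) h1) 1
    have : g ∈ RR k (SpecialLinearGroup.coeMonoidHom : SpecialLinearGroup n k →* _) (single i l 1) :=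
      e ▸ Subgroup.subset_closure ⟨1, hg⟩
    obtain ⟨c, hc⟩ := (mem_RR (famSL.sq _ (sg_mem h2))).1 this
    have := congrFun (congrFun (hg.symm.trans hc) i) j
    simp [h3.symm] at this
  · rw [single_mul_single_of_ne _ _ _ _ h1.symm, single_mul_single_of_ne _ _ _ _ h2.symm]
  · rw [single_mul_single_same, single_mul_single_of_ne _ _ _ _ h2.symm]
  · rw [single_mul_single_of_ne _ _ _ _ h2.symm, zero_mul]
  · rw [single_mul_single_same, single_mul_single_of_ne _ _ _ _ h2.symm, sub_zero, mul_one]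
    exact sg_mem h2

end H5.RT
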