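import Cfsg.Agent.H5.RT2
import Cfsg.Agent.S0765

/-! Transvections in characteristic two; symplectic transvections. -/

namespace H5.RT
open Cfsg Cfsg.IsRankOnePair Matrix H5.RS
open scoped commutatorElement MatrixGroups

variable {k : Type*} [Field k]

theorem sl2_odd [Finite k] [CharP k 2] {g : SL(2, k)} (h : g 0 0 ≠ g 1 1) : Odd (orderOf g) := by
  by_contra hn
  obtain ⟨m, hm⟩ := Nat.not_odd_iff_even.1 hn
  have p := orderOf_pos g
  have h1 : g ^ m * g ^ m = 1 := by rw [← pow_add, ← hm, pow_orderOf_eq_one]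
  have h2 : g ^ m * g = g * g ^ m := by rw [← pow_succ, ← pow_succ']
  have h3 : g ^ m = 1 := by
    generalize g ^ m = x at h1 h2
    have m : ∀ (g h : SL(2, k)) i j, (g * h) i j = g i 0 * h 0 j + g i 1 * h 1 j := fun g h i j => by
      simp [Matrix.SpecialLinearGroup.coe_mul, Matrix.mul_apply, Fin.sum_univ_two]
    have d := sl_det x
    have a := m x x 0 0
    have b := m x x 1 1
    have c := (m x g 0 1).symm.trans ((congrArg (fun y : SL(2, k) => y 0 1) h2).trans (m g x 0 1))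
    have e := (m x g 1 0).symm.trans ((congrArg (fun y : SL(2, k) => y 1 0) h2).trans (m g x 1 0))
    rw [h1] at a b
    have a' : (1 : k) = x 0 0 * x 0 0 + x 0 1 * x 1 0 := by rw [← a]; simp
    have b' : (1 : k) = x 1 0 * x 0 1 + x 1 1 * x 1 1 := by rw [← b]; simp
    have t : (2 : k) = 0 := CharTwo.two_eq_zero
    have f : x 0 0 = x 1 1 := by
      have : (x 0 0 - x 1 1) ^ 2 = 0 := by
        linear_combination b' - a' + (x 1 1 * x 1 1 - x 0 0 * x 1 1) * t
      exact sub_eq_zero.1 (pow_eq_zero_iff two_ne_zero |>.1 this)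
    have h' := sub_ne_zero.2 h
    have x1 : x 0 1 = 0 := by
      refine (mul_eq_zero.1 (?_ : x 0 1 * (g 0 0 - g 1 1) = 0)).resolve_right h'
      linear_combination -c + g 0 1 * f
    have x2 : x 1 0 = 0 := by
      refine (mul_eq_zero.1 (?_ : x 1 0 * (g 0 0 - g 1 1) = 0)).resolve_right h'
      linear_combination e + g 1 0 * f
    have x0 : x 0 0 = 1 := by
      have : (x 0 0 - 1) ^ 2 = 0 := by
        rw [x1] at a'; linear_combination -a' + (1 - x 0 0) * t
      exact sub_eq_zero.1 (pow_eq_zero_iff two_ne_zero |>.1 this)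
    ext i j; fin_cases i <;> fin_cases j <;> simp [x0, x1, x2, ← f]
  have := Nat.le_of_dvd (by omega) (orderOf_dvd_of_pow_eq_one h3)
  omega

theorem ul_val (s t : k) : (up s * lo t).1 = !![1 + s * t, s; t, 1] := by
  show !![1, s; 0, 1] * !![1, 0; t, 1] = _
  simp

section
variable {E : Type*} [Ring E] [Algebra k E] {G : Type*} [Group G] {ι : G →* E} {T : Set E} (hT : Fam k ι T)
include hT

theorem Fam.inv2 [CharP k 2] {a : G} (ha : ι a - 1 ∈ T) : orderOf a = 2 := by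
  have e : ι a = 1 + (1 : k) • (ι a - 1) := by simp
  refine orderOf_eq_prime (hT.inj ?_) fun h => hT.ne _ ha (by simp [h])
  rw [pow_two, map_mul, e, one_add_mul (hT.sq _ ha), CharTwo.add_self_eq_zero]; simp

theorem Fam.tri2 [Finite k] [CharP k 2] {a b : G} (ha : ι a - 1 ∈ T) (hb : ι b - 1 ∈ T) :
    a * b = b * a ∨ (Odd (orderOf (a * b)) ∧ (Nat.card k = 2 → (a * b) ^ 3 = 1)) ∨
      (orderOf (a * b) = 4 ∧ ι ((a * b) ^ 2) - 1 ∈ T) := by
  have ea : ι a = 1 + (1 : k) • (ι a - 1) := by simp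
  have eb : ι b = 1 + (1 : k) • (ι b - 1) := by simp
  have ma : a ∈ RR k ι (ι a - 1) := Subgroup.subset_closure ⟨_, ea⟩
  have mb : b ∈ RR k ι (ι b - 1) := Subgroup.subset_closure ⟨_, eb⟩
  obtain ⟨c, e1, e2, h⟩ := hT.tri _ ha _ hb
  by_cases hc : c = 0
  · subst hc
    rw [zero_smul] at e1 e2
    rcases h rfl with h | h
    · exact Or.inl (comm_of hT.inj (hT.sq _ ha) (hT.sq _ hb) h a ma b mb)
    · have i : ∀ x : G, orderOf x = 2 → x⁻¹ = x := fun x hx =>
        inv_eq_of_mul_eq_one_left (by rw [← pow_two, ← hx, pow_orderOf_eq_one])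
      have := ι_comm (hT.sq _ ha) (hT.sq _ hb) e1 e2 ea eb
      rw [i a (hT.inv2 ha), i b (hT.inv2 hb), mul_assoc (a * b), ← pow_two] at this
      have m : ι ((a * b) ^ 2) - 1 ∈ T := by rw [this]; simpa using h
      refine Or.inr (Or.inr ⟨?_, m⟩)
      have o := hT.inv2 m
      refine orderOf_eq_prime_pow (p := 2) (n := 1) (fun e => ?_) ?_
      · rw [pow_one] at e; rw [e] at o; simp at o
      · rw [show 2 ^ (1 + 1) = 2 * 2 from rfl, pow_mul]
        exact orderOf_dvd_iff_pow_eq_one.1 o.dvd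
  · obtain ⟨φ, -, -, h1, h2⟩ := hT.psl ha hb ⟨c, hc, e1, e2⟩
    rw [← h1] at ma; rw [← h2] at mb
    obtain ⟨_, hx, rfl⟩ := ma
    obtain ⟨_, hy, rfl⟩ := mb
    obtain ⟨s, rfl⟩ := mem_upper.1 hx
    obtain ⟨t, rfl⟩ := mem_lower.1 hy
    have s0 : s ≠ 0 := by rintro rfl; exact hT.ne _ ha (by simp [up_zero])
    have t0 : t ≠ 0 := by rintro rfl; exact hT.ne _ hb (by simp [lo_zero])
    rw [← map_mul]
    refine Or.inr (Or.inl ⟨Odd.of_dvd_nat (sl2_odd ?_) (orderOf_map_dvd φ _), fun h2 => ?_⟩)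
    · show (up s * lo t).1 0 0 ≠ (up s * lo t).1 1 1
      rw [ul_val]; simp [s0, t0]
    · have u : ∀ x : k, x ≠ 0 → x = 1 := fun x hx => by
        obtain ⟨y, -, hy⟩ := (Nat.card_eq_two_iff' (0 : k)).1 h2
        exact (hy x hx).trans (hy 1 one_ne_zero).symm
      rw [u s s0, u t t0, ← map_pow]
      have t : (2 : k) = 0 := CharTwo.two_eq_zero
      have : (up (1 : k) * lo 1) ^ 3 = 1 := by
        apply Subtype.ext
        rw [Matrix.SpecialLinearGroup.coe_pow, ul_val]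
        ext i j
        fin_cases i <;> fin_cases j <;> simp [pow_succ, Matrix.mul_apply, Fin.sum_univ_two]
        · linear_combination 6 * t
        · linear_combination 4 * t
        · linear_combination 4 * t
        · linear_combination 2 * t
      rw [this, map_one]

end

variable {n : Type*} [Fintype n] [DecidableEq n]

omit [DecidableEq n] in
theorem TS_smul {α : Matrix n n k} (h : α ∈ TS k n) {c : k} (hc : c ≠ 0) : c • α ∈ TS k n := by
  obtain ⟨v, φ, v0, φ0, h, rfl⟩ := h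
  exact ⟨c • v, φ, by simp [hc, v0], φ0, by simp [h], (smul_vecMulVec ..).symm⟩

theorem setD {i j : n} (h : i ≠ j) (t : SpecialLinearGroup n k) : (∃ c : k, c ≠ 0 ∧ ∃ g : SpecialLinearGroup n k,
    ((g⁻¹ * t * g : SpecialLinearGroup n k) : Matrix n n k) = transvection i j c) ↔
    SpecialLinearGroup.coeMonoidHom t - 1 ∈ TS k n := by
  constructor
  · rintro ⟨c, hc, g, hg⟩
    have := famSL.cj _ (TS_smul (sg_mem h) hc) g
    have e : SpecialLinearGroup.coeMonoidHom t = SpecialLinearGroup.coeMonoidHom g *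
        SpecialLinearGroup.coeMonoidHom (g⁻¹ * t * g) * SpecialLinearGroup.coeMonoidHom g⁻¹ := by
      rw [← map_mul, ← map_mul]; congr 1; group
    rw [e, SpecialLinearGroup.coeMonoidHom_apply (g⁻¹ * t * g), hg, tv_eq, mul_add, add_mul, mul_one, ι_mi,
      add_sub_cancel_left]
    exact this
  · intro ht
    obtain ⟨g, hg⟩ := (Fam.cls (Set.Nonempty.image _ ⟨_, ht⟩) connSL).2 _ ⟨_, sg_mem h, rfl⟩ _ ⟨_, ht, rfl⟩
    have m : t ∈ RR k SpecialLinearGroup.coeMonoidHom (SpecialLinearGroup.coeMonoidHom t - 1) :=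
      Subgroup.subset_closure ⟨1, by simp⟩
    rw [hg, mem_conjBy, mem_RR (famSL.sq _ (sg_mem h))] at m
    obtain ⟨c, hc⟩ := m
    refine ⟨c, ?_, g, by rw [tv_eq]; exact hc⟩
    rintro rfl
    have : g⁻¹ * t * g = 1 := famSL.inj (by simpa using hc)
    have : t = 1 := by rw [mul_assoc, inv_mul_eq_one] at this; simpa using this.symm
    exact famSL.ne _ ht (by simp [this])

theorem rootD [Finite k] [CharP k 2] : IsRootInvolutionSet
    {t : SpecialLinearGroup n k | SpecialLinearGroup.coeMonoidHom t - 1 ∈ TS k n} where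
  orderOf_eq d hd := famSL.inv2 hd
  generates := H4.sl_eq_top_of_transvection _ fun i j h c => by
    by_cases hc : c = 0
    · have : SpecialLinearGroup.transvection h c = 1 := Subtype.ext (by simp [hc, SpecialLinearGroup.transvection_coe])
      rw [this]; exact one_mem _
    · exact Subgroup.subset_closure ((setD h _).1 ⟨c, hc, 1, by simp; rfl⟩)
  conj_mem d hd g := by
    have := famSL.cj _ hd g
    rwa [mul_sub, sub_mul, mul_one, ι_mi, ← map_mul, ← map_mul] at this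
  pair a ha b hb := by
    rcases famSL.tri2 ha hb with h | h | h
    · exact Or.inl h
    · exact Or.inr (Or.inl h.1)
    · exact Or.inr (Or.inr h)

theorem diag_tv {i j l : n} (h1 : i ≠ j) (h2 : i ≠ l) (h3 : j ≠ l) {a : k} (ha : a ≠ 0) (c : k) :
    SpecialLinearGroup.diag2n h2 a ha * SpecialLinearGroup.transvection h1 c =
      SpecialLinearGroup.transvection h1 (a * c) * SpecialLinearGroup.diag2n h2 a ha := by
  apply Subtype.ext
  simp only [Matrix.SpecialLinearGroup.coe_mul, SpecialLinearGroup.diag2n_coe, SpecialLinearGroup.transvection_coe,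
    mul_add, add_mul, mul_one, one_mul]
  congr 1
  ext x y
  simp only [diagonal_mul, mul_diagonal, single_apply]
  by_cases e : i = x ∧ j = y
  · obtain ⟨rfl, rfl⟩ := e; simp [h1.symm, h3]
  · simp [e]

theorem clsD {i j l : n} (h1 : i ≠ j) (h2 : i ≠ l) (h3 : j ≠ l) {a b : SpecialLinearGroup n k}
    (ha : SpecialLinearGroup.coeMonoidHom a - 1 ∈ TS k n) (hb : SpecialLinearGroup.coeMonoidHom b - 1 ∈ TS k n) :
    ∃ g, b = g * a * g⁻¹ := by
  obtain ⟨c, hc, g, hg⟩ := (setD h1 a).2 ha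
  obtain ⟨d, hd, h, hh⟩ := (setD h1 b).2 hb
  have e1 : g⁻¹ * a * g = SpecialLinearGroup.transvection h1 c := Subtype.ext hg
  have e2 : h⁻¹ * b * h = SpecialLinearGroup.transvection h1 d := Subtype.ext hh
  have := diag_tv h1 h2 h3 (div_ne_zero hd hc) c
  rw [div_mul_cancel₀ _ hc, ← e1, ← e2] at this
  generalize SpecialLinearGroup.diag2n h2 _ (div_ne_zero hd hc) = x at this
  refine ⟨h * x * g⁻¹, ?_⟩
  calc b = h * (h⁻¹ * b * h * x) * x⁻¹ * h⁻¹ := by group
    _ = _ := by rw [← this]; group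

/-! symplectic -/

variable (k n) in
/-- symplectic transvection matrices -/
def TP : Set (Matrix (n ⊕ n) (n ⊕ n) k) := {α | ∃ p, p ≠ 0 ∧ α = vecMulVec p (J n k *ᵥ p)}

theorem J_skew (p q : n ⊕ n → k) : (J n k *ᵥ p) ⬝ᵥ q = -((J n k *ᵥ q) ⬝ᵥ p) := by
  rw [dotProduct_comm, dotProduct_mulVec, ← mulVec_transpose, J_transpose, neg_mulVec, neg_dotProduct]

theorem J_alt (p : n ⊕ n → k) : (J n k *ᵥ p) ⬝ᵥ p = 0 := by
  simp [J, dotProduct, mulVec, Fintype.sum_sum_type, fromBlocks, one_apply, mul_comm]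

theorem J_ne {p : n ⊕ n → k} (h : p ≠ 0) : J n k *ᵥ p ≠ 0 := fun e => h (by
  have := congrArg (J n k *ᵥ ·) e
  simpa [mulVec_mulVec, J_squared, neg_mulVec] using this)

theorem famSp : Fam k (symplecticGroup n k).subtype (TP k n) where
  inj := Subtype.val_injective
  sq := by rintro _ ⟨p, -, rfl⟩; rw [vv_mul, J_alt, zero_smul]
  ne := by rintro _ ⟨p, h, rfl⟩; simp [h, J_ne h]
  ex := by
    rintro _ ⟨p, -, rfl⟩ c
    refine ⟨⟨1 + c • vecMulVec p (J n k *ᵥ p), SymplecticGroup.mem_iff'.2 ?_⟩, rfl⟩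
    have e : (J n k *ᵥ p) ᵥ* J n k = p := by
      rw [← mulVec_transpose, J_transpose, neg_mulVec, mulVec_mulVec, J_squared]; simp [neg_mulVec]
    have e' : p ᵥ* J n k = -(J n k *ᵥ p) := by rw [← mulVec_transpose, J_transpose, neg_mulVec]
    simp only [transpose_add, transpose_one, transpose_smul, transpose_vecMulVec, mul_add, add_mul, one_mul,
      mul_one, smul_mul_assoc, mul_smul_comm, vecMulVec_mul, mul_vecMulVec, e', vecMulVec_neg, add_mulVec,
      smul_mulVec, neg_mulVec, vv_mulVec, J_alt]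
    simp
  cj := by
    rintro _ ⟨p, h, rfl⟩ g
    have i := ι_im (ι := (symplecticGroup n k).subtype) g
    refine ⟨g.1 *ᵥ p, fun e => h ?_, ?_⟩
    · have := congrArg ((g⁻¹).1 *ᵥ ·) e
      simp only [mulVec_mulVec, mulVec_zero] at this
      rwa [show (g⁻¹).1 * g.1 = 1 from i, one_mulVec] at this
    · rw [mul_vecMulVec, vecMulVec_mul]
      congr 1
      have e := SymplecticGroup.mem_iff'.1 g.2
      have i' : g.1 * (g⁻¹).1 = 1 := ι_mi (ι := (symplecticGroup n k).subtype) g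
      show _ ᵥ* (g⁻¹).1 = _
      rw [← mulVec_transpose, mulVec_mulVec, mulVec_mulVec]
      congr 1
      conv_lhs => rw [← e]
      rw [← mul_assoc, ← mul_assoc, ← transpose_mul, i']; simp
  tri := by
    rintro _ ⟨p, -, rfl⟩ _ ⟨q, -, rfl⟩
    refine ⟨_, vv3 .., by rw [vv3, mul_comm], fun e => Or.inl ?_⟩
    have : (J n k *ᵥ q) ⬝ᵥ p = 0 := by rw [J_skew p q] at e; simpa using e
    rw [vv_mul, vv_mul, J_skew p q, this]; simp

theorem degSp : ∀ α ∈ TP k n, ∀ β ∈ TP k n, α * β * α = 0 → α * β = β * α := by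
  rintro _ hα _ ⟨q, -, rfl⟩ e
  have := famSp.ne _ hα
  obtain ⟨p, -, rfl⟩ := hα
  rw [vv3] at e
  replace e := smul_eq0 this e
  have : (J n k *ᵥ q) ⬝ᵥ p = 0 := by rw [J_skew p q] at e; simpa using e
  rw [vv_mul, vv_mul, J_skew p q, this]; simp

theorem connSp : IsConnectedFamily (FAdj (RR k (symplecticGroup n k).subtype '' TP k n))
    (RR k (symplecticGroup n k).subtype '' TP k n) := by
  refine famSp.conn ?_
  rintro _ ⟨p, p0, rfl⟩ _ ⟨q, q0, rfl⟩
  obtain ⟨w, h1, h2⟩ := ex_dot2 (J_ne p0) (J_ne q0)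
  have m : vecMulVec w (J n k *ᵥ w) ∈ TP k n := ⟨w, by rintro rfl; simp at h1, rfl⟩
  exact (Relation.ReflTransGen.single ⟨⟨p, p0, rfl⟩, m, opp_vv h1 (by rw [J_skew]; simpa using h1)⟩).tail
    ⟨m, ⟨q, q0, rfl⟩, opp_vv (by rw [J_skew]; simpa using h2) h2⟩

theorem genSp (m : ℕ) : (⨆ A ∈ RR k (symplecticGroup (Fin m) k).subtype '' TP k (Fin m), A) = ⊤ := by
  rw [eq_top_iff, ← Cfsg.Agent.S0765.result m, Subgroup.closure_le]
  rintro g ⟨w, c, h⟩
  by_cases hw : w = 0
  · have : g = 1 := Subtype.ext (by simp [h, hw, sympTransvection])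
    rw [this]; exact one_mem _
  · exact (le_iSup₂_of_le (f := fun A (_ : A ∈ RR k (symplecticGroup (Fin m) k).subtype '' TP k (Fin m)) => A)
      _ ⟨_, ⟨w, hw, rfl⟩, rfl⟩ le_rfl :) (Subgroup.subset_closure ⟨c, h⟩)

theorem setSp : {A : Subgroup (symplecticGroup n k) | ∃ p : n ⊕ n → k, p ≠ 0 ∧ A = Subgroup.closure
    {g : symplecticGroup n k | ∃ c : k, ∀ v : n ⊕ n → k, (g : Matrix (n ⊕ n) (n ⊕ n) k) *ᵥ v =
      v + (c * (v ⬝ᵥ (J n k *ᵥ p))) • p}} = RR k (symplecticGroup n k).subtype '' TP k n := by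
  have e : ∀ p : n ⊕ n → k, Subgroup.closure {g : symplecticGroup n k | ∃ c : k, ∀ v : n ⊕ n → k,
      (g : Matrix (n ⊕ n) (n ⊕ n) k) *ᵥ v = v + (c * (v ⬝ᵥ (J n k *ᵥ p))) • p} =
      RR k (symplecticGroup n k).subtype (vecMulVec p (J n k *ᵥ p)) := fun p => by
    unfold RR; congr 1; ext g
    have : ∀ (c : k) v, (1 + c • vecMulVec p (J n k *ᵥ p)) *ᵥ v = v + (c * (v ⬝ᵥ (J n k *ᵥ p))) • p := fun c v => by
      rw [add_mulVec, one_mulVec, smul_mulVec, vv_mulVec, smul_smul, dotProduct_comm]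
    exact exists_congr fun c => ⟨fun h => mat_ext fun v => (h v).trans (this c v).symm,
      fun h v => by rw [← this, ← h]; rfl⟩
  ext A
  simp only [e]
  exact ⟨fun ⟨p, h, e⟩ => ⟨_, ⟨p, h, rfl⟩, e.symm⟩, by rintro ⟨_, ⟨p, h, rfl⟩, rfl⟩; exact ⟨p, h, rfl⟩⟩

end H5.RT
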