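import Cfsg.Agent.H5.RT2
import Cfsg.Agent.H4.Herm

/-! Unitary transvection subgroups. -/

namespace H5.RT
open Cfsg Cfsg.IsRankOnePair Matrix H5.RS
open scoped commutatorElement MatrixGroups

attribute [-simp] H4.frobq_apply

variable {F : Type*} [Field F] [Fintype F] {q N : ℕ} (hF : Fintype.card F = q ^ 2)

theorem hf_dot (u v : Fin N → F) : (fun i => v i ^ q) ⬝ᵥ u = hermForm N F q u v := by
  simp [hermForm, dotProduct, mul_comm]

theorem hf_addl (u v w : Fin N → F) : hermForm N F q (u + v) w = hermForm N F q u w + hermForm N F q v w := by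
  simp only [← hf_dot, dotProduct_add]

theorem hf_smull (c : F) (u w : Fin N → F) : hermForm N F q (c • u) w = c * hermForm N F q u w := by
  simp only [← hf_dot, dotProduct_smul, smul_eq_mul]

include hF

theorem hf_symm (u v : Fin N → F) : hermForm N F q u v = H4.frobq hF (hermForm N F q v u) := by
  simp only [hermForm, map_sum, map_mul, ← H4.frobq_apply hF, H4.frobq_frobq, mul_comm]

theorem hf_addr (u v w : Fin N → F) : hermForm N F q w (u + v) = hermForm N F q w u + hermForm N F q w v := by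
  rw [hf_symm hF, hf_addl, map_add, ← hf_symm, ← hf_symm]

theorem hf_smulr (c : F) (u w : Fin N → F) : hermForm N F q w (c • u) = H4.frobq hF c * hermForm N F q w u := by
  rw [hf_symm hF, hf_smull, map_mul, ← hf_symm]

theorem bar_ne {p : Fin N → F} (h : p ≠ 0) : (fun i => p i ^ q) ≠ 0 := fun e => h (by
  ext i; have := congrFun e i
  simp only [← H4.frobq_apply hF, Pi.zero_apply, map_eq_zero] at this; exact this)

omit hF in
variable (N q) in
/-- unitary transvection matrices -/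
def TU (ε : F) : Set (Matrix (Fin N) (Fin N) F) :=
  {α | ∃ p : Fin N → F, p ≠ 0 ∧ hermForm N F q p p = 0 ∧ α = vecMulVec p (ε • fun i => p i ^ q)}

omit hF in
variable (N F q) in
/-- inclusion -/
def ιU : SU N F q →* Matrix (Fin N) (Fin N) F := SpecialLinearGroup.coeMonoidHom.comp (SU N F q).subtype

omit hF in
theorem U_pres (g : SU N F q) (u v : Fin N → F) :
    hermForm N F q (ιU F q N g *ᵥ u) (ιU F q N g *ᵥ v) = hermForm N F q u v := g.2 u v

omit hF in
theorem tu_app (ε : F) (p v : Fin N → F) :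
    vecMulVec p (ε • fun i => p i ^ q) *ᵥ v = (ε * hermForm N F q v p) • p := by
  rw [vv_mulVec, smul_dotProduct, hf_dot, smul_eq_mul]

variable {L : Type*} [Field L] [Algebra L F] (hL : ∀ x, H4.frobq hF x = x ↔ ∃ c : L, algebraMap L F c = x)
  {ε : F} (h0 : ε ≠ 0) (hε : H4.frobq hF ε = -ε)
include hL h0 hε

omit h0 in
theorem tu3 (p r : Fin N → F) : ∃ c : L, algebraMap L F c = ε ^ 2 * (hermForm N F q r p * hermForm N F q p r) ∧
    vecMulVec p (ε • fun i => p i ^ q) * vecMulVec r (ε • fun i => r i ^ q) * vecMulVec p (ε • fun i => p i ^ q) =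
      c • vecMulVec p (ε • fun i => p i ^ q) ∧
    vecMulVec r (ε • fun i => r i ^ q) * vecMulVec p (ε • fun i => p i ^ q) * vecMulVec r (ε • fun i => r i ^ q) =
      c • vecMulVec r (ε • fun i => r i ^ q) := by
  obtain ⟨c, hc⟩ := (hL (ε ^ 2 * (hermForm N F q r p * hermForm N F q p r))).1 (by
    rw [map_mul, map_mul, map_pow, hε, ← hf_symm, ← hf_symm]; ring)
  refine ⟨c, hc, ?_, ?_⟩ <;>
  · rw [vv3, ← algebraMap_smul F c, hc, smul_dotProduct, smul_dotProduct, hf_dot, hf_dot]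
    congr 1; simp only [smul_eq_mul]; ring

omit hL hε in
theorem tu_comm {p r : Fin N → F} (h : ε ^ 2 * (hermForm N F q r p * hermForm N F q p r) = 0) :
    vecMulVec p (ε • fun i => p i ^ q) * vecMulVec r (ε • fun i => r i ^ q) =
      vecMulVec r (ε • fun i => r i ^ q) * vecMulVec p (ε • fun i => p i ^ q) := by
  have : hermForm N F q p r = 0 := by rw [hf_symm hF r p] at h; simpa [h0] using h
  have h' : hermForm N F q r p = 0 := by rw [hf_symm hF, this, map_zero]
  rw [vv_mul, vv_mul, smul_dotProduct, smul_dotProduct, hf_dot, hf_dot, this, h']; simp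

theorem famU : Fam L (ιU F q N) (TU q N ε) where
  inj := Subtype.val_injective.comp Subtype.val_injective
  sq := by rintro _ ⟨p, -, h, rfl⟩; rw [vv_mul, smul_dotProduct, hf_dot, h]; simp
  ne := by rintro _ ⟨p, h, -, rfl⟩; simp [h, h0, bar_ne hF h]
  ex := by
    rintro _ ⟨p, -, h, rfl⟩ c
    refine ⟨⟨⟨1 + c • vecMulVec p (ε • fun i => p i ^ q), ?_⟩, fun u v => ?_⟩, rfl⟩
    · rw [← algebraMap_smul F c, ← vecMulVec_smul, det_vv, smul_dotProduct, smul_dotProduct, hf_dot, h]; simp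
    · show hermForm N F q ((1 + c • _) *ᵥ u) ((1 + c • _) *ᵥ v) = _
      simp only [← algebraMap_smul F c, add_mulVec, one_mulVec, smul_mulVec, tu_app, hf_addl, hf_addr hF,
        hf_smull, hf_smulr hF, h, map_mul, hε, ← hf_symm hF, (hL _).2 ⟨c, rfl⟩]
      ring
  cj := by
    rintro _ ⟨p, h, h1, rfl⟩ g
    refine ⟨ιU F q N g *ᵥ p, fun e => h ?_, by rw [U_pres, h1], mat_ext fun v => ?_⟩
    · have := congrArg (ιU F q N g⁻¹ *ᵥ ·) e
      simpa only [mulVec_mulVec, mulVec_zero, ι_im, one_mulVec] using this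
    · rw [← mulVec_mulVec, ← mulVec_mulVec, tu_app, tu_app, mulVec_smul, ← U_pres g, mulVec_mulVec, ι_mi,
        one_mulVec]
  tri := by
    rintro _ ⟨p, -, -, rfl⟩ _ ⟨r, -, -, rfl⟩
    obtain ⟨c, hc, e1, e2⟩ := tu3 hF hL hε p r
    exact ⟨c, e1, e2, fun e => Or.inl (tu_comm hF h0 (by rw [← hc, e, map_zero]))⟩

theorem degU : ∀ α ∈ TU q N ε, ∀ β ∈ TU q N ε, α * β * α = 0 → α * β = β * α := by
  rintro _ hα _ ⟨r, -, -, rfl⟩ e
  have := (famU hF hL h0 hε).ne _ hα
  obtain ⟨p, -, -, rfl⟩ := hα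
  obtain ⟨c, hc, e1, -⟩ := tu3 hF hL hε p r
  rw [e1] at e
  exact tu_comm hF h0 (by rw [← hc, smul_eq0 this e, map_zero])

theorem oppU {p r : Fin N → F} (h : hermForm N F q r p ≠ 0) :
    Opp L (vecMulVec p (ε • fun i => p i ^ q)) (vecMulVec r (ε • fun i => r i ^ q)) := by
  obtain ⟨c, hc, e1, e2⟩ := tu3 hF hL hε p r
  refine ⟨c, ?_, e1, e2⟩
  rintro rfl
  rw [hf_symm hF p r] at hc
  simp [h0, h] at hc

theorem connU : ∀ α ∈ TU q N ε, ∀ β ∈ TU q N ε,
    Relation.ReflTransGen (fun a b => a ∈ TU q N ε ∧ b ∈ TU q N ε ∧ Opp L a b) α β := by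
  rintro _ ⟨p, p0, hp, rfl⟩ _ ⟨r, r0, hr, rfl⟩
  by_cases h : hermForm N F q r p = 0
  · obtain ⟨w, h1, h2⟩ := ex_dot2 (bar_ne hF p0) (bar_ne hF r0)
    rw [hf_dot] at h1 h2
    obtain ⟨x, hx⟩ := H4.exists_trace_eq_q hF (μ := -hermForm N F q w w) (by
      rw [← H4.frobq_apply hF, map_neg, ← hf_symm])
    rw [← H4.frobq_apply hF] at hx
    have h' : hermForm N F q p r = 0 := by rw [hf_symm hF, h, map_zero]
    have h1' : hermForm N F q p w ≠ 0 := by rw [hf_symm hF]; simpa using h1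
    set z := w + (x / hermForm N F q p w) • p with hz
    have e1 : hermForm N F q z p ≠ 0 := by rw [hz, hf_addl, hf_smull, hp]; simpa using h1
    have e2 : hermForm N F q z r ≠ 0 := by rw [hz, hf_addl, hf_smull, h']; simpa using h2
    have m : vecMulVec z (ε • fun i => z i ^ q) ∈ TU q N ε := by
      refine ⟨z, by rintro e; rw [e] at e1; simp [hermForm] at e1, ?_, rfl⟩
      simp only [hz, hf_addl, hf_addr hF, hf_smull, hf_smulr hF, hp, map_div₀, ← hf_symm hF]
      rw [div_mul_cancel₀ _ h1', mul_zero, add_zero, div_mul_cancel₀ _ h1]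
      linear_combination hx
    exact (Relation.ReflTransGen.single ⟨⟨p, p0, hp, rfl⟩, m, oppU hF hL h0 hε e1⟩).tail
      ⟨m, ⟨r, r0, hr, rfl⟩, oppU hF hL h0 hε (by rw [hf_symm hF]; simpa using e2)⟩
  · exact .single ⟨⟨p, p0, hp, rfl⟩, ⟨r, r0, hr, rfl⟩, oppU hF hL h0 hε h⟩

theorem setU : {A : Subgroup (SU N F q) | ∃ p : Fin N → F, p ≠ 0 ∧ hermForm N F q p p = 0 ∧
    A = Subgroup.closure {g : SU N F q |
      (∀ v : Fin N → F, ∃ c : F, ((g : SpecialLinearGroup (Fin N) F) : Matrix (Fin N) (Fin N) F) *ᵥ v = v + c • p) ∧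
      ∀ v : Fin N → F, hermForm N F q v p = 0 →
        ((g : SpecialLinearGroup (Fin N) F) : Matrix (Fin N) (Fin N) F) *ᵥ v = v}} =
    RR L (ιU F q N) '' TU q N ε := by
  have e : ∀ p : Fin N → F, p ≠ 0 → hermForm N F q p p = 0 → Subgroup.closure {g : SU N F q |
      (∀ v : Fin N → F, ∃ c : F, ((g : SpecialLinearGroup (Fin N) F) : Matrix (Fin N) (Fin N) F) *ᵥ v = v + c • p) ∧
      ∀ v : Fin N → F, hermForm N F q v p = 0 →
        ((g : SpecialLinearGroup (Fin N) F) : Matrix (Fin N) (Fin N) F) *ᵥ v = v} =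
      RR L (ιU F q N) (vecMulVec p (ε • fun i => p i ^ q)) := fun p p0 hp => by
    unfold RR; congr 1; ext g
    have : ∀ (c : L) v, (1 + c • vecMulVec p (ε • fun i => p i ^ q)) *ᵥ v =
        v + (algebraMap L F c * (ε * hermForm N F q v p)) • p := fun c v => by
      rw [add_mulVec, one_mulVec, ← algebraMap_smul F c, smul_mulVec, tu_app, smul_smul]
    constructor
    · rintro ⟨h1, h2⟩
      change ∀ v, ∃ c, ιU F q N g *ᵥ v = _ at h1
      change ∀ v, _ → ιU F q N g *ᵥ v = _ at h2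
      obtain ⟨x, hx⟩ := ex_dot (bar_ne hF p0)
      rw [hf_dot] at hx
      obtain ⟨l, hl⟩ := h1 x
      have u := U_pres g x x
      simp only [hl, hf_addl, hf_addr hF, hf_smull, hf_smulr hF, hp, hf_symm hF p x] at u
      have hx' : H4.frobq hF (hermForm N F q x p) ≠ 0 := by simpa using hx
      obtain ⟨c, hc⟩ := (hL (l / (ε * hermForm N F q x p))).1 (by
        rw [map_div₀, map_mul, hε]; field_simp; linear_combination -u)
      refine ⟨c, mat_ext fun v => ?_⟩
      have h3 := h2 (v + (-(hermForm N F q v p / hermForm N F q x p)) • x) (by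
        rw [hf_addl, hf_smull]; field_simp; ring)
      rw [mulVec_add, mulVec_smul, hl] at h3
      rw [this, hc, show l / (ε * hermForm N F q x p) * (ε * hermForm N F q v p) =
        hermForm N F q v p / hermForm N F q x p * l by field_simp]
      linear_combination (norm := module) h3
    · rintro ⟨c, hc⟩
      change (∀ v, ∃ c, ιU F q N g *ᵥ v = _) ∧ ∀ v, _ → ιU F q N g *ᵥ v = _
      exact ⟨fun v => ⟨_, by rw [hc, this]⟩, fun v hv => by rw [hc, this, hv]; simp⟩
  ext A
  exact ⟨fun ⟨p, h, h', e'⟩ => ⟨_, ⟨p, h, h', rfl⟩, by rw [e', e p h h']⟩,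
    by rintro ⟨_, ⟨p, h, h', rfl⟩, rfl⟩; exact ⟨p, h, h', (e p h h').symm⟩⟩

omit hL h0 hε in
theorem neU (n : ℕ) : (TU q (n + 2) ε).Nonempty := by
  obtain ⟨a, ha⟩ := H4.exists_norm_eq hF (μ := -1) (by rw [← H4.frobq_apply hF]; simp)
  refine ⟨_, Pi.single 0 1 + a • Pi.single 1 1, fun e => by simpa using congrFun e 0, ?_, rfl⟩
  have : ∀ i j : Fin (n + 2), hermForm (n + 2) F q (Pi.single i 1) (Pi.single j 1) = if i = j then 1 else 0 :=
    fun i j => by
      rw [← hf_dot, dotProduct_single, ← H4.frobq_apply hF, Pi.single_apply]; split_ifs <;> simp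
  simp only [hf_addl, hf_addr hF, hf_smull, hf_smulr hF, this, H4.frobq_apply]
  simp; linear_combination ha

omit hL h0 hε in
theorem exL : ∃ (L : Type) (_ : Field L) (_ : Fintype L) (_ : Algebra L F), Fintype.card L = q ∧
    ∀ x, H4.frobq hF x = x ↔ ∃ c : L, algebraMap L F c = x := by
  let K : Subfield F := (H4.frobq hF).eqLocusField (RingHom.id F)
  let e : Shrink.{0} K ≃+* K := (equivShrink.{0} K).symm.ringEquiv
  haveI : Finite (Shrink.{0} K) := Finite.of_equiv _ e.symm.toEquiv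
  refine ⟨Shrink.{0} K, inferInstance, Fintype.ofFinite _, (K.subtype.comp e.toRingHom).toAlgebra, ?_, fun x => ?_⟩
  · letI := Fintype.ofFinite (Shrink.{0} K)
    rw [← Nat.card_eq_fintype_card, Nat.card_congr e.toEquiv]
    exact (Nat.card_congr (Equiv.refl _)).trans (H4.card_ker_T_uKind hF).2
  · exact ⟨fun h => ⟨e.symm ⟨x, h⟩, by show ((e (e.symm _) : K) : F) = x; simp⟩,
      by rintro ⟨c, rfl⟩; exact (e c).2⟩

end H5.RT
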