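import Cfsg.Agent.H5.RT2

/-! Siegel transvection subgroups. -/

namespace H5.RT
open Cfsg Cfsg.IsRankOnePair Matrix H5.RS
open scoped commutatorElement MatrixGroups

variable {F : Type*} [Field F] {n : ℕ}

/-- polar form -/
def Bo (u v : Fin n ⊕ Fin n → F) : F := (u ∘ Sum.swap) ⬝ᵥ v

theorem Bo_eq (u v : Fin n ⊕ Fin n → F) :
    Bo u v = ∑ i, (u (.inr i) * v (.inl i) + u (.inl i) * v (.inr i)) := by
  simp [Bo, dotProduct, Fintype.sum_sum_type, Finset.sum_add_distrib]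

variable {p r s t u v w x y : Fin n ⊕ Fin n → F}

theorem Bo_comm (u v : Fin n ⊕ Fin n → F) : Bo u v = Bo v u := by
  rw [Bo_eq, Bo_eq]; exact Finset.sum_congr rfl fun i _ => by ring
theorem Bo_addr : Bo u (v + w) = Bo u v + Bo u w := dotProduct_add ..
theorem Bo_subr : Bo u (v - w) = Bo u v - Bo u w := dotProduct_sub ..
theorem Bo_negr : Bo u (-v) = -Bo u v := dotProduct_neg ..
theorem Bo_smulr {c : F} : Bo u (c • v) = c * Bo u v := dotProduct_smul ..
theorem Bo_addl : Bo (v + w) u = Bo v u + Bo w u := add_dotProduct (v ∘ Sum.swap) (w ∘ Sum.swap) u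
theorem Bo_subl : Bo (v - w) u = Bo v u - Bo w u := sub_dotProduct (v ∘ Sum.swap) (w ∘ Sum.swap) u
theorem Bo_negl : Bo (-v) u = -Bo v u := neg_dotProduct (v ∘ Sum.swap) u
theorem Bo_smull {c : F} : Bo (c • v) u = c * Bo v u := smul_dotProduct c (v ∘ Sum.swap) u

theorem Q_add : quadFormPlus n F (u + v) = quadFormPlus n F u + quadFormPlus n F v + Bo u v := by
  simp only [quadFormPlus, Bo_eq, ← Finset.sum_add_distrib, Pi.add_apply]
  exact Finset.sum_congr rfl fun i _ => by ring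
theorem Q_smul {c : F} : quadFormPlus n F (c • u) = c ^ 2 * quadFormPlus n F u := by
  simp only [quadFormPlus, Finset.mul_sum, Pi.smul_apply, smul_eq_mul]
  exact Finset.sum_congr rfl fun i _ => by ring
theorem Q_sub : quadFormPlus n F (u - v) = quadFormPlus n F u + quadFormPlus n F v - Bo u v := by
  rw [sub_eq_add_neg, ← neg_one_smul F v, Q_add, Q_smul, Bo_smulr]; ring
theorem Bo_self : Bo u u = 2 * quadFormPlus n F u := by
  simp only [quadFormPlus, Bo_eq, Finset.mul_sum]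
  exact Finset.sum_congr rfl fun i _ => by ring

theorem sw_ne (h : u ≠ 0) : u ∘ Sum.swap ≠ 0 := fun e => h (by
  ext i; simpa using congrFun e i.swap)

theorem Bo_ext (h : ∀ x, Bo u x = Bo v x) : u = v := by
  by_contra hn
  obtain ⟨x, hx⟩ := ex_dot (sw_ne (sub_ne_zero.2 hn))
  exact hx (show Bo (u - v) x = 0 by rw [Bo_subl, h, sub_self])

/-- singular lines -/
structure Ln (p r : Fin n ⊕ Fin n → F) : Prop where
  ind : ∀ a b : F, a • p + b • r = 0 → a = 0 ∧ b = 0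
  qp : quadFormPlus n F p = 0
  qr : quadFormPlus n F r = 0
  pr : Bo p r = 0

theorem Ln.pp (h : Ln p r) : Bo p p = 0 := by rw [Bo_self, h.qp, mul_zero]
theorem Ln.rr (h : Ln p r) : Bo r r = 0 := by rw [Bo_self, h.qr, mul_zero]
theorem Ln.rp (h : Ln p r) : Bo r p = 0 := by rw [Bo_comm, h.pr]
theorem Ln.p0 (h : Ln p r) : p ≠ 0 := fun e => one_ne_zero (h.ind 1 0 (by simp [e])).1

theorem ln_iff : (LinearIndependent F ![p, r] ∧ quadFormPlus n F p = 0 ∧ quadFormPlus n F r = 0 ∧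
    quadFormPlus n F (p + r) = 0) ↔ Ln p r := by
  rw [LinearIndependent.pair_iff, Q_add]
  exact ⟨fun ⟨a, b, c, d⟩ => ⟨a, b, c, by simpa [b, c] using d⟩,
    fun h => ⟨h.ind, h.qp, h.qr, by simp [h.qp, h.qr, h.pr]⟩⟩

/-- Siegel matrix -/
def al (p r : Fin n ⊕ Fin n → F) : Matrix (Fin n ⊕ Fin n) (Fin n ⊕ Fin n) F :=
  vecMulVec r (p ∘ Sum.swap) - vecMulVec p (r ∘ Sum.swap)

theorem al_app : al p r *ᵥ v = Bo p v • r - Bo r v • p := by
  rw [al, sub_mulVec, vv_mulVec, vv_mulVec]; rfl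

theorem Ln.swap (h : Ln p r) : Ln r (-p) where
  ind a b e := by
    have := h.ind (-b) a (by rw [← e]; module)
    exact ⟨this.2, neg_eq_zero.1 this.1⟩
  qp := h.qr
  qr := by rw [← neg_one_smul F p, Q_smul, h.qp, mul_zero]
  pr := by rw [Bo_negr, h.rp, neg_zero]

theorem al_swap : al r (-p) = al p r := mat_ext fun v => by
  rw [al_app, al_app, Bo_negl]; module

theorem Ln.shift (h : Ln p r) (c : F) : Ln (p - c • r) r where
  ind a b e := by
    have := h.ind a (b - a * c) (by rw [← e]; module)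
    exact ⟨this.1, by simpa [this.1] using this.2⟩
  qp := by rw [Q_sub, Q_smul, Bo_smulr, h.qp, h.qr, h.pr]; ring
  qr := h.qr
  pr := by rw [Bo_subl, Bo_smull, h.pr, h.rr]; ring

theorem al_shift (c : F) : al (p - c • r) r = al p r := mat_ext fun v => by
  rw [al_app, al_app, Bo_subl, Bo_smull]; module

theorem al3 : al p r * al s t * al p r = (Bo p t * Bo r s - Bo p s * Bo r t) • al p r := mat_ext fun v => by
  simp only [← mulVec_mulVec, smul_mulVec, al_app, Bo_subr, Bo_smulr, Bo_comm s p, Bo_comm s r, Bo_comm t p,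
    Bo_comm t r]
  module

theorem al_opp (h : Bo p t * Bo r s - Bo p s * Bo r t ≠ 0) : Opp F (al p r) (al s t) :=
  ⟨_, h, al3, by rw [al3, Bo_comm s r, Bo_comm t p, Bo_comm s p, Bo_comm t r, mul_comm (Bo r s)]⟩

variable (F n) in
/-- Siegel matrices -/
def TO : Set (Matrix (Fin n ⊕ Fin n) (Fin n ⊕ Fin n) F) := {α | ∃ p r, Ln p r ∧ α = al p r}

theorem nf0 (h1 : Ln p r) (h2 : Ln s t) (hd : Bo p t * Bo r s - Bo p s * Bo r t = 0) (h : Bo r t ≠ 0) :
    ∃ p' r' s' t', Ln p' r' ∧ Ln s' t' ∧ al p r = al p' r' ∧ al s t = al s' t' ∧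
      Bo p' s' = 0 ∧ Bo p' t' = 0 ∧ Bo r' s' = 0 := by
  refine ⟨_, _, _, _, h1.shift (Bo p t / Bo r t), h2.shift (Bo r s / Bo r t), (al_shift _).symm,
    (al_shift _).symm, ?_, ?_, ?_⟩ <;> simp only [Bo_subl, Bo_subr, Bo_smull, Bo_smulr] <;> field_simp
  · linear_combination -hd
  · ring
  · ring

theorem nf {α β : Matrix (Fin n ⊕ Fin n) (Fin n ⊕ Fin n) F} (hα : α ∈ TO F n) (hβ : β ∈ TO F n) : Opp F α β ∨
    ∃ p r s t, Ln p r ∧ Ln s t ∧ α = al p r ∧ β = al s t ∧ Bo p s = 0 ∧ Bo p t = 0 ∧ Bo r s = 0 := by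
  obtain ⟨p, r, h1, rfl⟩ := hα
  obtain ⟨s, t, h2, rfl⟩ := hβ
  by_cases hd : Bo p t * Bo r s - Bo p s * Bo r t = 0
  · right
    by_cases a : Bo r t = 0
    · by_cases b : Bo r s = 0
      · by_cases c : Bo p t = 0
        · by_cases d : Bo p s = 0
          · exact ⟨p, r, s, t, h1, h2, rfl, rfl, d, c, b⟩
          · rw [← al_swap, ← al_swap (p := s)]
            exact nf0 h1.swap h2.swap (by simp only [Bo_negl, Bo_negr]; linear_combination hd)
              (by simpa only [Bo_negl, Bo_negr, neg_neg] using d)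
        · rw [← al_swap]
          exact nf0 h1.swap h2 (by simp only [Bo_negl]; linear_combination hd)
            (by simpa only [Bo_negl, neg_ne_zero] using c)
      · rw [← al_swap (p := s)]
        exact nf0 h1 h2.swap (by simp only [Bo_negr]; linear_combination hd)
          (by simpa only [Bo_negr, neg_ne_zero] using b)
    · exact nf0 h1 h2 hd a
  · exact Or.inl (al_opp hd)

variable (F n) in
/-- inclusion -/
def ιO : isometryGroup F (quadFormPlus n F) →* Matrix (Fin n ⊕ Fin n) (Fin n ⊕ Fin n) F :=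
  (Units.coeHom _).comp (isometryGroup F (quadFormPlus n F)).subtype

theorem O_Q (g : isometryGroup F (quadFormPlus n F)) (u : Fin n ⊕ Fin n → F) :
    quadFormPlus n F (ιO F n g *ᵥ u) = quadFormPlus n F u := g.2 u u

theorem O_B (g : isometryGroup F (quadFormPlus n F)) (u v : Fin n ⊕ Fin n → F) :
    Bo (ιO F n g *ᵥ u) (ιO F n g *ᵥ v) = Bo u v := by
  have := O_Q g (u + v)
  rw [mulVec_add, Q_add, Q_add, O_Q, O_Q] at this
  exact add_left_cancel this

theorem al_sq (h : Ln p r) : al p r * al p r = 0 := mat_ext fun v => by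
  simp only [← mulVec_mulVec, al_app, Bo_subr, Bo_smulr, h.pp, h.pr, h.rp, h.rr]; simp

theorem al_dep (h : ¬ ∀ a b : F, a • p + b • s = 0 → a = 0 ∧ b = 0) : al p s = 0 := mat_ext fun v => by
  push Not at h
  obtain ⟨a, b, e, h⟩ := h
  have e' : a * Bo p v + b * Bo s v = 0 := by
    rw [← Bo_smull, ← Bo_smull, ← Bo_addl, e]; exact zero_dotProduct v
  rw [al_app, zero_mulVec]
  by_cases ha : a = 0
  · refine (smul_eq_zero.1 (?_ : b • (Bo p v • s - Bo s v • p) = 0)).resolve_left (h ha)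
    linear_combination (norm := module) Bo p v • e - e' • p
  · refine (smul_eq_zero.1 (?_ : a • (Bo p v • s - Bo s v • p) = 0)).resolve_left ha
    linear_combination (norm := module) e' • s - Bo s v • e

theorem famO : Fam F (ιO F n) (TO F n) where
  inj := Units.val_injective.comp Subtype.val_injective
  sq := by rintro _ ⟨p, r, h, rfl⟩; exact al_sq h
  ne := by
    rintro _ ⟨p, r, h, rfl⟩ e
    obtain ⟨x, hx⟩ := ex_dot (sw_ne h.p0)
    have : al p r *ᵥ x = 0 := by rw [e, zero_mulVec]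
    exact hx (h.ind (-Bo r x) (Bo p x) (by rw [← this, al_app]; module)).2
  ex := by
    rintro _ ⟨p, r, h, rfl⟩ c
    refine ⟨⟨⟨1 + c • al p r, 1 + (-c) • al p r, by rw [one_add_mul (al_sq h)]; simp,
      by rw [one_add_mul (al_sq h)]; simp⟩, fun u _ => ?_⟩, rfl⟩
    show quadFormPlus n F ((1 + c • al p r) *ᵥ u) = _
    simp only [add_mulVec, one_mulVec, smul_mulVec, al_app, Q_add, Q_sub, Q_smul, Bo_subr, Bo_smulr, Bo_smull,
      h.qp, h.qr, h.rp, Bo_comm u p, Bo_comm u r]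
    ring
  cj := by
    rintro _ ⟨p, r, h, rfl⟩ g
    refine ⟨ιO F n g *ᵥ p, ιO F n g *ᵥ r, ⟨fun a b e => h.ind a b ?_, by rw [O_Q, h.qp], by rw [O_Q, h.qr],
      by rw [O_B, h.pr]⟩, mat_ext fun v => ?_⟩
    · have := congrArg (ιO F n g⁻¹ *ᵥ ·) e
      simpa only [mulVec_add, mulVec_smul, mulVec_mulVec, mulVec_zero, ι_im, one_mulVec] using this
    · rw [← mulVec_mulVec, ← mulVec_mulVec, al_app, al_app, mulVec_sub, mulVec_smul, mulVec_smul, ← O_B g p,
        ← O_B g r, mulVec_mulVec, ι_mi, one_mulVec]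
  tri α hα β hβ := by
    rcases nf hα hβ with ⟨c, hc, e1, e2⟩ | ⟨p, r, s, t, h1, h2, rfl, rfl, a, b, c⟩
    · exact ⟨c, e1, e2, fun e => (hc e).elim⟩
    · refine ⟨0, by rw [al3, a, b]; simp, by rw [al3, Bo_comm s r, Bo_comm s p, a, c]; simp, fun _ => ?_⟩
      have e : al p r * al s t - al s t * al p r = al (Bo r t • p) s := mat_ext fun v => by
        simp only [sub_mulVec, ← mulVec_mulVec, al_app, Bo_subr, Bo_smulr, Bo_smull, Bo_comm s p, Bo_comm s r,
          Bo_comm t p, Bo_comm t r, a, b, c]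
        module
      by_cases h : ∀ a b : F, a • Bo r t • p + b • s = 0 → a = 0 ∧ b = 0
      · exact Or.inr ⟨_, _, ⟨h, by rw [Q_smul, h1.qp, mul_zero], h2.qp, by rw [Bo_smull, a, mul_zero]⟩, e⟩
      · exact Or.inl (sub_eq_zero.1 (e.trans (al_dep h)))

theorem dual2 (h1 : Ln p r) (h2 : Ln s t) : ∃ x y, Bo p x = 1 ∧ Bo r x = 0 ∧ Bo p y = 0 ∧ Bo r y = 1 ∧
    Bo s y * Bo t x - Bo s x * Bo t y ≠ 0 := by
  obtain ⟨x, a1, a2⟩ := ex_dot2 (sw_ne h1.p0) (sw_ne h2.p0)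
  change Bo p x ≠ 0 at a1
  change Bo s x ≠ 0 at a2
  obtain ⟨y, b1, b2⟩ := ex_dot2 (sw_ne (u := (-Bo r x) • p + Bo p x • r) fun e => a1 (h1.ind _ _ e).2)
    (sw_ne (u := (-Bo t x) • s + Bo s x • t) fun e => a2 (h2.ind _ _ e).2)
  change Bo _ y ≠ 0 at b1 b2
  simp only [Bo_addl, Bo_smull] at b1 b2
  set D := -Bo r x * Bo p y + Bo p x * Bo r y with hD
  refine ⟨D⁻¹ • (Bo r y • x - Bo r x • y), D⁻¹ • (Bo p x • y - Bo p y • x), ?_, ?_, ?_, ?_, ?_⟩ <;>
    simp only [Bo_smulr, Bo_subr]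
  · field_simp; rw [hD]; ring
  · ring
  · ring
  · field_simp; rw [hD]; ring
  · intro e
    apply b2
    field_simp at e
    refine (mul_eq_zero.1 (?_ : D * _ = 0)).resolve_left b1
    rw [hD]; linear_combination -e

/-- adjacency -/
abbrev Ad : Matrix (Fin n ⊕ Fin n) (Fin n ⊕ Fin n) F → Matrix (Fin n ⊕ Fin n) (Fin n ⊕ Fin n) F → Prop :=
  Relation.ReflTransGen fun a b => a ∈ TO F n ∧ b ∈ TO F n ∧ Opp F a b

theorem ad_perp (h1 : Ln p r) (h2 : Ln s t) (a : Bo p s = 0) (b : Bo p t = 0) (c : Bo r s = 0) (d : Bo r t = 0) :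
    Ad (al p r) (al s t) := by
  obtain ⟨x, y, e1, e2, e3, e4, e5⟩ := dual2 h1 h2
  have m : Ln (x - quadFormPlus n F x • p) (y - quadFormPlus n F y • r - Bo x y • p) := by
    refine ⟨fun a b e => ?_, ?_, ?_, ?_⟩
    · have f1 := congrArg (Bo p) e
      have f2 := congrArg (Bo r) e
      simp only [Bo_addr, Bo_subr, Bo_smulr, e1, e2, e3, e4, h1.pp, h1.pr, h1.rp, h1.rr] at f1 f2
      exact ⟨by simpa [Bo] using f1, by simpa [Bo] using f2⟩
    all_goals
      simp only [Q_sub, Q_smul, Bo_subl, Bo_subr, Bo_smulr, Bo_smull, Bo_comm x p, Bo_comm x r, Bo_comm y p,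
        Bo_comm y r, e1, e2, e3, e4, h1.pp, h1.pr, h1.rp, h1.qp, h1.qr]
      ring
  refine (Relation.ReflTransGen.single ⟨⟨_, _, h1, rfl⟩, ⟨_, _, m, rfl⟩, al_opp ?_⟩).tail
    ⟨⟨_, _, m, rfl⟩, ⟨_, _, h2, rfl⟩, al_opp ?_⟩
  · simp only [Bo_subl, Bo_smull, a, b, c, d, mul_zero, sub_zero, Bo_comm x s, Bo_comm x t, Bo_comm y s,
      Bo_comm y t]
    rwa [mul_comm (Bo t x)]
  · simp [Bo_subr, Bo_smulr, e1, e2, e3, e4, h1.pp, h1.pr, h1.rp, h1.rr]

theorem ker2 (hn : 3 ≤ n) (φ ψ : Fin n → F) : ∃ x : Fin n → F, x ≠ 0 ∧ φ ⬝ᵥ x = 0 ∧ ψ ⬝ᵥ x = 0 := by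
  obtain ⟨x, hx, h⟩ := (Submodule.ne_bot_iff _).1 (LinearMap.ker_ne_bot_of_finrank_lt
    (f := (Matrix.of ![φ, ψ]).mulVecLin) (by simp; omega))
  exact ⟨x, h, congrFun hx 0, congrFun hx 1⟩

theorem Bo_l (u : Fin n ⊕ Fin n → F) (x : Fin n → F) : Bo u (Sum.elim x 0) = (u ∘ .inr) ⬝ᵥ x := by
  simp [Bo_eq, dotProduct]
theorem Bo_r (u : Fin n ⊕ Fin n → F) (x : Fin n → F) : Bo u (Sum.elim 0 x) = (u ∘ .inl) ⬝ᵥ x := by
  simp [Bo_eq, dotProduct]

theorem third (hn : 3 ≤ n) (h : Ln p r) : ∃ w, quadFormPlus n F w = 0 ∧ Bo p w = 0 ∧ Bo r w = 0 ∧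
    ∀ a b : F, w ≠ a • p + b • r := by
  by_contra hc
  push Not at hc
  obtain ⟨x, x0, x1, x2⟩ := ker2 hn (p ∘ .inr) (r ∘ .inr)
  obtain ⟨y, y0, y1, y2⟩ := ker2 hn (p ∘ .inl) (r ∘ .inl)
  obtain ⟨a, b, e1⟩ := hc (Sum.elim x 0) (by simp [quadFormPlus]) (by rw [Bo_l, x1]) (by rw [Bo_l, x2])
  obtain ⟨c, d, e2⟩ := hc (Sum.elim 0 y) (by simp [quadFormPlus]) (by rw [Bo_r, y1]) (by rw [Bo_r, y2])
  have k : ∀ a b : F, a • (Sum.elim x 0 : Fin n ⊕ Fin n → F) = b • Sum.elim (0 : Fin n → F) y → a = 0 := fun a b e => by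
    refine (smul_eq_zero.1 (?_ : a • x = 0)).resolve_right x0
    ext i; simpa using congrFun e (.inl i)
  have D : a * d - b * c ≠ 0 := fun D => by
    have f1 := k d b (by rw [e1, e2]; linear_combination (norm := module) D • p)
    have f2 := k c a (by rw [e1, e2]; linear_combination (norm := module) -D • r)
    apply y0; ext i
    simpa [f1, f2] using congrFun e2 (.inr i)
  obtain ⟨χ, hχ⟩ := ex_dot x0
  obtain ⟨z, z0, z1, z2⟩ := ker2 hn y χ
  have g1 : Bo (a • p + b • r) (Sum.elim z 0) = 0 := by rw [← e1, Bo_l]; simp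
  have g2 : Bo (c • p + d • r) (Sum.elim z 0) = 0 := by rw [← e2, Bo_l]; simpa using z1
  simp only [Bo_addl, Bo_smull] at g1 g2
  obtain ⟨e, f, e3⟩ := hc (Sum.elim z 0) (by simp [quadFormPlus])
    ((mul_eq_zero.1 (by linear_combination d * g1 - b * g2)).resolve_left D)
    ((mul_eq_zero.1 (by linear_combination a * g2 - c * g1)).resolve_left D)
  have e4 : (a * d - b * c) • (Sum.elim z 0 : Fin n ⊕ Fin n → F) =
      (e * d - f * c) • Sum.elim x (0 : Fin n → F) + (f * a - e * b) • Sum.elim (0 : Fin n → F) y := by rw [e1, e2, e3]; module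
  have e5 : (a * d - b * c) • z = (e * d - f * c) • x := by ext i; simpa using congrFun e4 (.inl i)
  have e6 := congrArg (χ ⬝ᵥ ·) e5
  simp only [dotProduct_smul, z2, smul_eq_mul, mul_zero, dotProduct_comm χ x] at e6
  rw [(mul_eq_zero.1 e6.symm).resolve_right hχ, zero_smul] at e5
  exact z0 ((smul_eq_zero.1 e5).resolve_left D)

theorem connO (hn : 3 ≤ n) : ∀ α ∈ TO F n, ∀ β ∈ TO F n, Ad α β := by
  intro α hα β hβ
  rcases nf hα hβ with h | ⟨p, r, s, t, h1, h2, rfl, rfl, a, b, c⟩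
  · exact .single ⟨hα, hβ, h⟩
  by_cases d : Bo r t = 0
  · exact ad_perp h1 h2 a b c d
  by_cases h : ∀ a b : F, a • p + b • s = 0 → a = 0 ∧ b = 0
  · have m : Ln p s := ⟨h, h1.qp, h2.qp, a⟩
    exact (ad_perp h1 m h1.pp a h1.rp c).trans (ad_perp m h2 a b h2.pp h2.pr)
  push Not at h
  obtain ⟨x, y, e, h⟩ := h
  have y0 : y ≠ 0 := fun y0 => by
    rw [y0, zero_smul, add_zero] at e
    exact h ((smul_eq_zero.1 e).resolve_right h1.p0) y0
  obtain ⟨w, w1, w2, w3, w4⟩ := third hn h1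
  have m : Ln p (w - (Bo w t / Bo r t) • r) := by
    refine ⟨fun a b e => ?_, h1.qp, ?_, ?_⟩
    · have b0 : b = 0 := by
        by_contra b0
        refine w4 (-a / b) (Bo w t / Bo r t) (smul_right_injective _ b0 ?_)
        simp only [smul_add, smul_smul, mul_div_cancel₀ _ b0]
        linear_combination (norm := module) e
      rw [b0, zero_smul, add_zero] at e
      exact ⟨(smul_eq_zero.1 e).resolve_right h1.p0, b0⟩
    · rw [Q_sub, Q_smul, Bo_smulr, Bo_comm w r, w1, w3, h1.qr]; ring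
    · rw [Bo_subr, Bo_smulr, w2, h1.pr]; ring
  have f : Bo w s = 0 := by
    have := congrArg (Bo w) e
    rw [Bo_addr, Bo_smulr, Bo_smulr, Bo_comm w p, w2] at this
    simpa [Bo, y0] using this
  exact (ad_perp h1 m h1.pp m.pr h1.rp (by rw [Bo_subr, Bo_smulr, w3, h1.rr]; ring)).trans
    (ad_perp m h2 a b (by rw [Bo_subl, Bo_smull, f, c]; ring) (by rw [Bo_subl, Bo_smull]; field_simp; ring))

theorem setO0 (h : Ln p r) : Subgroup.closure {σ : isometryGroup F (quadFormPlus n F) | ∀ v : Fin n ⊕ Fin n → F,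
    quadFormPlus n F (v + p) - quadFormPlus n F v - quadFormPlus n F p = 0 →
    quadFormPlus n F (v + r) - quadFormPlus n F v - quadFormPlus n F r = 0 →
    ((σ : GeneralLinearGroup (Fin n ⊕ Fin n) F) : Matrix (Fin n ⊕ Fin n) (Fin n ⊕ Fin n) F) *ᵥ v = v} =
    RR F (ιO F n) (al p r) := by
  have e : ∀ v p, quadFormPlus n F (v + p) - quadFormPlus n F v - quadFormPlus n F p = Bo p v := fun v p => by
    rw [Q_add, Bo_comm]; ring
  unfold RR; congr 1; ext g
  simp only [e, Set.mem_ofPred_eq]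
  change (∀ v, _ → _ → ιO F n g *ᵥ v = v) ↔ _
  refine ⟨fun hg => ?_, fun ⟨c, hc⟩ v h1 h2 => by
    rw [hc, add_mulVec, one_mulVec, smul_mulVec, al_app, h1, h2]; simp⟩
  obtain ⟨x, y, e1, e2, e3, e4, -⟩ := dual2 h h
  have f : ∀ v, ιO F n g *ᵥ (v - Bo p v • x - Bo r v • y) = v - Bo p v • x - Bo r v • y := fun v =>
    hg _ (by simp [Bo_subr, Bo_smulr, e1, e3]) (by simp [Bo_subr, Bo_smulr, e2, e4])
  have k : ∀ z, ∃ a b : F, ιO F n g *ᵥ z = z + a • p + b • r := fun z => by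
    refine ⟨Bo (ιO F n g *ᵥ z - z) x, Bo (ιO F n g *ᵥ z - z) y, Bo_ext fun v => ?_⟩
    have := O_B g z (v - Bo p v • x - Bo r v • y)
    rw [f] at this
    simp only [Bo_subr, Bo_smulr, Bo_addl, Bo_smull, Bo_subl] at this ⊢
    linear_combination this
  obtain ⟨a, b, hx⟩ := k x
  obtain ⟨c, d, hy⟩ := k y
  have q1 := O_Q g x
  have q2 := O_Q g y
  have q3 := O_B g x y
  simp only [hx, hy, Q_add, Q_smul, Bo_addl, Bo_addr, Bo_smull, Bo_smulr, h.qp, h.qr, h.pp, h.pr, h.rp, h.rr,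
    Bo_comm x p, Bo_comm x r, Bo_comm y p, Bo_comm y r, e1, e2, e3, e4] at q1 q2 q3
  have a0 : a = 0 := by linear_combination q1
  have d0 : d = 0 := by linear_combination q2
  have c0 : c = -b := by linear_combination q3
  refine ⟨b, mat_ext fun v => ?_⟩
  have := f v
  rw [mulVec_sub, mulVec_sub, mulVec_smul, mulVec_smul, hx, hy, a0, d0, c0] at this
  rw [add_mulVec, one_mulVec, smul_mulVec, al_app]
  linear_combination (norm := module) this

theorem setO : {A : Subgroup (isometryGroup F (quadFormPlus n F)) | ∃ p r : Fin n ⊕ Fin n → F,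
    LinearIndependent F ![p, r] ∧ quadFormPlus n F p = 0 ∧ quadFormPlus n F r = 0 ∧ quadFormPlus n F (p + r) = 0 ∧
    A = Subgroup.closure {σ : isometryGroup F (quadFormPlus n F) | ∀ v : Fin n ⊕ Fin n → F,
    quadFormPlus n F (v + p) - quadFormPlus n F v - quadFormPlus n F p = 0 →
    quadFormPlus n F (v + r) - quadFormPlus n F v - quadFormPlus n F r = 0 →
    ((σ : GeneralLinearGroup (Fin n ⊕ Fin n) F) : Matrix (Fin n ⊕ Fin n) (Fin n ⊕ Fin n) F) *ᵥ v = v}} =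
    RR F (ιO F n) '' TO F n := by
  ext A
  constructor
  · rintro ⟨p, r, a, b, c, d, rfl⟩
    have h := ln_iff.1 ⟨a, b, c, d⟩
    exact ⟨_, ⟨p, r, h, rfl⟩, (setO0 h).symm⟩
  · rintro ⟨_, ⟨p, r, h, rfl⟩, rfl⟩
    obtain ⟨a, b, c, d⟩ := ln_iff.2 h
    exact ⟨p, r, a, b, c, d, (setO0 h).symm⟩

end H5.RT
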