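import Cfsg.Agent.H5.RT3
import Cfsg.Agent.H5.RT4
import Cfsg.Agent.S0780
import Cfsg.Prelude.Def_SporadicB

/-! Transvections over the field with two elements as 3-transpositions. -/

namespace H5.RT
open Cfsg Cfsg.IsRankOnePair Matrix H5.RS
open scoped commutatorElement MatrixGroups

variable {k : Type*} [Field k]

theorem eq_one2 (h2 : Nat.card k = 2) {x : k} (hx : x ≠ 0) : x = 1 := by
  obtain ⟨y, -, hy⟩ := (Nat.card_eq_two_iff' (0 : k)).1 h2
  exact (hy x hx).trans (hy 1 one_ne_zero).symm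

section
variable {E : Type*} [Ring E] [Algebra k E] {G : Type*} [Group G] {ι : G →* E} {T : Set E} (hT : Fam k ι T)
include hT

theorem Fam.cls2 (h2 : Nat.card k = 2) (hc : IsConjClassOfSubgroups (RR k ι '' T)) {α β : E} (hα : α ∈ T)
    (hβ : β ∈ T) : ∃ g, β = ι g * α * ι g⁻¹ := by
  obtain ⟨g, hg⟩ := hc.2 _ ⟨_, hα, rfl⟩ _ ⟨_, hβ, rfl⟩
  obtain ⟨b, hb⟩ := hT.ex β hβ 1
  have m : b ∈ RR k ι β := Subgroup.subset_closure ⟨1, hb⟩
  rw [hg, conj_RR (hT.sq _ hα), mem_RR (hT.sq _ (hT.cj _ hα g))] at m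
  obtain ⟨c, hc⟩ := m
  rw [hb, add_right_inj, one_smul] at hc
  have c0 : c ≠ 0 := by rintro rfl; exact hT.ne _ hβ (by simpa using hc)
  exact ⟨g, by rw [hc, eq_one2 h2 c0, one_smul]⟩

theorem Fam.three (h2 : Nat.card k = 2) (hd : ∀ α ∈ T, ∀ β ∈ T, α * β * α = 0 → α * β = β * α)
    (hn : T.Nonempty) (hc : ∀ α ∈ T, ∀ β ∈ T, ∃ g, β = ι g * α * ι g⁻¹) {D : Set G}
    (hD : ∀ g, g ∈ D ↔ ι g - 1 ∈ T) (hg : Subgroup.closure D = ⊤) : IsThreeTranspositionClass D := by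
  have t : (1 : k) + 1 = 0 := by
    by_contra h; simpa using eq_one2 h2 h
  haveI : CharP k 2 := CharTwo.of_one_ne_zero_of_two_eq_zero one_ne_zero (by rw [← one_add_one_eq_two, t])
  haveI : Finite k := Nat.finite_of_card_ne_zero (by omega)
  refine ⟨⟨fun d hd => hT.inv2 ((hD d).1 hd), fun a ha b hb => ?_⟩, ?_, hg⟩
  · rw [hD] at ha hb
    have cm : a * b = b * a → (a * b) ^ 2 = 1 := fun e => by
      rw [(show Commute a b from e).mul_pow, orderOf_dvd_iff_pow_eq_one.1 (hT.inv2 ha).dvd,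
        orderOf_dvd_iff_pow_eq_one.1 (hT.inv2 hb).dvd, one_mul]
    obtain ⟨c, e1, e2, -⟩ := hT.tri _ ha _ hb
    have ea : ι a = 1 + (1 : k) • (ι a - 1) := by simp
    have eb : ι b = 1 + (1 : k) • (ι b - 1) := by simp
    by_cases c0 : c = 0
    · exact Or.inl (cm (comm_of hT.inj (hT.sq _ ha) (hT.sq _ hb) (hd _ ha _ hb (by rw [e1, c0, zero_smul])) a
        (Subgroup.subset_closure ⟨_, ea⟩) b (Subgroup.subset_closure ⟨_, eb⟩)))
    · right
      rw [eq_one2 h2 c0, one_smul] at e1 e2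
      have br : a * b * a = b * a * b := by
        apply hT.inj
        have h1 := hT.sq _ ha
        have h2 := hT.sq _ hb
        have t1 : ∀ x : E, x + x = 0 := fun x => by rw [← one_smul k x, ← add_smul, t, zero_smul]
        rw [map_mul, map_mul, map_mul, map_mul, ea, eb]
        generalize ι a - 1 = α, ι b - 1 = β at *
        simp only [one_smul, mul_add, add_mul, mul_one, one_mul, e1, e2, h1, h2]
        linear_combination (norm := abel1) t1 α - t1 β
      have ia : a * a = 1 := by rw [← pow_two]; exact orderOf_dvd_iff_pow_eq_one.1 (hT.inv2 ha).dvd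
      have ib : b * b = 1 := by rw [← pow_two]; exact orderOf_dvd_iff_pow_eq_one.1 (hT.inv2 hb).dvd
      calc (a * b) ^ 3 = a * b * a * (b * a * b) := by simp only [pow_succ, pow_zero, one_mul, mul_assoc]
        _ = a * (b * (a * a) * b) * a := by rw [← br]; simp only [mul_assoc]
        _ = 1 := by rw [ia, mul_one, ib, mul_one, ia]
  · obtain ⟨α, hα⟩ := hn
    obtain ⟨d, hd⟩ := hT.ex α hα 1
    have e : ι d - 1 = α := by simp [hd]
    refine ⟨d, (hD d).2 (e ▸ hα), Set.ext fun x => ⟨fun hx => ?_, fun hx => ?_⟩⟩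
    · obtain ⟨g, hg⟩ := hc _ hα _ ((hD x).1 hx)
      refine isConj_iff.2 ⟨g, hT.inj ?_⟩
      rw [← e, mul_sub, sub_mul, mul_one, ι_mi, ← map_mul, ← map_mul] at hg
      exact (sub_left_injective hg).symm
    · obtain ⟨g, rfl⟩ := isConj_iff.1 hx
      have := hT.cj _ hα g
      rw [← e, mul_sub, sub_mul, mul_one, ι_mi, ← map_mul, ← map_mul] at this
      exact (hD _).2 this
end

variable {n : Type*} [Fintype n] [DecidableEq n]

theorem rank_one {A : Matrix n n k} : A.rank = 1 ↔ ∃ v φ : n → k, v ≠ 0 ∧ φ ≠ 0 ∧ A = vecMulVec v φ := by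
  have z : ∀ B : Matrix n n k, B.rank = 0 → B = 0 := fun B h => mat_ext fun v => by
    have := Submodule.finrank_eq_zero.1 h
    rw [zero_mulVec]
    exact (Submodule.eq_bot_iff _).1 this _ ⟨v, rfl⟩
  constructor
  · intro h
    obtain ⟨v, v0, hv⟩ := finrank_eq_one_iff'.1 h
    choose φ hφ using fun j => hv ⟨_, Pi.single j 1, rfl⟩
    have e : A = vecMulVec v.1 φ := by
      ext i j
      have := congrFun (congrArg Subtype.val (hφ j)) i
      simp at this
      rw [vecMulVec_apply, ← this, mul_comm]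
    refine ⟨v, φ, fun e => v0 (Subtype.ext e), ?_, e⟩
    rintro rfl
    rw [e] at h; simp at h
  · rintro ⟨v, φ, v0, φ0, rfl⟩
    have := rank_vecMulVec_le v φ
    have : (vecMulVec v φ).rank ≠ 0 := fun e => by simpa [v0, φ0] using z _ e
    omega

theorem dual2' (h2 : Nat.card k = 2) {φ ψ : n → k} (h0 : φ ≠ 0) (h1 : ψ ≠ 0)
    (h : ∀ x y, (φ ⬝ᵥ x) * (ψ ⬝ᵥ y) = (φ ⬝ᵥ y) * (ψ ⬝ᵥ x)) : φ = ψ := by
  obtain ⟨x, a, b⟩ := ex_dot2 h0 h1
  ext i
  have := h x (Pi.single i 1)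
  rw [eq_one2 h2 a, eq_one2 h2 b] at this
  simpa using this.symm

theorem rankSp (h2 : Nat.card k = 2) (g : symplecticGroup n k) :
    ((g : Matrix (n ⊕ n) (n ⊕ n) k) - 1).rank = 1 ↔ (symplecticGroup n k).subtype g - 1 ∈ TP k n := by
  rw [rank_one]
  refine ⟨?_, fun ⟨p, h, e⟩ => ⟨_, _, h, J_ne h, e⟩⟩
  rintro ⟨v, φ, v0, φ0, e⟩
  refine ⟨v, v0, e.trans (congrArg _ (dual2' h2 φ0 (J_ne v0) fun x y => ?_))⟩
  have h := SymplecticGroup.mem_iff'.1 g.2
  have : (J n k *ᵥ (g.1 *ᵥ x)) ⬝ᵥ (g.1 *ᵥ y) = (J n k *ᵥ x) ⬝ᵥ y := by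
    conv_rhs => rw [← h]
    rw [dotProduct_mulVec, ← mulVec_transpose, mulVec_mulVec, mulVec_mulVec]
  rw [eq_add_of_sub_eq' e] at this
  simp only [add_mulVec, one_mulVec, vv_mulVec, mulVec_add, mulVec_smul, add_dotProduct, dotProduct_add,
    smul_dotProduct, dotProduct_smul, J_alt, smul_eq_mul, J_skew x v] at this
  linear_combination this

section U
variable {F : Type*} [Field F] [Fintype F] {q N : ℕ} (hF : Fintype.card F = q ^ 2)
  {L : Type*} [Field L] [Algebra L F] (hL : ∀ x, H4.frobq hF x = x ↔ ∃ c : L, algebraMap L F c = x)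
  {ε : F} (h0 : ε ≠ 0) (hε : H4.frobq hF ε = -ε)
include hL h0 hε
attribute [-simp] H4.frobq_apply

theorem rankU (h2 : Nat.card L = 2) (g : SU N F q) :
    (((g : SpecialLinearGroup (Fin N) F) : Matrix (Fin N) (Fin N) F) - 1).rank = 1 ↔ ιU F q N g - 1 ∈ TU q N ε := by
  rw [rank_one]
  refine ⟨?_, fun ⟨p, h, _, e⟩ => ⟨_, _, h, by simp [h0, bar_ne hF h], e⟩⟩
  rintro ⟨v, φ, v0, φ0, e⟩
  have e' : ιU F q N g = 1 + vecMulVec v φ := eq_add_of_sub_eq' e
  have d : φ ⬝ᵥ v = 0 := by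
    have : (ιU F q N g).det = 1 := g.1.2
    rw [e', det_vv] at this; simpa using this
  have a : ∀ x, ιU F q N g *ᵥ x = x + (φ ⬝ᵥ x) • v := fun x => by rw [e', add_mulVec, one_mulVec, vv_mulVec]
  have hv : hermForm N F q v v = 0 := by
    obtain ⟨x, hx⟩ := ex_dot φ0
    have := U_pres g x v
    rw [a, a, d, zero_smul, add_zero, hf_addl, hf_smull] at this
    simpa [hx] using this
  obtain ⟨α, hα, eα⟩ := (setU hF hL h0 hε).le ⟨v, v0, hv, rfl⟩
  have m : g ∈ RR L (ιU F q N) α := by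
    rw [eα]
    refine Subgroup.subset_closure ⟨fun x => ⟨_, a x⟩, fun x hx => ?_⟩
    obtain ⟨y, hy⟩ := ex_dot (bar_ne hF v0)
    rw [hf_dot] at hy
    have := U_pres g y x
    have hx' : hermForm N F q v x = 0 := by rw [hf_symm hF, hx, map_zero]
    simp only [a, hf_addl, hf_addr hF, hf_smull, hf_smulr hF, hv, hx'] at this
    have : φ ⬝ᵥ x = 0 := by simpa [hy] using this
    exact (a x).trans (by rw [this, zero_smul, add_zero])
  obtain ⟨c, hc⟩ := (mem_RR ((famU hF hL h0 hε).sq _ hα)).1 m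
  have c0 : c ≠ 0 := by
    rintro rfl
    rw [e'] at hc; simp [v0, φ0] at hc
  rw [hc, eq_one2 h2 c0]; simpa using hα
end U

section O
variable {m : Type} [Fintype m] [DecidableEq m] (f : H4.Form (H4.quadKind k) (m → k))

/-- orthogonal transvection matrices -/
def TQ : Set (Matrix m m k) := {α | ∃ v, f.Q v = 1 ∧ α = vecMulVec v (polarVec f.Q v)}

/-- inclusion -/
def ιQ : isometryGroup k f.Q →* Matrix m m k := (Units.coeHom _).comp (isometryGroup k f.Q).subtype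

variable {f}

theorem Q_Q (g : isometryGroup k f.Q) (u : m → k) : f.Q (ιQ f g *ᵥ u) = f.Q u := g.2 u u

theorem Q_B (g : isometryGroup k f.Q) (u v : m → k) : f.B (ιQ f g *ᵥ u) (ιQ f g *ᵥ v) = f.B u v := by
  have := Q_Q g (u + v)
  rw [mulVec_add, H4.quad_Q_add, H4.quad_Q_add, Q_Q, Q_Q] at this
  exact add_left_cancel this

theorem B_sym (u v : m → k) : f.B u v = f.B v u := by
  have := H4.quad_Q_add f u v
  rw [add_comm u, H4.quad_Q_add] at this
  linear_combination -this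

variable (h2 : Nat.card k = 2) (hf : f.ND)
include h2

theorem B_alt (u : m → k) : f.B u u = 0 := by
  have t : (1 : k) + 1 = 0 := by
    by_contra h; simpa using eq_one2 h2 h
  have := H4.quad_Q_add f u u
  rw [← one_smul k u, ← add_smul, t, zero_smul, one_smul, f.Q_zero] at this
  linear_combination -this - f.Q u * t

include hf

omit h2 in
theorem pol_ne {v : m → k} (h : v ≠ 0) : polarVec f.Q v ≠ 0 := fun e => by
  obtain ⟨y, hy⟩ := hf.exists_ne h
  rw [← H4.dot_polarVec, e, zero_dotProduct] at hy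
  exact hy rfl

omit h2 hf in
theorem Q1_ne {v : m → k} (h : f.Q v = 1) : v ≠ 0 := by
  rintro rfl; rw [f.Q_zero] at h; exact zero_ne_one h

theorem famQ : Fam k (ιQ f) (TQ f) where
  inj := Units.val_injective.comp Subtype.val_injective
  sq := by rintro _ ⟨p, -, rfl⟩; rw [vv_mul, H4.dot_polarVec, B_alt h2, zero_smul]
  ne := by rintro _ ⟨p, h, rfl⟩; simp [Q1_ne h, pol_ne hf (Q1_ne h)]
  ex := by
    rintro _ ⟨p, h, rfl⟩ c
    have s : vecMulVec p (polarVec f.Q p) * vecMulVec p (polarVec f.Q p) = 0 := by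
      rw [vv_mul, H4.dot_polarVec, B_alt h2, zero_smul]
    refine ⟨⟨⟨1 + c • _, 1 + (-c) • _, by rw [one_add_mul s]; simp, by rw [one_add_mul s]; simp⟩,
      fun u _ => ?_⟩, rfl⟩
    show f.Q ((1 + c • _) *ᵥ u) = _
    have t : (1 : k) + 1 = 0 := by
      by_contra h; simpa using eq_one2 h2 h
    rw [add_mulVec, one_mulVec, smul_mulVec, vv_mulVec, H4.dot_polarVec, smul_smul, H4.quad_Q_add, H4.quad_Q_smul,
      h, map_smul, B_sym u p, smul_eq_mul]
    by_cases c0 : c = 0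
    · simp [c0]
    · rw [eq_one2 h2 c0]; linear_combination (f.B p u) ^ 2 * t
  cj := by
    rintro _ ⟨p, h, rfl⟩ g
    refine ⟨ιQ f g *ᵥ p, by rw [Q_Q, h], mat_ext fun v => ?_⟩
    rw [← mulVec_mulVec, ← mulVec_mulVec, vv_mulVec, vv_mulVec, H4.dot_polarVec, H4.dot_polarVec, mulVec_smul,
      ← Q_B g, mulVec_mulVec, ι_mi, one_mulVec]
  tri := by
    rintro _ ⟨p, -, rfl⟩ _ ⟨q, -, rfl⟩
    refine ⟨_, vv3 .., by rw [vv3, mul_comm], fun e => Or.inl ?_⟩
    rw [H4.dot_polarVec, H4.dot_polarVec, B_sym q p, mul_self_eq_zero] at e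
    rw [vv_mul, vv_mul, H4.dot_polarVec, H4.dot_polarVec, B_sym q p, e]; simp

theorem threeQ (h4 : Fintype.card m ≠ 4) (hn : ∃ v, f.Q v = 1) : IsThreeTranspositionClass
    {g : isometryGroup k f.Q | (((g : GL m k) : Matrix m m k) - 1).rank = 1} := by
  have t : (1 : k) + 1 = 0 := by
    by_contra h; simpa using eq_one2 h2 h
  have r : ∀ g : isometryGroup k f.Q, (((g : GL m k) : Matrix m m k) - 1).rank = 1 ↔ ιQ f g - 1 ∈ TQ f := fun g => by
    rw [rank_one]
    refine ⟨?_, fun ⟨p, h, e⟩ => ⟨_, _, Q1_ne h, pol_ne hf (Q1_ne h), e⟩⟩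
    rintro ⟨v, φ, v0, φ0, e⟩
    have e' : ιQ f g = 1 + vecMulVec v φ := eq_add_of_sub_eq' e
    have a : ∀ x, ιQ f g *ᵥ x = x + (φ ⬝ᵥ x) • v := fun x => by rw [e', add_mulVec, one_mulVec, vv_mulVec]
    have b : φ = polarVec f.Q v := dual2' h2 φ0 (pol_ne hf v0) fun x y => by
      have := Q_B g x y
      simp only [a, map_add, map_smul, LinearMap.add_apply, f.B_smul_left, B_alt h2, smul_eq_mul, B_sym x v] at this
      rw [H4.dot_polarVec, H4.dot_polarVec]
      change f.B x y + (φ ⬝ᵥ x) * _ + _ * (_ + _ * 0) = _ at this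
      linear_combination this - (φ ⬝ᵥ y) * f.B v x * t
    refine ⟨v, ?_, by rw [← b]; exact e⟩
    obtain ⟨x, hx⟩ := ex_dot φ0
    have := Q_Q g x
    have hx' := eq_one2 h2 hx
    rw [a, hx', one_smul, H4.quad_Q_add, B_sym x v, ← H4.dot_polarVec, ← b, hx'] at this
    linear_combination this - t
  haveI : Finite k := Nat.finite_of_card_ne_zero (by omega)
  refine (famQ h2 hf).three h2 ?_ ?_ ?_ r ?_
  · rintro _ hα _ ⟨q, -, rfl⟩ e
    have := (famQ h2 hf).ne _ hα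
    obtain ⟨p, -, rfl⟩ := hα
    rw [vv3] at e
    replace e := smul_eq0 this e
    rw [H4.dot_polarVec, H4.dot_polarVec, B_sym q p, mul_self_eq_zero] at e
    rw [vv_mul, vv_mul, H4.dot_polarVec, H4.dot_polarVec, B_sym q p, e]; simp
  · obtain ⟨v, hv⟩ := hn; exact ⟨_, v, hv, rfl⟩
  · rintro _ ⟨p, hp, rfl⟩ _ ⟨q, hq, rfl⟩
    obtain ⟨g, hg, e⟩ := H4.Form.witt_one hf (Q1_ne hp) (Q1_ne hq) (hp.trans hq.symm)
    refine ⟨(H4.isometryEquiv f).symm ⟨g, hg⟩, mat_ext fun v => ?_⟩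
    have : ιQ f ((H4.isometryEquiv f).symm ⟨g, hg⟩) *ᵥ p = q := (H4.isometryEquiv_symm_mulVec f _ p).trans e
    generalize (H4.isometryEquiv f).symm ⟨g, hg⟩ = x at this
    rw [← mulVec_mulVec, ← mulVec_mulVec, vv_mulVec, vv_mulVec, H4.dot_polarVec, H4.dot_polarVec, mulVec_smul,
      ← Q_B x p, mulVec_mulVec, ι_mi, one_mulVec, this]
  · refine H4.closure_eq_top_of_equiv (H4.isometryEquiv f) (T := f.reflSet) ?_
      (H4.closure_reflSet hf (Or.inr (by simpa using h4)))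
    rintro _ ⟨v, hv, rfl⟩
    have := (H4.isometryEquiv_eq_reflx f hv).1 (MulEquiv.apply_symm_apply _ _)
    refine (r _).2 ⟨v, eq_one2 h2 hv, ?_⟩
    refine (congrArg (· - 1) this).trans ?_
    beta_reduce
    rw [reflectionMatrix, eq_one2 h2 hv, inv_one, sub_sub_cancel_left, ← neg_smul,
      show (-1 : k) = 1 from neg_eq_of_add_eq_zero_left t, one_smul]
end O

end H5.RT
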