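import Cfsg.Agent.H5.SB2
import Cfsg.Agent.H5.Syl1
import Cfsg.Agent.H5.ConnAll
import Cfsg.Prelude.Def_ParabolicCharacters

/-! The Steinberg character of the Chevalley groups. -/

set_option autoImplicit false

namespace H5
namespace SB

open Cfsg Cfsg.Lie H5.Chev

variable {D : ChevalleyDatum} {F : Type*} [Field F] [Good D] [Conn D]

theorem ex_n {G : Type*} [Group G] (S : StSys D F G) (hS : S.U Set.univ = ⊤) : ∃ n : (S.bn hS).N,
    ∀ x ∈ (S.bn hS).B, (n : G)⁻¹ * x * n ∈ (S.bn hS).B → x ∈ (S.bn hS).N := by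
  obtain ⟨n, hn, h, -⟩ := S.exists_n0
  refine ⟨⟨n, hn⟩, fun x a b => ?_⟩
  obtain ⟨u, hu, c, hc, e⟩ := S.mem_B_iff.1 b
  refine (S.B_inf_N.ge (S.B_inf_B'.le ⟨a, ?_⟩)).2
  rw [show x = n * u * n⁻¹ * (n * c * n⁻¹) by rw [conj_mul, e]; simp [mul_assoc]]
  exact Subgroup.mul_mem_sup (h u hu) (S.N_conj_H hn c hc)

/-- the distinguished generators -/
noncomputable def ee (D : ChevalleyDatum) (F : Type*) [Field F] [Good D] [Conn D] (i : Ix D) :
    ((grpSys D F).bn grpSys_top).S := ⟨_, i, rfl⟩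

theorem ee_surj : Function.Surjective (ee D F) := fun ⟨_, i, rfl⟩ => ⟨i, rfl⟩

theorem par_eq (J : Finset (Ix D)) : (grpSys D F).PJ {i | (i : ℕ) ∈ (J.map Fin.valEmbedding : Set ℕ)} =
    Par (ee D F '' J) := by
  refine congrArg (fun X => (grpSys D F).B ⊔ Subgroup.closure X) (Set.ext fun x => ?_)
  simp only [Set.mem_ofPred_eq, Finset.coe_map, Set.mem_image, Finset.mem_coe, Fin.valEmbedding_apply, Fin.val_inj,
    exists_eq_right, exists_exists_and_eq_and, eq_comm (a := x)]
  rfl

theorem st_eq : D.steinbergCharacter F = St (ee D F) := by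
  ext g
  refine (Finset.sum_bij (fun J _ => J.map Fin.valEmbedding) (fun J _ => ?_) (fun J _ K _ h => Finset.map_injective _ h)
    (fun J h => ⟨Finset.univ.filter fun i => i.1 ∈ J, Finset.mem_univ _, ?_⟩) fun J _ => ?_).symm
  · simp [Finset.subset_iff]
  · ext i
    simp only [Finset.mem_map, Finset.mem_filter, Finset.mem_univ, true_and, Fin.valEmbedding_apply]
    exact ⟨fun ⟨j, a, e⟩ => e ▸ a, fun a => ⟨⟨i, Finset.mem_range.1 (Finset.mem_powerset.1 h a)⟩, a, rfl⟩⟩
  · rw [Finset.card_map, ChevalleyDatum.parabolicIn, parabolicSubgroup_eq, ← StSys.map_PJ (S := grpSys D F)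
      (f := (D.group F).subtype) (fun _ _ => rfl), Subgroup.subgroupOf,
      Subgroup.comap_map_eq_self_of_injective (Subgroup.subtype_injective _), par_eq]

theorem relIndex_eq [Finite F] : ((grpSys D F).bn grpSys_top).N.relIndex ((grpSys D F).bn grpSys_top).B =
    Nat.card F ^ (D.nroots / 2) := by
  haveI := (grpSys D F).finite_of_top grpSys_top grpSys_π_injective
  have := (grpSys D F).card_B
  rw [← Subgroup.inf_relIndex_left]
  change ((grpSys D F).B ⊓ (grpSys D F).N).relIndex (grpSys D F).B = _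
  rw [← Subgroup.index_mul_card ((grpSys D F).H.subgroupOf _), Nat.card_congr (Subgroup.subgroupOfEquivOfLe
    (grpSys D F).H_le_B).toEquiv] at this
  rw [StSys.B_inf_N]
  exact mul_right_cancel₀ Nat.card_pos.ne' this

theorem relIndex_eq' [Finite F] (p : ℕ) [Fact p.Prime] [CharP F p] :
    ((grpSys D F).bn grpSys_top).N.relIndex ((grpSys D F).bn grpSys_top).B =
      p ^ (Nat.card (D.group F)).factorization p := by
  haveI := (grpSys D F).finite_of_top grpSys_top grpSys_π_injective
  obtain ⟨Q, e⟩ := (grpSys D F).exists_sylow p grpSys_top grpSys_π_injective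
  rw [relIndex_eq, ← Q.card_eq_multiplicity, e, (grpSys D F).card_U nil_pos, ncard_pos]

end SB
end H5
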