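import Cfsg.Agent.H5.SB4
import Cfsg.Agent.H5.Syl1

/-! Unipotent elements of the Chevalley groups. -/

set_option autoImplicit false

namespace H5
namespace Chev
namespace SBx

open Cfsg Cfsg.Lie

variable {D : ChevalleyDatum} {F : Type*} [Field F] [Good D] [Conn D]
variable {G : Type*} [Group G] (S : StSys D F G) (hS : S.U Set.univ = ⊤)

theorem spl [Finite F] (p : ℕ) [hp : Fact p.Prime] [CharP F p] (hM : S.HMul) : SB.Spl (S.bn hS) p (S.U {r | Pos r}) where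
  le := S.U_le_B
  pg := S.isPGroup_U p nil_pos
  nrm _ h := S.B_conj_U h
  fac _ h := let ⟨u, a, c, b, e⟩ := S.mem_B_iff.1 h; ⟨u, a, c, S.B_inf_N.ge b, e⟩
  cop h := by
    change p ∣ Nat.card ↥(S.B ⊓ S.N) at h
    rw [S.B_inf_N, ← hM.range_hp] at h
    have := h.trans (Subgroup.card_range_dvd _)
    rw [Nat.card_fun, Nat.card_units] at this
    exact not_dvd_card_sub_one p (hp.out.prime.dvd_of_dvd_pow this)

theorem ex_n0 : ∃ n : (S.bn hS).N,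
    ∀ x ∈ (S.bn hS).B, (n : G)⁻¹ * x * n ∈ (S.bn hS).B → x ∈ (S.bn hS).N := by
  obtain ⟨n, hn, h, -⟩ := S.exists_n0
  refine ⟨⟨n, hn⟩, fun x a b => ?_⟩
  obtain ⟨u, hu, c, hc, e⟩ := S.mem_B_iff.1 b
  refine (S.B_inf_N.ge (S.B_inf_B'.le ⟨a, ?_⟩)).2
  rw [show x = n * u * n⁻¹ * (n * c * n⁻¹) by rw [conj_mul, e]; simp [mul_assoc]]
  exact Subgroup.mul_mem_sup (h u hu) (S.N_conj_H hn c hc)

include hS in
theorem card_unip [Finite G] [Finite F] (p : ℕ) [hp : Fact p.Prime] [CharP F p] (hM : S.HMul) :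
    Nat.card {g : G // ∃ k : ℕ, orderOf g = p ^ k} = Nat.card (S.U {r | Pos r}) ^ 2 := by
  classical
  obtain ⟨n, hn⟩ := ex_n0 S hS
  refine (spl S hS p hM).count (e := fun i : Ix D => ⟨_, i, rfl⟩) (fun ⟨_, i, rfl⟩ => ⟨i, rfl⟩) (fun J => ?_) hn
  have e : SB.Par ((fun i : Ix D => (⟨_, i, rfl⟩ : (S.bn hS).S)) '' J) = S.PJ J := by
    refine congrArg (fun X => S.B ⊔ Subgroup.closure X) (Set.ext fun x => ?_)
    simp only [Set.mem_ofPred_eq, Set.mem_image, exists_exists_and_eq_and, eq_comm (a := x)]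
  obtain ⟨m, hm⟩ := S.φ_surjective (wJ J)
  have m1 : (m : G) ∈ S.PJ J := S.UJ_sup_LJ J ▸ Subgroup.mem_sup_right (S.mem_LJ_of_φ (hm ▸ wJ_mem _))
  have v : ∀ g ∈ S.PJ J, ∀ v ∈ S.UJ J, g * v * g⁻¹ ∈ S.UJ J := fun g a v b =>
    (Subgroup.mem_normalizer_iff.1 (S.PJ_le_normalizer J a) v).1 b
  have l : S.UJ J ≤ S.U {r | Pos r} := S.U_mono fun _ h => h.1
  refine ⟨m, e ▸ m1, S.UJ J, l, e ▸ v, fun u hu => ⟨fun h => ?_, fun h => S.U_le_B (l ?_)⟩⟩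
  · obtain ⟨a, ha, b, hb, rfl⟩ := S.split_U (A := {r | Pos r ∧ r ∉ PhiJ J}) (B := PhiP J) nil_pos
      (fun r => by by_cases r ∈ PhiJ J <;> simp [PhiP, *]) hu
    have h1 : (m : G)⁻¹ * a * m ∈ S.B := S.U_le_B (l (by simpa using v _ (inv_mem m1) a ha))
    have h2 : (m : G)⁻¹ * b * m = 1 := Subgroup.mem_bot.1 (S.V_inf_B.le ⟨S.N_conj_U' m (fun r c => by
      rw [hm, inv_wJ']; exact (wJ_mem_PhiM c).1) hb, by simpa [mul_assoc] using mul_mem (inv_mem h1) h⟩)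
    rwa [show b = 1 by simpa [mul_assoc, inv_mul_eq_iff_eq_mul] using h2, mul_one]
  · simpa using v _ (inv_mem m1) u h

end SBx
end Chev
end H5
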