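import Cfsg.Agent.H5.SB7
import Cfsg.Agent.H5.GL3
import Cfsg.Agent.H4.PlA
import Cfsg.Agent.S0305

/-! Characters of defect zero and full Sylow degree: the small orthogonal groups. -/

set_option autoImplicit false

namespace H5
namespace SB

open Cfsg H3 Matrix H4 H4.Pl
open scoped MatrixGroups commutatorElement

variable {G H : Type*} [Group G] [Group H] {p : ℕ} [hp : Fact p.Prime]

theorem ndvd [Finite G] {n : ℕ} (hn : ¬p ∣ n) (hk : ∀ x : G, x ^ n = 1) : ¬p ∣ Nat.card G := fun h =>
  let ⟨x, e⟩ := exists_prime_orderOf_dvd_card' p h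
  hn (e ▸ orderOf_dvd_of_pow_eq_one (hk x))

theorem DZ.comp [Finite G] [Finite H] (h : DZ p H) (φ : G →* H) (hs : Function.Surjective φ) {n : ℕ} (hn : ¬p ∣ n)
    (hk : ∀ x, φ x = 1 → x ^ n = 1) : DZ p G := by
  obtain ⟨χ, a, b⟩ := h
  refine ⟨_, H3.Cfsg.IsIrrCharacter.comp_surjective a φ hs, ?_⟩
  have e := φ.ker.card_mul_index
  rw [Subgroup.index_ker, MonoidHom.range_eq_top.2 hs, Subgroup.card_top] at e
  rw [map_one, b, ← e, Nat.factorization_mul Nat.card_pos.ne' Nat.card_pos.ne', Finsupp.add_apply,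
    Nat.factorization_eq_zero_of_not_dvd (ndvd (G := φ.ker) hn fun x => Subtype.ext (hk x.1 x.2)), zero_add]

theorem dz_dih [Finite G] {n : ℕ} (e : G ≃* DihedralGroup n) (hn : ¬p ∣ n) :
    DZ p (commutator G ⧸ Subgroup.center (commutator G)) := by
  refine .triv (ndvd hn ?_)
  rintro ⟨x, m⟩
  let r : Multiplicative (ZMod n) →* DihedralGroup n := ⟨⟨fun i => .r i.toAdd, rfl⟩, fun _ _ => rfl⟩
  have : commutator G ≤ r.range.comap e.toMonoidHom := Subgroup.commutator_le.2 fun a _ b _ => by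
    rw [Subgroup.mem_comap, map_commutatorElement, commutatorElement_def]
    rcases e.toMonoidHom a with a | a <;> rcases e.toMonoidHom b with b | b <;> exact ⟨Multiplicative.ofAdd _, rfl⟩
  obtain ⟨i, h⟩ := this m
  have : x ^ n = 1 := e.injective (by
    rw [map_pow, map_one, show e x = .r i.toAdd from h.symm]; simp)
  exact congrArg (QuotientGroup.mk' _) (Subtype.ext this : (⟨x, m⟩ : commutator G) ^ n = 1)

theorem comm_le {K : Subgroup G} (h : K.index = 2) : commutator G ≤ K := Subgroup.commutator_le.2 fun a _ b _ => by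
  simp only [commutatorElement_def, Subgroup.mul_mem_iff_of_index_two h, inv_mem_iff]
  tauto

theorem wr (ψ : H × H →* G) (hi : Function.Injective ψ) (h2 : ψ.range.index = 2) (s : G) (hn : s ∉ ψ.range)
    (hs : ∀ a b, s * ψ (a, b) = ψ (b, a) * s) {b : H} (h : ψ (1, b) ∈ commutator G) : b ∈ commutator H := by
  let θ : H × H →* Abelianization H := Abelianization.of.comp (.fst _ _) * Abelianization.of.comp (.snd _ _)
  have hg : ∀ g, ∃ x, g = ψ x ∨ g = s * ψ x := fun g => by
    by_cases m : g ∈ ψ.range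
    · exact m.imp fun _ e => .inl e.symm
    · obtain ⟨x, e⟩ : s⁻¹ * g ∈ ψ.range := by simp only [Subgroup.mul_mem_iff_of_index_two h2, inv_mem_iff, m, hn]
      exact ⟨x, .inr (by rw [e, mul_inv_cancel_left])⟩
  haveI : (θ.ker.map ψ).Normal := ⟨by
    rintro _ ⟨⟨a, b⟩, m, rfl⟩ g
    have k : ∀ x, x * (a, b) * x⁻¹ ∈ θ.ker := fun x => Subgroup.Normal.conj_mem inferInstance _ m x
    obtain ⟨x, rfl | rfl⟩ := hg g
    · exact ⟨_, k x, by simp⟩
    · refine ⟨(x * (a, b) * x⁻¹).swap, ?_, ?_⟩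
      · have := k x
        simp only [SetLike.mem_coe, MonoidHom.mem_ker, θ, MonoidHom.mul_apply, MonoidHom.comp_apply] at this ⊢
        rwa [mul_comm]
      · rw [_root_.mul_inv_rev, ← mul_assoc, eq_mul_inv_iff_mul_eq, Prod.swap, ← hs, Prod.mk.eta]
        simp [mul_assoc]⟩
  let π := QuotientGroup.mk' (θ.ker.map ψ)
  have c1 : ∀ x y, Commute (π (ψ x)) (π (ψ y)) := fun x y => by
    rw [← commutatorElement_eq_one_iff_commute, ← map_commutatorElement, ← map_commutatorElement]
    exact (QuotientGroup.eq_one_iff _).2 ⟨_, by simp [map_commutatorElement, commutatorElement_def], rfl⟩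
  have c2 : ∀ x, Commute (π s) (π (ψ x)) := fun ⟨a, b⟩ => by
    rw [← commutatorElement_eq_one_iff_commute, ← map_commutatorElement, commutatorElement_def, hs, mul_inv_cancel_right,
      ← map_inv, ← map_mul]
    exact (QuotientGroup.eq_one_iff _).2 ⟨_, by simp [θ], rfl⟩
  have le : commutator G ≤ θ.ker.map ψ := Subgroup.commutator_le.2 fun g _ g' _ => by
    rw [← QuotientGroup.eq_one_iff]
    show π _ = 1
    rw [map_commutatorElement, commutatorElement_eq_one_iff_commute]
    obtain ⟨x, rfl | rfl⟩ := hg g <;> obtain ⟨y, rfl | rfl⟩ := hg g' <;> try simp only [map_mul π]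
    exacts [c1 _ _, (c2 _).symm.mul_right (c1 _ _), (c2 _).mul_left (c1 _ _),
      ((Commute.refl _).mul_right (c2 _)).mul_left ((c2 _).symm.mul_right (c1 _ _))]
  obtain ⟨x, m, e⟩ := le h
  rw [hi e] at m
  simpa [θ, ← Abelianization.ker_of] using m

theorem dz_wr [Finite G] [Finite H] (ψ : H × H →* G) (hi : Function.Injective ψ) (h2 : ψ.range.index = 2) (s : G)
    (hs : ∀ a b, s * ψ (a, b) = ψ (b, a) * s) (hz : Subgroup.center H = ⊥) (h6 : Nat.card H = 6) (hH : DZ 2 H) :
    DZ 2 (commutator G ⧸ Subgroup.center (commutator G)) := by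
  obtain ⟨t, ht⟩ := exists_prime_orderOf_dvd_card' (G := H) 3 (by rw [h6]; norm_num)
  have hn : s ∉ ψ.range := by
    rintro ⟨⟨c, d⟩, rfl⟩
    have := congrArg Prod.fst (hi ((map_mul ψ _ _).trans ((hs 1 t).trans (map_mul ψ _ _).symm)))
    simp at this
    simp [this] at ht
  have hK := (Subgroup.zpowers t).card_mul_index
  rw [Nat.card_zpowers, ht, h6] at hK
  let j : commutator G →* H × H := (MonoidHom.ofInjective hi).symm.toMonoidHom.comp (Subgroup.inclusion (comm_le h2))
  have hj : ∀ x, ψ (j x) = x := fun x => MonoidHom.apply_ofInjective_symm hi _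
  have sj : Function.Surjective ((MonoidHom.fst _ _).comp j) := fun a =>
    ⟨⟨⁅s, ψ (a⁻¹, 1)⁆, Subgroup.commutator_mem_commutator trivial trivial⟩, congrArg Prod.fst (hi (a₂ := (a, a⁻¹)) (by
      rw [hj]
      show ⁅_, _⁆ = _
      rw [commutatorElement_def, hs, mul_inv_cancel_right, ← map_inv, ← map_mul]
      simp))⟩
  refine hH.comp (QuotientGroup.lift _ ((MonoidHom.fst _ _).comp j) fun x m => Subgroup.mem_bot.1 (hz.le
    (Subgroup.mem_center_iff.2 (sj.forall.2 fun y => by rw [← map_mul, ← map_mul, Subgroup.mem_center_iff.1 m])))) 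
    (fun a => (sj a).elim fun x e => ⟨x, e⟩) (n := 3) (by norm_num) ?_
  rintro ⟨x⟩ e
  have e1 : j x = (1, (j x).2) := Prod.ext e rfl
  have := comm_le (K := Subgroup.zpowers t) (by omega) (wr ψ hi h2 s hn hs (b := (j x).2) (by rw [← e1, hj]; exact x.2))
  refine congrArg (QuotientGroup.mk' _) (Subtype.ext ?_ : x ^ 3 = 1)
  obtain ⟨k, e2⟩ := this
  rw [Subgroup.coe_pow, ← hj, ← map_pow, e1, Prod.pow_mk, ← e2, ← zpow_natCast (t ^ k), ← _root_.zpow_mul, mul_comm,
    _root_.zpow_mul, zpow_natCast, ← ht, pow_orderOf_eq_one]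
  simp [Prod.mk_one_one]

theorem dz_plus2 (F : Type*) [Field F] [Finite F] [CharP F p] : DZ p (POmega F (plusForm F 2).Q) := by
  by_cases hF : Nat.card F = 2
  · have h6 : Nat.card SL(2, F) = 6 := by rw [card_sl2, hF]
    have h2 : (2 : F) = 0 := by_contra fun h => by
      have := odd_card_iff.2 h
      rw [hF] at this
      exact absurd this (by decide)
    obtain rfl : p = 2 := (Nat.prime_dvd_prime_iff_eq hp.out Nat.prime_two).1 ((CharP.cast_eq_zero_iff F p 2).1 h2)
    have hc := card_isom (F := F)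
    haveI : Finite (plusForm F 2).Isom := Nat.finite_of_card_ne_zero (by rw [hc, h6]; norm_num)
    have hi := (psi F).range.card_mul_index
    rw [← Nat.card_congr (MonoidHom.ofInjective (psi_injective h2)).toEquiv, Nat.card_prod, hc, h6] at hi
    refine (dz_wr (psi F) (psi_injective h2) (by omega) (sw F) sw_psi (eq_bot_iff.2 fun z m => ?_) h6
      (dz_sys (Gen.sysSL 1 F) Gen.sysSL_top)).equiv (pomegaEquiv _)
    exact congrArg Prod.fst (psi_injective h2 ((psi_eq_one.2 ⟨rfl, m⟩).trans (map_one _).symm))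
  · exact (s299 hF).elim fun e => ((dz_psl F 1).prod (dz_psl F 1)).equiv e

end SB
end H5
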