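import Cfsg.Agent.H5.TB2
import Cfsg.Agent.H5.GL3
import Cfsg.Agent.H4.AuI

/-! The Steinberg character of the orthogonal groups of minus type. -/

set_option autoImplicit false

namespace H5
namespace Gen

open Cfsg Cfsg.Geo Equiv Matrix H4 H4.As H4.Au H4.Form

variable {F F₀ : Type*} [Field F] [Field F₀] {n : ℕ}

section
variable {ι μ : Type} [Fintype ι] [DecidableEq ι] [Fintype μ] [DecidableEq μ] {Q : (ι → F) → F} {Q₀ : (μ → F₀) → F₀}

/-- restriction to `Ω` -/
noncomputable def omLift (Φ : GL μ F₀ →* GL ι F) (h : ∀ g ∈ omegaGL Q₀, Φ g ∈ omegaGL Q) : Omega F₀ Q₀ →* Omega F Q :=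
  (MonoidHom.ofInjective (omGL_injective Q)).symm.toMonoidHom.comp
    ((Φ.comp (omGL Q₀)).codRestrict _ fun g => (omE_range Q).ge (h _ ⟨g.1, g.2, rfl⟩))

theorem omGL_lift (Φ : GL μ F₀ →* GL ι F) (h : ∀ g ∈ omegaGL Q₀, Φ g ∈ omegaGL Q) (g : Omega F₀ Q₀) :
    omGL Q (omLift Φ h g) = Φ (omGL Q₀ g) := MonoidHom.apply_ofInjective_symm (omGL_injective Q) _

theorem omLift_inj {Φ : GL μ F₀ →* GL ι F} (h : ∀ g ∈ omegaGL Q₀, Φ g ∈ omegaGL Q) (hΦ : Function.Injective Φ) :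
    Function.Injective (omLift Φ h) := fun a b e =>
  omGL_injective _ (hΦ (by rw [← omGL_lift Φ h, e, omGL_lift]))

end

theorem sg1_bet_congr {m : ℕ} {u v u' v' : Fin m → ℤ} (h : ∀ j, (u' j : ZMod 2) = u j) (h' : ∀ j, (v' j : ZMod 2) = v j) :
    sg1 (bet u' v') = sg1 (bet u v) := by
  have : ((bet u' v' : ℤ) : ZMod 2) = (bet u v : ℤ) := by simp [bet, apply_ite (Int.cast : ℤ → ZMod 2), h, h']
  rw [sg1, sg1, show bet u' v' % 2 = bet u v % 2 from (ZMod.intCast_eq_intCast_iff' _ _ 2).1 this]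

theorem minD_sw {r r' : Rt (ambD n).rs} (h : ∀ j, r'.1 j = if j.val = n + 1 then -r.1 j else r.1 j) (hp : Pos r' ↔ Pos r)
    (b a : Fin (n + 2) ⊕ Fin (n + 2)) : (minD n).e F r' (swJ n b) (swJ n a) = (minD n).e F r b a := by
  have c : ∀ j, (r'.1 j : ZMod 2) = r.1 j := fun j => by rw [h]; split_ifs <;> simp
  rw [Min.e_apply, Min.e_apply, if_congr (natD n).q_eq_iff' rfl rfl, if_congr (natD n).q_eq_iff' rfl rfl]
  refine if_congr (funext_iff.trans ((forall_congr' fun j => ?_).trans funext_iff.symm)) (congrArg _ ?_) rfl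
  · simp only [Pi.add_apply, pm_swJ, h]
    split_ifs <;> omega
  · change sig (ambD n).ω r'.1 * sg1 (bet r'.1 (pm _)) = sig (ambD n).ω r.1 * sg1 (bet r.1 (pm _))
    rw [sig, sig, sg1_bet_congr c c, sg1_bet_congr (v := pm a) c fun j => by rw [pm_swJ]; split_ifs <;> simp]
    rw [propext (Amb.pos_iff.symm.trans (hp.trans Amb.pos_iff))]

theorem dz_minus [NeZero n] [Fintype F] [Fintype F₀] {φ : F ≃+* F} {j : F₀ →+* F} (hj : ∀ a, φ a = a ↔ a ∈ j.range)
    (h1 : orderOf φ = 2) (p : ℕ) [hp : Fact p.Prime] [CharP F₀ p] {a b : F₀}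
    (hab : ∀ z₁ z₂ : F₀, z₁ ^ 2 + a * z₁ * z₂ + b * z₂ ^ 2 = 0 → z₁ = 0 ∧ z₂ = 0) :
    SB.DZ p (POmega F₀ (minusForm F₀ (n + 1) a b).Q) := by
  haveI : CharP F p := charP_of_injective_ringHom j.injective p
  have hn : 5 ≤ Fintype.card (Fin (n + 2) ⊕ Fin (n + 2)) := by have := NeZero.pos n; simp; omega
  have hf := plusForm_ND F (n + 2)
  obtain ⟨f₀, Φ, t, d, hT⟩ := gf_desc hn hj h1 (Fin.last _)
  have hf₀ := t.nd' hf
  obtain ⟨e₀, h9⟩ := minus_exists_isIso (n + 1) _ _ _ f₀ (minusForm_ND _ hab) hf₀ (by simp; omega) (by simp; omega)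
    (minusForm_not_hasTS _ hab) hT
  refine .equiv ?_ ((pomegaEquiv _).trans ((centerQuotEquiv (commutatorEquiv h9.isomEquiv)).trans (pomegaEquiv f₀).symm))
  rw [show rf _ _ (Q_wv_ne (Fin.last _)) = pgl F (swJ n) from Units.ext (mat_ext fun v =>
    (rw_mulVec _ v).trans (permMatrix_mulVec _).symm)] at d
  have t' : Tr (plusForm F (n + 2)) (plusForm F (n + 2)) φ 1 _ := tr_slin (g := pgl F (swJ n)) (σ := φ) fun v => by
    rw [Units.val_one, one_mul, ← show _ = φ _ from plus_bc (φ : F →+* F) v]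
    exact mem_isometryGroup.1 pgl_swJ_mem _
  have hθ : ∀ g ∈ omegaGL (quadFormPlus (n + 2) F), (MulAut.conj (pgl F (swJ n)) * fm φ : MulAut _).toMonoidHom g ∈
    omegaGL (quadFormPlus (n + 2) F) := fun g => t'.om hf hn
  have hΦ : ∀ g ∈ omegaGL f₀.Q, Φ g ∈ omegaGL (quadFormPlus (n + 2) F) := fun g => t.om hf₀ hn
  let σ := omLift _ hθ
  have hσ : ∀ g, omGL _ (σ g) = (MulAut.conj (pgl F (swJ n)) * fm φ : MulAut _) (omGL _ g) := omGL_lift _ _
  have e : ∀ {r r' : Rt (ambD n).rs}, (∀ j, r'.1 j = if j.val = n + 1 then -r.1 j else r.1 j) → (Pos r' ↔ Pos r) →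
      ∀ t, σ (opX r t) = opX r' (φ t) := fun {r r'} h hp t => omι_injective _ (by
    rw [coe_opX]
    refine (congrArg Units.val (hσ _)).trans ((slin_pgl (swJ n) φ (omι _ (opX r t))).trans ?_)
    rw [coe_opX, show Matrix.map _ φ = _ from (minD n).map_X (φ : F →+* F) r t]
    ext x y
    simp only [Min.coe_X, submatrix_apply, Matrix.add_apply, Matrix.smul_apply, ← minD_sw h hp, one_apply, EmbeddingLike.apply_eq_iff_eq]
    simp [swJ])
  have ha : ∀ i (j : Fin (n + 2)), alD (n + 2) (swD n i) j =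
      if j.val = n + 1 then - alD (n + 2) i j else alD (n + 2) i j := fun i j => by
    have := i.2
    have := j.2
    simp only [alD, swD_val, apply_ite (fun v : Fin (n + 2) → ℤ => v j), Pi.add_apply, Pi.sub_apply, uv]
    split_ifs <;> omega
  obtain ⟨c, hc⟩ : ∃ c, φ c ≠ c := not_forall.1 fun h => by simp [show φ = 1 from RingEquiv.ext h] at h1
  have inj : Function.Injective Φ := let ⟨e, _, h⟩ := t; fun a b k => gm_inj ((psi e).injective (by rw [← h, k, h]))
  refine StSys.Nf.dzq (S := sysOp n F) (σ := .ofBijective σ (Finite.injective_iff_bijective.1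
    (omLift_inj _ (MulEquiv.injective _)))) (π := swD n) (φ := φ) (fun i t => ?_) (StSys.top_of_closure closure_opX)
    (swap_apply_self _ _) (fun a => DFunLike.congr_fun (h1 ▸ pow_orderOf_eq_one φ :) a) hc (fun i => ?_)
    (ι := omLift Φ hΦ) (omLift_inj _ inj) p (fun g => omGL_injective _ ?_) fun g k h h' => ?_
  · simp only [Pi.one_apply, inv_one, Units.val_one, one_mul]
    exact ⟨e (ha i) (iff_of_true (pos_simple _) (pos_simple _)) t, e (fun j => by
      change -alD _ _ j = if _ then - -alD _ _ j else -alD _ _ j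
      rw [ha]; split_ifs <;> rfl) (by simp only [pos_neg_iff, pos_simple]) t⟩
  · have := swD_val i
    simp only [wtD, adjD]
    generalize (swD n i : Fin (n + 2)) = j at this ⊢
    rw [Fin.ext_iff]
    split_ifs at this ⊢ <;> omega
  · exact (hσ _).trans (by rw [omGL_lift, d.fix])
  have h : _ = omGL _ g := (hσ g).symm.trans (congrArg _ h)
  obtain ⟨z, g₀, e1⟩ := d.desc _ (by rw [h, mul_inv_cancel]; exact one_mem _)
  obtain ⟨z₀, e2⟩ := (hj z).1 (by
    rw [e1, map_mul, d.sc, d.fix, mul_left_inj] at h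
    simpa [Au.sc_coe] using congrArg (fun x : GL _ F => x.1 (.inl 0) (.inl 0)) h)
  have z0 : z₀ ≠ 0 := fun h => z.ne_zero (by rw [← e2, h, map_zero])
  rw [show z = Units.map (j : F₀ →* F) (.mk0 _ z0) from Units.ext e2.symm, ← t.map_sc, ← map_mul] at e1
  generalize Au.sc _ * g₀ = g₁ at e1
  obtain ⟨m1, m2, -⟩ := (mem_om hf hn).1 (show omGL (quadFormPlus (n + 2) F) g ∈ _ from ⟨g.1, g.2, rfl⟩)
  rw [e1] at m1 m2
  have m3 := (t.mem_iso hf₀).2 m1
  refine ((omE_range f₀.Q).ge ((mem_om hf₀ hn).2 ⟨m3, (t.dk_sp hf₀ hn m3).1.symm.trans m2, ?_⟩)).elim fun g₂ e3 =>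
    ⟨g₂, omGL_injective _ (by rw [omGL_lift, e1, ← e3]; rfl)⟩
  rcases hp.out.eq_two_or_odd' with rfl | o
  · exact sp_two (CharP.cast_eq_zero F₀ 2) _
  obtain ⟨g₂, rfl⟩ := exists_toGL m3
  have : g₂ ^ p ^ k = 1 := Form.toGL_injective (inj (by rw [map_pow, map_pow, ← e1, ← map_pow, h', map_one, map_one, map_one]))
  have := congrArg (spinHom hf₀ (hgen hf₀ hn)) this
  rw [map_pow, map_one] at this
  rw [sp_toGL]
  exact (Int.units_eq_one_or _).resolve_right fun e => by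
    rw [show spinHom hf₀ (hgen hf₀ hn) g₂ = -1 from e, o.pow.neg_one_pow] at this
    exact absurd this (by decide)

end Gen
end H5
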